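import Cfsg.Agent.GT.Basic

/-! Gaschütz's theorem (existence of complements). -/

set_option autoImplicit false

namespace Cfsg.Agent.J4

open Subgroup Cfsg.Agent.GT

theorem gaschutz {G : Type*} [Group G] [Finite G] (K U : Subgroup G) [hK : K.Normal]
    [hc : IsMulCommutative K] (hKU : K ≤ U) (hcop : (Nat.card K).Coprime U.index)
    (A : Subgroup G) (hAU : A ≤ U) (hAK : A ⊓ K = ⊥) (hKA : K ⊔ A = U) :
    ∃ H : Subgroup G, Subgroup.IsComplement' K H := by
  classical
  letI : CommGroup K := { (inferInstance : Group K) with mul_comm := hc.is_comm.comm }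
  have := Fintype.ofFinite (G ⧸ U)
  have ex : ∀ g : G, ∃ k : K, ((g : G ⧸ U).out)⁻¹ * (k : G)⁻¹ * g ∈ A := fun g => by
    have h1 : ((g : G ⧸ U).out)⁻¹ * g ∈ K ⊔ A := by
      rw [hKA, ← QuotientGroup.eq, QuotientGroup.out_eq']
    obtain ⟨k, hk, a, ha, e⟩ := (mem_sup_of_le_norm' le_norm_of_normal).1 h1
    refine ⟨⟨_, hK.conj_mem k hk (g : G ⧸ U).out⟩, ?_⟩
    have : ((g : G ⧸ U).out)⁻¹ * ((g : G ⧸ U).out * k * ((g : G ⧸ U).out)⁻¹)⁻¹ * g =
        k⁻¹ * (((g : G ⧸ U).out)⁻¹ * g) := by group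
    rw [this, e, inv_mul_cancel_left]
    exact ha
  choose κ hκ using ex
  have uniq : ∀ (g : G) (k : K), ((g : G ⧸ U).out)⁻¹ * (k : G)⁻¹ * g ∈ A → κ g = k := by
    intro g k hk
    have h1 := mul_mem (hκ g) (inv_mem hk)
    have h2 : ((g : G ⧸ U).out)⁻¹ * (κ g : G)⁻¹ * g * (((g : G ⧸ U).out)⁻¹ * (k : G)⁻¹ * g)⁻¹ =
        ((g : G ⧸ U).out)⁻¹ * ((κ g : G)⁻¹ * k) * (g : G ⧸ U).out := by group
    rw [h2] at h1
    have h3 : ((g : G ⧸ U).out)⁻¹ * ((κ g : G)⁻¹ * k) * (g : G ⧸ U).out ∈ A ⊓ K :=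
      ⟨h1, hK.conj_mem' _ (mul_mem (inv_mem (κ g).2) k.2) _⟩
    rw [hAK, mem_bot] at h3
    have h4 : (κ g : G)⁻¹ * k = 1 := by
      have := congrArg (fun x => (g : G ⧸ U).out * x * ((g : G ⧸ U).out)⁻¹) h3
      simpa [mul_assoc] using this
    exact Subtype.ext (inv_mul_eq_one.1 h4)
  have κK : ∀ (k : K) (g : G), κ (k * g) = k * κ g := fun k g => by
    refine uniq _ _ ?_
    have : (((k : G) * g : G) : G ⧸ U) = g := by
      rw [QuotientGroup.eq]
      have : ((k : G) * g)⁻¹ * g = g⁻¹ * (k : G)⁻¹ * g := by group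
      rw [this]
      exact hKU (hK.conj_mem' _ (inv_mem k.2) _)
    rw [this]
    have h2 := hκ g
    convert h2 using 1
    push_cast; group
  have κA : ∀ g : G, ∀ a ∈ A, κ (g * a) = κ g := fun g a ha => by
    refine uniq _ _ ?_
    have : ((g * a : G) : G ⧸ U) = g := QuotientGroup.mk_mul_of_mem g (hAU ha)
    rw [this, ← mul_assoc]
    exact mul_mem (hκ g) ha
  let c : G → G → K := fun g x => κ (g * x) * (MulAut.conjNormal g (κ x))⁻¹
  have cU : ∀ g x y : G, (x : G ⧸ U) = y → c g x = c g y := by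
    intro g x y h
    rw [QuotientGroup.eq, ← hKA] at h
    obtain ⟨k, hk, a, ha, e⟩ := (mem_sup_of_le_norm' le_norm_of_normal).1 h
    let k' : K := ⟨_, hK.conj_mem k hk x⟩
    have e1 : y = k' * x * a := by
      change y = x * k * x⁻¹ * x * a
      calc y = x * (x⁻¹ * y) := by group
        _ = _ := by rw [e]; group
    have e2 : g * y = (MulAut.conjNormal g k' : K) * (g * x) * a := by
      rw [e1, MulAut.conjNormal_apply]; group
    simp only [c]
    rw [e2, κA _ _ ha, κK, e1, κA _ _ ha, κK, map_mul, mul_inv, mul_mul_mul_comm, mul_inv_cancel,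
      one_mul]
  let φ : G → K := fun g => ∏ q : G ⧸ U, c g q.out
  have φm : ∀ g h : G, φ (g * h) = φ g * MulAut.conjNormal g (φ h) := by
    intro g h
    have h1 : φ g = ∏ q : G ⧸ U, c g (h * q.out) := by
      refine (Fintype.prod_equiv (MulAction.toPerm h) _ _ fun q => ?_).symm
      refine cU _ _ _ ?_
      rw [QuotientGroup.out_eq']
      exact MulAction.Quotient.mk_smul_out U h q
    rw [h1]
    simp only [φ]
    rw [map_prod, ← Finset.prod_mul_distrib]
    refine Finset.prod_congr rfl fun q _ => ?_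
    simp only [c, map_mul, map_inv, mul_assoc, MulAut.mul_apply, inv_mul_cancel_left]
  have φK : ∀ k : K, φ k = k ^ U.index := fun k => by
    simp only [φ, c]
    rw [Finset.prod_congr rfl (g := fun _ => k) fun q _ => by
      rw [κK]
      have : MulAut.conjNormal (k : G) (κ q.out) = κ q.out := Subtype.ext (by
        rw [MulAut.conjNormal_apply]
        have := congrArg Subtype.val (mul_comm k (κ q.out))
        push_cast at this
        rw [this, mul_inv_cancel_right])
      rw [this, mul_inv_cancel_right]]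
    rw [Finset.prod_const, Finset.card_univ, index_eq_card, Nat.card_eq_fintype_card]
  have φ1 : φ 1 = 1 := by simpa using φK 1
  let H : Subgroup G :=
    { carrier := {g | φ g = 1}
      one_mem' := φ1
      mul_mem' := fun {a b} ha hb => by
        change φ _ = 1 at ha hb ⊢
        rw [φm, ha, hb, map_one, mul_one]
      inv_mem' := fun {a} ha => by
        change φ _ = 1 at ha ⊢
        have := φm a⁻¹ a
        rw [inv_mul_cancel, φ1, ha, map_one, mul_one] at this
        exact this.symm }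
  refine ⟨H, isComplement'_of_disjoint_and_mul_eq_univ ?_ ?_⟩
  · rw [disjoint_def]
    intro x hx hxH
    have h1 : φ x = 1 := hxH
    have h2 := (φK ⟨x, hx⟩).symm.trans h1
    have h3 : (⟨x, hx⟩ : K) = 1 := (powCoprime hcop).injective (by simpa using h2)
    exact congrArg Subtype.val h3
  · refine Set.eq_univ_of_forall fun g => ?_
    obtain ⟨k, hk⟩ := (powCoprime hcop).surjective (φ g)
    have hk' : k ^ U.index = φ g := hk
    refine ⟨k, k.2, (k : G)⁻¹ * g, ?_, mul_inv_cancel_left _ _⟩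
    change φ _ = 1
    have h1 := φm k ((k : G)⁻¹ * g)
    rw [mul_inv_cancel_left, φK, hk'] at h1
    exact (MulAut.conjNormal (k : G)).injective (by rw [map_one]; exact (left_eq_mul.1 h1))

end Cfsg.Agent.J4
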