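import Cfsg.Agent.J4.MSe

/-!
# The normaliser `2¹⁰ : L₅(2)`
-/

set_option autoImplicit false
set_option linter.unusedSectionVars false
set_option linter.unusedVariables false

namespace Cfsg.Agent.J4

open Cfsg.Agent.M24 Cfsg.Agent.GT Subgroup MulAction
open scoped Pointwise symmDiff

variable {G : Type*} [Group G] [Finite G] {z : G} {V A : Subgroup G} {π : N[V] →* M24}
  {κ : M24 →* N[V]} {T : Finset GolayPt → G}

theorem dec_zero : dec 0 = true := by decide +kernel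

namespace MS

variable (h : MS z V π κ T) (a : AS π A O0) (h1 : (κ (tau 1) : G) ∈ A)
  (h7 : ∃ g ∈ N[A], g ^ 7 = 1 ∧ ∀ b ∈ A, g * b = b * g → b = 1 ∨ b = z)
  (ht : ∃ b ∈ A, b ∉ V ∧ ∃ Y, Y.card = 2 ∧ IsConj (T Y) b)
include h a h1 h7 ht

theorem dec_iff {x : ℕ} (hx : x < 1024) :
    dec x = true ↔ psi κ T x = 1 ∨ IsConj z (psi κ T x) := by
  rw [h.conj_iff a h1 h7 ht hx]
  constructor
  · intro e
    by_cases k : x = 0
    · exact Or.inl (k ▸ h.psi_zero)
    · exact Or.inr ⟨e, k⟩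
  · rintro (e | e)
    · rw [h.psi_inj a h1 hx (by norm_num) (e.trans h.psi_zero.symm), dec_zero]
    · exact e.1

theorem dec_conj {n : G} {x y : ℕ} (hx : x < 1024) (hy : y < 1024)
    (e : n * psi κ T x * n⁻¹ = psi κ T y) : dec y = dec x := by
  have c : IsConj (psi κ T x) (psi κ T y) := isConj_iff.2 ⟨n, e⟩
  rw [Bool.eq_iff_iff, h.dec_iff a h1 h7 ht hx, h.dec_iff a h1 h7 ht hy, ← e, mul_inv_eq_one,
    mul_eq_left, e]
  exact or_congr_right ⟨fun k => k.trans c.symm, fun k => k.trans c⟩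

theorem ncard_conj : {b | b ∈ A ∧ IsConj z b}.ncard = 155 := by
  rw [h.ncard_A a h1 (F := fun x => band (dec x) (!Nat.beq x 0)) fun x hx => by
    rw [h.conj_iff a h1 h7 ht hx, band_eq, Bool.and_eq_true, Bool.not_eq_true',
      ← Bool.not_eq_true, Nat.beq_eq]]
  decide +kernel

theorem ncard_nconj : {b | b ∈ A ∧ ¬ (b = 1 ∨ IsConj z b)}.ncard = 868 := by
  rw [h.ncard_A a h1 (F := fun x => !dec x) fun x hx => by
    rw [← h.dec_iff a h1 h7 ht hx, Bool.not_eq_true, Bool.not_eq_true']]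
  decide +kernel

variable (hz : z ∈ A) (htr : ∀ b ∈ A, IsConj z b → ∃ n ∈ N[A], n * z * n⁻¹ = b)
include hz htr

theorem orbit_z : {v : G | ∃ n ∈ N[A], n * z * n⁻¹ = v} = {b | b ∈ A ∧ IsConj z b} := by
  ext v
  constructor
  · rintro ⟨n, hn, rfl⟩
    exact ⟨conj_mem_of_mem_norm hn hz, isConj_iff.2 ⟨n, rfl⟩⟩
  · exact fun k => htr v k.1 k.2

theorem Cn_12_72 : Cn κ T A 12 72 := by
  obtain ⟨n, hn, e⟩ := htr _ (h.psi_mem a h1 (x := 1) (by norm_num))
    ((h.conj_iff a h1 h7 ht (by norm_num)).2 ⟨by decide +kernel, by norm_num⟩)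
  obtain ⟨m, hm, e'⟩ := htr _ (h.psi_mem a h1 (x := 64) (by norm_num)) (h.conj_64 a h1 h7)
  have hw : m * n⁻¹ ∈ N[A] := mul_mem hm (inv_mem hn)
  have e1 : m * n⁻¹ * psi κ T 1 * (m * n⁻¹)⁻¹ = psi κ T 64 := by rw [← e, ← e']; group
  have key : ∀ x < 64, dec x = false → m * n⁻¹ * psi κ T x * (m * n⁻¹)⁻¹ ∉ V → Cn κ T A 12 72 := by
    intro x hx hd hV
    have hx' : x < 1024 := by omega
    obtain ⟨y, hy, e2⟩ := (h.mem_A_iff a h1 _).1 (conj_mem_of_mem_norm hw (h.psi_mem a h1 hx'))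
    have h6 : ¬ y < 64 := fun k => hV (e2 ▸ psi_lt (κ := κ) (T := T) k ▸ h.chi_mem y)
    exact (((h.orbs a h1 hx').1 hx hd).trans ⟨_, hw, e2.symm⟩).trans
      ((h.orbs a h1 hy).2.2 h6 ((h.dec_conj a h1 h7 ht hx' hy e2.symm).trans hd)).symm
  by_cases k1 : m * n⁻¹ * psi κ T 12 * (m * n⁻¹)⁻¹ ∈ V
  · refine key 13 (by norm_num) (by decide +kernel) fun k2 =>
      h.psi_not_mem (x := 64) (by norm_num) (by norm_num) ?_
    have e2 := h.psi_xor a h1 (x := 12) (y := 13) (by norm_num) (by norm_num)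
    rw [show (12 : ℕ) ^^^ 13 = 1 by decide] at e2
    have := mul_mem k1 k2
    rw [← e1, e2]
    convert this using 1
    group
  · exact key 12 (by norm_num) (by decide +kernel) k1

theorem Cn_12 {x : ℕ} (hx : x < 1024) (hd : dec x = false) : Cn κ T A 12 x := by
  by_cases k : x < 64
  · exact (h.orbs a h1 hx).1 k hd
  · exact (h.Cn_12_72 a h1 h7 ht hz htr).trans ((h.orbs a h1 hx).2.2 k hd)

theorem orbit_t : {v : G | ∃ n ∈ N[A], n * psi κ T 12 * n⁻¹ = v} =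
    {b | b ∈ A ∧ ¬ (b = 1 ∨ IsConj z b)} := by
  ext v
  constructor
  · rintro ⟨n, hn, rfl⟩
    have k := conj_mem_of_mem_norm hn (h.psi_mem a h1 (x := 12) (by norm_num))
    refine ⟨k, ?_⟩
    obtain ⟨y, hy, e⟩ := (h.mem_A_iff a h1 _).1 k
    rw [← e, ← h.dec_iff a h1 h7 ht hy, h.dec_conj a h1 h7 ht (by norm_num) hy e.symm]
    decide +kernel
  · rintro ⟨k1, k2⟩
    obtain ⟨y, hy, rfl⟩ := (h.mem_A_iff a h1 _).1 k1
    rw [← h.dec_iff a h1 h7 ht hy, Bool.not_eq_true] at k2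
    exact h.Cn_12 a h1 h7 ht hz htr hy k2

theorem irred_std (W : Subgroup G) (hW : W ≤ A) (hN : N[A] ≤ N[W]) : W = ⊥ ∨ W = A := by
  by_contra hc
  push Not at hc
  obtain ⟨w, w1⟩ := (ne_bot_iff_exists_ne_one.1 hc.1)
  have hd : Nat.card W ∣ 2 ^ 10 := a.card ▸ card_dvd_of_le hW
  have hlt : Nat.card W < 2 ^ 10 := a.card ▸ lt_of_le_of_ne (card_le_of_le hW)
    fun e => hc.2 (eq_of_le_of_card_ge hW e.ge)
  obtain ⟨k, hk, e⟩ := (Nat.dvd_prime_pow Nat.prime_two).1 hd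
  have e0 : Nat.card W = (W : Set G).ncard := rfl
  have zin : ∀ b ∈ W, IsConj z b → {b | b ∈ A ∧ IsConj z b} ⊆ (W : Set G) := by
    intro b hb hzb c hc
    obtain ⟨n, hn, rfl⟩ := htr b (hW hb) hzb
    obtain ⟨m, hm, rfl⟩ := htr c hc.1 hc.2
    have := conj_mem_of_mem_norm (hN (mul_mem hm (inv_mem hn))) hb
    simpa [mul_assoc] using this
  by_cases k1 : ∃ b ∈ W, ¬ (b = 1 ∨ IsConj z b)
  · obtain ⟨b, hb, k1⟩ := k1
    have : {b | b ∈ A ∧ ¬ (b = 1 ∨ IsConj z b)} ⊆ (W : Set G) := by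
      intro c hc
      have k2 : b ∈ {v : G | ∃ n ∈ N[A], n * psi κ T 12 * n⁻¹ = v} :=
        h.orbit_t a h1 h7 ht hz htr ▸ ⟨hW hb, k1⟩
      rw [← h.orbit_t a h1 h7 ht hz htr] at hc
      obtain ⟨n, hn, rfl⟩ := k2
      obtain ⟨m, hm, rfl⟩ := hc
      have := conj_mem_of_mem_norm (hN (mul_mem hm (inv_mem hn))) hb
      simpa [mul_assoc] using this
    have := Set.ncard_le_ncard this (Set.toFinite _)
    rw [h.ncard_nconj a h1 h7 ht, ← e0, e] at this
    rw [e] at hlt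
    interval_cases k <;> omega
  · push Not at k1
    have hzw : IsConj z (w : G) := (k1 w w.2).resolve_left fun e => w1 (Subtype.ext e)
    have : (W : Set G) = insert 1 {b | b ∈ A ∧ IsConj z b} := by
      ext c
      constructor
      · intro hc
        exact (k1 c hc).imp id fun k => ⟨hW hc, k⟩
      · rintro (rfl | hc)
        · exact one_mem W
        · exact zin w w.2 hzw hc
    rw [this, Set.ncard_insert_of_notMem (fun k => h.ne_one_of_conj k.2 rfl),
      h.ncard_conj a h1 h7 ht, e] at e0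
    interval_cases k <;> omega

variable (hN : Nat.card ↥(N[A] ⊓ C1[z]) = 2 ^ 20 * 63) (hself : C[A] = A)
include hN

theorem card_norm_A : Nat.card N[A] = 2 ^ 10 * 9999360 := by
  have := ncard_conj_orbit N[A] z
  rw [hN, h.orbit_z a h1 h7 ht hz htr, h.ncard_conj a h1 h7 ht] at this
  rw [← this]; norm_num

include hself

theorem compl_std : ∃ B : Subgroup G, B ≤ N[A] ∧ B ⊓ A = ⊥ ∧ B ⊔ A = N[A] ∧
    Nonempty (↥B ≃* Matrix.SpecialLinearGroup (Fin 5) (ZMod 2)) := by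
  have hc := h.card_norm_A a h1 h7 ht hz htr hN
  -- the complement in `N(A) ⊓ N(V)`
  let θ : M24 →* G := MonoidHom.mk' (theta κ T) h.theta_mul
  have hθ : ∀ g, θ g = theta κ T g := fun g => rfl
  have hπθ : ∀ (g) (n : N[V]), (n : G) = θ g → π n = g := fun g n e => h.π_eq (h.T_mem _) e
  have hθN : ∀ g, θ g ∈ N[V] := fun g => mul_mem (le_normalizer (h.T_mem _)) (κ g).2
  have hθi : Function.Injective θ := fun x y e =>
    (hπθ x ⟨_, hθN x⟩ rfl).symm.trans (hπθ y _ e)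
  let B₀ := (stabilizer M24 O0).map θ
  have b1 : B₀ ≤ N[A] := by
    rintro _ ⟨g, hg, rfl⟩
    exact h.theta_mem_norm a h1 hg
  have b2 : B₀ ⊓ A = ⊥ := by
    rw [eq_bot_iff]
    rintro _ ⟨⟨g, hg, rfl⟩, hA⟩
    have k1 : g ∈ pstab O0 := hπθ g ⟨_, hθN g⟩ rfl ▸ a.fix ⟨_, hθN g⟩ hA
    obtain ⟨x, hx, e⟩ := (h.mem_A_iff a h1 _).1 hA
    have k2 := h.π_eq (h.chi_mem _) (n := ⟨_, hθN g⟩) e.symm
    rw [hπθ g _ rfl] at k2
    rw [psi, ← k2, hθ, theta, mul_left_inj, chi, h.T_eq_iff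
      (vm_facts ((and63_lt6 x).trans (by norm_num))).1 (even_pair _ _)] at e
    have k3 : g • pt 4 ∉ O0 := by
      have : g • O0 = O0 := hg
      rw [← this, mem_smul24]; exact pt4_not_mem
    have k4 := (vm_facts3 (and63_lt6 x)).1
    have k5 : (unmask (vm (x &&& 63)) ∆ (({pt 4} : Finset GolayPt) ∆ {g • pt 4})) \ O0 ⊆
        {pt 4, g • pt 4} := by
      intro p hp
      have := (Finset.mem_sdiff.1 hp).1
      have h2 : p ∉ unmask (vm (x &&& 63)) := fun k => (Finset.mem_sdiff.1 hp).2 (k4 k)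
      simp only [Finset.mem_symmDiff, Finset.mem_singleton, Finset.mem_insert] at this ⊢
      tauto
    have k6 := cw_subset_oct e O0_mem ((Finset.card_le_card k5).trans_lt
      (Finset.card_le_two.trans_lt (by norm_num)))
    have k7 : g • pt 4 = pt 4 := by
      by_contra k
      refine pt4_not_mem (k6 ?_)
      have h2 : pt 4 ∉ unmask (vm (x &&& 63)) := fun k => pt4_not_mem (k4 k)
      simp only [Finset.mem_symmDiff, Finset.mem_singleton]
      tauto
    have k8 : g = 1 := by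
      by_contra k
      have o2 : orderOf g = 2 := BS.orderOf_eq_two_of (by
        rw [k2, tau_mul (shr6_lt hx) (shr6_lt hx), Nat.xor_self, tau_zero]) k
      have o3 := fixs_octad o2 k7
      have o4 : insert (pt 4) O0 ⊆ fixs g := by
        intro p hp
        rw [mem_fixs]
        rcases Finset.mem_insert.1 hp with rfl | hp
        · exact k7
        · exact k1 p hp
      have := Finset.card_le_card o4
      rw [Finset.card_insert_of_notMem pt4_not_mem, (mem_octads.1 o3).2,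
        (mem_octads.1 O0_mem).2] at this
      omega
    rw [k8, map_one]
    exact one_mem _
  have b3 : Nat.card ↥(B₀ ⊔ A) = 322560 * 2 ^ 10 := by
    rw [card_sup_of_inf_eq_bot (Or.inl b1) b2, a.card, card_map_inj hθi, card_stab_O0]
  have b4 : B₀ ⊔ A ≤ N[A] := sup_le b1 le_normalizer
  have hcm : IsMulCommutative (A.subgroupOf N[A]) :=
    ⟨⟨fun x y => Subtype.ext (Subtype.ext (a.comm x.2 y.2))⟩⟩
  have cA : Nat.card (A.subgroupOf N[A]) = 2 ^ 10 :=
    (Nat.card_congr (subgroupOfEquivOfLe le_normalizer).toEquiv).trans a.card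
  obtain ⟨H, hH⟩ := gaschutz (A.subgroupOf N[A]) ((B₀ ⊔ A).subgroupOf N[A])
    (fun x hx => mem_sup_right hx) (by
      have := ((B₀ ⊔ A).subgroupOf N[A]).card_mul_index
      rw [Nat.card_congr (subgroupOfEquivOfLe b4).toEquiv, b3, hc] at this
      rw [cA, show ((B₀ ⊔ A).subgroupOf N[A]).index = 31 by omega]
      norm_num)
    (B₀.subgroupOf N[A]) (fun x hx => mem_sup_left hx)
    (by
      rw [eq_bot_iff]
      intro x hx
      have : (x : G) ∈ B₀ ⊓ A := hx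
      rw [b2] at this
      exact Subtype.ext this)
    (by rw [sup_comm, subgroupOf_sup b1 le_normalizer])
  obtain ⟨f, hf⟩ := chow (A := A) (ψ := psi κ T) (fun x hx y hy => h.psi_xor a h1 hx hy)
    (fun x hx y hy => h.psi_inj a h1 hx hy) (h.mem_A_iff a h1)
    (fun n hn x hx y hy e => h.dec_conj a h1 h7 ht hx hy e)
  have hdis := hH.disjoint
  have hi : Function.Injective (f.comp H.subtype) := by
    rw [injective_iff_map_eq_one]
    intro x hx
    have := hf x hx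
    rw [hself] at this
    exact Subtype.ext ((Subgroup.disjoint_def.1 hdis) this x.2)
  have cH : Nat.card H = 9999360 := by
    have := hH.card_mul_card
    rw [cA, hc] at this
    omega
  refine ⟨H.map N[A].subtype, map_subtype_le H, ?_, ?_, ⟨(equivMapOfInjective H _
    N[A].subtype_injective).symm.trans (MulEquiv.ofBijective _
      ((Nat.bijective_iff_injective_and_card _).2 ⟨hi, by rw [cH, card_SL5]⟩))⟩⟩
  · rw [eq_bot_iff]
    rintro _ ⟨⟨x, hx, rfl⟩, hA⟩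
    rw [(Subgroup.disjoint_def.1 hdis) hA hx, map_one]
    exact one_mem _
  · have := congrArg (map N[A].subtype) hH.sup_eq_top
    rwa [Subgroup.map_sup, subgroupOf_map_subtype, inf_eq_left.2 le_normalizer, map_subtype_top,
      sup_comm] at this

end MS

/-- the conclusion of S5571 -/
theorem MS.orbits_A (h : MS z V π κ T) {o : Finset GolayPt} (ho : o ∈ octads)
    (hA : IsElementaryAbelian 2 A) (hc : Nat.card A = 2 ^ 10) (hle : A ≤ normalizer (V : Set G))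
    (hπ : ∀ n : normalizer (V : Set G), (n : G) ∈ A → π n ∈ pstab o) (h6 : Nat.card ↥(A ⊓ V) = 64)
    (h7 : ∃ g ∈ normalizer (A : Set G), g ^ 7 = 1 ∧ ∀ b ∈ A, g * b = b * g → b = 1 ∨ b = z)
    (ht : ∃ b ∈ A, b ∉ V ∧ ∃ Y, Y.card = 2 ∧ IsConj (T Y) b) (hz : z ∈ A)
    (htr : ∀ b ∈ A, IsConj z b → ∃ n ∈ normalizer (A : Set G), n * z * n⁻¹ = b) :
    ∃ a b : G, a ∈ A ∧ b ∈ A ∧
      Set.ncard {v : G | ∃ n ∈ Subgroup.normalizer (A : Set G), n * a * n⁻¹ = v} = 155 ∧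
      Set.ncard {v : G | ∃ n ∈ Subgroup.normalizer (A : Set G), n * b * n⁻¹ = v} = 868 := by
  obtain ⟨π', κ', g, h', a', e⟩ := h.std ho ⟨hA, hc, hle, hπ, h6⟩
  have ht' := ht_recoord g ht
  exact ⟨z, _, hz, h'.psi_mem a' e (x := 12) (by norm_num),
    by rw [h'.orbit_z a' e h7 ht' hz htr, h'.ncard_conj a' e h7 ht'],
    by rw [h'.orbit_t a' e h7 ht' hz htr, h'.ncard_nconj a' e h7 ht']⟩

/-- the last conjunct of S5570 -/
theorem MS.norm_A (h : MS z V π κ T) {o : Finset GolayPt} (ho : o ∈ octads)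
    (hA : IsElementaryAbelian 2 A) (hc : Nat.card A = 2 ^ 10) (hle : A ≤ normalizer (V : Set G))
    (hπ : ∀ n : normalizer (V : Set G), (n : G) ∈ A → π n ∈ pstab o) (h6 : Nat.card ↥(A ⊓ V) = 64)
    (h7 : ∃ g ∈ normalizer (A : Set G), g ^ 7 = 1 ∧ ∀ b ∈ A, g * b = b * g → b = 1 ∨ b = z)
    (ht : ∃ b ∈ A, b ∉ V ∧ ∃ Y, Y.card = 2 ∧ IsConj (T Y) b) (hz : z ∈ A)
    (htr : ∀ b ∈ A, IsConj z b → ∃ n ∈ normalizer (A : Set G), n * z * n⁻¹ = b)
    (hN : Nat.card ↥(normalizer (A : Set G) ⊓ centralizer {z}) = 2 ^ 20 * 63)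
    (hself : centralizer (A : Set G) = A) :
    (∃ B : Subgroup G, B ≤ Subgroup.normalizer (A : Set G) ∧ B ⊓ A = ⊥ ∧
      B ⊔ A = Subgroup.normalizer (A : Set G) ∧
      Nonempty (↥B ≃* Matrix.SpecialLinearGroup (Fin 5) (ZMod 2))) ∧
    ∀ W : Subgroup G, W ≤ A → Subgroup.normalizer (A : Set G) ≤ Subgroup.normalizer (W : Set G) →
      W = ⊥ ∨ W = A := by
  obtain ⟨π', κ', g, h', a', e⟩ := h.std ho ⟨hA, hc, hle, hπ, h6⟩
  have ht' := ht_recoord g ht
  exact ⟨h'.compl_std a' e h7 ht' hz htr hN hself, h'.irred_std a' e h7 ht' hz htr⟩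

end Cfsg.Agent.J4
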