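import Cfsg.Agent.J4.MX
import Cfsg.Agent.J4.MSf

/-!
# Groups of type `J₄`: classes of involutions and the subgroup `2¹⁰`
-/

set_option autoImplicit false
set_option linter.unusedSectionVars false

namespace Cfsg.Agent.J4

open Cfsg.Agent.M24 Cfsg.Agent.TT Cfsg.Agent.GT Subgroup MulAction
open scoped Pointwise symmDiff

def chA_t0 : T := (.node (.node (.node (.node .nil (nat_lit 4097) (nat_lit 0) (nat_lit
  0xbdab49ca307b9ac5a928398a418820800400200100080040020010008004002001800400200100080040020010008004002001)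
  .nil) (nat_lit 4098) (nat_lit 2) (nat_lit
  0xb914ea4d102c9a6a8e274bd965844006a0ff81942e0f30913d317249f8fa61bb36576fdb3bc254ff6a9b1482848c0c40b13d32)
  (.node .nil (nat_lit 4100) (nat_lit 34337) (nat_lit
  0x5aab1c9902b9b1a28c7425e198897888cc4422811cc84443f629bc408c0d32b13888cc4422811cc84443f629bc408c0d32b13)
  .nil)) (nat_lit 4101) (nat_lit 1058) (nat_lit
  0xb966b5558613a2890df622430a1da03ad27694f7c5a80540fcf54a01b0366d6b7d1703d0e689fcf98a6c84ac858f6c6d8a6cdd)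
  (.node (.node .nil (nat_lit 4102) (nat_lit 1073) (nat_lit
  0xb969572c8642a221cacf6053099da0402c0310130206e0f70a90d700c0084f686d8c3481b426c34b7c590500b000400cc814c3)
  .nil) (nat_lit 4103) (nat_lit 528) (nat_lit
  0xb9e6b555b68c848751e60c089195802761db9de7a7540fc0a9eff902d01bdb06e06e4db8f18a2c93c714c894c7c6549fcdd47b)
  (.node .nil (nat_lit 4104) (nat_lit 65) (nat_lit
  0x45d3a8d362504d54a012b0ef59917848c841292170c404cd9db66484c482491ce4088049e9e5744488cd30b10484c48a525e3)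
  .nil))) (nat_lit 4105) (nat_lit 514) (nat_lit
  0x424aab8a93518458c31b1c4f9b5173bd1ebdec658911e33b10620c488cc5e3fb14f986733c1280910f3b4b6cdc658fa1f839c)
  (.node (.node (.node .nil (nat_lit 4108) (nat_lit 33) (nat_lit
  0xbc24aab9e64ae21a4c8cb20451b4e06e4db8f18a2c93c714c894c7c6549fcdd47b2761db9de7a7540fc0a9eff902d01bdb06e0)
  .nil) (nat_lit 4109) (nat_lit 1) (nat_lit
  0x26925a8e4b4c2daba02795061b237625b1fdcd64bf805c06dfda58c048039726946089085ccb8894cfc61ad2f8f649bf8ba4d)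
  (.node .nil (nat_lit 4111) (nat_lit 16912) (nat_lit
  0x45d392d8f0d105554e46a616198574858cf2793a78d4c7ca615f203a01f3e92beecd74b3d91777549bc8134218cc4844f6c9b)
  .nil)) (nat_lit 4112) (nat_lit 16464) (nat_lit
  0xb9972a2901b0c8daba022bce99c5801653fae579e9fbaa5fdab6d68fac6539c1f8b766dbad75a9e1b92db0fd0a49b8f6ed677d)
  (.node (.node .nil (nat_lit 4113) (nat_lit 16) (nat_lit
  0x3d75750293a9829cac5890d01a1b746089085ccb8894cfc61ad2f8f649bf8ba4d625b1fdcd64bf805c06dfda58c0480397269)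
  .nil) (nat_lit 4118) (nat_lit 16449) (nat_lit
  0xb854e58ecf8550c9512d30a27990a01553eabae677fa2a7300600d03a02503502f3df2a5658deca5f5e500b00601f03a01a035)
  .nil)))
def chA_l0 : Lvl := ⟨nat_lit 4097, [nat_lit
  0x3d75750293a9829cac5890d01a1b746089085ccb8894cfc61ad2f8f649bf8ba4d625b1fdcd64bf805c06dfda58c0480397269,
  nat_lit
  0xb917393930351a51d4f1431f650440576fdb3bc254ff6a9b1482848c0c40b13d3206a0ff81942e0f30913d317249f8fa61bb36],
  [nat_lit 0, nat_lit 0], chA_t0⟩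
def chA_t1 : T := (.node (.node (.node (.node .nil (nat_lit 4098) (nat_lit 0) (nat_lit
  0xbdab49ca307b9ac5a928398a418820800400200100080040020010008004002001800400200100080040020010008004002001)
  .nil) (nat_lit 4101) (nat_lit 17) (nat_lit
  0xbbe6a751856acf1a8cd0b2444920205cef873ec2b4fa2a73842c818f6c6dc314233cf28512833ca735d1f935f201f03a63eb29)
  (.node .nil (nat_lit 4102) (nat_lit 16) (nat_lit
  0x26545aac63d6309b9a5409e41b0370c80444e08500400802441c88c0480b616f20c80444208100400802841488c0480769efe)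
  .nil)) (nat_lit 4103) (nat_lit 80) (nat_lit
  0x1872750e96ad88acdf0116c454437da36d22d437cab7fee02703901b02d00900ed2761e7c594fa73fa202303101f02503b01d)
  (.node (.node .nil (nat_lit 4104) (nat_lit 2) (nat_lit
  0xb9d72a8d88b4df1750c26a604514203cf28512833ca735d1f935f201f03a63eb295cef873ec2b4fa2a73842c818f6c6dc31423)
  .nil) (nat_lit 4105) (nat_lit 514) (nat_lit
  0x226a90e054acf6ad04c8b4c473c37fbd5eb2b43ec5d1a734c3c81c6d8f60b00503bd1eb23432c911e33721e3202d036dbeb57)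
  .nil)) (nat_lit 4108) (nat_lit 1) (nat_lit
  0x45d45d5ac2a9229cac77c104198370c80444208100400802841488c0480769efe0c80444e08500400802441c88c0480b616f2)
  (.node (.node (.node .nil (nat_lit 4109) (nat_lit 1104) (nat_lit
  0xbc075551f64cc4772cac3222493420542fc36f5d9afeeab784ec898fac658a6cdd38b24de469cbab7559fd757e01b0366dfb7a)
  .nil) (nat_lit 4111) (nat_lit 545) (nat_lit
  0x316aaccf110cc8751f669604924373bd1eb23432c911e33721e3202d036dbeb57fbd5eb2b43ec5d1a734c3c81c6d8f60b0050)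
  .nil) (nat_lit 4112) (nat_lit 33) (nat_lit
  0xbb5549b92244ac65d62f2b0e41c0208004002c01800800400e005000800484ec898004002c01800800400e005000800484ec89)
  (.node (.node .nil (nat_lit 4113) (nat_lit 34) (nat_lit
  0x3e7570c478acad552064d98492037fbd5ebd1663d5d1a73b616f2c6d8f61e53baff556f2743ac559ab7b2963ec658fa5f2f93)
  .nil) (nat_lit 4118) (nat_lit 1089) (nat_lit
  0xb897554cad6520870de989cc495820d8eb47a3d516722e3300200103602d02a01538b24d1a837cab755903902701b036020010)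
  .nil)))
def chA_l1 : Lvl := ⟨nat_lit 4098, [nat_lit
  0x26545aac63d6309b9a5409e41b0370c80444e08500400802441c88c0480b616f20c80444208100400802841488c0480769efe,
  nat_lit
  0xbbe6a751856acf1a8cd0b2444920205cef873ec2b4fa2a73842c818f6c6dc314233cf28512833ca735d1f935f201f03a63eb29],
  [nat_lit 0x228421010a10, nat_lit 0x405010621], chA_t1⟩
def chA_t2 : T := (.node (.node (.node (.node .nil (nat_lit 4099) (nat_lit 0) (nat_lit
  0xbdab49ca307b9ac5a928398a418820800400200100080040020010008004002001800400200100080040020010008004002001)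
  .nil) (nat_lit 4106) (nat_lit 16) (nat_lit
  0x5a8e54d8d2ae06a8e277a50490837884ccc42681dcc0440b0c604c408c01573e9048084854cbc0880c4b3661bc408c01723d3)
  .nil) (nat_lit 4107) (nat_lit 65) (nat_lit
  0xbd953a39903c9b11d4c57a50458820884448cae877444cc83f616d4808c063eb29ccc8844d9cae88c44416d29b8c0c40b29d17)
  (.node .nil (nat_lit 4110) (nat_lit 2) (nat_lit
  0x5a72ad22d40e0952d8f398a470837c844cc653bb204c08802403800c00403501ac844cc653bb204c08802403800c00403501a)
  .nil)) (nat_lit 4114) (nat_lit 1) (nat_lit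
  0x597590d2d3d21174cc5431e450837048084854cbc0880c4b3661bc408c01723d3884ccc42681dcc0440b0c604c408c01573e9)
  (.node (.node .nil (nat_lit 4115) (nat_lit 33) (nat_lit
  0xbd9cb1a8d0455a9a498f2c4e498820c84848e579e9cc888c03f02a00800402701ec84848e579e9cc888c03f02a00800402701e)
  .nil) (nat_lit 4116) (nat_lit 34) (nat_lit
  0xbda435d5302a9a69ba27431e4a0820084048c308100400c01482848c0c40b13d320480cc8104200c00803cc1484808c0621b13)
  (.node .nil (nat_lit 4117) (nat_lit 1058) (nat_lit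
  0x586a72ccd7ce0c951282c4e4a8837800c00e807c0880cc003b01d00c00400f005800c00e807c0880cc003b01d00c00400f005)
  .nil)))
def chA_l2 : Lvl := ⟨nat_lit 4099, [nat_lit
  0x5a8e54d8d2ae06a8e277a50490837884ccc42681dcc0440b0c604c408c01573e9048084854cbc0880c4b3661bc408c01723d3,
  nat_lit
  0x5a72ad22d40e0952d8f398a470837c844cc653bb204c08802403800c00403501ac844cc653bb204c08802403800c00403501a,
  nat_lit
  0x5aab9a8ad63a0fa490931e241883724d38b13122371493c00100203601b01002024d38b13122371493c00100203601b010020],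
  [nat_lit 0x2208a02, nat_lit 0x22110630, nat_lit 0x1108431], chA_t2⟩
def chA_t3 : T := (.node (.node (.node .nil (nat_lit 1) (nat_lit 0) (nat_lit
  0xbdab49ca307b9ac5a928398a418820800400200100080040020010008004002001800400200100080040020010008004002001)
  .nil) (nat_lit 2) (nat_lit 17) (nat_lit
  0xbdab49ca307b9ac5a928398a418820400c001003000400c003002000c008003002c008003002000c008001003000400c001003)
  (.node .nil (nat_lit 3) (nat_lit 2) (nat_lit
  0xbdab49ca307b9ac5a928398a418820c008003002000c008001003000400c001003400c001003000400c003002000c008003002)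
  .nil)) (nat_lit 16) (nat_lit 34) (nat_lit
  0x5aab9a8ad63a0fa490931e241883738b1c622331293ce2800300102d03603001038b1c622331293ce2800300102d036030010)
  (.node (.node .nil (nat_lit 32) (nat_lit 1) (nat_lit
  0x5aab9a8ad63a0fa490931e241883724d38b13122371493c00100203601b01002024d38b13122371493c00100203601b010020)
  .nil) (nat_lit 48) (nat_lit 49) (nat_lit
  0x5aab9a8ad63a0fa490931e24188371c624d312131e2871400200301b02d0200301c624d312131e2871400200301b02d020030)
  .nil))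
def chA_l3 : Lvl := ⟨nat_lit 1, [nat_lit
  0x5aab9a8ad63a0fa490931e241883724d38b13122371493c00100203601b01002024d38b13122371493c00100203601b010020,
  nat_lit
  0xbdab49ca307b9ac5a928398a418820400c001003000400c003002000c008003002c008003002000c008001003000400c001003],
  [nat_lit 2161, nat_lit 34865], chA_t3⟩
def chA : List Lvl := [chA_l0, chA_l1, chA_l2, chA_l3]

def t330_0 : T := (.node (.node (.node (.node (.node (.node (.node (.node .nil (nat_lit 10558) (nat_lit 2643)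
  (nat_lit 884962) .nil) (nat_lit 21116) (nat_lit 3428) (nat_lit 0x2e8a20) .nil) (nat_lit 31554) (nat_lit
  1092) (nat_lit 0x7c00a4) (.node (.node .nil (nat_lit 36294) (nat_lit 468) (nat_lit 0x59280c) .nil) (nat_lit
  42232) (nat_lit 4001) (nat_lit 843820) .nil)) (nat_lit 63108) (nat_lit 2625) (nat_lit 884962) (.node (.node
  (.node .nil (nat_lit 72588) (nat_lit 641) (nat_lit 237906) .nil) (nat_lit 78514) (nat_lit 273) (nat_lit
  381252) .nil) (nat_lit 84464) (nat_lit 4738) (nat_lit 0x461584) (.node .nil (nat_lit 90318) (nat_lit 3284)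
  (nat_lit 0x4cac80) .nil))) (nat_lit 104010) (nat_lit 2548) (nat_lit 0x698428) (.node (.node (.node (.node
  .nil (nat_lit 115766) (nat_lit 4818) (nat_lit 0x5481d0) .nil) (nat_lit 126216) (nat_lit 979) (nat_lit
  0x1889a8) .nil) (nat_lit 138790) (nat_lit 3778) (nat_lit 0x1262d0) (.node .nil (nat_lit 145176) (nat_lit
  3699) (nat_lit 0x24c5a0) .nil)) (nat_lit 150618) (nat_lit 5250) (nat_lit 0x56404c) (.node (.node (.node .nil
  (nat_lit 157028) (nat_lit 3170) (nat_lit 0x515094) .nil) (nat_lit 168928) (nat_lit 3764) (nat_lit 0x382238)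
  .nil) (nat_lit 180636) (nat_lit 4785) (nat_lit 0x18a096) (.node .nil (nat_lit 190626) (nat_lit 1105)
  (nat_lit 0x1ed080) .nil)))) (nat_lit 198058) (nat_lit 3537) (nat_lit 0x10f130) (.node (.node (.node (.node
  (.node .nil (nat_lit 208020) (nat_lit 5201) (nat_lit 0x168126) .nil) (nat_lit 231532) (nat_lit 4401)
  (nat_lit 0x1a610a) .nil) (nat_lit 237906) (nat_lit 196) (nat_lit 0x5a0498) (.node (.node .nil (nat_lit
  252432) (nat_lit 51) (nat_lit 0x3c4c08) .nil) (nat_lit 267634) (nat_lit 4530) (nat_lit 0x1412c6) .nil))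
  (nat_lit 277580) (nat_lit 4436) (nat_lit 0x29c884) (.node (.node (.node .nil (nat_lit 280334) (nat_lit 817)
  (nat_lit 78514) .nil) (nat_lit 290352) (nat_lit 3953) (nat_lit 475812) .nil) (nat_lit 301236) (nat_lit 4116)
  (nat_lit 0x226a0c) (.node .nil (nat_lit 307594) (nat_lit 2129) (nat_lit 832080) .nil))) (nat_lit 314056)
  (nat_lit 4036) (nat_lit 843820) (.node (.node (.node (.node .nil (nat_lit 337856) (nat_lit 4306) (nat_lit
  0x113506) .nil) (nat_lit 351362) (nat_lit 1828) (nat_lit 0x656404) .nil) (nat_lit 361272) (nat_lit 4162)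
  (nat_lit 307594) (.node .nil (nat_lit 371206) (nat_lit 580) (nat_lit 0x404cac) .nil)) (nat_lit 381252)
  (nat_lit 68) (nat_lit 0x3c4c08) (.node (.node (.node .nil (nat_lit 396116) (nat_lit 4449) (nat_lit 0x13021e)
  .nil) (nat_lit 402026) (nat_lit 4724) (nat_lit 0x48c2b0) .nil) (nat_lit 416040) (nat_lit 1186) (nat_lit
  0x42528a) (.node .nil (nat_lit 421910) (nat_lit 2851) (nat_lit 0x244866) .nil))))) (nat_lit 427666) (nat_lit
  2227) (nat_lit 280334) (.node (.node (.node (.node (.node (.node .nil (nat_lit 463064) (nat_lit 2210)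
  (nat_lit 280334) .nil) (nat_lit 475812) (nat_lit 1922) (nat_lit 0x406592) .nil) (nat_lit 504864) (nat_lit
  3923) (nat_lit 0x31412c) (.node (.node .nil (nat_lit 525274) (nat_lit 132) (nat_lit 0x5aa060) .nil) (nat_lit
  535268) (nat_lit 4561) (nat_lit 0x27c00a) .nil)) (nat_lit 545190) (nat_lit 4371) (nat_lit 0x230ac2) (.node
  (.node (.node .nil (nat_lit 555160) (nat_lit 3411) (nat_lit 0x2e8a20) .nil) (nat_lit 560668) (nat_lit 4547)
  (nat_lit 951624) .nil) (nat_lit 567074) (nat_lit 1841) (nat_lit 0x2d5030) (.node .nil (nat_lit 580704)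
  (nat_lit 753) (nat_lit 0x2a40e8) .nil))) (nat_lit 596054) (nat_lit 4132) (nat_lit 0x6a0c44) (.node (.node
  (.node (.node .nil (nat_lit 602472) (nat_lit 1730) (nat_lit 72588) .nil) (nat_lit 608810) (nat_lit 1395)
  (nat_lit 0x1b8c02) .nil) (nat_lit 615188) (nat_lit 2738) (nat_lit 0x453910) (.node .nil (nat_lit 628112)
  (nat_lit 4868) (nat_lit 0x332448) .nil)) (nat_lit 668866) (nat_lit 2689) (nat_lit 0x349068) (.node (.node
  (.node .nil (nat_lit 675712) (nat_lit 4196) (nat_lit 0x152074) .nil) (nat_lit 692282) (nat_lit 1300)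
  (nat_lit 0x628258) .nil) (nat_lit 702724) (nat_lit 226) (nat_lit 252432) (.node .nil (nat_lit 705094)
  (nat_lit 5140) (nat_lit 0x4c0878) .nil)))) (nat_lit 722544) (nat_lit 3905) (nat_lit 0x31412c) (.node (.node
  (.node (.node (.node .nil (nat_lit 742412) (nat_lit 515) (nat_lit 0x32c940) .nil) (nat_lit 762504) (nat_lit
  2578) (nat_lit 126216) .nil) (nat_lit 792232) (nat_lit 4851) (nat_lit 0x238704) (.node .nil (nat_lit 804052)
  (nat_lit 3649) (nat_lit 0x2082ae) .nil)) (nat_lit 832080) (nat_lit 788) (nat_lit 0x2a40e8) (.node (.node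
  (.node .nil (nat_lit 837906) (nat_lit 4993) (nat_lit 0x2a1294) .nil) (nat_lit 843820) (nat_lit 1986)
  (nat_lit 0x41889a) .nil) (nat_lit 855332) (nat_lit 4180) (nat_lit 0x114e44) (.node .nil (nat_lit 861210)
  (nat_lit 2241) (nat_lit 0x243324) .nil))) (nat_lit 884962) (nat_lit 1009) (nat_lit 0x28d308) (.node (.node
  (.node (.node .nil (nat_lit 919694) (nat_lit 4897) (nat_lit 0x32b202) .nil) (nat_lit 926128) (nat_lit 3796)
  (nat_lit 0x1262d0) .nil) (nat_lit 951624) (nat_lit 3042) (nat_lit 0x10d80e) (.node .nil (nat_lit 987906)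
  (nat_lit 1540) (nat_lit 0x704470) .nil)) (nat_lit 0xf6840) (nat_lit 2450) (nat_lit 0x434906) (.node (.node
  (.node .nil (nat_lit 0x1007b4) (nat_lit 4242) (nat_lit 0x343490) .nil) (nat_lit 0x102e8a) (nat_lit 3827)
  (nat_lit 567074) .nil) (nat_lit 0x1055c8) (nat_lit 4930) (nat_lit 0x70160c) (.node .nil (nat_lit 0x108a72)
  (nat_lit 1425) (nat_lit 742412) .nil)))))) (nat_lit 0x10a34c) (nat_lit 996) (nat_lit 0x1889a8) (.node (.node
  (.node (.node (.node (.node (.node .nil (nat_lit 0x10d80e) (nat_lit 1266) (nat_lit 0x628258) .nil) (nat_lit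
  0x10f130) (nat_lit 1618) (nat_lit 0x659280) .nil) (nat_lit 0x111c38) (nat_lit 4657) (nat_lit 157028) (.node
  (.node .nil (nat_lit 0x113506) (nat_lit 2323) (nat_lit 0x3021e2) .nil) (nat_lit 0x114e44) (nat_lit 2163)
  (nat_lit 0x182d50) .nil)) (nat_lit 0x11b8c0) (nat_lit 3747) (nat_lit 0x382238) (.node (.node (.node .nil
  (nat_lit 0x11c382) (nat_lit 4882) (nat_lit 0x60b540) .nil) (nat_lit 0x121992) (nat_lit 3507) (nat_lit
  0x2c6282) .nil) (nat_lit 0x1230ac) (nat_lit 5185) (nat_lit 0x14e442) (.node .nil (nat_lit 0x1262d0) (nat_lit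
  1794) (nat_lit 0x656404) .nil))) (nat_lit 0x129454) (nat_lit 1697) (nat_lit 0x18046e) (.node (.node (.node
  (.node .nil (nat_lit 0x12c628) (nat_lit 2595) (nat_lit 126216) .nil) (nat_lit 0x13021e) (nat_lit 2804)
  (nat_lit 0x428d30) .nil) (nat_lit 0x132b20) (nat_lit 4915) (nat_lit 0x1964a0) (.node .nil (nat_lit 0x135062)
  (nat_lit 3986) (nat_lit 0x6043c4) .nil)) (nat_lit 0x1412c6) (nat_lit 2962) (nat_lit 0x202656) (.node (.node
  (.node .nil (nat_lit 0x1440ba) (nat_lit 1572) (nat_lit 0x46e300) .nil) (nat_lit 0x146984) (nat_lit 4225)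
  (nat_lit 427666) .nil) (nat_lit 0x149f00) (nat_lit 3940) (nat_lit 0x31412c) (.node .nil (nat_lit 0x14e442)
  (nat_lit 4355) (nat_lit 10558) .nil)))) (nat_lit 0x15094a) (nat_lit 4772) (nat_lit 0x58c504) (.node (.node
  (.node (.node (.node .nil (nat_lit 0x152074) (nat_lit 2193) (nat_lit 280334) .nil) (nat_lit 0x157208)
  (nat_lit 3716) (nat_lit 0x24c5a0) .nil) (nat_lit 0x15848c) (nat_lit 2612) (nat_lit 126216) (.node (.node
  .nil (nat_lit 0x160ce0) (nat_lit 3474) (nat_lit 0x324486) .nil) (nat_lit 0x168126) (nat_lit 4594) (nat_lit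
  0x20d0d2) .nil)) (nat_lit 0x16a818) (nat_lit 4019) (nat_lit 843820) (.node (.node (.node .nil (nat_lit
  0x174510) (nat_lit 5155) (nat_lit 0x146984) .nil) (nat_lit 0x18046e) (nat_lit 628) (nat_lit 0x498b40) .nil)
  (nat_lit 0x182d50) (nat_lit 801) (nat_lit 0x26043c) (.node .nil (nat_lit 0x185612) (nat_lit 4708) (nat_lit
  0x670160) .nil))) (nat_lit 0x1889a8) (nat_lit 306) (nat_lit 0x229c88) (.node (.node (.node (.node .nil
  (nat_lit 0x18a096) (nat_lit 3380) (nat_lit 0x4229c8) .nil) (nat_lit 0x1964a0) (nat_lit 3665) (nat_lit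
  0x24c5a0) .nil) (nat_lit 0x199224) (nat_lit 4644) (nat_lit 0x200f68) (.node .nil (nat_lit 0x19c058) (nat_lit
  4513) (nat_lit 0x28258c) .nil)) (nat_lit 0x1a1a48) (nat_lit 2707) (nat_lit 0x2ae410) (.node (.node (.node
  .nil (nat_lit 0x1a4834) (nat_lit 3457) (nat_lit 0x324486) .nil) (nat_lit 0x1a610a) (nat_lit 2755) (nat_lit
  190626) .nil) (nat_lit 0x1b01c4) (nat_lit 2180) (nat_lit 0x182d50) (.node .nil (nat_lit 0x1b8c02) (nat_lit
  498) (nat_lit 0x32c940) .nil))))) (nat_lit 0x1c111c) (nat_lit 532) (nat_lit 0x32c940) (.node (.node (.node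
  (.node (.node (.node .nil (nat_lit 0x1c3822) (nat_lit 3889) (nat_lit 0x265640) .nil) (nat_lit 0x1c4360)
  (nat_lit 5266) (nat_lit 0x603886) .nil) (nat_lit 0x1d0a90) (nat_lit 4676) (nat_lit 157028) (.node (.node
  .nil (nat_lit 0x1e2604) (nat_lit 4273) (nat_lit 0x350622) .nil) (nat_lit 0x1ed080) (nat_lit 370) (nat_lit
  0x60ce02) .nil)) (nat_lit 0x200f68) (nat_lit 3137) (nat_lit 0x436038) (.node (.node (.node .nil (nat_lit
  0x202656) (nat_lit 1233) (nat_lit 0x45102e) .nil) (nat_lit 0x205d14) (nat_lit 2995) (nat_lit 0x2c19c0) .nil)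
  (nat_lit 0x20742a) (nat_lit 1652) (nat_lit 0x659280) (.node .nil (nat_lit 0x2082ae) (nat_lit 1665) (nat_lit
  0x49f002) .nil))) (nat_lit 0x20ab90) (nat_lit 5026) (nat_lit 504864) (.node (.node (.node (.node .nil
  (nat_lit 0x20d0d2) (nat_lit 3089) (nat_lit 0x4890cc) .nil) (nat_lit 0x2114e4) (nat_lit 4049) (nat_lit
  0x40c16a) .nil) (nat_lit 0x214698) (nat_lit 5044) (nat_lit 504864) (.node .nil (nat_lit 0x219922) (nat_lit
  4081) (nat_lit 0x4a5150) .nil)) (nat_lit 0x21b01c) (nat_lit 340) (nat_lit 0x229c88) (.node (.node (.node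
  .nil (nat_lit 0x21e260) (nat_lit 4609) (nat_lit 0x4d4188) .nil) (nat_lit 0x22114e) (nat_lit 4497) (nat_lit
  0x50305a) .nil) (nat_lit 0x223870) (nat_lit 1875) (nat_lit 0x2d5030) (.node .nil (nat_lit 0x224332) (nat_lit
  3153) (nat_lit 0x515094) .nil)))) (nat_lit 0x226a0c) (nat_lit 2067) (nat_lit 580704) (.node (.node (.node
  (.node (.node .nil (nat_lit 0x229c88) (nat_lit 81) (nat_lit 0x5aa060) .nil) (nat_lit 0x230ac2) (nat_lit
  2657) (nat_lit 0x539108) .nil) (nat_lit 0x237180) (nat_lit 4260) (nat_lit 0x343490) (.node .nil (nat_lit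
  0x238704) (nat_lit 3554) (nat_lit 0x10f130) .nil)) (nat_lit 0x241a1a) (nat_lit 2388) (nat_lit 0x62d024)
  (.node (.node (.node .nil (nat_lit 0x243324) (nat_lit 834) (nat_lit 78514) .nil) (nat_lit 0x244866) (nat_lit
  1169) (nat_lit 0x42528a) .nil) (nat_lit 0x246158) (nat_lit 1156) (nat_lit 0x1ed080) (.node .nil (nat_lit
  0x24c5a0) (nat_lit 1747) (nat_lit 72588) .nil))) (nat_lit 0x250196) (nat_lit 4145) (nat_lit 0x409316) (.node
  (.node (.node (.node .nil (nat_lit 0x2528a8) (nat_lit 1553) (nat_lit 0x46e300) .nil) (nat_lit 0x258c50)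
  (nat_lit 1476) (nat_lit 742412) .nil) (nat_lit 0x26043c) (nat_lit 260) (nat_lit 252432) (.node .nil (nat_lit
  0x262d02) (nat_lit 3204) (nat_lit 0x515094) .nil)) (nat_lit 0x265640) (nat_lit 1892) (nat_lit 0x2d5030)
  (.node (.node (.node .nil (nat_lit 0x26a0c4) (nat_lit 4804) (nat_lit 555160) .nil) (nat_lit 0x27c00a)
  (nat_lit 3059) (nat_lit 0x10d80e) .nil) (nat_lit 0x280cb2) (nat_lit 2353) (nat_lit 0x62d024) (.node .nil
  (nat_lit 0x28258c) (nat_lit 2945) (nat_lit 0x64a032) .nil)))))))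
def t330_1 : T := (.node (.node (.node (.node (.node (.node (.node (.node .nil (nat_lit 0x28a84a) (nat_lit
  3108) (nat_lit 0x4890cc) .nil) (nat_lit 0x28d308) (nat_lit 323) (nat_lit 0x229c88) .nil) (nat_lit 0x293e00)
  (nat_lit 3443) (nat_lit 0x3a1520) (.node (.node .nil (nat_lit 0x294542) (nat_lit 3601) (nat_lit 0x6011b8)
  .nil) (nat_lit 0x29c884) (nat_lit 2786) (nat_lit 0x428d30) .nil)) (nat_lit 0x2a1294) (nat_lit 3876) (nat_lit
  0x223870) (.node (.node (.node .nil (nat_lit 0x2a40e8) (nat_lit 243) (nat_lit 252432) .nil) (nat_lit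
  0x2ae410) (nat_lit 1057) (nat_lit 0x7c00a4) .nil) (nat_lit 0x2b0918) (nat_lit 1139) (nat_lit 0x1ed080)
  (.node .nil (nat_lit 0x2b2026) (nat_lit 5075) (nat_lit 0x135062) .nil))) (nat_lit 0x2c19c0) (nat_lit 1249)
  (nat_lit 0x628258) (.node (.node (.node (.node .nil (nat_lit 0x2c6282) (nat_lit 1601) (nat_lit 0x659280)
  .nil) (nat_lit 0x2c9406) (nat_lit 3330) (nat_lit 0x108a72) .nil) (nat_lit 0x2d024c) (nat_lit 2084) (nat_lit
  580704) (.node .nil (nat_lit 0x2d5030) (nat_lit 674) (nat_lit 0x440ba2) .nil)) (nat_lit 0x2e8a20) (nat_lit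
  1459) (nat_lit 742412) (.node (.node (.node .nil (nat_lit 0x3008dc) (nat_lit 740) (nat_lit 702724) .nil)
  (nat_lit 0x3021e2) (nat_lit 851) (nat_lit 78514) .nil) (nat_lit 0x305aa0) (nat_lit 2292) (nat_lit 0x243324)
  (.node .nil (nat_lit 0x30851a) (nat_lit 2676) (nat_lit 0x539108) .nil)))) (nat_lit 0x30ac24) (nat_lit 1764)
  (nat_lit 72588) (.node (.node (.node (.node (.node .nil (nat_lit 0x311350) (nat_lit 2258) (nat_lit 0x243324)
  .nil) (nat_lit 0x31412c) (nat_lit 1905) (nat_lit 0x406592) .nil) (nat_lit 0x316812) (nat_lit 4690) (nat_lit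
  0x670160) (.node (.node .nil (nat_lit 0x324486) (nat_lit 1506) (nat_lit 0x704470) .nil) (nat_lit 0x32b202)
  (nat_lit 3636) (nat_lit 0x6011b8) .nil)) (nat_lit 0x32c940) (nat_lit 145) (nat_lit 0x5a0498) (.node (.node
  (.node .nil (nat_lit 0x332448) (nat_lit 3571) (nat_lit 0x10f130) .nil) (nat_lit 0x3380b0) (nat_lit 3682)
  (nat_lit 0x24c5a0) .nil) (nat_lit 0x343490) (nat_lit 2275) (nat_lit 0x243324) (.node .nil (nat_lit 0x349068)
  (nat_lit 1044) (nat_lit 0x28d308) .nil))) (nat_lit 0x34c214) (nat_lit 2900) (nat_lit 416040) (.node (.node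
  (.node (.node .nil (nat_lit 0x350622) (nat_lit 2306) (nat_lit 0x3021e2) .nil) (nat_lit 0x360388) (nat_lit
  3588) (nat_lit 0x10f130) .nil) (nat_lit 0x371804) (nat_lit 3969) (nat_lit 0x520742) (.node .nil (nat_lit
  0x380b06) (nat_lit 3858) (nat_lit 0x223870) .nil)) (nat_lit 0x382238) (nat_lit 1777) (nat_lit 0x656404)
  (.node (.node (.node .nil (nat_lit 0x387044) (nat_lit 3012) (nat_lit 0x2c19c0) .nil) (nat_lit 0x3886c0)
  (nat_lit 2497) (nat_lit 0x698428) .nil) (nat_lit 0x39108a) (nat_lit 4626) (nat_lit 0x200f68) (.node .nil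
  (nat_lit 0x3a1520) (nat_lit 1489) (nat_lit 0x704470) .nil))))) (nat_lit 0x3c4c08) (nat_lit 0) (nat_lit
  0x3c4c08) (.node (.node (.node (.node (.node (.node .nil (nat_lit 0x3da100) (nat_lit 5090) (nat_lit
  0x219922) .nil) (nat_lit 0x3e0052) (nat_lit 2834) (nat_lit 0x244866) .nil) (nat_lit 0x401ed0) (nat_lit 5170)
  (nat_lit 0x1e2604) (.node (.node .nil (nat_lit 0x404cac) (nat_lit 162) (nat_lit 0x5a0498) .nil) (nat_lit
  0x406592) (nat_lit 691) (nat_lit 0x440ba2) .nil)) (nat_lit 0x409316) (nat_lit 2116) (nat_lit 0x72082a)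
  (.node (.node (.node .nil (nat_lit 0x40ba28) (nat_lit 2531) (nat_lit 0x698428) .nil) (nat_lit 0x40c16a)
  (nat_lit 2003) (nat_lit 0x41889a) .nil) (nat_lit 0x40e854) (nat_lit 5123) (nat_lit 0x4c0878) (.node .nil
  (nat_lit 0x41055c) (nat_lit 1412) (nat_lit 0x1b8c02) .nil))) (nat_lit 0x412c62) (nat_lit 2881) (nat_lit
  416040) (.node (.node (.node (.node .nil (nat_lit 0x415720) (nat_lit 4292) (nat_lit 0x350622) .nil) (nat_lit
  0x41889a) (nat_lit 721) (nat_lit 702724) .nil) (nat_lit 0x41a1a4) (nat_lit 4339) (nat_lit 0x5102e8) (.node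
  .nil (nat_lit 0x4200f6) (nat_lit 3025) (nat_lit 0x10d80e) .nil)) (nat_lit 0x4229c8) (nat_lit 1442) (nat_lit
  742412) (.node (.node (.node .nil (nat_lit 0x42528a) (nat_lit 387) (nat_lit 0x60ce02) .nil) (nat_lit
  0x428d30) (nat_lit 1122) (nat_lit 0x1ed080) .nil) (nat_lit 0x42a40e) (nat_lit 2020) (nat_lit 0x41889a)
  (.node .nil (nat_lit 0x433244) (nat_lit 1523) (nat_lit 0x704470) .nil)))) (nat_lit 0x434906) (nat_lit 915)
  (nat_lit 0x5848c2) (.node (.node (.node (.node (.node .nil (nat_lit 0x436038) (nat_lit 1331) (nat_lit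
  0x55c820) .nil) (nat_lit 0x43c4c0) (nat_lit 945) (nat_lit 0x1889a8) .nil) (nat_lit 0x440ba2) (nat_lit 209)
  (nat_lit 252432) (.node .nil (nat_lit 0x44229c) (nat_lit 1585) (nat_lit 371206) .nil)) (nat_lit 0x4470e0)
  (nat_lit 3524) (nat_lit 0x2c6282) (.node (.node (.node .nil (nat_lit 0x448664) (nat_lit 3297) (nat_lit
  608810) .nil) (nat_lit 0x44d418) (nat_lit 4580) (nat_lit 0x27c00a) .nil) (nat_lit 0x45102e) (nat_lit 404)
  (nat_lit 0x60ce02) (.node .nil (nat_lit 0x453910) (nat_lit 1075) (nat_lit 0x7c00a4) .nil))) (nat_lit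
  0x454252) (nat_lit 1713) (nat_lit 72588) (.node (.node (.node (.node .nil (nat_lit 0x461584) (nat_lit 3313)
  (nat_lit 0x108a72) .nil) (nat_lit 0x469842) (nat_lit 4385) (nat_lit 0x1a1a48) .nil) (nat_lit 0x46e300)
  (nat_lit 563) (nat_lit 0x404cac) (.node .nil (nat_lit 0x470e08) (nat_lit 4418) (nat_lit 0x1a610a) .nil))
  (nat_lit 0x481d0a) (nat_lit 2915) (nat_lit 0x6a8182) (.node (.node (.node .nil (nat_lit 0x483434) (nat_lit
  2817) (nat_lit 0x244866) .nil) (nat_lit 0x486648) (nat_lit 434) (nat_lit 0x59280c) .nil) (nat_lit 0x4890cc)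
  (nat_lit 1283) (nat_lit 0x628258) (.node .nil (nat_lit 0x48c2b0) (nat_lit 3250) (nat_lit 0x4cac80)
  .nil)))))) (nat_lit 0x490686) (nat_lit 2146) (nat_lit 0x182d50) (.node (.node (.node (.node (.node (.node
  (.node .nil (nat_lit 0x498b40) (nat_lit 179) (nat_lit 0x5a0498) .nil) (nat_lit 0x49f002) (nat_lit 610)
  (nat_lit 0x498b40) .nil) (nat_lit 0x4a032c) (nat_lit 2483) (nat_lit 0x43c4c0) (.node (.node .nil (nat_lit
  0x4a2a12) (nat_lit 2419) (nat_lit 0x4e4422) .nil) (nat_lit 0x4a5150) (nat_lit 2033) (nat_lit 0x3008dc)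
  .nil)) (nat_lit 0x4b18a0) (nat_lit 481) (nat_lit 0x32c940) (.node (.node (.node .nil (nat_lit 0x4c0878)
  (nat_lit 4097) (nat_lit 0x226a0c) .nil) (nat_lit 0x4c2146) (nat_lit 932) (nat_lit 0x5848c2) .nil) (nat_lit
  0x4c5a04) (nat_lit 2868) (nat_lit 0x244866) (.node .nil (nat_lit 0x4cac80) (nat_lit 1378) (nat_lit 0x1b8c02)
  .nil))) (nat_lit 0x4d4188) (nat_lit 3123) (nat_lit 0x528a84) (.node (.node (.node (.node .nil (nat_lit
  0x4e4422) (nat_lit 898) (nat_lit 0x5848c2) .nil) (nat_lit 0x4f8014) (nat_lit 4977) (nat_lit 0x380b06) .nil)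
  (nat_lit 0x501964) (nat_lit 4947) (nat_lit 0x6920d0) (.node .nil (nat_lit 0x50305a) (nat_lit 2932) (nat_lit
  0x6a8182) .nil)) (nat_lit 0x504b18) (nat_lit 3267) (nat_lit 0x4cac80) (.node (.node (.node .nil (nat_lit
  0x506226) (nat_lit 708) (nat_lit 0x440ba2) .nil) (nat_lit 0x5094a2) (nat_lit 2049) (nat_lit 580704) .nil)
  (nat_lit 0x5102e8) (nat_lit 2561) (nat_lit 126216) (.node .nil (nat_lit 0x515094) (nat_lit 1345) (nat_lit
  36294) .nil)))) (nat_lit 0x51a610) (nat_lit 4836) (nat_lit 198058) (.node (.node (.node (.node (.node .nil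
  (nat_lit 0x520742) (nat_lit 1939) (nat_lit 0x406592) .nil) (nat_lit 0x527c00) (nat_lit 3235) (nat_lit
  0x686920) .nil) (nat_lit 0x528a84) (nat_lit 1315) (nat_lit 0x486648) (.node .nil (nat_lit 0x539108) (nat_lit
  1026) (nat_lit 0x28d308) .nil)) (nat_lit 0x540c16) (nat_lit 2468) (nat_lit 0x434906) (.node (.node (.node
  .nil (nat_lit 0x542528) (nat_lit 5057) (nat_lit 290352) .nil) (nat_lit 0x5481d0) (nat_lit 3491) (nat_lit
  0x44229c) .nil) (nat_lit 0x55c820) (nat_lit 451) (nat_lit 0x59280c) (.node .nil (nat_lit 0x561230) (nat_lit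
  1811) (nat_lit 0x656404) .nil))) (nat_lit 0x56404c) (nat_lit 4961) (nat_lit 0x102e8a) (.node (.node (.node
  (.node .nil (nat_lit 0x572082) (nat_lit 1956) (nat_lit 0x406592) .nil) (nat_lit 0x583380) (nat_lit 2340)
  (nat_lit 0x3021e2) .nil) (nat_lit 0x5848c2) (nat_lit 289) (nat_lit 0x229c88) (.node .nil (nat_lit 0x58c504)
  (nat_lit 3363) (nat_lit 0x4229c8) .nil)) (nat_lit 0x590132) (nat_lit 2978) (nat_lit 0x2c19c0) (.node (.node
  (.node .nil (nat_lit 0x59280c) (nat_lit 115) (nat_lit 0x5aa060) .nil) (nat_lit 0x5a0498) (nat_lit 34)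
  (nat_lit 0x3c4c08) .nil) (nat_lit 0x5aa060) (nat_lit 17) (nat_lit 0x3c4c08) (.node .nil (nat_lit 0x5c820a)
  (nat_lit 4068) (nat_lit 0x40c16a) .nil))))) (nat_lit 0x5d1440) (nat_lit 3843) (nat_lit 0x722114) (.node
  (.node (.node (.node (.node (.node .nil (nat_lit 0x6011b8) (nat_lit 1635) (nat_lit 0x659280) .nil) (nat_lit
  0x603886) (nat_lit 5010) (nat_lit 722544) .nil) (nat_lit 0x6043c4) (nat_lit 1969) (nat_lit 0x41889a) (.node
  (.node .nil (nat_lit 0x60b540) (nat_lit 3619) (nat_lit 0x6011b8) .nil) (nat_lit 0x60ce02) (nat_lit 98)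
  (nat_lit 0x5aa060) .nil)) (nat_lit 0x610a34) (nat_lit 2433) (nat_lit 0x434906) (.node (.node (.node .nil
  (nat_lit 0x61230a) (nat_lit 2721) (nat_lit 0x453910) .nil) (nat_lit 0x615848) (nat_lit 3345) (nat_lit
  0x4229c8) .nil) (nat_lit 0x6226a0) (nat_lit 868) (nat_lit 78514) (.node .nil (nat_lit 0x628258) (nat_lit
  417) (nat_lit 0x59280c) .nil))) (nat_lit 0x62d024) (nat_lit 881) (nat_lit 0x5848c2) (.node (.node (.node
  (.node .nil (nat_lit 0x631412) (nat_lit 5233) (nat_lit 0x501964) .nil) (nat_lit 0x6404ca) (nat_lit 1684)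
  (nat_lit 0x49f002) .nil) (nat_lit 0x64890c) (nat_lit 3076) (nat_lit 0x10d80e) (.node .nil (nat_lit 0x64a032)
  (nat_lit 1220) (nat_lit 0x42528a) .nil)) (nat_lit 0x656404) (nat_lit 657) (nat_lit 0x440ba2) (.node (.node
  (.node .nil (nat_lit 0x659280) (nat_lit 593) (nat_lit 0x498b40) .nil) (nat_lit 0x664890) (nat_lit 2402)
  (nat_lit 0x4e4422) .nil) (nat_lit 0x670160) (nat_lit 3187) (nat_lit 0x515094) (.node .nil (nat_lit 0x681262)
  (nat_lit 4753) (nat_lit 0x615848) .nil)))) (nat_lit 0x68401e) (nat_lit 5106) (nat_lit 0x4c0878) (.node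
  (.node (.node (.node (.node .nil (nat_lit 0x686920) (nat_lit 1362) (nat_lit 0x4b18a0) .nil) (nat_lit
  0x6920d0) (nat_lit 3811) (nat_lit 0x561230) .nil) (nat_lit 0x698428) (nat_lit 962) (nat_lit 0x1889a8) (.node
  .nil (nat_lit 0x6a0c44) (nat_lit 2097) (nat_lit 0x72082a) .nil)) (nat_lit 0x6a8182) (nat_lit 1203) (nat_lit
  0x42528a) (.node (.node (.node .nil (nat_lit 0x6c0710) (nat_lit 4321) (nat_lit 0x610a34) .nil) (nat_lit
  0x6e3008) (nat_lit 2371) (nat_lit 0x62d024) .nil) (nat_lit 0x70160c) (nat_lit 3730) (nat_lit 0x382238)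
  (.node .nil (nat_lit 0x704470) (nat_lit 545) (nat_lit 0x404cac) .nil))) (nat_lit 0x70e088) (nat_lit 2514)
  (nat_lit 0x698428) (.node (.node (.node (.node .nil (nat_lit 0x710d80) (nat_lit 2769) (nat_lit 0x428d30)
  .nil) (nat_lit 0x718046) (nat_lit 4481) (nat_lit 0x481d0a) .nil) (nat_lit 0x72082a) (nat_lit 770) (nat_lit
  0x2a40e8) (.node .nil (nat_lit 0x722114) (nat_lit 1858) (nat_lit 0x2d5030) .nil)) (nat_lit 0x742a40)
  (nat_lit 4467) (nat_lit 0x483434) (.node (.node (.node .nil (nat_lit 0x745102) (nat_lit 5218) (nat_lit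
  0x681262) .nil) (nat_lit 0x789810) (nat_lit 3394) (nat_lit 0x2e8a20) .nil) (nat_lit 0x7b4200) (nat_lit 3218)
  (nat_lit 0x686920) (.node .nil (nat_lit 0x7c00a4) (nat_lit 353) (nat_lit 0x60ce02) .nil)))))))
def t330 : T := (.node t330_0 (nat_lit 0x288174) (nat_lit 4211) (nat_lit 463064) t330_1)

/-- Code of an element of order seven. -/
def k7 : ℕ := nat_lit 0xb9e6b555b68c848751e60c089195802761db9de7a7540fc0a9eff902d01bdb06e06e4db8f18a2c93c714c894c7c6549fcdd47b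
theorem chA_chk : chkR chA = true := by decide +kernel
/-- The stabiliser of an octad missing the duad. -/
noncomputable def NA : Subgroup R := gen rc (gensOf chA)
theorem card_NA : Nat.card NA = 8064 := card_genR chA_chk (by decide +kernel)
/-- An octad missing the duad. -/
def O1 : Finset GolayPt := unmask 3951624
theorem mask_O1 : mask O1 = 3951624 := mask_unmask (by norm_num)
theorem O1_mem : O1 ∈ octads := (isOct_sound (m := 3951624) (by decide +kernel)).1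
theorem NA_eq : Lm ⊓ stabilizer R O1 = NA := by
  rw [Lm_eq]
  exact inf_stabR acRS trivial chL_chk chA_chk mask_O1 (t := t330) (hi := 16777216) (by decide +kernel) (by decide +kernel)
theorem NA_le : NA ≤ Lm := NA_eq ▸ inf_le_left
theorem Ob_le_NA : Ob ≤ NA := genR_le chA_chk (by decide +kernel)
theorem Ob_le_NV : Ob ≤ NV := genR_le chN_chk (by decide +kernel)

theorem NA_conj_Ob {d w : R} (hd : d ∈ NA) (hw : w ∈ Ob) : d * w * d⁻¹ ∈ Ob :=
  (Subgroup.mem_normalizer_iff.1 (gcR.gen_le_normalizer (l := gensOf chA) (l' := gensOf chO)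
    (fun _ hg => (mem_genR chO_chk).2 hg) (by decide +kernel) hd) w).1 hw

theorem NA_lin {d : R} (hd : d ∈ NA) {u : ℕ} (hu : u ∈ lU0) : lin (rc d) u ∈ lU0 := by
  have := closure_smul_mem (G := R) (X := Fin 4096) (S := {g | rc g ∈ gensOf chA}) (E := {a | a.val ∈ lU0})
    (Set.toFinite _) (fun g hg x hx => by
      have h : lall (gensOf chA) (fun k => lall lU0 fun u => force (lin k u) fun c => lany lU0 (Nat.beq c)) = true := by
        decide +kernel
      change (g • x).val ∈ lU0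
      rw [smulV_val]
      exact lany_beq.1 ((force_eq _ _).symm.trans ((lall_iff _ _).1 ((lall_iff _ _).1 h _ hg) _ hx))) d hd
    ⟨u, prA.lt u (List.mem_toFinset.2 hu)⟩ hu
  change (d • _ : Fin 4096).val ∈ lU0 at this
  rwa [smulV_val] at this

theorem mem_O1 {p : GolayPt} : p ∈ O1 ↔ ∀ w ∈ Ob, w ≠ 1 → w.2 • p ≠ p := by
  have h1 : ∀ p : GolayPt, p ∈ O1 ↔ lall lO0 (fun k => bor (Nat.beq k rone) (!Nat.beq (ap (rp k) (idx p)) (idx p))) = true := by
    decide +kernel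
  have h2 : ∀ w : R, ap (rp (rc w)) (idx p) = idx (w.2 • p) := fun w => by rw [rp_rc]; exact acM.ap_code w.2 trivial
  rw [h1, lall_iff]
  refine ⟨fun h w hw hne e => ?_, fun h k hk => ?_⟩
  · have := h _ (mem_Ob.1 hw)
    rw [h2, e, ← gcR.code_one] at this
    simp [gcR.inj.eq_iff, hne] at this
  · obtain ⟨w, rfl⟩ := valid_rc (l := lO0) (by decide +kernel) k hk
    rw [h2, ← gcR.code_one]
    by_cases e : w = 1
    · simp [e]
    · have := mt (fun e => idx_inj e) (h w (mem_Ob.2 hk) e)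
      rw [bor_eq, Bool.or_eq_true, Bool.not_eq_true', ← Bool.not_eq_true, Nat.beq_eq, Nat.beq_eq]; exact .inr this

theorem mem_NA_of_conj {d : R} (hd : d ∈ Lm) (h : ∀ w ∈ Ob, d * w * d⁻¹ ∈ Ob) : d ∈ NA := by
  refine inv_mem_iff.1 (NA_eq.le ⟨Lm.inv_mem hd, show d⁻¹.2 • O1 = O1 from
    Finset.eq_of_subset_of_card_le (fun p hp => ?_) (by rw [card_smul24])⟩)
  obtain ⟨q, hq, rfl⟩ := Finset.mem_smul_finset.1 hp
  refine mem_O1.2 fun w hw hne e => mem_O1.1 hq _ (h w hw) (by simpa using hne) ?_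
  rw [Prod.snd_mul, Prod.snd_mul, mul_smul, mul_smul, e, ← mul_smul]; simp

namespace HM

variable {H : Type*} [Group H] {z ω : H} {s : ℕ → H} {Λ : H →* R} (M : HM z ω s Λ)
include M

theorem mem_norm_AH [Finite H] {g : H} : g ∈ N[M.AH] ↔ Λ g ∈ NA := by
  refine ⟨fun hg => mem_NA_of_conj (M.mem g) fun w hw => ?_, fun hg => mem_normalizer_of_conj fun _ hx =>
    M.conj_mem_EA prA (NA_conj_Ob hg hx.1) (List.mem_toFinset.2 (NA_lin hg (M.mem_AH.1 hx).2))⟩
  obtain ⟨l, hl, rfl⟩ := M.lift w (Ob_le hw)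
  have := (conj_mem_of_mem_norm hg (M.norm_mem_EA prA hl hw)).1
  rw [map_mul, map_mul, map_inv] at this
  exact this

theorem lift_odd {k n : ℕ} (h : inL k = true) (hn : cpow rmul rone k (2 * n + 1) = rone) :
    ∃ l ∈ N[zpowers ω], rc (Λ l) = k ∧ l ^ (2 * n + 1) = 1 := by
  obtain ⟨y, hy, e1⟩ := M.lift_code h
  rcases M.ker_norm (pow_mem hy (2 * n + 1)) (gcR.inj (by rw [map_pow, ← gcR.cpow_code, e1, gcR.code_one, hn])) with h | h
  · exact ⟨y, hy, e1, h⟩
  · exact ⟨y * z, mul_mem hy M.z_mem, by rw [map_mul, M.Λz, mul_one, e1], by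
      rw [Commute.mul_pow (M.zc y), h, pow_succ', ← mul_assoc, M.zz, one_mul, pow_mul, pow_two z, M.zz, one_pow]⟩

theorem inner_cls {h : H} (h2 : h * h = 1) (ho : ou (rc (Λ h)) = 0) : ∃ l, l * h * l⁻¹ ∈ M.VH ∨ l * h * l⁻¹ ∈ M.AH := by
  by_cases h1 : Λ h = 1
  · exact (M.conj_E_VH h1 h2).imp fun _ => .inl
  obtain ⟨l, e⟩ := M.conj_w0 h2 h1 ho
  have h3 : l * h * l⁻¹ * (l * h * l⁻¹) = 1 := by rw [conj_mul, h2]; simp
  obtain ⟨u, hu⟩ : ∃ u, u = l * h * l⁻¹ := ⟨_, rfl⟩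
  rw [← hu] at e h3
  have h4 : lin (rc w0) (M.cb u) = M.cb u := by
    have := congrArg M.cb h3
    rw [M.cb_mul, M.cb_one, e] at this
    exact (Nat.xor_eq_zero_iff.1 this).symm
  have h5 : Qf (M.cb u) = 0 := by
    obtain ⟨m, hm, e1, e2⟩ := M.cb_dec u
    have a1 := M.conj m hm _ (M.cb_lt u)
    rw [e2, e, h4, (Wb_facts w0_mem).2.1, zero_mul, pow_zero, mul_one, mul_inv_eq_iff_eq_mul] at a1
    rw [e1, mul_assoc, ← mul_assoc m, a1, mul_assoc, M.sq_inner hm (by rw [e2, e, (Wb_facts w0_mem).1])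
      (by rw [e2, e, (Wb_facts w0_mem).2.1]), mul_one, M.s_sq (M.cb_lt u)] at h3
    exact (M.zp_eq_one (Qf_le _)).1 h3
  have h6 := (lall_iff _ _).1 (show lall lF0 (fun b => bor (Nat.beq (Qf b) 1) (bor (Nat.ble b 63)
    (bor (lany lU0 (Nat.beq b)) (lany lU1 (Nat.beq b))))) = true by decide +kernel) _ (mem_lF0 (M.cb_lt u) h4)
  simp only [bor_eq, Bool.or_eq_true, Nat.beq_eq, Nat.ble_eq, lany_beq, h5, zero_ne_one, false_or] at h6
  rcases h6 with a | a | a
  · exact ⟨l, .inl (hu ▸ M.mem_VH.2 ⟨e ▸ w0_mem, by omega⟩)⟩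
  · exact ⟨l, .inr (hu ▸ M.mem_AH.2 ⟨e ▸ w0_mem_Ob, a⟩)⟩
  · obtain ⟨k, hk, c1, c2⟩ := swap_A
    obtain ⟨g, -, rfl⟩ := M.lift k hk
    refine ⟨g * l, .inr ?_⟩
    have := M.conj_mem_EA prA (g := g) (h := u) (c1 _ (by rw [e, rc_w0]; decide +kernel)) (List.mem_toFinset.2 (c2 _ a))
    rwa [hu, ← mul_assoc, ← mul_assoc, mul_assoc _ l⁻¹, ← mul_inv_rev] at this

end HM

/-- The octad of the subgroup `2¹⁰`. -/
def OA : Finset GolayPt := unmask 622863
theorem mask_OA : mask OA = 622863 := mask_unmask (by norm_num)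
theorem OA_mem : OA ∈ octads := (isOct_sound (m := 622863) (by decide +kernel)).1

namespace GM

variable {G H : Type*} [Group G] [Group H] {ι : H →* G} {z ω : H} {s : ℕ → H} {Λ : H →* R} (M : GM ι z ω s Λ)
include M

theorem A_le_norm [Finite G] : M.A ≤ N[M.V] := by
  rintro _ ⟨h, hh, rfl⟩; exact M.mem_norm_V.2 (Ob_le_NV hh.1)

theorem card_norm_A_inf [Finite G] : Nat.card ↥(N[M.A] ⊓ C1[ι z]) = 2 ^ 20 * 63 := by
  have := M.finH
  have h : N[M.A] ⊓ C1[ι z] = (NA.comap Λ).map ι := by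
    refine le_antisymm (fun g hg => ?_) ?_
    · obtain ⟨h, rfl⟩ := M.surj g (mem_cent1.1 hg.2)
      exact mem_map_of_mem ι (M.mem_norm_AH.1 ((map_mem_norm_map_iff M.inj).1 hg.1))
    · rintro _ ⟨h, hh, rfl⟩
      exact ⟨(map_mem_norm_map_iff M.inj).2 (M.mem_norm_AH.2 hh), M.range_eq_cent ▸ ⟨h, rfl⟩⟩
  rw [h, card_map_inj M.inj, M.card_comap NA_le, card_NA]; norm_num

theorem seven_A [Finite G] : ∃ g ∈ N[M.A], g ^ 7 = 1 ∧ ∀ b ∈ M.A, g * b = b * g → b = 1 ∨ b = ι z := by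
  have := M.finH
  obtain ⟨l, hl, e1, e2⟩ := M.lift_odd (k := k7) (n := 3) (by decide +kernel) (by decide +kernel)
  refine ⟨ι l, (map_mem_norm_map_iff M.inj).2 (M.mem_norm_AH.2 ((mem_genR chA_chk).2 (by rw [e1]; decide +kernel))),
    by rw [← map_pow, e2, map_one], ?_⟩
  rintro _ ⟨b, hb, rfl⟩ h
  have h1 : l * b = b * l := M.inj (by rw [map_mul, map_mul, h])
  have h2 : Λ b = 1 := by
    have h3 := (lall_iff _ _).1 (show lall lO0 (fun k => bor (!cm k7 k) (Nat.beq k rone)) = true by decide +kernel) _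
      (mem_Ob.1 hb.1)
    rw [← e1, cm_of (by rw [← map_mul, h1, map_mul]), ← gcR.code_one] at h3
    simpa only [Bool.not_true, bor_eq, Bool.false_or, beq_rc] using h3
  have h3 := congrArg M.cb h1
  rw [M.cb_mul, M.cb_mul, M.cb_norm hl, lin_zero, Nat.zero_xor, Nat.xor_zero, e1] at h3
  have h4 := (lall_iff _ _).1 (show lall lU0 (fun b => bor (!fx k7 b) (Nat.beq b 0)) = true by decide +kernel) _
    (M.mem_AH.1 hb).2
  simp only [fx, h3, Nat.beq_refl, Bool.not_true, bor_eq, Bool.false_or, Nat.beq_eq] at h4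
  have h5 := M.eq_s h2
  rw [h4, M.s0, one_mul] at h5
  exact h5.imp (fun e => by rw [e, map_one]) fun e => by rw [e]

theorem conj_A [Finite G] {F : Subgroup G} (hF : ∀ x ∈ F, x * x = 1) (hc : Nat.card F = 2 ^ 10) (hs : C[F] = F)
    (hz : ι z ∈ F) : ∃ h, cj[ι h] F = M.A := by
  have := M.finH
  have h1 : (F.comap ι).map ι = F := map_comap_eq_self fun x hx => M.surj x (comm_of_sq hF hx hz)
  obtain ⟨h, e | e⟩ := M.elem_cls (F := F.comap ι) hz (fun x hx => M.inj (by rw [map_mul, hF _ hx, map_one]))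
    (by rw [← card_map_inj M.inj, h1, hc])
  · have h2 := map_mono (f := ι) e
    rw [map_conj, h1] at h2
    have h3 := card_le_of_le ((M.cent_V.ge.trans (cent_anti h2)).trans (conj_centralizer _ _).ge)
    rw [hs, card_conj, hc, M.card_V] at h3
    omega
  · have h2 := map_mono (f := ι) e
    rw [map_conj, h1] at h2
    exact ⟨h, eq_of_le_of_card_ge h2 (by rw [card_conj, hc]; exact M.card_A.le)⟩

theorem fusion_A [Finite G] : ∀ b ∈ M.A, IsConj (ι z) b → ∃ n ∈ N[M.A], n * ι z * n⁻¹ = b := fun b hb h => by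
  obtain ⟨g, rfl⟩ := isConj_iff.1 h
  obtain ⟨k, e⟩ := M.conj_A (F := cj[g⁻¹] M.A) (sq_conj M.A_sq _) (by rw [card_conj, M.card_A])
    (by rw [← conj_centralizer, M.cent_A]) (by rwa [mem_conj, inv_inv])
  rw [← mul_conj] at e
  refine ⟨(ι k * g⁻¹)⁻¹, inv_mem (conj_eq_self_iff.1 e), ?_⟩
  rw [mul_inv_rev, inv_inv, ← map_inv, mul_assoc g, ← map_mul, M.zc, map_mul, map_inv]; group

theorem conj_A' [Finite G] {F : Subgroup G} (hF : IsElementaryAbelian 2 F) (hc : Nat.card F = 2 ^ 10) (hs : C[F] = F) :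
    ∃ g, cj[g] F = M.A := by
  obtain ⟨g, hg⟩ := M.conj_le_syl (pg_of_sq (sq_of_elem hF))
  have h1 : C[cj[g] F] = cj[g] F := by rw [← conj_centralizer, hs]
  obtain ⟨h, e⟩ := M.conj_A (sq_conj (sq_of_elem hF) g) (by rw [card_conj, hc]) h1 (h1 ▸ fun x hx => by
    obtain ⟨k, -, rfl⟩ := hg hx
    rw [← map_mul, M.zc, map_mul])
  exact ⟨ι h * g, by rw [mul_conj, e]⟩

end GM

namespace JD

variable {G H : Type*} [Group G] [Group H] [Finite G] {ι : H →* G} {z ω : H} {s : ℕ → H} {Λ : H →* R}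
  {M : GM ι z ω s Λ} {y g : H} {T : ℕ → H} {π : N[M.V] →* M24} {κ : M24 →* N[M.V]} (J : JD M y g T π κ)
include J

theorem T_mem_A {c : ℕ} (hc : c < 2048) :
    T c ∈ M.AH ↔ band (lany lO0 (Nat.beq (lget lW 0 ((c >>> 6) &&& 15)))) (lany lU0 (Nat.beq (c &&& 63))) = true := by
  rw [M.mem_AH, mem_Ob, J.vc.ΛT c hc, J.vc.cbT c hc, band_eq, Bool.and_eq_true, lany_beq, lany_beq]

theorem pi_A : ∀ n : N[M.V], (n : G) ∈ M.A → π n ∈ pstab OA := fun n hn => by
  have key : ∀ a ∈ OA, ∀ b ∈ OA, a ≠ b → π n • ({a, b} : Finset GolayPt) = {a, b} := fun a ha b hb h => by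
    refine J.ms.smul_duad (Finset.card_pair h) n (mem_cent1.2 (comm_of_sq M.A_sq hn (M.mem_A.2 ?_)))
    rw [J.T_mem_A (tv_lt _), mask_pair h]
    have : ∀ i < 24, ∀ j < 24, Nat.testBit 622863 i = true → Nat.testBit 622863 j = true →
      band (lany lO0 (Nat.beq (lget lW 0 ((tv (2 ^ i ^^^ 2 ^ j) >>> 6) &&& 15))))
        (lany lU0 (Nat.beq (tv (2 ^ i ^^^ 2 ^ j) &&& 63))) = true := by decide +kernel
    exact this _ (idx_lt a) _ (idx_lt b) (mem_unmask.1 ha) (mem_unmask.1 hb)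
  refine mem_pstab.2 fun a ha => ?_
  obtain ⟨b, hb, c, hc, h1, h2, h3⟩ : ∃ b ∈ OA, ∃ c ∈ OA, a ≠ b ∧ a ≠ c ∧ b ≠ c := by revert a; decide +kernel
  have e1 : π n • a ∈ ({a, b} : Finset GolayPt) := key a ha b hb h1 ▸ mem_smul24.2 (by simp)
  have e2 : π n • a ∈ ({a, c} : Finset GolayPt) := key a ha c hc h2 ▸ mem_smul24.2 (by simp)
  simp only [Finset.mem_insert, Finset.mem_singleton] at e1 e2
  exact e1.resolve_right fun e => h3 (e.symm.trans (e2.resolve_left fun e' => h1 (e'.symm.trans e)))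

theorem card_A_inf : Nat.card ↥(M.A ⊓ M.V) = 64 := by
  classical
  have h : (M.A ⊓ M.V : Subgroup G) = (fun a => ι (T a)) '' ((Finset.range (2 ^ 11)).filter fun c =>
      band (lany lO0 (Nat.beq (lget lW 0 ((c >>> 6) &&& 15)))) (lany lU0 (Nat.beq (c &&& 63))) = true : Finset ℕ) := by
    ext x
    simp only [Finset.coe_filter, Finset.mem_range, Set.mem_image, Set.mem_ofPred_eq]
    constructor
    · intro hx
      obtain ⟨a, ha, rfl⟩ := J.px.co.surj _ hx.2
      exact ⟨a, ⟨ha, (J.T_mem_A ha).1 (M.mem_A.1 hx.1)⟩, rfl⟩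
    · rintro ⟨a, ⟨ha, h⟩, rfl⟩
      exact ⟨M.mem_A.2 ((J.T_mem_A ha).2 h), J.px.co.mem a⟩
  rw [← SetLike.coe_sort_coe, Nat.card_coe_set_eq, h, Set.InjOn.ncard_image (fun a ha b hb e => J.px.co.eq
    (Finset.mem_range.1 (Finset.mem_filter.1 ha).1) (Finset.mem_range.1 (Finset.mem_filter.1 hb).1) e),
    Set.ncard_coe_finset, ← bsum_count]
  decide +kernel

theorem exists_duad20 : ∃ Y : Finset GolayPt, Y.card = 2 ∧ ι (T (tv (mask Y))) = ι (s 20) := by
  obtain ⟨Y, h1, h2⟩ := exists_duad (c := 20) (by norm_num) (by norm_num) (by decide +kernel)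
  exact ⟨Y, h1, by rw [h2, J.vc.Ts 20 (by norm_num)]⟩

theorem duad_A : ∃ b ∈ M.A, b ∉ M.V ∧ ∃ Y : Finset GolayPt, Y.card = 2 ∧ IsConj (ι (T (tv (mask Y)))) b := by
  obtain ⟨Y, h1, h2⟩ := J.exists_duad20
  obtain ⟨r, hr, e⟩ := conn_vec (by norm_num) tv2_chk (a := 1160) (by decide +kernel)
  obtain ⟨l, hl, rfl⟩ := M.lift r hr
  refine ⟨ι (s 1160), M.mem_A.2 (M.s_mem_EA prA (by decide +kernel)), fun h => ?_, Y, h1,
    h2 ▸ ι.map_isConj (isConj_iff.2 ⟨l, ?_⟩)⟩
  · have := (M.mem_VH.1 (M.mem_V.1 h)).2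
    rw [M.cb_s (by norm_num)] at this; omega
  · rw [M.conj l hl 20 (by norm_num), e, Qf_lt64 20 (by norm_num), mul_zero, pow_zero, mul_one]

theorem classes_A : ∀ b ∈ M.A, b ≠ 1 → IsConj (ι z) b ∨ ∃ Y : Finset GolayPt, Y.card = 2 ∧ IsConj (ι (T (tv (mask Y)))) b :=
  J.ms.classes_A OA_mem (elem_of_sq M.A_sq) M.card_A M.A_le_norm J.pi_A J.card_A_inf M.seven_A J.duad_A

theorem conj_inner {i : G} (hi : i * i = 1) : ∃ h, IsConj (ι h) i ∧ Λ h ∈ Wb := by
  obtain ⟨x, hx⟩ := M.conj_le_syl (T := zpowers i) (PG.isPGroup_zpowers_of_pow_eq_one (k := 1) (by rw [pow_one, pow_two, hi]))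
  obtain ⟨m, hm⟩ : ∃ m : N[M.V], (m : G) = x * i * x⁻¹ :=
    ⟨⟨_, (M.norm_V_inf.ge (hx (conj_mem_conj.2 (mem_zpowers i)))).1⟩, rfl⟩
  have key : ∀ e : H, Λ e = 1 → ∀ he : ι e ∈ N[M.V], ∀ k, π m = k * π ⟨_, he⟩ * k⁻¹ → ∃ h, IsConj (ι h) i ∧ Λ h ∈ Wb :=
    fun e h1 he k hk => by
      obtain ⟨v, hv, e2⟩ := (J.ms.ker ((⟨_, he⟩ : N[M.V])⁻¹ * ((κ k)⁻¹ * m * κ k))).1 (by
        simp only [map_mul, map_inv, J.ms.sec, hk]; group)
      refine ⟨e * v, isConj_iff.2 ⟨x⁻¹ * κ k, ?_⟩, by rw [map_mul, h1, one_mul]; exact hv.1⟩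
      rw [map_mul, e2]; simp [hm, mul_assoc]
  by_cases h1 : π m = 1
  · exact key 1 (map_one _) (by simp) 1 (by rw [h1, one_mul, inv_one, mul_one, ← map_one π]; congr 1; exact Subtype.ext (map_one ι).symm)
  have h2 : orderOf (π m) = 2 := orderOf_eq_prime (by
    rw [← map_pow, show m ^ 2 = 1 from Subtype.ext (by rw [pow_two, coe_mul, hm, conj_mul, hi]; simp), map_one]) h1
  have a2 := (J.vc.actE 0 (by norm_num)).map ι
  have b2 := J.px.code_eq (n := ⟨_, J.px.co.act_norm a2⟩) a2 (c := lget pE 0 0) (by decide +kernel)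
  have a4 := (J.vc.actE 4 (by norm_num)).map ι
  have b4 := J.px.code_eq (n := ⟨_, J.px.co.act_norm a4⟩) a4 (c := lget pE 0 4) (by decide +kernel)
  obtain ⟨l, hl⟩ := class2A (gcM.orderOf_prime (p := 2) b2 (by decide +kernel)) fun h =>
    h (pt 5) (apply_of_code b2 _ _ (by decide +kernel))
  obtain ⟨l', hl'⟩ := class2B (gcM.orderOf_prime (p := 2) b4 (by decide +kernel))
    (fixs_eq_empty.1 ((fixs_eq b4 (m := 0) (by decide +kernel)).trans unmask_zero))
  obtain ⟨k, hk | hk⟩ := class2 h2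
  · exact key _ (M.Λs (by norm_num)) _ _ (conj_of_two hl hk).symm
  · exact key _ (M.Λs (by norm_num)) _ _ (conj_of_two hl' hk).symm

theorem two_classes : ∀ i : G, orderOf i = 2 →
    IsConj (ι z) i ∨ ∃ Y : Finset GolayPt, Y.card = 2 ∧ IsConj (ι (T (tv (mask Y)))) i := fun i hi => by
  have h2 : i * i = 1 := by rw [← pow_two, ← hi, pow_orderOf_eq_one]
  obtain ⟨h, h1, h3⟩ := J.conj_inner h2
  obtain ⟨x, rfl⟩ := isConj_iff.1 h1
  obtain ⟨l, h4⟩ := M.inner_cls (h := h) (M.inj (by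
    rw [conj_mul, conj_eq_one_iff] at h2; rw [map_mul, h2, map_one])) (Wb_facts h3).2.1
  have h5 : IsConj (ι (l * h * l⁻¹)) (x * ι h * x⁻¹) := (ι.map_isConj (isConj_iff.2 ⟨l, rfl⟩)).symm.trans h1
  have h6 : ι (l * h * l⁻¹) ≠ 1 := fun e => by
    rw [e, isConj_one_right] at h5; rw [h5, orderOf_one] at hi; omega
  rcases h4 with h4 | h4
  · rcases J.ms.cases (M.mem_V.2 h4) with e | ⟨Y, a, e⟩ | ⟨X, a, e⟩
    exacts [absurd e h6, .inr ⟨Y, a, e ▸ h5⟩, .inl ((e ▸ J.ms.sext X a :).trans h5)]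
  · exact (J.classes_A _ (M.mem_A.2 h4) h6).imp (fun e => e.trans h5) fun ⟨Y, a, e⟩ => ⟨Y, a, e.trans h5⟩

end JD

end Cfsg.Agent.J4
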