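import Cfsg.Agent.J4.OF0

/-!
# Backtrack search along a stabiliser chain
-/

set_option autoImplicit false

namespace Cfsg.Agent.J4

open Cfsg.Agent.M24 Cfsg.Agent.GT Subgroup MulAction

/-- Enumeration along a chain in which a branch is dropped when `pr` says so; `m` is the mask of the base points
passed so far. -/
noncomputable def enumP (mul : ℕ → ℕ → ℕ) (pr : ℕ → ℕ → Bool) (f : ℕ → Bool) (Ls : List Lvl) : ℕ → ℕ → Bool :=
  List.rec (motive := fun _ => ℕ → ℕ → Bool) (fun _ p => f p)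
    (fun L _ ih m p => force (Nat.lor m (Nat.shiftLeft 1 L.b)) fun m' => L.t.all fun _ _ v => force (mul v p) fun q =>
      bor (pr m' q) (ih m' q)) Ls

/-- The pruning rule only drops branches without elements satisfying `P`. -/
def PrOk {G X : Type*} [Group G] [MulAction G X] (code : G → ℕ) (D : Set X) (idx : X → ℕ) (pr : ℕ → ℕ → Bool)
    (P : G → Prop) : Prop :=
  ∀ m q k, pr m (code q) = true → (∀ x ∈ D, m.testBit (idx x) = true → k • x = x) → ¬ P (k * q)

theorem PrOk.or {G X : Type*} [Group G] [MulAction G X] {code : G → ℕ} {D : Set X} {idx : X → ℕ}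
    {pr pr' : ℕ → ℕ → Bool} {P P' : G → Prop} (h : PrOk code D idx pr P) (h' : PrOk code D idx pr' P') :
    PrOk code D idx (fun m q => bor (pr m q) (pr' m q)) fun g => P g ∧ P' g := fun m q k e hk hP => by
  simp only [bor_eq, Bool.or_eq_true] at e
  exact e.elim (fun e => h m q k e hk hP.1) fun e => h' m q k e hk hP.2

theorem enumP_sound {G X : Type*} [Group G] [MulAction G X] {code : G → ℕ} {mul : ℕ → ℕ → ℕ} {inv : ℕ → ℕ}
    {one : ℕ} {D : Set X} {idx : X → ℕ} {ap : ℕ → ℕ → ℕ} (C : GC code mul inv one) (A : AC code D idx ap)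
    {pr : ℕ → ℕ → Bool} {P : G → Prop} (hp : PrOk code D idx pr P) {Ls : List Lvl} (h : ChainOk code D idx Ls)
    {f : ℕ → Bool} {m : ℕ} {p : G} (hm : ∀ g ∈ gen code (gensOf Ls), ∀ x ∈ D, m.testBit (idx x) = true → g • x = x)
    (he : enumP mul pr f Ls m (code p) = true) : ∀ g ∈ gen code (gensOf Ls), P (g * p) → f (code (g * p)) = true := by
  induction Ls generalizing p m with
  | nil =>
    intro g hg _
    have : gen code (gensOf []) = ⊥ := gen_nil
    rw [this, Subgroup.mem_bot] at hg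
    subst hg
    rw [one_mul]; exact he
  | cons L Ls ih =>
    obtain ⟨-, ⟨x₀, hx₀, hb, hok⟩, h'⟩ := h
    intro g hg hP
    obtain ⟨k, a, v, hm', w, e, hk⟩ := hok.decomp A hx₀ hg
    have h0 : force (Nat.lor m (Nat.shiftLeft 1 L.b)) (fun m' => L.t.all fun _ _ v => force (mul v (code p)) fun q =>
      bor (pr m' q) (enumP mul pr f Ls m' q)) = true := he
    rw [force_eq] at h0
    have h1 := (T.all_iff _ _).1 h0 _ _ _ hm'
    have h2 : ∀ g ∈ gen code (gensOf Ls), ∀ x ∈ D, (Nat.lor m (Nat.shiftLeft 1 L.b)).testBit (idx x) = true → g • x = x :=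
      fun g hg x hx e => by
        have e' : (m ||| 1 <<< L.b).testBit (idx x) = true := e
        rw [Nat.testBit_or, Bool.or_eq_true, Nat.one_shiftLeft, Nat.testBit_two_pow, decide_eq_true_eq] at e'
        rcases e' with e' | e'
        · exact hm g (hok.le hg) x hx e'
        · rw [A.inj hx hx₀ (e'.symm.trans hb.symm)]; exact (hok.stab g (hok.le hg)).2 hg
    have h3 : g * w⁻¹ * (w * p) = g * p := by group
    rw [force_eq, ← e, ← C.code_mul, bor_eq, Bool.or_eq_true] at h1
    rcases h1 with h1 | h1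
    · exact absurd (h3 ▸ hP) (hp _ _ _ h1 (h2 _ hk))
    · exact h3 ▸ ih h' h2 h1 _ hk (h3 ▸ hP)

/-- Pruning rule for `h * y₁ = y₂ * h`. -/
noncomputable def prC (y1 y2 m q : ℕ) : Bool :=
  nany 24 fun i => force (ap q i) fun a => band (tbt m a) (force (ap q (ap y1 i)) fun b => force (ap y2 a) fun c =>
    band (!Nat.beq b c) (bor (tbt m b) (tbt m c)))

theorem prC_ok (y1 y2 : M24) : PrOk mcode Set.univ idx (prC (mcode y1) (mcode y2)) fun h => h * y1 = y2 * h := by
  intro m q k e hk hP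
  simp only [prC, nany_iff, force_eq, band_eq, bor_eq, Bool.and_eq_true, Bool.or_eq_true, tb_eq,
    Bool.not_eq_true', ← Bool.not_eq_true, Nat.beq_eq] at e
  obtain ⟨i, hi, h1, h2, h3⟩ := e
  rw [← idx_pt hi] at h1 h2 h3
  simp only [acM.ap_code _ (Set.mem_univ _)] at h1 h2 h3
  have h4 : k • q • y1 • pt i = y2 • q • pt i := by
    rw [← mul_smul, ← mul_smul, hP, mul_smul, mul_smul, hk _ trivial h1]
  refine h2 (congrArg idx ?_)
  rcases h3 with h3 | h3
  · rw [← h4, hk _ trivial h3]
  · rw [← smul_left_cancel_iff k, h4, hk _ trivial h3]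

/-- Search for all `c` with `c * y₁ = y₂ * c`, where `y₂` is first moved to a good position by `g`. -/
noncomputable def trChk (y1 y2 g : ℕ) (f : ℕ → Bool) : Bool :=
  band (isM24 g) (force (inv g) fun gi => force (mul g (mul y2 gi)) fun y => enumP mul (prC y1 y)
    (fun q => bor (!Nat.beq (mul q y1) (mul y q)) (force (mul gi q) f)) cM 0 one)

theorem trChk_sound {y1 y2 : M24} {Y1 Y2 g : ℕ} {f : ℕ → Bool} (h1 : mcode y1 = Y1) (h2 : mcode y2 = Y2)
    (h : trChk Y1 Y2 g f = true) {c : M24} (hc : c * y1 = y2 * c) : f (mcode c) = true := by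
  subst h1 h2
  rw [trChk, band_eq, Bool.and_eq_true, force_eq, force_eq] at h
  obtain ⟨k, rfl⟩ := exists_mcode h.1
  have h3 := h.2
  rw [← gcM.code_inv, ← gcM.code_mul, ← gcM.code_mul, ← gcM.code_one] at h3
  have h4 : k * c * 1 * y1 = k * (y2 * k⁻¹) * (k * c * 1) := by rw [mul_one, mul_assoc, hc]; group
  have h5 := enumP_sound gcM acM (prC_ok y1 _) (chkM_sound cM_chk).2.1 (fun _ _ _ _ e => by simp at e) h3 (k * c)
    (gen_gM.ge trivial) h4
  rw [← gcM.code_mul, ← gcM.code_mul, h4, Nat.beq_refl, bor_eq, force_eq, ← gcM.code_mul] at h5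
  simpa using h5

end Cfsg.Agent.J4
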