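import Cfsg.Agent.M24.Tools
import Cfsg.Agent.M24.Golay

/-!
# Bit matrices of size 12 over the field with two elements, coded by natural numbers
-/

set_option autoImplicit false
set_option exponentiation.threshold 600

namespace Cfsg.Agent.J4

open Cfsg.Agent.M24

/-- Column `i` of the matrix code `c`. -/
def fld (c i : ℕ) : ℕ := Nat.land (Nat.shiftRight c (Nat.mul (nat_lit 12) i)) (nat_lit 4095)

/-- Simultaneous matrix-vector products. -/
def mv (on c d : ℕ) : ℕ :=
  (Nat.xor (Nat.xor (Nat.xor (Nat.xor (Nat.xor (Nat.xor (Nat.xor (Nat.xor (Nat.xor (Nat.xor (Nat.xor (Nat.xor (nat_lit 0)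
    (Nat.mul (Nat.land (Nat.shiftRight d (nat_lit 0)) on) (Nat.land (Nat.shiftRight c (nat_lit 0)) (nat_lit 4095))))
    (Nat.mul (Nat.land (Nat.shiftRight d (nat_lit 1)) on) (Nat.land (Nat.shiftRight c (nat_lit 12)) (nat_lit 4095))))
    (Nat.mul (Nat.land (Nat.shiftRight d (nat_lit 2)) on) (Nat.land (Nat.shiftRight c (nat_lit 24)) (nat_lit 4095))))
    (Nat.mul (Nat.land (Nat.shiftRight d (nat_lit 3)) on) (Nat.land (Nat.shiftRight c (nat_lit 36)) (nat_lit 4095))))
    (Nat.mul (Nat.land (Nat.shiftRight d (nat_lit 4)) on) (Nat.land (Nat.shiftRight c (nat_lit 48)) (nat_lit 4095))))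
    (Nat.mul (Nat.land (Nat.shiftRight d (nat_lit 5)) on) (Nat.land (Nat.shiftRight c (nat_lit 60)) (nat_lit 4095))))
    (Nat.mul (Nat.land (Nat.shiftRight d (nat_lit 6)) on) (Nat.land (Nat.shiftRight c (nat_lit 72)) (nat_lit 4095))))
    (Nat.mul (Nat.land (Nat.shiftRight d (nat_lit 7)) on) (Nat.land (Nat.shiftRight c (nat_lit 84)) (nat_lit 4095))))
    (Nat.mul (Nat.land (Nat.shiftRight d (nat_lit 8)) on) (Nat.land (Nat.shiftRight c (nat_lit 96)) (nat_lit 4095))))
    (Nat.mul (Nat.land (Nat.shiftRight d (nat_lit 9)) on) (Nat.land (Nat.shiftRight c (nat_lit 108)) (nat_lit 4095))))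
    (Nat.mul (Nat.land (Nat.shiftRight d (nat_lit 10)) on) (Nat.land (Nat.shiftRight c (nat_lit 120)) (nat_lit 4095))))
    (Nat.mul (Nat.land (Nat.shiftRight d (nat_lit 11)) on) (Nat.land (Nat.shiftRight c (nat_lit 132)) (nat_lit 4095))))

/-- Matrix times vector. -/
def lin (c a : ℕ) : ℕ := mv (nat_lit 1) c a
/-- Matrix times matrix. -/
def mm (c d : ℕ) : ℕ := mv (nat_lit 0x1001001001001001001001001001001001) c d
/-- The identity matrix. -/
def idm : ℕ := nat_lit 0x800400200100080040020010008004002001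

/-- Recursive form of `mv`. -/
def mvs (on c d : ℕ) : ℕ → ℕ
  | 0 => 0
  | n + 1 => mvs on c d n ^^^ (((d >>> n) &&& on) * fld c n)

theorem mv_eq (on c d : ℕ) : mv on c d = mvs on c d 12 := rfl

/-- A one in each of the `n` lowest fields. -/
def ons : ℕ → ℕ
  | 0 => 0
  | n + 1 => 4096 * ons n + 1

theorem fld_def (c i : ℕ) : fld c i = (c >>> (12 * i)) &&& 4095 := rfl

theorem fld_lt (c i : ℕ) : fld c i < 4096 := by
  rw [fld_def]; exact Nat.and_lt_two_pow (n := 12) _ (by norm_num)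

theorem testBit_fld (c i t : ℕ) : (fld c i).testBit t = (decide (t < 12) && c.testBit (12 * i + t)) := by
  rw [fld_def, show (4095 : ℕ) = 2 ^ 12 - 1 from rfl, Nat.testBit_and, Nat.testBit_two_pow_sub_one,
    Nat.testBit_shiftRight, Bool.and_comm]

theorem fld_xor (x y j : ℕ) : fld (x ^^^ y) j = fld x j ^^^ fld y j := by
  apply Nat.eq_of_testBit_eq; intro t
  simp only [testBit_fld, Nat.testBit_xor]
  cases decide (t < 12) <;> simp

theorem fld_zero' (j : ℕ) : fld 0 j = 0 := by simp [fld_def]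

theorem fld_zero {x : ℕ} (hx : x < 4096) (y : ℕ) : fld (4096 * y + x) 0 = x := by
  rw [fld_def, show (4095 : ℕ) = 2 ^ 12 - 1 from rfl, Nat.and_two_pow_sub_one_eq_mod]
  simp only [Nat.mul_zero, Nat.shiftRight_zero]; omega

theorem fld_succ {x : ℕ} (hx : x < 4096) (y j : ℕ) : fld (4096 * y + x) (j + 1) = fld y j := by
  rw [fld_def, fld_def, show 12 * (j + 1) = 12 + 12 * j by ring, Nat.shiftRight_add]
  congr 2
  rw [Nat.shiftRight_eq_div_pow]; omega

theorem and_ons (m n : ℕ) : m &&& ons (n + 1) = 4096 * ((m >>> 12) &&& ons n) + (m &&& 1) := by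
  have h1 : m &&& 1 < 2 ^ 12 := Nat.and_lt_two_pow _ (by norm_num)
  apply Nat.eq_of_testBit_eq; intro t
  rw [ons, Nat.testBit_and, show (4096 : ℕ) = 2 ^ 12 from rfl, Nat.testBit_two_pow_mul_add _ h1,
    Nat.testBit_two_pow_mul_add _ (show 1 < 2 ^ 12 by norm_num)]
  split_ifs with h
  · rw [Nat.testBit_and]
  · rw [Nat.testBit_and, Nat.testBit_shiftRight, show 12 + (t - 12) = t by omega]

theorem tb1 (t : ℕ) : Nat.testBit 1 (t + 1) = false := by
  rw [Nat.testBit_succ]; simp

theorem and_one_le (m : ℕ) : m &&& 1 ≤ 1 := Nat.and_le_right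

theorem fld_ons {k : ℕ} (hk : k < 4096) (n : ℕ) : ∀ m, (m &&& ons n) * k < 4096 ^ n ∧
    ∀ j < n, fld ((m &&& ons n) * k) j = ((m >>> (12 * j)) &&& 1) * k := by
  induction n with
  | zero => intro m; simp [ons]
  | succ n ih =>
    intro m
    have h1 : (m &&& 1) * k < 4096 := by have := and_one_le m; nlinarith
    have e : (m &&& ons (n + 1)) * k = 4096 * (((m >>> 12) &&& ons n) * k) + (m &&& 1) * k := by
      rw [and_ons]; ring
    obtain ⟨b1, b2⟩ := ih (m >>> 12)
    rw [e]
    refine ⟨by rw [pow_succ]; omega, fun j hj => ?_⟩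
    rcases j with _ | j
    · rw [fld_zero h1]; simp
    · rw [fld_succ h1, b2 j (by omega), ← Nat.shiftRight_add, show 12 + 12 * j = 12 * (j + 1) by ring]

theorem lin_eq (c a : ℕ) : lin c a = mvs 1 c a 12 := rfl
theorem mm_eq (c d : ℕ) : mm c d = mvs (ons 12) c d 12 := rfl

theorem mvs_lt (c d N n : ℕ) : mvs (ons N) c d n < 2 ^ (12 * N) := by
  induction n with
  | zero => simp [mvs]
  | succ n ih =>
    refine Nat.xor_lt_two_pow ih ?_
    rw [pow_mul]; exact (fld_ons (fld_lt c n) N _).1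

theorem lin_lt (c a : ℕ) : lin c a < 4096 := mvs_lt c a 1 12
theorem mm_lt (c d : ℕ) : mm c d < 2 ^ 144 := mvs_lt c d 12 12

theorem fld_mm (c d : ℕ) {j : ℕ} (hj : j < 12) : fld (mm c d) j = lin c (fld d j) := by
  rw [mm_eq, lin_eq]
  suffices h : ∀ n ≤ 12, fld (mvs (ons 12) c d n) j = mvs 1 c (fld d j) n from h 12 le_rfl
  intro n hn
  induction n with
  | zero => exact fld_zero' j
  | succ n ih =>
    rw [mvs, mvs, fld_xor, ih (by omega), (fld_ons (fld_lt c n) 12 _).2 j hj]
    congr 2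
    apply Nat.eq_of_testBit_eq; intro t
    simp only [Nat.testBit_and, Nat.testBit_shiftRight, testBit_fld]
    rcases t with _ | t
    · simp [show n < 12 by omega, Nat.add_comm]
    · simp [tb1]

theorem and_one_mul_xor (a b k : ℕ) : ((a ^^^ b) &&& 1) * k = ((a &&& 1) * k) ^^^ ((b &&& 1) * k) := by
  rw [Nat.and_xor_distrib_right]
  have ha := and_one_le a
  have hb := and_one_le b
  generalize a &&& 1 = x at *
  generalize b &&& 1 = y at *
  interval_cases x <;> interval_cases y <;> simp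

theorem lin_xor (c a b : ℕ) : lin c (a ^^^ b) = lin c a ^^^ lin c b := by
  simp only [lin_eq]
  generalize 12 = n
  induction n with
  | zero => simp [mvs]
  | succ n ih =>
    rw [mvs, mvs, mvs, ih, Nat.shiftRight_xor_distrib, and_one_mul_xor]
    simp only [Nat.xor_assoc, Nat.xor_left_comm]

theorem lin_zero (c : ℕ) : lin c 0 = 0 := by
  have := lin_xor c 0 0
  simpa using this

theorem xor_lin (c d a : ℕ) : lin (c ^^^ d) a = lin c a ^^^ lin d a := by
  simp only [lin_eq]
  generalize 12 = n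
  induction n with
  | zero => simp [mvs]
  | succ n ih =>
    rw [mvs, mvs, mvs, ih, fld_xor]
    have ha := and_one_le (a >>> n)
    generalize (a >>> n) &&& 1 = x at *
    interval_cases x <;> simp [Nat.xor_assoc, Nat.xor_left_comm]

theorem lin_pow (c : ℕ) {j : ℕ} (hj : j < 12) : lin c (2 ^ j) = fld c j := by
  rw [lin_eq]
  suffices h : ∀ n, mvs 1 c (2 ^ j) n = if j < n then fld c j else 0 by rw [h, if_pos hj]
  intro n
  induction n with
  | zero => simp [mvs]
  | succ n ih =>
    have e : (2 ^ j >>> n) &&& 1 = if j = n then 1 else 0 := by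
      apply Nat.eq_of_testBit_eq; intro t
      rw [Nat.testBit_and, Nat.testBit_shiftRight, Nat.testBit_two_pow]
      rcases t with _ | t
      · by_cases h : j = n <;> simp [h]
      · by_cases h : j = n <;> simp [h, tb1]
    rw [mvs, ih, e]
    rcases lt_trichotomy j n with h | h | h
    · simp [h, h.ne, Nat.lt_succ_of_lt h]
    · simp [h]
    · simp [h.ne', Nat.not_lt.2 h.le, Nat.not_lt.2 (Nat.succ_le_of_lt h)]

theorem lin_congr {c d : ℕ} (h : ∀ j < 12, fld c j = fld d j) (a : ℕ) : lin c a = lin d a := by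
  rw [lin_eq, lin_eq]
  suffices h : ∀ n ≤ 12, mvs 1 c a n = mvs 1 d a n from h 12 le_rfl
  intro n hn
  induction n with
  | zero => rfl
  | succ n ih => rw [mvs, mvs, ih (by omega), h n (by omega)]

theorem lin_and (c a : ℕ) : lin c (a &&& 4095) = lin c a := by
  rw [lin_eq, lin_eq]
  suffices h : ∀ n ≤ 12, mvs 1 c (a &&& 4095) n = mvs 1 c a n from h 12 le_rfl
  intro n hn
  induction n with
  | zero => rfl
  | succ n ih =>
    rw [mvs, mvs, ih (by omega)]
    congr 2
    apply Nat.eq_of_testBit_eq; intro t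
    simp only [Nat.testBit_and, Nat.testBit_shiftRight, show (4095 : ℕ) = 2 ^ 12 - 1 from rfl,
      Nat.testBit_two_pow_sub_one]
    rcases t with _ | t
    · simp [show n < 12 by omega]
    · simp [tb1]

theorem and4095_lt' (a : ℕ) : a &&& 4095 < 4096 := Nat.and_lt_two_pow (n := 12) _ (by norm_num)

theorem xor_lt12 {a b : ℕ} (ha : a < 4096) (hb : b < 4096) : a ^^^ b < 4096 :=
  Nat.xor_lt_two_pow (n := 12) ha hb

/-- Induction over vectors of length twelve. -/
theorem ind12 {P : ℕ → Prop} (h0 : P 0) (hb : ∀ i < 12, P (2 ^ i))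
    (hx : ∀ x < 4096, ∀ y < 4096, P x → P y → P (x ^^^ y)) : ∀ x < 4096, P x :=
  bits_induction (n := 12) h0 hb hx

theorem lin_mm (c d a : ℕ) : lin (mm c d) a = lin c (lin d a) := by
  rw [← lin_and (mm c d), ← lin_and d]
  refine ind12 (P := fun x => lin (mm c d) x = lin c (lin d x)) ?_ ?_ ?_ _ (and4095_lt' a)
  · simp only [lin_zero]
  · intro i hi; simp only [lin_pow _ hi, fld_mm _ _ hi]
  · intro x _ y _ h1 h2; simp only [lin_xor, h1, h2]

theorem mat_ext {c d : ℕ} (hc : c < 2 ^ 144) (hd : d < 2 ^ 144) (h : ∀ j < 12, fld c j = fld d j) :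
    c = d := by
  apply Nat.eq_of_testBit_eq; intro t
  by_cases ht : t < 144
  · have := congrArg (fun x => x.testBit (t % 12)) (h (t / 12) (by omega))
    simpa [testBit_fld, Nat.mod_lt, Nat.div_add_mod] using this
  · rw [Nat.testBit_lt_two_pow (lt_of_lt_of_le hc (Nat.pow_le_pow_right (by norm_num) (by omega))),
      Nat.testBit_lt_two_pow (lt_of_lt_of_le hd (Nat.pow_le_pow_right (by norm_num) (by omega)))]

theorem mat_ext' {c d : ℕ} (hc : c < 2 ^ 144) (hd : d < 2 ^ 144)
    (h : ∀ a < 4096, lin c a = lin d a) : c = d :=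
  mat_ext hc hd fun j hj => by
    rw [← lin_pow _ hj, ← lin_pow _ hj]
    exact h _ (Nat.pow_lt_pow_right (by norm_num) hj : 2 ^ j < 2 ^ 12)

theorem idm_lt : idm < 2 ^ 144 := by decide
theorem fld_idm : ∀ j < 12, fld idm j = 2 ^ j := by decide

theorem lin_idm {a : ℕ} (ha : a < 4096) : lin idm a = a := by
  refine ind12 (P := fun x => lin idm x = x) (lin_zero _) ?_ ?_ _ ha
  · intro i hi; rw [lin_pow _ hi, fld_idm i hi]
  · intro x _ y _ h1 h2; rw [lin_xor, h1, h2]

theorem mm_assoc (a b c : ℕ) : mm (mm a b) c = mm a (mm b c) :=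
  mat_ext' (mm_lt _ _) (mm_lt _ _) fun x _ => by simp only [lin_mm]

theorem mm_congr {c c' d d' : ℕ} (h : ∀ j < 12, fld c j = fld c' j) (h' : ∀ j < 12, fld d j = fld d' j) :
    mm c d = mm c' d' :=
  mat_ext (mm_lt _ _) (mm_lt _ _) fun j hj => by rw [fld_mm _ _ hj, fld_mm _ _ hj, h' j hj, lin_congr h]

/-- The matrix with the given columns. -/
noncomputable def mk12 (f : ℕ → ℕ) : ℕ := pack 12 12 f

theorem fld_mk12 {f : ℕ → ℕ} (hf : ∀ i < 12, f i < 4096) {j : ℕ} (hj : j < 12) : fld (mk12 f) j = f j :=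
  apw_pack (w := 12) (mk := 4095) rfl hf hj

theorem mk12_lt {f : ℕ → ℕ} (hf : ∀ i < 12, f i < 4096) : mk12 f < 2 ^ 144 := by
  apply Nat.lt_pow_two_of_testBit
  intro t ht
  by_contra h
  rw [Bool.not_eq_false] at h
  obtain ⟨i, hi, h2⟩ := (testBit_orAll 12 (fun i => Nat.shiftLeft (f i) (Nat.mul 12 i)) t).1 h
  change ((f i) <<< (12 * i)).testBit t = true at h2
  rw [Nat.testBit_shiftLeft, Bool.and_eq_true] at h2
  have := Nat.testBit_lt_two_pow (x := f i) (i := t - 12 * i)
    (lt_of_lt_of_le (hf i hi) (Nat.pow_le_pow_right (n := 2) (i := 12) (by norm_num) (by omega)))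
  rw [this] at h2; exact absurd h2.2 (by simp)

/-- An additive map on vectors of length twelve is given by a matrix. -/
theorem lin_mk12 {f : ℕ → ℕ} (hf : ∀ a < 4096, f a < 4096)
    (hx : ∀ a < 4096, ∀ b < 4096, f (a ^^^ b) = f a ^^^ f b) {a : ℕ} (ha : a < 4096) :
    lin (mk12 fun i => f (2 ^ i)) a = f a := by
  have hp : ∀ i < 12, 2 ^ i < 4096 := fun i hi => (Nat.pow_lt_pow_right (by norm_num) hi : 2 ^ i < 2 ^ 12)
  refine ind12 (P := fun x => lin (mk12 fun i => f (2 ^ i)) x = f x) ?_ ?_ ?_ _ ha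
  · have := hx 0 (by norm_num) 0 (by norm_num)
    rw [lin_zero]; simpa using this.symm
  · intro i hi; rw [lin_pow _ hi, fld_mk12 (fun i hi => hf _ (hp i hi)) hi]
  · intro x h1 y h2 e1 e2; rw [lin_xor, e1, e2, hx x h1 y h2]

/-! ### The matrix group -/

/-- Matrices. -/
@[ext] structure Mt where
  c : ℕ
  lt : c < 2 ^ 144

instance : Monoid Mt where
  mul a b := ⟨mm a.c b.c, mm_lt _ _⟩
  one := ⟨idm, idm_lt⟩
  mul_assoc a b c := Mt.ext (mm_assoc _ _ _)
  one_mul a := Mt.ext (mat_ext' (mm_lt _ _) a.lt fun x _ => by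
    change lin (mm idm a.c) x = _; rw [lin_mm, lin_idm (lin_lt _ _)])
  mul_one a := Mt.ext (mat_ext' (mm_lt _ _) a.lt fun x hx => by
    change lin (mm a.c idm) x = _; rw [lin_mm, lin_idm hx])

theorem Mt.mul_c (a b : Mt) : (a * b).c = mm a.c b.c := rfl
theorem Mt.one_c : (1 : Mt).c = idm := rfl

instance : Finite Mt :=
  Finite.of_injective (fun a : Mt => (⟨a.c, a.lt⟩ : Fin (2 ^ 144))) fun a b h =>
    Mt.ext (congrArg Fin.val h)

/-- Code of an invertible matrix: the matrix and its inverse. -/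
def ucode (g : Mtˣ) : ℕ := 2 ^ 144 * (g⁻¹ : Mtˣ).val.c + g.val.c
/-- Product of codes of invertible matrices. -/
noncomputable def umul (p q : ℕ) : ℕ :=
  Nat.add (Nat.shiftLeft (force (Nat.shiftRight q (nat_lit 144)) fun a =>
    force (Nat.shiftRight p (nat_lit 144)) fun b => mm a b) (nat_lit 144)) (mm p q)
/-- Inverse of the code of an invertible matrix. -/
def uinv (p : ℕ) : ℕ :=
  Nat.add (Nat.shiftLeft (Nat.land p (nat_lit 0xffffffffffffffffffffffffffffffffffff)) (nat_lit 144))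
    (Nat.land (Nat.shiftRight p (nat_lit 144)) (nat_lit 0xffffffffffffffffffffffffffffffffffff))
/-- Code of the identity. -/
def uone : ℕ := nat_lit 0x800400200100080040020010008004002001800400200100080040020010008004002001

theorem fld_add {c : ℕ} (hc : c < 2 ^ 144) (y : ℕ) {j : ℕ} (hj : j < 12) :
    fld (2 ^ 144 * y + c) j = fld c j := by
  apply Nat.eq_of_testBit_eq; intro t
  rw [testBit_fld, testBit_fld, Nat.testBit_two_pow_mul_add _ hc]
  by_cases h : t < 12
  · rw [if_pos (by omega)]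
  · simp [h]

theorem shr_add {c k : ℕ} (hc : c < 2 ^ k) (y : ℕ) : (2 ^ k * y + c) >>> k = y := by
  rw [Nat.shiftRight_eq_div_pow, Nat.mul_add_div (by positivity), Nat.div_eq_of_lt hc, Nat.add_zero]

theorem and_add {c k : ℕ} (hc : c < 2 ^ k) (y : ℕ) : (2 ^ k * y + c) &&& (2 ^ k - 1) = c := by
  rw [Nat.and_two_pow_sub_one_eq_mod, Nat.mul_add_mod, Nat.mod_eq_of_lt hc]

theorem ucode_lt (g : Mtˣ) : ucode g < 2 ^ 288 := by
  have h1 := g.val.lt
  have h2 := (g⁻¹ : Mtˣ).val.lt
  unfold ucode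
  rw [show (2 : ℕ) ^ 288 = 2 ^ 144 * 2 ^ 144 by norm_num]
  nlinarith

theorem umul_add (g h : Mtˣ) (x y : ℕ) :
    umul (2 ^ 288 * x + ucode g) (2 ^ 288 * y + ucode h) = ucode (g * h) := by
  have e : ∀ (g : Mtˣ) (x : ℕ), 2 ^ 288 * x + ucode g =
      2 ^ 144 * (2 ^ 144 * x + (g⁻¹ : Mtˣ).val.c) + g.val.c := fun g x => by unfold ucode; ring
  change (force (_ >>> 144) fun a => force (_ >>> 144) fun b => mm a b) <<< 144 + mm _ _ = _
  rw [force_eq, force_eq, e, e, shr_add g.val.lt, shr_add h.val.lt, Nat.shiftLeft_eq, ucode,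
    mul_inv_rev, Units.val_mul, Units.val_mul, Mt.mul_c, Mt.mul_c, mul_comm]
  rw [mm_congr (fun j hj => fld_add (h⁻¹ : Mtˣ).val.lt _ hj) fun j hj => fld_add (g⁻¹ : Mtˣ).val.lt _ hj,
    mm_congr (fun j hj => fld_add g.val.lt _ hj) fun j hj => fld_add h.val.lt _ hj]

theorem uinv_add (g : Mtˣ) (x : ℕ) : uinv (2 ^ 288 * x + ucode g) = ucode g⁻¹ := by
  have e : 2 ^ 288 * x + ucode g = 2 ^ 144 * (2 ^ 144 * x + (g⁻¹ : Mtˣ).val.c) + g.val.c := by
    unfold ucode; ring
  change (_ &&& (2 ^ 144 - 1)) <<< 144 + ((_ >>> 144) &&& (2 ^ 144 - 1)) = _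
  rw [e, shr_add g.val.lt, and_add g.val.lt, and_add (g⁻¹ : Mtˣ).val.lt, Nat.shiftLeft_eq, ucode,
    inv_inv, mul_comm]

theorem gcU : GC ucode umul uinv uone where
  inj g h e := by
    have := congrArg (· &&& (2 ^ 144 - 1)) e
    simp only [ucode, and_add g.val.lt, and_add h.val.lt] at this
    exact Units.ext (Mt.ext this)
  code_mul g h := by simpa using (umul_add g h 0 0).symm
  code_inv g := by simpa using (uinv_add g 0).symm
  code_one := by
    simp only [ucode, inv_one, Units.val_one, Mt.one_c]; decide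

theorem lin_ucode (g : Mtˣ) (x a : ℕ) : lin (2 ^ 288 * x + ucode g) a = lin g.val.c a := by
  have e : 2 ^ 288 * x + ucode g = 2 ^ 144 * (2 ^ 144 * x + (g⁻¹ : Mtˣ).val.c) + g.val.c := by
    unfold ucode; ring
  rw [e]; exact lin_congr (fun j hj => fld_add g.val.lt _ hj) a

/-- Check that a number codes an invertible matrix. -/
noncomputable def isU (p : ℕ) : Bool :=
  force (Nat.shiftRight p (nat_lit 144)) fun q => band (Nat.ble q (nat_lit 0xffffffffffffffffffffffffffffffffffff))
    (band (Nat.beq (mm p q) idm) (Nat.beq (mm q p) idm))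

theorem exists_ucode {p : ℕ} (h : isU p = true) : ∃ g, ucode g = p := by
  simp only [isU, force_eq, band_eq, Bool.and_eq_true, Nat.ble_eq, Nat.beq_eq] at h
  obtain ⟨h1, h2, h3⟩ := h
  change p >>> 144 ≤ 2 ^ 144 - 1 at h1
  change mm p (p >>> 144) = idm at h2
  change mm (p >>> 144) p = idm at h3
  have hp : p % 2 ^ 144 < 2 ^ 144 := Nat.mod_lt _ (by positivity)
  have e : p = 2 ^ 144 * (p >>> 144) + p % 2 ^ 144 := by
    rw [Nat.shiftRight_eq_div_pow, Nat.div_add_mod]
  have hf : ∀ j < 12, fld (p % 2 ^ 144) j = fld p j := fun j hj => by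
    conv_rhs => rw [e]
    rw [fld_add hp _ hj]
  refine ⟨⟨⟨p % 2 ^ 144, hp⟩, ⟨p >>> 144, by omega⟩, Mt.ext ?_, Mt.ext ?_⟩, e.symm⟩
  · exact (mm_congr hf fun _ _ => rfl).trans h2
  · exact (mm_congr (fun _ _ => rfl) hf).trans h3

instance instActU : MulAction Mtˣ (Fin 4096) where
  smul g a := ⟨lin g.val.c a, lin_lt _ _⟩
  one_smul a := Fin.ext (lin_idm a.2)
  mul_smul _ _ _ := Fin.ext (lin_mm _ _ _)

theorem acU : AC (X := Fin 4096) ucode Set.univ Fin.val lin where
  smul_mem _ _ _ := trivial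
  inj _ _ _ _ h := Fin.ext h
  ap_code g x _ := by
    have := lin_ucode g 0 x
    rw [Nat.mul_zero, Nat.zero_add] at this
    exact this

/-! ### Pairs (invertible matrix, element of `M24`) -/

/-- The ambient group of the model. -/
abbrev R : Type := Mtˣ × M24

/-- Code of a pair. -/
noncomputable def rc (r : R) : ℕ := 2 ^ 288 * mcode r.2 + ucode r.1
/-- Permutation part of a code. -/
def rp (p : ℕ) : ℕ := Nat.shiftRight p (nat_lit 288)
/-- Product of codes of pairs. -/
noncomputable def rmul (p q : ℕ) : ℕ :=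
  Nat.add (Nat.shiftLeft (force (rp p) fun a => force (rp q) fun b => mul a b) (nat_lit 288)) (umul p q)
/-- Inverse of the code of a pair. -/
noncomputable def rinv (p : ℕ) : ℕ :=
  Nat.add (Nat.shiftLeft (force (rp p) inv) (nat_lit 288)) (uinv p)
/-- Code of the identity pair. -/
def rone : ℕ := Nat.add (Nat.shiftLeft one (nat_lit 288)) uone

theorem rp_rc (r : R) : rp (rc r) = mcode r.2 := shr_add (ucode_lt _) _

theorem gcR : GC rc rmul rinv rone where
  inj g h e := by
    have h1 := congrArg rp e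
    rw [rp_rc, rp_rc] at h1
    have h2 := congrArg (· &&& (2 ^ 288 - 1)) e
    simp only [rc, and_add (ucode_lt _)] at h2
    exact Prod.ext (gcU.inj h2) (gcM.inj h1)
  code_mul g h := by
    change _ = (force (rp _) fun a => force (rp _) fun b => mul a b) <<< 288 + umul _ _
    rw [force_eq, force_eq, rp_rc, rp_rc, ← gcM.code_mul, Nat.shiftLeft_eq, mul_comm _ (2 ^ 288), rc, rc,
      rc, umul_add]
    rfl
  code_inv g := by
    change _ = (force (rp _) inv) <<< 288 + uinv _
    rw [force_eq, rp_rc, ← gcM.code_inv, Nat.shiftLeft_eq, mul_comm _ (2 ^ 288), rc, rc, uinv_add]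
    rfl
  code_one := by
    change _ = one <<< 288 + uone
    rw [Nat.shiftLeft_eq, mul_comm _ (2 ^ 288), ← gcM.code_one, ← gcU.code_one]; rfl

theorem lin_rc (r : R) (a : ℕ) : lin (rc r) a = lin r.1.val.c a := lin_ucode _ _ _

theorem lin_rc_mul (r s : R) (a : ℕ) : lin (rc (r * s)) a = lin (rc r) (lin (rc s) a) := by
  simp only [lin_rc]; exact lin_mm _ _ _

theorem lin_rc_one {a : ℕ} (ha : a < 4096) : lin (rc 1) a = a := by
  rw [lin_rc]; exact lin_idm ha

theorem lin_rc_inv (r : R) {a : ℕ} (ha : a < 4096) : lin (rc r⁻¹) (lin (rc r) a) = a := by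
  rw [← lin_rc_mul, inv_mul_cancel, lin_rc_one ha]

theorem lin_rc_inv' (r : R) {a : ℕ} (ha : a < 4096) : lin (rc r) (lin (rc r⁻¹) a) = a := by
  rw [← lin_rc_mul, mul_inv_cancel, lin_rc_one ha]

theorem lin_rc_inj (r : R) {a b : ℕ} (ha : a < 4096) (hb : b < 4096) (h : lin (rc r) a = lin (rc r) b) :
    a = b := by
  rw [← lin_rc_inv r ha, h, lin_rc_inv r hb]

/-- Check that a number codes a pair. -/
noncomputable def isR (p : ℕ) : Bool :=
  band (force (rp p) isM24) (force (Nat.land p (nat_lit 0xffffffffffffffffffffffffffffffffffffffffffffffffffffffffffffffffffffffff)) isU)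

theorem exists_rc {p : ℕ} (h : isR p = true) : ∃ r, rc r = p := by
  simp only [isR, force_eq, band_eq, Bool.and_eq_true] at h
  obtain ⟨g, hg⟩ := exists_mcode h.1
  obtain ⟨u, hu⟩ := exists_ucode h.2
  refine ⟨(u, g), ?_⟩
  change ucode u = p &&& (2 ^ 288 - 1) at hu
  change mcode g = p >>> 288 at hg
  rw [rc, hg, hu, Nat.and_two_pow_sub_one_eq_mod, Nat.shiftRight_eq_div_pow, Nat.div_add_mod]

theorem valid_rc {l : List ℕ} (h : lall l isR = true) : Valid rc l :=
  fun s hs => exists_rc ((lall_iff _ _).1 h s hs)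

/-- The pair with a given code. -/
noncomputable def relt (p : ℕ) : R := by
  classical exact if h : ∃ r, rc r = p then h.choose else 1

theorem rc_relt' {p : ℕ} (h : ∃ r, rc r = p) : rc (relt p) = p := by
  rw [relt, dif_pos h]; exact h.choose_spec

theorem rc_relt {p : ℕ} (h : isR p = true) : rc (relt p) = p := rc_relt' (exists_rc h)

theorem relt_rc (r : R) : relt (rc r) = r := gcR.inj (rc_relt' ⟨r, rfl⟩)

/-- Points: vectors (below 4096) and Golay points (from 4096 on). -/
abbrev Pt : Type := Fin 4096 ⊕ GolayPt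

instance instActR : MulAction R Pt where
  smul r x := x.map (fun a => r.1 • a) fun p => r.2 • p
  one_smul x := by
    rcases x with a | p
    · exact congrArg Sum.inl (one_smul Mtˣ a)
    · exact congrArg Sum.inr (one_smul M24 p)
  mul_smul r s x := by
    rcases x with a | p
    · exact congrArg Sum.inl (mul_smul r.1 s.1 a)
    · exact congrArg Sum.inr (mul_smul r.2 s.2 p)

/-- Index of a point. -/
def pidx : Pt → ℕ
  | .inl a => a.val
  | .inr p => 4096 + idx p
/-- Action on indices of points. -/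
noncomputable def rap (p x : ℕ) : ℕ :=
  bif' (Nat.ble (nat_lit 4096) x)
    (Nat.add (nat_lit 4096) (ap (rp p) (Nat.sub x (nat_lit 4096)))) (lin p x)

theorem acR : AC rc Set.univ pidx rap where
  smul_mem _ _ _ := trivial
  inj x _ y _ h := by
    rcases x with a | p <;> rcases y with b | q <;> simp only [pidx] at h
    · exact congrArg _ (Fin.ext h)
    · have := a.2; omega
    · have := b.2; omega
    · exact congrArg _ (idx_inj (by omega))
  ap_code r x _ := by
    rcases x with a | p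
    · have : Nat.ble (nat_lit 4096) a.val = false := by
        rw [← Bool.not_eq_true, Nat.ble_eq]; have := a.2; change ¬ 4096 ≤ _; omega
      simp only [rap, pidx, this, bif'_eq]
      exact lin_rc r a
    · have : Nat.ble (nat_lit 4096) (4096 + idx p) = true := by
        rw [Nat.ble_eq]; exact Nat.le_add_right _ _
      simp only [rap, pidx, this, bif'_eq, rp_rc, if_true]
      change 4096 + ap _ (4096 + idx p - 4096) = 4096 + idx (r.2 • p)
      rw [Nat.add_sub_cancel_left, acM.ap_code r.2 (Set.mem_univ p)]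

/-- Chain check in the ambient group. -/
noncomputable def chkR (Ls : List Lvl) : Bool :=
  band (band (Ls.all fun L => decide (L.b < 4120)) (lall (gensOf Ls) isR))
    (chainChk rmul rinv rone rap (nat_lit 4120) Ls)

theorem chkR_sound {Ls : List Lvl} (h : chkR Ls = true) :
    Valid rc (gensOf Ls) ∧ ChainOk rc Set.univ pidx Ls ∧
      Nat.card (gen rc (gensOf Ls)) = chainSize Ls ∧
      ∀ g, g ∈ gen rc (gensOf Ls) ↔ sift rmul rone rap Ls (rc g) = true := by
  simp only [chkR, band_eq, Bool.and_eq_true, List.all_eq_true, decide_eq_true_eq] at h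
  have hv := valid_rc h.1.2
  obtain ⟨h1, -, h3⟩ := chain_sound gcR acR (fun L hL => by
    have := h.1.1 L hL
    by_cases hb : L.b < 4096
    · exact ⟨.inl ⟨L.b, hb⟩, trivial, rfl⟩
    · exact ⟨.inr (pt (L.b - 4096)), trivial, by
        simp only [pidx]; rw [idx_pt (by omega)]; omega⟩) h.2 hv
  exact ⟨hv, h1, h1.card, h3⟩

theorem forall_of_enumR {Ls : List Lvl} (h : chkR Ls = true) {f : ℕ → Bool}
    (he : enum rmul f Ls rone = true) : ∀ g ∈ gen rc (gensOf Ls), f (rc g) = true :=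
  (chkR_sound h).2.1.enum_one gcR acR he

attribute [irreducible] mv rmul rinv umul

end Cfsg.Agent.J4
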