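import Cfsg.Agent.J4.EF

/-!
# Counting conjugacy classes
-/

set_option autoImplicit false
set_option linter.unusedSectionVars false

namespace Cfsg.Agent.J4

open Cfsg.Agent.M24 Cfsg.Agent.GT Subgroup MulAction

/-- The number of conjugacy classes which meet `S`. -/
noncomputable def ncl {G : Type*} [Group G] (S : Set G) : ℕ := (ConjClasses.mk '' S).ncard

section
variable {G : Type*} [Group G] [Finite G]

theorem ncl_univ : ncl (Set.univ : Set G) = Nat.card (ConjClasses G) := by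
  rw [ncl, Set.image_univ, ConjClasses.mk_surjective.range_eq, Set.ncard_univ]

theorem ncl_union {S A B : Set G} (h : ∀ g, g ∈ S ↔ g ∈ A ∨ g ∈ B) (hd : ∀ a ∈ A, ∀ b ∈ B, ¬ IsConj a b) :
    ncl S = ncl A + ncl B := by
  rw [show S = A ∪ B from Set.ext h, ncl, Set.image_union, Set.ncard_union_eq]
  · rfl
  rw [Set.disjoint_left]
  rintro _ ⟨a, ha, rfl⟩ ⟨b, hb, e⟩
  exact hd a ha b hb (ConjClasses.mk_eq_mk_iff_isConj.1 e.symm)

theorem ncl_reps {α : Type*} {S : Set G} {l : List α} (hl : l.Nodup) (r : α → G) (h1 : ∀ p ∈ l, r p ∈ S)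
    (h2 : ∀ g ∈ S, ∃ p ∈ l, IsConj (r p) g) (h3 : ∀ p ∈ l, ∀ q ∈ l, IsConj (r p) (r q) → p = q) :
    ncl S = l.length := by
  classical
  have e : ConjClasses.mk '' S = (fun p => ConjClasses.mk (r p)) '' (l.toFinset : Set α) := by
    ext c
    refine ⟨?_, ?_⟩
    · rintro ⟨g, hg, rfl⟩
      obtain ⟨p, hp, k⟩ := h2 g hg
      exact ⟨p, by simpa using hp, ConjClasses.mk_eq_mk_iff_isConj.2 k⟩
    · rintro ⟨p, hp, rfl⟩
      exact ⟨_, h1 p (by simpa using hp), rfl⟩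
  rw [ncl, e, Set.InjOn.ncard_image, Set.ncard_coe_finset, List.toFinset_card_of_nodup hl]
  exact fun p hp q hq k => h3 p (by simpa using hp) q (by simpa using hq) (ConjClasses.mk_eq_mk_iff_isConj.1 k)

theorem ncl_bij {S S' : Set G} (f : G → G) (h1 : ∀ g ∈ S, f g ∈ S') (h2 : ∀ x ∈ S', ∃ g ∈ S, IsConj (f g) x)
    (h3 : ∀ g ∈ S, ∀ k ∈ S, IsConj g k ↔ IsConj (f g) (f k)) : ncl S = ncl S' := by
  refine Set.ncard_congr (fun c hc => ConjClasses.mk (f hc.choose)) (fun c hc => ⟨_, h1 _ hc.choose_spec.1, rfl⟩)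
    (fun c d hc hd e => ?_) ?_
  · rw [← hc.choose_spec.2, ← hd.choose_spec.2, ConjClasses.mk_eq_mk_iff_isConj,
      h3 _ hc.choose_spec.1 _ hd.choose_spec.1]
    exact ConjClasses.mk_eq_mk_iff_isConj.1 e
  · rintro _ ⟨x, hx, rfl⟩
    obtain ⟨g, hg, e⟩ := h2 x hx
    have hc : ConjClasses.mk g ∈ ConjClasses.mk '' S := ⟨g, hg, rfl⟩
    refine ⟨_, hc, ConjClasses.mk_eq_mk_iff_isConj.2 (.trans ?_ e)⟩
    exact (h3 _ hc.choose_spec.1 _ hg).1 (ConjClasses.mk_eq_mk_iff_isConj.1 hc.choose_spec.2)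

theorem ncard_fiber {α β : Type*} [Finite α] (S : Set α) (f : α → β) {e : ℕ}
    (h : ∀ y ∈ S, {w | w ∈ S ∧ f w = f y}.ncard = e) : S.ncard = (f '' S).ncard * e := by
  classical
  obtain ⟨s, rfl⟩ := S.toFinite.exists_finset_coe
  rw [← Finset.coe_image, Set.ncard_coe_finset, Set.ncard_coe_finset, Finset.card_eq_sum_card_image f,
    Finset.sum_const_nat]
  intro b hb
  obtain ⟨y, hy, rfl⟩ := Finset.mem_image.1 hb
  rw [← h y hy, ← Set.ncard_coe_finset, Finset.coe_filter]; rfl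

theorem ncl_prime {p e : ℕ} (hp : p.Prime) (h : ¬ p * p ∣ Nat.card G) {x : G} (ox : orderOf x = p)
    (he : Nat.card N[zpowers x] = Nat.card C1[x] * e) : ncl {g : G | orderOf g = p} * e = p - 1 := by
  have hc : (Nat.card (zpowers x)).Prime := by rwa [Nat.card_zpowers, ox]
  have e1 : ConjClasses.mk '' {g : G | orderOf g = p} = ConjClasses.mk '' ((zpowers x : Set G) \ (⊥ : Subgroup G)) := by
    ext c
    refine ⟨?_, ?_⟩
    · rintro ⟨g, hg, rfl⟩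
      obtain ⟨k, -, e⟩ := exists_conj_pow (M := ⊤) hp trivial trivial ox hg (by rwa [card_top])
      refine ⟨k * g * k⁻¹, ⟨e ▸ conj_mem_conj.2 (mem_zpowers g), fun k1 => ?_⟩,
        ConjClasses.mk_eq_mk_iff_isConj.2 (isConj_iff.2 ⟨k, rfl⟩).symm⟩
      rw [SetLike.mem_coe, Subgroup.mem_bot, conj_eq_one_iff] at k1
      rw [k1, Set.mem_ofPred_eq, orderOf_one] at hg
      exact hp.one_lt.ne hg
    · rintro ⟨g, hg, rfl⟩
      refine ⟨g, ?_, rfl⟩
      rw [Set.mem_ofPred_eq, ← Nat.card_zpowers, ← eq_zpowers_of_card_prime hc hg.1 hg.2, Nat.card_zpowers, ox]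
  rw [ncl, e1, ← ncard_fiber, ncard_sdiff bot_le, Nat.card_zpowers, ox, card_bot]
  intro y hy
  have e2 := eq_zpowers_of_card_prime hc hy.1 hy.2
  have e3 := ncard_conj_orbit N[zpowers x] y
  have e4 : C1[y] = C1[x] := by rw [← cent_zpowers, ← e2, cent_zpowers]
  rw [e4, inf_eq_right.2 (cent_zpowers x ▸ cent_le_norm _), he] at e3
  rw [← Nat.eq_of_mul_eq_mul_left Nat.card_pos e3]
  congr 1
  ext w
  refine ⟨fun ⟨h1, h2⟩ => ?_, ?_⟩
  · obtain ⟨n, rfl⟩ := isConj_iff.1 (ConjClasses.mk_eq_mk_iff_isConj.1 h2.symm)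
    refine ⟨n, mem_normalizer_of_conj fun v hv => ?_, rfl⟩
    rw [eq_zpowers_of_card_prime hc h1.1 h1.2]
    obtain ⟨i, rfl⟩ := mem_zpowers_iff.1 (e2 ▸ hv : v ∈ zpowers y)
    exact ⟨i, conj_zpow⟩
  · rintro ⟨n, hn, rfl⟩
    exact ⟨⟨conj_mem_of_mem_norm hn hy.1, fun k => hy.2 (conj_eq_one_iff.1 k)⟩,
      ConjClasses.mk_eq_mk_iff_isConj.2 (isConj_iff.2 ⟨n, rfl⟩).symm⟩

end

/-- Certificate for the classes over one element of the quotient. -/
structure FB where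
  r : ℕ
  U : ℕ
  B : ℕ
  P : ℕ
  d : ℕ
  nx : ℕ
  rk : ℕ
  gens : List ℕ
  roots : List ℕ

/-- Check of a certificate. -/
noncomputable def fibChk (mul : ℕ → ℕ → ℕ) (one : ℕ) (mt : ℕ → ℕ) (n : ℕ) (inG : ℕ → Bool) (F : FB)
    (φ : ℕ → Bool) : Bool :=
  band (force (mt F.r) fun m => nall n fun i => force (fld F.U i) fun u => force (fld F.P i) fun p =>
      band (band (Nat.blt u (2 ^ n)) (Nat.blt p (2 ^ F.d))) (Nat.beq (Nat.xor (Nat.xor u (lin m u)) (lin F.B p)) (2 ^ i)))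
    (band (lall F.gens fun s => band (inG s) (Nat.beq (mul s F.r) (mul F.r s)))
      (ball (fun c => force (lin F.B c) fun a => bor (!φ a) (bor (lany F.roots (Nat.beq a))
        (force (force (lget F.gens one (cl F.nx c)) mt) fun s => force (lin s a) fun b => force (lin F.P b) fun c' =>
          Nat.blt (cl F.rk c') (cl F.rk c)))) F.d 0))

theorem Aff.co_conj {X Y : Type*} [Group X] [Group Y] {f : X →* Y} {co mt : X → ℕ} {e : ℕ} (A : Aff f co mt e)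
    (g x : X) : co (g * x * g⁻¹) = co g ^^^ lin (mt g) (co x) ^^^ lin (mt (g * x * g⁻¹)) (co g) := by
  rw [← A.co_mul g x, ← inv_mul_cancel_right (g * x) g, A.co_mul _ g, inv_mul_cancel_right, Nat.xor_xor_cancel_right]

/-- Affine coordinates on a subgroup `K` with a coded quotient `L`. -/
structure AX {X Y : Type*} [Group X] [Group Y] (K : Subgroup X) (f : X →* Y) (co : X → ℕ) (L : Subgroup Y)
    (code : Y → ℕ) (mul : ℕ → ℕ → ℕ) (inv : ℕ → ℕ) (one : ℕ) (mt : ℕ → ℕ) (n : ℕ) (inG : ℕ → Bool) : Prop where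
  gc : GC code mul inv one
  aff : Aff f co (fun x => mt (code (f x))) idm
  le : n ≤ 12
  lt : ∀ x, co x < 2 ^ n
  ex : ∀ a < 2 ^ n, ∀ r ∈ L, ∃ x ∈ K, co x = a ∧ f x = r
  sound : ∀ k, inG k = true → ∃ r ∈ L, code r = k

namespace AX
variable {X Y : Type*} [Group X] [Group Y] {K : Subgroup X} {f : X →* Y} {co : X → ℕ} {L : Subgroup Y}
  {code : Y → ℕ} {mul : ℕ → ℕ → ℕ} {inv : ℕ → ℕ} {one : ℕ} {mt : ℕ → ℕ} {n : ℕ} {inG : ℕ → Bool}
  (A : AX K f co L code mul inv one mt n inG)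
include A

theorem lift {d : Y} (hd : d ∈ L) : ∃ l ∈ K, f l = d ∧ ∀ x, co (l * x * l⁻¹) = lin (mt (code d)) (co x) := by
  obtain ⟨l, hl, e1, e2⟩ := A.ex 0 (by positivity) d hd
  exact ⟨l, hl, e2, fun x => by rw [A.aff.co_conj, e1, lin_zero, e2, Nat.zero_xor, Nat.xor_zero]⟩

theorem tr {u : ℕ} (hu : u < 2 ^ n) :
    ∃ t ∈ K, f t = 1 ∧ ∀ x, co (t * x * t⁻¹) = u ^^^ lin (mt (code (f x))) u ^^^ co x := by
  obtain ⟨t, ht, e1, e2⟩ := A.ex u hu 1 L.one_mem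
  refine ⟨t, ht, e2, fun x => ?_⟩
  rw [A.aff.co_conj, e1, (A.aff.mt_eq t).2 e2, lin_idm ((A.lt x).trans_le (Nat.pow_le_pow_right two_pos A.le)),
    map_mul, map_mul, map_inv, e2, one_mul, inv_one, mul_one, Nat.xor_right_comm]

theorem fib {F : FB} {φ : ℕ → Bool} (h : fibChk mul one mt n inG F φ = true) {S : X → Prop}
    (hS : ∀ g ∈ K, ∀ x, S x → S (g * x * g⁻¹)) (hφ : ∀ x, S x → code (f x) = F.r → φ (co x) = true)
    {x : X} (hx : S x) (e : code (f x) = F.r) :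
    ∃ g ∈ K, co (g * x * g⁻¹) ∈ F.roots ∧ code (f (g * x * g⁻¹)) = F.r := by
  simp only [fibChk, band_eq, Bool.and_eq_true, force_eq, nall_iff, lall_iff, Nat.blt_eq, Nat.beq_eq] at h
  obtain ⟨h1, h2, h3⟩ := h
  have k1 : ∀ a < 2 ^ n, lin F.U a < 2 ^ n ∧ lin F.P a < 2 ^ F.d ∧
      lin F.U a ^^^ lin (mt F.r) (lin F.U a) ^^^ a = lin F.B (lin F.P a) := by
    refine bits_induction (by simp [lin_zero]) (fun i hi => ?_) fun x _ y _ hx hy => ?_
    · rw [lin_pow _ (hi.trans_le A.le), lin_pow _ (hi.trans_le A.le), ← (h1 i hi).2]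
      exact ⟨(h1 i hi).1.1, (h1 i hi).1.2, Nat.xor_xor_cancel_left _ _⟩
    · simp only [lin_xor, ← hx.2.2, ← hy.2.2]
      exact ⟨Nat.xor_lt_two_pow hx.1 hy.1, Nat.xor_lt_two_pow hx.2.1 hy.2.1, by ac_rfl⟩
  have k2 : ∀ x, S x → code (f x) = F.r → ∃ t ∈ K, S (t * x * t⁻¹) ∧ code (f (t * x * t⁻¹)) = F.r ∧
      co (t * x * t⁻¹) = lin F.B (lin F.P (co x)) := fun x hx e => by
    obtain ⟨t, ht, e1, e2⟩ := A.tr (k1 _ (A.lt x)).1
    exact ⟨t, ht, hS t ht x hx, by rw [map_mul, map_mul, map_inv, e1, one_mul, inv_one, mul_one, e],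
      by rw [e2, e, (k1 _ (A.lt x)).2.2]⟩
  have k3 : ∀ m, ∀ c < 2 ^ F.d, cl F.rk c = m → ∀ x, S x → code (f x) = F.r → co x = lin F.B c →
      ∃ g ∈ K, co (g * x * g⁻¹) ∈ F.roots ∧ code (f (g * x * g⁻¹)) = F.r := by
    intro m
    induction m using Nat.strong_induction_on with
    | _ m ih =>
      rintro c hc rfl x hx e1 e2
      have h4 := ball_zero h3 c hc
      simp only [bor_eq, Bool.or_eq_true, ← e2, hφ x hx e1, Bool.not_true, Bool.false_eq_true, false_or, lany_iff,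
        Nat.beq_eq, Nat.blt_eq] at h4
      rcases h4 with ⟨a, ha, rfl⟩ | h4
      · exact ⟨1, K.one_mem, by simpa using ha, by simpa using e1⟩
      obtain ⟨d, hd, e3, e4⟩ : ∃ d ∈ L, code d = lget F.gens one (cl F.nx c) ∧ d * f x = f x * d := by
        rcases lget_mem F.gens one (cl F.nx c) with k | k
        · obtain ⟨d, hd, e3⟩ := A.sound _ (h2 _ k).1
          exact ⟨d, hd, e3, A.gc.inj (by rw [A.gc.code_mul, A.gc.code_mul, e3, e1, (h2 _ k).2])⟩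
        · exact ⟨1, L.one_mem, by rw [k, A.gc.code_one], by simp⟩
      obtain ⟨l, hl, e5, e6⟩ := A.lift hd
      obtain ⟨t, ht, s1, s2, s3⟩ := k2 _ (hS l hl x hx) (by
        rw [map_mul, map_mul, map_inv, e5, e4, mul_inv_cancel_right, e1])
      obtain ⟨g, hg, r1, r2⟩ := ih _ (by rw [← e3, ← e6] at h4; exact h4) _ (k1 _ (A.lt _)).2.1 rfl _ s1 s2 s3
      have : g * t * l * x * (g * t * l)⁻¹ = g * (t * (l * x * l⁻¹) * t⁻¹) * g⁻¹ := by group
      exact ⟨g * t * l, K.mul_mem (K.mul_mem hg ht) hl, this ▸ r1, this ▸ r2⟩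
  obtain ⟨t, ht, s1, s2, s3⟩ := k2 x hx e
  obtain ⟨g, hg, r1, r2⟩ := k3 _ _ (k1 _ (A.lt _)).2.1 rfl _ s1 s2 s3
  have : g * t * x * (g * t)⁻¹ = g * (t * x * t⁻¹) * g⁻¹ := by group
  exact ⟨g * t, K.mul_mem hg ht, this ▸ r1, this ▸ r2⟩

end AX

end Cfsg.Agent.J4
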