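import Cfsg.Agent.J4.CZ

/-!
# Groups of type `J₄`: the number of conjugacy classes
-/

set_option autoImplicit false
set_option linter.unusedSectionVars false

namespace Cfsg.Agent.J4

open Cfsg.Agent.M24 Cfsg.Agent.GT Subgroup MulAction

theorem ncl_orders {G : Type*} [Group G] [Finite G] {l : List ℕ} (hl : l.Nodup) :
    ncl {g : G | orderOf g ∈ l} = (l.map fun m => ncl {g : G | orderOf g = m}).sum := by
  induction l with
  | nil => simp [ncl]
  | cons a l ih =>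
    rw [List.nodup_cons] at hl
    rw [List.map_cons, List.sum_cons, ← ih hl.2]
    exact ncl_union (fun g => List.mem_cons) fun x hx y hy e =>
      hl.1 (by rw [← show orderOf x = a from hx, ← orderOf_isConj e]; exact hy)

theorem mem_norm_of_gen {G : Type*} [Group G] [Finite G] {a b c x : G} (ha : zpowers a = zpowers x)
    (hb : zpowers b = zpowers x) (e : c * a * c⁻¹ = b) : c ∈ N[zpowers x] :=
  mem_normalizer_of_conj fun v hv => by
    obtain ⟨i, rfl⟩ := mem_zpowers_iff.1 (ha ▸ hv : v ∈ zpowers a)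
    exact hb ▸ e ▸ ⟨i, conj_zpow⟩

theorem conj5_S5 : ∀ σ : Equiv.Perm (Fin 5), σ ^ 5 = 1 → σ ≠ 1 → ∃ τ, τ * finRotate 5 * τ⁻¹ = σ := by
  decide +kernel

theorem conj5_of_prod {G : Type*} [Group G] [Finite G] {S I C : Subgroup G} (h : IsInternalDirectProduct S I C)
    (hS : Nat.card S = 7) (φ : I ≃* Equiv.Perm (Fin 5)) {a b : G} (ha : a ∈ C) (hb : b ∈ C) (oa : orderOf a = 5)
    (ob : orderOf b = 5) : ∃ c ∈ C, c * a * c⁻¹ = b := by
  obtain ⟨h1, h2, h3, h4, h5⟩ := h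
  have key : ∀ a ∈ C, orderOf a = 5 → ∃ c ∈ C, c * φ.symm (finRotate 5) * c⁻¹ = a := fun a ha oa => by
    obtain ⟨u, hu, i, hi, rfl⟩ := (mem_sup_of_le_norm (fun x hx => mem_normalizer_of_conj fun v hv => by
      rw [h3 x hx v hv, mul_inv_cancel_right]; exact hv)).1 (h5 ▸ ha)
    have e := pow_orderOf_eq_one (u * i)
    rw [oa, Commute.mul_pow (h3 u hu i hi), mul_eq_one_iff_eq_inv] at e
    have e1 : u ^ 5 = 1 := Subgroup.mem_bot.1 (h4 ▸ mem_inf.2 ⟨S.pow_mem hu 5, e ▸ I.inv_mem (I.pow_mem hi 5)⟩)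
    have e2 : u = 1 := orderOf_eq_one_iff.1 (Nat.eq_one_of_dvd_coprimes (show Nat.Coprime 5 7 by norm_num)
      (orderOf_dvd_of_pow_eq_one e1) (hS ▸ S.orderOf_dvd_natCard hu))
    rw [e2, one_mul] at oa ⊢
    obtain ⟨τ, e3⟩ := conj5_S5 (φ ⟨i, hi⟩)
      (by rw [← map_pow, show (⟨i, hi⟩ : I) ^ 5 = 1 from Subtype.ext (oa ▸ pow_orderOf_eq_one i), map_one])
      fun k => by simp [show i = 1 from congrArg Subtype.val ((map_eq_one_iff φ φ.injective).1 k)] at oa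
    refine ⟨φ.symm τ, h2 (φ.symm τ).2, ?_⟩
    simpa using congrArg (fun σ => (φ.symm σ : G)) e3
  obtain ⟨c, hc, rfl⟩ := key a ha oa
  obtain ⟨d, hd, rfl⟩ := key b hb ob
  exact ⟨d * c⁻¹, C.mul_mem hd (C.inv_mem hc), by group⟩

namespace HM
variable {H : Type*} [Group H] [Finite H] {z ω : H} {s : ℕ → H} {Λ : H →* R} (M : HM z ω s Λ)
include M

theorem orderOf_Λ {h : H} (o : Odd (orderOf h)) : orderOf (Λ h) = orderOf h := by
  refine (orderOf_map_dvd Λ h).antisymm ((Nat.Coprime.pow_right 2 (Nat.coprime_two_right.2 o)).dvd_of_dvd_mul_right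
    (orderOf_dvd_of_pow_eq_one ?_))
  rw [pow_mul, show 2 ^ 2 = 2 * 2 from rfl, pow_mul, pow_two, pow_two,
    M.sq_ker (c := h ^ orderOf (Λ h)) (by rw [map_pow, pow_orderOf_eq_one]), M.zp_sq]

theorem At.ord {i : ℕ} (hi : i < 27) {x : H} (h : M.At i x) : (i = 2 → orderOf (Λ x) = 3) ∧
    (orderOf (Λ x) % 2 = 1 → 3 ∣ orderOf (Λ x) → i ∈ [2, 5, 6, 10, 17, 25] ∨ orderOf (Λ x) = 3) := by
  have h1 := (nall_iff _ _).1 (show nall 27 (fun i => force (force (lget lZr 0 i) lo) fun k =>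
    force (ordL idm k 40 k 1) fun n => decide (n ≠ 0 ∧ (i = 2 → n = 3) ∧
      (n % 2 = 1 → 3 ∣ n → i ∈ [2, 5, 6, 10, 17, 25] ∨ n = 3))) = true by decide +kernel) i hi
  simp only [force_eq, decide_eq_true_eq, ← h.2] at h1
  rw [M.aff.ord x 40 h1.1]; exact h1.2

theorem At.pow385 {i : ℕ} (hi : i ∈ [2, 5, 6, 10, 17, 25]) {x : H} (h : M.At i x) (hz : z ∈ zpowers x) :
    (x * z) ^ 385 = ω ∨ (x * z) ^ 385 = ω * ω := by
  have h1 := (lall_iff _ _).1 (show lall [2, 5, 6, 10, 17, 25] (fun i => force (lget lZr 0 i) fun r =>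
    force (cpow rmul rone r 5) fun a => force (cpow rmul rone a 7) fun b => force (cpow rmul rone b 11) fun c =>
      band (Nat.beq (lget lZa 0 i) 0) (bor (Nat.beq c kW) (Nat.beq c kW2))) = true by decide +kernel) i hi
  simp only [force_eq, band_eq, bor_eq, Bool.and_eq_true, Bool.or_eq_true, Nat.beq_eq, ← h.1, ← h.2, gcR.cpow_code,
    ← pow_mul, ← map_pow, ← rc_rW, ← rc_rW2, gcR.inj.eq_iff, ← M.Λω, ← map_mul] at h1
  have h2 := M.cb_norm (pow_mem (M.mem_norm_of_cb h1.1) (5 * 7 * 11))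
  have key : ∀ w ∈ N[zpowers ω], w ^ 3 = 1 → Λ (x ^ (5 * 7 * 11)) = Λ w → (x * z) ^ 385 = w := fun w hw h3 e => by
    rcases M.eq_of_crd (h2.trans (M.cb_norm hw).symm) e with k | k
    · obtain ⟨j, e⟩ := mem_powers_iff_mem_zpowers.2 hz
      have h4 : z ^ (5 * 7 * 11 * 3) = 1 := by rw [← e, ← pow_mul, mul_comm j, pow_mul, pow_mul, k, h3, one_pow]
      rw [show 5 * 7 * 11 * 3 = 2 * 577 + 1 from rfl, pow_succ, pow_mul, pow_two, M.zz, one_pow, one_mul] at h4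
      exact absurd h4 M.ne
    · rw [Commute.mul_pow (M.zc x), show x ^ 385 = w * z from k, show 385 = 2 * 192 + 1 from rfl, pow_succ, pow_mul,
        pow_two, M.zz, one_pow, one_mul, mul_assoc, M.zz, mul_one]
  exact h1.2.imp (key ω HM.ω_mem M.ω3)
    (key _ (mul_mem HM.ω_mem HM.ω_mem) (by rw [← pow_two, ← pow_mul, mul_comm, pow_mul, M.ω3, one_pow]))

end HM

namespace JD
variable {G H : Type*} [Group G] [Group H] [Finite G] {ι : H →* G} {z ω : H} {s : ℕ → H} {Λ : H →* R}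
  {M : GM ι z ω s Λ} {y g : H} {T : ℕ → H} {π : N[M.V] →* M24} {κ : M24 →* N[M.V]} (J : JD M y g T π κ)
include J

theorem ord_z : orderOf (ι z) = 2 := orderOf_eq_prime (by rw [pow_two]; exact J.mc.z_sq) J.ms.z_ne_one

theorem ncl_z : ncl {g : G | ∃ j ∈ zpowers g, IsConj (ι z) j} = 27 := by
  have := M.finH
  obtain ⟨lc, D, -⟩ := J.exists_kd
  choose! x hx using fun i hi => M.toHM.exists_rep D.hO (i := i) hi
  exact ncl_invol ι M.inj J.ord_z M.range_eq_cent.ge x (fun p hp => (hx p hp).2) (fun _ => M.toHM.z_cover D.hO hx)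
    fun p hp q hq c _ e => M.toHM.z_lower D.hO hp hq (hx p hp).1 (e ▸ (hx q hq).1)

theorem ncl_three : ncl {g : G | Odd (orderOf g) ∧ 3 ∣ orderOf g} = 6 := by
  have := M.finH
  obtain ⟨lc, D, -⟩ := J.exists_kd
  choose! x hx using fun i hi => M.toHM.exists_rep D.hO (i := i) hi
  have lt : ∀ p ∈ [2, 5, 6, 10, 17, 25], p < 27 := by decide
  have o3 : orderOf (ι ω) = 3 := (orderOf_injective ι M.inj ω).trans M.orderOf_ω
  have k1 : ∀ p ∈ [2, 5, 6, 10, 17, 25], zpowers (ι (x p * z) ^ 385) = zpowers (ι ω) := fun p hp => by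
    rw [← map_pow]
    rcases (hx p (lt p hp)).1.pow385 _ hp (hx p (lt p hp)).2 with e | e <;> rw [e]
    refine (eq_zpowers_of_card_prime (by rw [Nat.card_zpowers, o3]; norm_num)
      (map_mul ι ω ω ▸ mul_mem (mem_zpowers _) (mem_zpowers _)) fun k => ?_).symm
    have := orderOf_dvd_of_pow_eq_one (n := 2) (by rw [pow_two, ← map_mul, k] : ι ω ^ 2 = 1)
    rw [o3] at this
    omega
  have k2 : ∀ p ∈ [2, 5, 6, 10, 17, 25], Odd (orderOf (ι (x p * z))) ∧ 3 ∣ orderOf (ι (x p * z)) := fun p hp => by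
    have e : orderOf (ι (x p * z) ^ 385) = 3 := by rw [← Nat.card_zpowers, k1 p hp, Nat.card_zpowers, o3]
    exact ⟨Odd.of_dvd_nat (by decide) (orderOf_dvd_of_pow_eq_one (n := 385 * 3) (by
      rw [pow_mul, ← e, pow_orderOf_eq_one])), e ▸ orderOf_pow_dvd 385⟩
  have cz : ∀ c a : H, c * (a * z) * c⁻¹ = c * a * c⁻¹ * z := fun c a => by
    rw [← mul_assoc, mul_assoc _ z, ← M.zc, mul_assoc, mul_assoc, mul_assoc]
  refine ncl_reps (l := [2, 5, 6, 10, 17, 25]) (by decide) (fun p => ι (x p * z)) k2 ?_ fun p hp q hq e => ?_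
  · rintro g ⟨h1, h2⟩
    obtain ⟨c, e⟩ := isConj_iff.1 (J.conj_ω3 (orderOf_pow_orderOf_div (orderOf_pos g).ne' h2)).symm
    obtain ⟨h, e1⟩ := M.surj (c * g * c⁻¹) (J.cent_ω (by rw [← e]; group))
    have h3 : IsConj (ι h) g := (isConj_iff.2 ⟨c, e1.symm⟩).symm
    have h4 : orderOf h = orderOf g := by rw [orderOf_isConj h3, orderOf_injective ι M.inj]
    obtain ⟨i, hi, h5⟩ := M.toHM.z_cover D.hO hx (y := h * z) ⟨orderOf h, by
      obtain ⟨k, e⟩ := h4 ▸ h1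
      simp only [zpow_natCast]
      rw [Commute.mul_pow (M.zc h), pow_orderOf_eq_one, one_mul, e, pow_succ, pow_mul, pow_two, M.zz, one_pow, one_mul]⟩
    obtain ⟨d, e2⟩ := isConj_iff.1 h5
    have h6 : orderOf (Λ (x i)) = orderOf g := by
      rw [← orderOf_isConj (Λ.map_isConj h5), map_mul, M.Λz, mul_one, M.orderOf_Λ (h4 ▸ h1), h4]
    rcases ((hx i hi).1.ord _ hi).2 (h6 ▸ Nat.odd_iff.1 h1) (h6 ▸ h2) with k | k
    · exact ⟨i, k, (ι.map_isConj (isConj_iff.2 ⟨d, by rw [cz, e2, mul_assoc, M.zz, mul_one]⟩)).trans h3⟩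
    · refine ⟨2, by simp, (J.conj_ω3 ?_).symm.trans (J.conj_ω3 (h6 ▸ k))⟩
      have := (k2 2 (by simp)).1
      rw [orderOf_injective ι M.inj] at this ⊢
      rw [← M.orderOf_Λ this, map_mul, M.Λz, mul_one]
      exact ((hx 2 (by norm_num)).1.ord _ (by norm_num)).1 rfl
  · obtain ⟨c, e⟩ := isConj_iff.1 e
    obtain ⟨c, rfl⟩ := M.surj c (J.norm_ω (mem_norm_of_gen (k1 p hp) (k1 q hq) (by rw [← conj_pow, e])))
    rw [← map_inv, ← map_mul, ← map_mul, M.inj.eq_iff, cz, mul_left_inj] at e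
    exact M.toHM.z_lower D.hO (lt p hp) (lt q hq) (hx p (lt p hp)).1 (e ▸ (hx q (lt q hq)).1)

theorem ncl5 : ncl {g : G | orderOf g = 5} = 1 := by
  obtain ⟨q, ψ, P⟩ := J.exists_pt
  obtain ⟨u, -, -, -, -, h⟩ := J.norm5 P
  have := ncl_prime (e := 4) (by norm_num) (by rw [J.card_G]; norm_num) P.ordx (by rw [h, J.card_c5 _ P.ordx])
  omega

theorem ncl7 : ncl {g : G | orderOf g = 7} = 2 := by
  obtain ⟨q, ψ, P⟩ := J.exists_pt
  have := ncl_prime (e := 3) (by norm_num) (by rw [J.card_G]; norm_num) J.ord_x7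
    (by rw [(J.norm7 P).2, J.card_c7 _ J.ord_x7])
  omega

theorem ncl35 : ncl {g : G | orderOf g = 35} = 2 := by
  obtain ⟨q, ψ, P⟩ := J.exists_pt
  have o7 : ∀ g : G, orderOf g = 35 → orderOf (g ^ 15) = 7 := fun g h => by rw [orderOf_pow, h]; rfl
  have o5 : ∀ g : G, orderOf g = 35 → orderOf (g ^ 21) = 5 := fun g h => by rw [orderOf_pow, h]; rfl
  have sp : ∀ g : G, orderOf g = 35 → g ^ 15 * g ^ 21 = g := fun g h => by
    rw [← pow_add, show 15 + 21 = 35 + 1 from rfl, pow_succ, ← h, pow_orderOf_eq_one, one_mul]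
  have cm : ∀ g : G, g ^ 21 ∈ C[zpowers (g ^ 15)] := fun g => by
    rw [cent_zpowers]; exact mem_cent1.2 (Commute.pow_pow_self g 21 15)
  rw [← J.ncl7]
  refine ncl_bij (· ^ 15) o7 (fun x hx => ?_) fun a ha b hb => ⟨fun e => e.pow 15, fun e => ?_⟩
  · have := Fact.mk Nat.prime_five
    obtain ⟨u, hu⟩ := exists_prime_orderOf_dvd_card' (G := C1[x]) 5 (by rw [J.card_c7 x hx]; norm_num)
    rw [← orderOf_coe] at hu
    have hc : Commute x u := (mem_cent1.1 u.2).symm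
    refine ⟨x * u, by
      rw [Set.mem_ofPred_eq, hc.orderOf_mul_eq_mul_orderOf_of_coprime (by rw [hx, hu]; norm_num), hx, hu], ?_⟩
    rw [hc.mul_pow, show (u : G) ^ 15 = 1 from orderOf_dvd_iff_pow_eq_one.1 (by rw [hu]; norm_num), mul_one,
      show 15 = 7 * 2 + 1 from rfl, pow_succ, pow_mul, ← show orderOf x = 7 from hx, pow_orderOf_eq_one, one_pow, one_mul]
  · obtain ⟨c, e⟩ := isConj_iff.1 e
    have hc : IsConj a (c * a * c⁻¹) := isConj_iff.2 ⟨c, rfl⟩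
    have ho : orderOf (c * a * c⁻¹) = 35 := (orderOf_isConj hc).trans ha
    rw [← conj_pow] at e
    have hS : Nat.card (zpowers (b ^ 15)) = 7 := by rw [Nat.card_zpowers, o7 b hb]
    obtain ⟨-, ⟨I, hI, ⟨φ⟩⟩, -⟩ := J.seven_local P hS
    obtain ⟨d, hd, e1⟩ := conj5_of_prod hI hS φ (e ▸ cm _) (cm b) (o5 _ ho) (o5 _ hb)
    rw [cent_zpowers, mem_cent1] at hd
    refine hc.trans (isConj_iff.2 ⟨d, ?_⟩)
    rw [← sp _ ho, e, ← mul_assoc, hd, mul_assoc, mul_assoc, ← mul_assoc d, e1, sp b hb]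

variable (hG : ∀ g : M24, g * g = 1 → g ≠ 1 → J.mc.Good g)
include hG

theorem ncl11 : ncl {g : G | orderOf g = 11} = 2 := by
  obtain ⟨a, b, ha, hb, h1, h2⟩ := J.two11 hG J.card_c5 J.card_c7
  refine ncl_reps (l := [a, b]) (by simpa using fun e : a = b => h1 (e ▸ .refl _)) id (by simp [ha, hb])
    (fun g hg => (h2 g hg).elim (fun k => ⟨a, by simp, k.symm⟩) fun k => ⟨b, by simp, k.symm⟩) fun p hp q hq e => ?_
  simp only [List.mem_cons, List.not_mem_nil, or_false] at hp hq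
  rcases hp with rfl | rfl <;> rcases hq with rfl | rfl
  exacts [rfl, absurd e h1, absurd e.symm h1, rfl]

theorem ncl_big {p : ℕ} (hp : p ∈ lP) : ∃ e, ncl {g : G | orderOf g = p} * e = p - 1 ∧
    (p, e) ∈ [(23, 22), (29, 28), (31, 10), (37, 12), (43, 14)] := by
  obtain ⟨h1, h2, -, -, -, -, h3⟩ := lP_facts hp
  have := Fact.mk h1
  obtain ⟨x, ox⟩ := exists_prime_orderOf_dvd_card' (G := G) p (by rwa [J.card_G])
  obtain ⟨h4, e, h5, h6⟩ := J.big hG J.card_c7 hp ox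
  exact ⟨e, ncl_prime h1 (by rwa [J.card_G]) ox (by rw [h4, Nat.card_zpowers, ox, h5]), h6⟩

theorem odd_orders {a : G} (h2 : Odd (orderOf a)) (h3 : ¬ 3 ∣ orderOf a) :
    orderOf a ∈ [1, 5, 7, 11, 23, 29, 31, 35, 37, 43] := by
  have key : ∀ p, p ∣ orderOf a → ∃ u : G, orderOf u = p ∧ orderOf a ∣ Nat.card C1[u] := fun p hp =>
    ⟨_, orderOf_pow_orderOf_div (orderOf_pos a).ne' hp,
      Subgroup.orderOf_dvd_natCard _ (mem_cent1.2 (Commute.self_pow a _))⟩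
  have big : ∀ p ∈ lP, p ∣ orderOf a → orderOf a = p := fun p hp h => by
    obtain ⟨u, ou, e⟩ := key p h
    rw [(J.big hG J.card_c7 hp ou).1, Nat.card_zpowers, ou] at e
    exact e.antisymm h
  have dv : ∀ k m, orderOf a ∣ 2 ^ k * (3 * m) → orderOf a ∣ m := fun k m h =>
    ((Nat.prime_three.coprime_iff_not_dvd.2 h3).symm).dvd_of_dvd_mul_left
      ((Nat.Coprime.pow_right k (Nat.coprime_two_right.2 h2)).dvd_of_dvd_mul_left h)
  have d35 : orderOf a ∣ 35 → orderOf a ∈ [1, 5, 7, 11, 23, 29, 31, 35, 37, 43] := fun h =>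
    (show ∀ n ∈ Nat.divisors 35, n ∈ [1, 5, 7, 11, 23, 29, 31, 35, 37, 43] by decide) _ (Nat.mem_divisors.2 ⟨h, by norm_num⟩)
  by_cases h : ∀ {q : ℕ}, q.Prime → q ∣ orderOf a → q = 11
  · have := Fact.mk Nat.prime_eleven
    obtain ⟨U, hU⟩ := (IsPGroup.of_card (Nat.card_zpowers a ▸
      Nat.eq_prime_pow_of_unique_prime_dvd (orderOf_pos a).ne' h)).exists_le_sylow
    have e := Monoid.pow_exponent_eq_one (⟨a, hU (mem_zpowers a)⟩ : (U : Subgroup G))
    rw [(J.syl11 hG J.card_c5 U).2.2.1] at e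
    rcases (Nat.dvd_prime Nat.prime_eleven).1 (orderOf_dvd_of_pow_eq_one (congrArg Subtype.val e : a ^ 11 = 1)) with
      k | k <;> simp [k]
  push Not at h
  obtain ⟨q, hq, h4, h5⟩ := h
  rcases primes_J4 hq (J.card_G ▸ h4.trans (orderOf_dvd_natCard a)) with
    rfl | rfl | rfl | rfl | rfl | rfl | rfl | rfl | rfl | rfl
  · exact absurd h4 h2.not_two_dvd_nat
  · exact absurd h4 h3
  · obtain ⟨u, ou, e⟩ := key 5 h4
    exact d35 (dv 6 35 (e.trans (by rw [J.card_c5 u ou]; norm_num)))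
  · obtain ⟨u, ou, e⟩ := key 7 h4
    exact d35 (dv 3 35 (e.trans (by rw [J.card_c7 u ou]; norm_num)))
  · exact absurd rfl h5
  all_goals simp [big _ (by decide) h4]

theorem card_classes : Nat.card (ConjClasses G) = 62 := by
  have ev : ∀ {i a : G}, orderOf i = 2 → (∃ j ∈ zpowers a, IsConj i j) → ¬ Odd (orderOf a) := fun hi ⟨j, hj, e⟩ o =>
    o.not_two_dvd_nat (((orderOf_isConj e).trans hi) ▸ orderOf_dvd_of_mem_zpowers hj)
  have ot : orderOf (ι (T 1458)) = 2 := orderOf_eq_prime (by rw [pow_two]; exact J.mc.px.co.sq 1458) J.mc.t_ne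
  have h1 : ncl {g : G | orderOf g = 1} = 1 := ncl_reps (l := [(1 : G)]) (by simp) id (by simp) (by simp) (by simp)
  have h2 : ncl {g : G | Odd (orderOf g)} = 25 := by
    rw [ncl_union (S := {g | Odd (orderOf g)}) (A := {g | Odd (orderOf g) ∧ 3 ∣ orderOf g})
      (B := {g | orderOf g ∈ [1, 5, 7, 11, 23, 29, 31, 35, 37, 43]})
      (fun a => ⟨fun h => (em _).imp (fun k => ⟨h, k⟩) (J.odd_orders hG h), fun h => h.elim (·.1)
        ((show ∀ n ∈ [1, 5, 7, 11, 23, 29, 31, 35, 37, 43], Odd n by decide) _)⟩)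
      fun a ha b hb e => (show ∀ n ∈ [1, 5, 7, 11, 23, 29, 31, 35, 37, 43], ¬ 3 ∣ n by decide) _ hb
        (orderOf_isConj e ▸ ha.2), J.ncl_three, ncl_orders (by decide)]
    obtain ⟨e1, a1, b1⟩ := J.ncl_big hG (p := 23) (by decide)
    obtain ⟨e2, a2, b2⟩ := J.ncl_big hG (p := 29) (by decide)
    obtain ⟨e3, a3, b3⟩ := J.ncl_big hG (p := 31) (by decide)
    obtain ⟨e4, a4, b4⟩ := J.ncl_big hG (p := 37) (by decide)
    obtain ⟨e5, a5, b5⟩ := J.ncl_big hG (p := 43) (by decide)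
    simp at b1 b2 b3 b4 b5
    subst b1 b2 b3 b4 b5
    simp only [List.map_cons, List.map_nil, List.sum_cons, List.sum_nil, h1, J.ncl5, J.ncl7, J.ncl11 hG, J.ncl35]
    omega
  rw [← ncl_univ, ncl_union (S := Set.univ) (A := {g | Odd (orderOf g)}) (B := {g | ¬ Odd (orderOf g)})
    (fun g => iff_of_true trivial (em _))
    fun a ha b hb e => hb (orderOf_isConj e ▸ ha), h2,
    ncl_union (S := {g | ¬ Odd (orderOf g)}) (A := {g | ∃ j ∈ zpowers g, IsConj (ι z) j})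
    (B := {g | ∃ j ∈ zpowers g, IsConj (ι (T 1458)) j}) (fun a => ⟨fun h => ?_, fun h => h.elim (ev J.ord_z) (ev ot)⟩) ?_,
    J.ncl_z, J.mc.ncl_t]
  · rintro a ⟨i, hi, e1⟩ b ⟨j, hj, e2⟩ e
    obtain ⟨c, rfl⟩ := isConj_iff.1 e
    have e3 : IsConj (ι z) (c * i * c⁻¹) := (isConj_conj c).2 e1
    rw [invol_unique ((orderOf_isConj e3).trans J.ord_z) ((orderOf_isConj e2).trans ot) (mem_zpowers_conj.2 hi) hj] at e3
    exact J.mc.hnc (e3.trans e2.symm)
  · exact (J.hcl _ (orderOf_pow_orderOf_div (orderOf_pos a).ne' (Nat.not_odd_iff_even.1 h).two_dvd)).imp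
      (fun k => ⟨_, npow_mem_zpowers _ _, k⟩) fun k => ⟨_, npow_mem_zpowers _ _, k⟩

end JD

end Cfsg.Agent.J4
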