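import Cfsg.Agent.J4.MS
import Cfsg.Agent.M24.Fixed
import Cfsg.Agent.Cls.Four

/-!
# First consequences of the structure `2¹¹ : M₂₄`
-/

set_option autoImplicit false
set_option linter.unusedSectionVars false
set_option linter.unusedVariables false

namespace Cfsg.Agent.J4

open Cfsg.Agent.M24 Cfsg.Agent.GT Subgroup
open scoped Pointwise symmDiff

theorem even_symmDiff {X Y : Finset GolayPt} (hX : Even X.card) (hY : Even Y.card) :
    Even (X ∆ Y).card := by
  have := card_symmDiff_add X Y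
  obtain ⟨a, ha⟩ := hX
  obtain ⟨b, hb⟩ := hY
  exact ⟨a + b - (X ∩ Y).card, by omega⟩

theorem even_of_symmDiff {X Y : Finset GolayPt} (hX : Even X.card) (hY : Even (X ∆ Y).card) :
    Even Y.card := by
  have := even_symmDiff hX hY
  rwa [symmDiff_symmDiff_cancel_left] at this

theorem odd_symmDiff_odd {X Y : Finset GolayPt} (hX : ¬ Even X.card) (hY : ¬ Even Y.card) :
    Even (X ∆ Y).card := by
  have := card_symmDiff_add X Y
  rw [Nat.not_even_iff_odd] at hX hY
  obtain ⟨a, ha⟩ := hX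
  obtain ⟨b, hb⟩ := hY
  exact ⟨a + b + 1 - (X ∩ Y).card, by omega⟩

theorem cw_even {X : Finset GolayPt} (h : IsCw X) : Even X.card := by
  obtain ⟨k, hk⟩ := h.four_dvd
  exact ⟨2 * k, by omega⟩

theorem card_smul24 (g : M24) (X : Finset GolayPt) : (g • X).card = X.card := by
  rw [M24_smul_def]; exact Finset.card_smul_finset _ _

theorem smul_symmDiff24 (g : M24) (X Y : Finset GolayPt) : g • (X ∆ Y) = (g • X) ∆ (g • Y) :=
  M24.smul_symmDiff _ _ _

theorem mem_smul24 {g : M24} {X : Finset GolayPt} {a : GolayPt} : g • a ∈ g • X ↔ a ∈ X :=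
  Finset.smul_mem_smul_finset_iff _

theorem card_symmDiff_le (X Y : Finset GolayPt) : (X ∆ Y).card ≤ X.card + Y.card := by
  have := card_symmDiff_add X Y
  omega

/-- a codeword with fewer than four points off an octad lies in the octad -/
theorem cw_subset_oct {c o : Finset GolayPt} (hc : IsCw c) (ho : o ∈ octads)
    (h : (c \ o).card < 4) : c ⊆ o := by
  obtain ⟨ho1, ho8⟩ := mem_octads.1 ho
  have e1 := card_symmDiff_add c o
  have e2 := Finset.card_sdiff_add_card_inter c o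
  by_cases h8 : c.card < 8
  · rw [hc.eq_empty h8]; exact Finset.empty_subset _
  · have : c ∆ o = ∅ := (hc.symmDiff ho1).eq_empty (by omega)
    rw [← Finset.bot_eq_empty, symmDiff_eq_bot] at this
    exact this.le

variable {G : Type*} [Group G] {z : G} {V : Subgroup G} {π : N[V] →* M24} {κ : M24 →* N[V]}
  {T : Finset GolayPt → G}

namespace MS

variable (h : MS z V π κ T)
include h

theorem T_empty : T ∅ = 1 := (h.T_one ∅ (by simp)).2 isCw_empty

theorem T_sq (X : Finset GolayPt) : T X * T X = 1 := by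
  rw [← h.T_mul, symmDiff_self, Finset.bot_eq_empty, h.T_empty]

theorem T_inv (X : Finset GolayPt) : (T X)⁻¹ = T X := inv_eq_of_mul_eq_one_right (h.T_sq X)

theorem T_comm (X Y : Finset GolayPt) : T X * T Y = T Y * T X := by
  rw [← h.T_mul, ← h.T_mul, symmDiff_comm]

theorem T_cw {X : Finset GolayPt} (hX : IsCw X) : T X = 1 := (h.T_one X (cw_even hX)).2 hX

theorem T_eq_iff {X Y : Finset GolayPt} (hX : Even X.card) (hY : Even Y.card) :
    T X = T Y ↔ IsCw (X ∆ Y) := by
  rw [← h.T_one _ (even_symmDiff hX hY), h.T_mul, mul_eq_one_iff_eq_inv, h.T_inv]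

theorem T_inj_small {X Y : Finset GolayPt} (hX : Even X.card) (hY : Even Y.card)
    (hc : X.card + Y.card < 8) (e : T X = T Y) : X = Y := by
  have := ((h.T_eq_iff hX hY).1 e).eq_empty ((card_symmDiff_le X Y).trans_lt hc)
  rwa [← Finset.bot_eq_empty, symmDiff_eq_bot] at this

theorem T_inj_duad {X Y : Finset GolayPt} (hX : X.card = 2) (hY : Y.card = 2)
    (e : T X = T Y) : X = Y :=
  h.T_inj_small (by simp [hX]) (by simp [hY]) (by omega) e

theorem T_ne_one {X : Finset GolayPt} (hX : Even X.card) (h0 : 0 < X.card) (h8 : X.card < 8) :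
    T X ≠ 1 := by
  intro e
  rw [((h.T_one X hX).1 e).eq_empty h8] at h0
  simp at h0

theorem comm {a b : G} (ha : a ∈ V) (hb : b ∈ V) : a * b = b * a := by
  obtain ⟨X, -, rfl⟩ := h.T_surj a ha
  obtain ⟨Y, -, rfl⟩ := h.T_surj b hb
  exact h.T_comm X Y

theorem sq {a : G} (ha : a ∈ V) : a * a = 1 := by
  obtain ⟨X, -, rfl⟩ := h.T_surj a ha
  exact h.T_sq X

theorem elemAb : IsElementaryAbelian 2 V :=
  ⟨⟨⟨fun a b => Subtype.ext (h.comm a.2 b.2)⟩⟩, fun a ha => by rw [pow_two, h.sq ha]⟩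

theorem le_cent1 {a : G} (ha : a ∈ V) : V ≤ C1[a] := fun b hb => mem_cent1.2 (h.comm hb ha)

/-- every element of `V` is trivial, a duad element or a sextet element -/
theorem cases {v : G} (hv : v ∈ V) :
    v = 1 ∨ (∃ Y, Y.card = 2 ∧ T Y = v) ∨ ∃ X, X.card = 4 ∧ T X = v := by
  obtain ⟨X, hX, rfl⟩ := h.T_surj v hv
  obtain ⟨u, hu4, hu⟩ := exists_leader X
  have he := even_of_symmDiff hX (cw_even hu)
  have e := (h.T_eq_iff hX he).2 hu
  obtain ⟨k, hk⟩ := he
  rcases (by omega : u.card = 0 ∨ u.card = 2 ∨ u.card = 4) with h0 | h0 | h0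
  · rw [Finset.card_eq_zero] at h0
    left; rw [e, h0, h.T_empty]
  · exact Or.inr (Or.inl ⟨u, h0, e.symm⟩)
  · exact Or.inr (Or.inr ⟨u, h0, e.symm⟩)

theorem z_ne_one : z ≠ 1 := by
  obtain ⟨X, -, hX⟩ := Finset.exists_subset_card_eq (s := (Finset.univ : Finset GolayPt)) (n := 4)
    (by rw [Finset.card_univ, card_golayPt]; omega)
  intro e
  have := h.sext X hX
  rw [e, isConj_one_right] at this
  exact h.T_ne_one (by rw [hX]; decide) (by omega) (by omega) this

theorem ne_one_of_conj {a : G} (ha : IsConj z a) : a ≠ 1 := by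
  rintro rfl
  exact h.z_ne_one (isConj_one_left.1 ha)

theorem tetrad_of_conj {a : G} (ha : a ∈ V) (hz : IsConj z a) : ∃ X, X.card = 4 ∧ T X = a := by
  rcases h.cases ha with e | ⟨Y, hY, rfl⟩ | e
  · exact absurd e (h.ne_one_of_conj hz)
  · exact absurd hz (h.duad Y hY)
  · exact e

theorem duad_of_not_conj {a : G} (ha : a ∈ V) (h1 : a ≠ 1) (hz : ¬ IsConj z a) :
    ∃ Y, Y.card = 2 ∧ T Y = a := by
  rcases h.cases ha with e | e | ⟨X, hX, rfl⟩
  · exact absurd e h1
  · exact e
  · exact absurd (h.sext X hX) hz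

theorem cent2' {a : G} (ha : a ∈ V) (hz : IsConj z a) {Y : Finset GolayPt} (hY : Y.card = 2) :
    C1[a] ⊓ C1[T Y] ≤ N[V] := by
  obtain ⟨X, hX, rfl⟩ := h.tetrad_of_conj ha hz
  exact h.cent2 X Y hX hY

/-- an element of `N(V)` commuting with a duad element fixes the duad -/
theorem smul_duad {Y : Finset GolayPt} (hY : Y.card = 2) (n : N[V]) (hn : (n : G) ∈ C1[T Y]) :
    π n • Y = Y := by
  refine h.T_inj_duad (by rw [card_smul24, hY]) hY ?_
  rw [← h.conj n Y (by simp [hY]), mem_cent1.1 hn, mul_inv_cancel_right]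

theorem mem_cent1_of_smul {X : Finset GolayPt} (hX : Even X.card) (n : N[V]) (hn : π n • X = X) :
    (n : G) ∈ C1[T X] := by
  have := h.conj n X hX
  rw [hn] at this
  rw [mem_cent1]
  exact mul_inv_eq_iff_eq_mul.1 this

theorem cent_le : C[V] ≤ V := by
  intro c hc
  have hN : c ∈ N[V] := cent_le_norm V hc
  refine (h.ker ⟨c, hN⟩).1 ?_
  have hd : ∀ a b : GolayPt, a ≠ b → π ⟨c, hN⟩ • a = a ∨ π ⟨c, hN⟩ • a = b := by
    intro a b hab
    have e := h.smul_duad (Y := {a, b}) (Finset.card_pair hab) ⟨c, hN⟩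
      (cent_le_cent1 (h.T_mem _) hc)
    have : π ⟨c, hN⟩ • a ∈ ({a, b} : Finset GolayPt) := by
      rw [← e]; exact mem_smul24.2 (by simp)
    simpa using this
  refine Subtype.ext (Equiv.ext fun a => ?_)
  obtain ⟨b, c', hb, hc', hbc⟩ : ∃ b c' : GolayPt, a ≠ b ∧ a ≠ c' ∧ b ≠ c' := by
    by_cases h0 : a = none
    · exact ⟨some 0, some 1, by simp [h0], by simp [h0], by decide⟩
    · by_cases h1 : a = some 0
      · exact ⟨none, some 1, h0, by rw [h1]; decide, by simp⟩
      · exact ⟨none, some 0, h0, h1, by simp⟩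
  rcases hd a b hb with e | e
  · exact e
  · rcases hd a c' hc' with e' | e'
    · exact e'
    · exact absurd (e.symm.trans e') hbc

theorem cent_eq : C[V] = V :=
  le_antisymm h.cent_le (le_cent_iff.2 fun a ha x hx => h.comm hx ha)

theorem κ_inj : Function.Injective κ := fun a b e => by rw [← h.sec a, e, h.sec]

/-- transport of the structure along an inner automorphism -/
theorem conj_ (g : G) : ∃ π' κ' T', MS z (V.map (MulAut.conj g).toMonoidHom) π' κ' T' ∧
    ∀ X, T' X = g * T X * g⁻¹ := by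
  have hN : ∀ x, x ∈ N[V] ↔ g * x * g⁻¹ ∈ N[cj[g] V] := fun x => by
    rw [← conj_normalizer, conj_mem_conj]
  let e := equivOfConj g hN
  have he : ∀ x : N[V], (e x : G) = g * x * g⁻¹ := fun x => rfl
  have he' : ∀ x : N[cj[g] V], (e.symm x : G) = g⁻¹ * x * g := fun x => rfl
  refine ⟨π.comp e.symm.toMonoidHom, e.toMonoidHom.comp κ, fun X => g * T X * g⁻¹, ?_,
    fun X => rfl⟩
  refine ⟨fun X Y => ?_, fun X => conj_mem_conj.2 (h.T_mem X), fun v hv => ?_, fun X hX => ?_,
    ?_, fun n X hX => ?_, fun n => ?_, fun x => ?_, fun X hX => ?_, fun X hX hc => ?_,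
    fun X Y hX hY => ?_, fun F hF hE hc => ?_⟩
  · rw [h.T_mul]; group
  · obtain ⟨y, hy, rfl⟩ := mem_conj_iff_exists.1 hv
    obtain ⟨X, hX, rfl⟩ := h.T_surj y hy
    exact ⟨X, hX, rfl⟩
  · rw [← h.T_one X hX, mul_inv_eq_one, mul_eq_left]
  · rw [card_conj, h.card]
  · have := h.conj (e.symm n) X hX
    rw [he'] at this
    show _ = g * T (π (e.symm n) • X) * g⁻¹
    rw [← this]; group
  · show π (e.symm n) = 1 ↔ _
    rw [h.ker, he', mem_conj]
  · show π (e.symm (e (κ x))) = x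
    rw [e.symm_apply_apply, h.sec]
  · exact (h.sext X hX).trans (isConj_iff.2 ⟨g, rfl⟩)
  · exact h.duad X hX (hc.trans (isConj_iff.2 ⟨g⁻¹, by group⟩))
  · rw [← conj_cent1, ← conj_cent1, ← conj_inf, ← conj_normalizer]
    exact conj_mono g (h.cent2 X Y hX hY)
  · rw [← conj_normalizer, le_conj_iff] at hF
    have := h.uniq _ hF (isElementaryAbelian_conj_iff.2 hE) (by rw [card_conj, hc])
    rw [← this, conj_inv_conj]

end MS

end Cfsg.Agent.J4
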