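import Cfsg.Agent.J4.L2
import Cfsg.Agent.J4.MSa

/-!
# Coordinates on elementary abelian 2-groups; recognition of the even Golay cocode
-/

set_option autoImplicit false

namespace Cfsg.Agent.J4

open Cfsg.Agent.M24 Cfsg.Agent.GT Subgroup
open scoped Pointwise symmDiff

theorem conn_ind {ap : ℕ → ℕ → ℕ} {gens : List ℕ} {root : ℕ} {t : T} (h : connChk ap gens root t = true)
    {P : ℕ → Prop} (h0 : P root) (hs : ∀ s ∈ gens, ∀ k, P k → P (ap s k)) : ∀ k ∈ t.keys, P k := by
  have key : ∀ a k b, (k, a, b) ∈ t.ents → P k := by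
    intro a
    induction a using Nat.strong_induction_on with
    | _ a ih =>
      intro k b hm
      have h1 := (T.all_iff _ _).1 h _ _ _ hm
      simp only [bor_eq, band_eq, Bool.or_eq_true, Bool.and_eq_true] at h1
      rcases h1 with h1 | ⟨h1, h2⟩
      · rwa [Nat.eq_of_beq_eq_true h1]
      · obtain ⟨s, hs', e⟩ := lnth_sound h1
        obtain ⟨a', b', hm', hlt⟩ := T.find_sound h2
        rw [← Nat.eq_of_beq_eq_true e]
        exact hs s hs' b (ih a' (Nat.le_of_ble_eq_true hlt) b b' hm')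
  intro k hk
  obtain ⟨a, b, hm⟩ := T.mem_keys.1 hk
  exact key a k b hm

/-- Every key of `t` other than `root` is mapped by a generator to a key of smaller rank. -/
noncomputable def revChk (ap : ℕ → ℕ → ℕ) (gens : List ℕ) (root : ℕ) (t : T) : Bool :=
  t.all fun k a b => bor (Nat.beq k root)
    (band (lnth gens (fun s => Nat.beq (ap s k) b) (Nat.land a (nat_lit 15)))
      (t.find b fun a' _ => Nat.ble (Nat.succ a') a))

theorem rev_ind {ap : ℕ → ℕ → ℕ} {gens : List ℕ} {root : ℕ} {t : T} (h : revChk ap gens root t = true)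
    {P : ℕ → Prop} (hs : ∀ s ∈ gens, ∀ k, P k → P (ap s k)) : ∀ k ∈ t.keys, P k → P root := by
  have key : ∀ a k b, (k, a, b) ∈ t.ents → P k → P root := by
    intro a
    induction a using Nat.strong_induction_on with
    | _ a ih =>
      intro k b hm hk
      have h1 := (T.all_iff _ _).1 h _ _ _ hm
      simp only [bor_eq, band_eq, Bool.or_eq_true, Bool.and_eq_true] at h1
      rcases h1 with h1 | ⟨h1, h2⟩
      · rwa [← Nat.eq_of_beq_eq_true h1]
      · obtain ⟨s, hs', e⟩ := lnth_sound h1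
        obtain ⟨a', b', hm', hlt⟩ := T.find_sound h2
        exact ih a' (Nat.le_of_ble_eq_true hlt) b b' hm' (Nat.eq_of_beq_eq_true e ▸ hs s hs' k hk)
  intro k hk
  obtain ⟨a, b, hm⟩ := T.mem_keys.1 hk
  exact key a k b hm

theorem wev_ind {mul : ℕ → ℕ → ℕ} {one : ℕ} {gens : List ℕ} {P : ℕ → Prop} (h1 : P one)
    (hm : ∀ a b, P a → P b → P (mul a b)) (hg : ∀ s ∈ gens, P s) (w : ℕ) : P (wev mul id one gens w) := by
  have hl : ∀ i, P (lget gens one i) := fun i => by
    rcases lget_mem gens one i with h | h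
    · exact hg _ h
    · rwa [h]
  unfold wev
  generalize (nat_lit 1000 : ℕ) = n
  induction n generalizing w with
  | zero => exact h1
  | succ n ih =>
    have := ih (Nat.shiftRight w (nat_lit 5))
    simp only [bif'_eq, force_eq] at this ⊢
    split_ifs
    · exact h1
    · refine hm _ _ ?_ this
      unfold letter
      rw [bif'_eq, force_eq]
      split_ifs <;> exact hl _

theorem words_ind {mul : ℕ → ℕ → ℕ} {one : ℕ} {gens l ws : List ℕ} (h : wordsChk mul id one gens l ws = true)
    {P : ℕ → Prop} (h1 : P one) (hm : ∀ a b, P a → P b → P (mul a b)) (hg : ∀ s ∈ gens, P s) : ∀ s ∈ l, P s :=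
  fun s hs => by
    obtain ⟨w, hw⟩ := lall2_sound h s hs
    rw [← Nat.eq_of_beq_eq_true hw]; exact wev_ind h1 hm hg w

/-- Products of basis elements. -/
def vc {G : Type*} [Group G] (bs : ℕ → G) : ℕ → ℕ → G
  | 0, _ => 1
  | n + 1, c => vc bs n c * bs n ^ ((c >>> n) &&& 1)

section
variable {G : Type*} [Group G] {V : Subgroup G} {bs : ℕ → G} {n : ℕ}

theorem vc_mem (hb : ∀ i < n, bs i ∈ V) (c : ℕ) : vc bs n c ∈ V := by
  induction n with
  | zero => exact one_mem _
  | succ n ih => exact mul_mem (ih fun i hi => hb i (by omega)) (pow_mem (hb n (by omega)) _)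

theorem vc_xor (hV : ∀ x ∈ V, x * x = 1) (hb : ∀ i < n, bs i ∈ V) (a b : ℕ) :
    vc bs n (a ^^^ b) = vc bs n a * vc bs n b := by
  induction n with
  | zero => simp [vc]
  | succ n ih =>
    have h1 : ∀ i < n, bs i ∈ V := fun i hi => hb i (by omega)
    have h2 := hb n (by omega)
    rw [vc, vc, vc, ih h1, Nat.shiftRight_xor_distrib, Nat.and_xor_distrib_right, zpow_xor (hV _ h2), mul_assoc,
      mul_assoc, ← mul_assoc (vc bs n b), comm_of_sq hV (vc_mem h1 b) (pow_mem h2 _), mul_assoc]

theorem vc_zero (n : ℕ) : vc bs n 0 = 1 := by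
  induction n with
  | zero => rfl
  | succ n ih => simp [vc, ih]

theorem vc_pow (i : ℕ) : vc bs n (2 ^ i) = if i < n then bs i else 1 := by
  induction n with
  | zero => simp [vc]
  | succ n ih =>
    have : ((2 ^ i) >>> n) &&& 1 = if i = n then 1 else 0 := by
      rw [Nat.and_one_is_mod, Nat.shiftRight_eq_div_pow, ← Nat.toNat_testBit, Nat.testBit_two_pow]
      split_ifs <;> simp [*]
    rw [vc, ih, this]
    split_ifs <;> first | omega | simp [*]

end

/-- Linear coordinates on an elementary abelian group of order `2 ^ n`. -/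
structure Co {G : Type*} [Group G] (V : Subgroup G) (n : ℕ) (T : ℕ → G) : Prop where
  le : n ≤ 12
  mul : ∀ a b, T (a ^^^ b) = T a * T b
  mem : ∀ a, T a ∈ V
  surj : ∀ v ∈ V, ∃ a < 2 ^ n, T a = v
  inj : ∀ a < 2 ^ n, T a = 1 → a = 0

/-- `g` acts by the matrix with code `k`. -/
def Act {G : Type*} [Group G] (n : ℕ) (T : ℕ → G) (g : G) (k : ℕ) : Prop :=
  ∀ a < 2 ^ n, g * T a * g⁻¹ = T (lin k a) ∧ lin k a < 2 ^ n

namespace Co
variable {G : Type*} [Group G] {V : Subgroup G} {n : ℕ} {T : ℕ → G} (C : Co V n T)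
include C

theorem zero : T 0 = 1 := by simpa using C.mul 0 0
theorem sq (a : ℕ) : T a * T a = 1 := by rw [← C.mul, Nat.xor_self, C.zero]
theorem lt12 {a : ℕ} (ha : a < 2 ^ n) : a < 4096 := ha.trans_le (Nat.pow_le_pow_right (by norm_num) C.le)
theorem eq {a b : ℕ} (ha : a < 2 ^ n) (hb : b < 2 ^ n) (h : T a = T b) : a = b :=
  Nat.xor_eq_zero_iff.1 (C.inj _ (Nat.xor_lt_two_pow ha hb) (by rw [C.mul, h, C.sq]))

theorem act_of_basis {g : G} {k : ℕ} (h : ∀ i < n, g * T (2 ^ i) * g⁻¹ = T (fld k i) ∧ fld k i < 2 ^ n) :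
    Act n T g k :=
  bits_induction (by simp [lin_zero, C.zero]) (fun i hi => by rw [lin_pow _ (hi.trans_le C.le)]; exact h i hi)
    fun x _ y _ h1 h2 => by
      rw [lin_xor, C.mul, C.mul, ← h1.1, ← h2.1]
      exact ⟨by group, Nat.xor_lt_two_pow h1.2 h2.2⟩

theorem exists_act {g : G} (hg : g ∈ N[V]) : ∃ k, Act n T g k := by
  choose! f h1 h2 using fun i => C.surj _ (conj_mem_of_mem_norm hg (C.mem (2 ^ i)))
  exact ⟨mk12 f, C.act_of_basis fun i hi => by
    rw [fld_mk12 (fun i _ => C.lt12 (h1 i)) (hi.trans_le C.le)]; exact ⟨(h2 i).symm, h1 i⟩⟩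

theorem act_norm [Finite G] {g : G} {k : ℕ} (h : Act n T g k) : g ∈ N[V] :=
  mem_normalizer_of_conj fun x hx => by
    obtain ⟨a, ha, rfl⟩ := C.surj x hx
    rw [(h a ha).1]; exact C.mem _

theorem act_one : Act n T 1 idm := fun a ha => by rw [lin_idm (C.lt12 ha)]; exact ⟨by simp, ha⟩

theorem act_inj {g : G} {k : ℕ} (h : Act n T g k) {a b : ℕ} (ha : a < 2 ^ n) (hb : b < 2 ^ n)
    (e : lin k a = lin k b) : a = b :=
  C.eq ha hb (by have := (h a ha).1; rw [e, ← (h b hb).1] at this; simpa using this)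

theorem map {G' : Type*} [Group G'] {f : G →* G'} (hf : Function.Injective f) : Co (V.map f) n fun a => f (T a) where
  le := C.le
  mul a b := by rw [C.mul, map_mul]
  mem a := mem_map_of_mem f (C.mem a)
  surj := by rintro _ ⟨v, hv, rfl⟩; obtain ⟨a, ha, rfl⟩ := C.surj v hv; exact ⟨a, ha, rfl⟩
  inj a ha h := C.inj a ha (hf (by rw [h, map_one]))

/-- Convolution counts of invariant sets are invariant. -/
theorem cv_act {g : G} {k : ℕ} (h : Act n T g k) {φ ψ : ℕ → Bool} (h1 : ∀ a < 2 ^ n, φ (lin k a) = φ a)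
    (h2 : ∀ a < 2 ^ n, ψ (lin k a) = ψ a) {x : ℕ} (hx : x < 2 ^ n) :
    bsum (fun a => b2n (band (φ a) (ψ (a ^^^ lin k x)))) n 0 = bsum (fun a => b2n (band (φ a) (ψ (a ^^^ x)))) n 0 := by
  rw [bsum_zero, bsum_zero]
  symm
  refine Finset.sum_bij (fun a _ => lin k a) (fun a ha => Finset.mem_range.2 (h a (Finset.mem_range.1 ha)).2)
    (fun a ha b hb => C.act_inj h (Finset.mem_range.1 ha) (Finset.mem_range.1 hb))
    (fun b hb => ?_) fun a ha => by
      rw [← lin_xor, h1 a (Finset.mem_range.1 ha), h2 _ (Nat.xor_lt_two_pow (Finset.mem_range.1 ha) hx)]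
  obtain ⟨a, ha, e⟩ := Finset.surj_on_of_inj_on_of_card_le (s := Finset.range (2 ^ n)) (t := Finset.range (2 ^ n))
    (fun a _ => lin k a) (fun a ha => Finset.mem_range.2 (h a (Finset.mem_range.1 ha)).2)
    (fun a b ha hb => C.act_inj h (Finset.mem_range.1 ha) (Finset.mem_range.1 hb)) le_rfl b hb
  exact ⟨a, ha, e.symm⟩

end Co

theorem Act.mul {G : Type*} [Group G] {n : ℕ} {T : ℕ → G} {g h : G} {k l : ℕ} (h1 : Act n T g k) (h2 : Act n T h l) :
    Act n T (g * h) (mm k l) := fun a ha => by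
  rw [lin_mm, ← (h1 _ (h2 a ha).2).1, ← (h2 a ha).1]
  exact ⟨by group, (h1 _ (h2 a ha).2).2⟩

theorem Act.pow {G : Type*} [Group G] {V : Subgroup G} {n : ℕ} {T : ℕ → G} (C : Co V n T) {g : G} {k : ℕ}
    (h : Act n T g k) (m : ℕ) : Act n T (g ^ m) (cpow mm idm k m) := by
  induction m with
  | zero => rw [pow_zero]; exact C.act_one
  | succ m ih => rw [cpow_succ, pow_succ]; exact ih.mul h

theorem Act.map {G G' : Type*} [Group G] [Group G'] {n : ℕ} {T : ℕ → G} {g : G} {k : ℕ} (h : Act n T g k)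
    (f : G →* G') : Act n (fun a => f (T a)) (f g) k := fun a ha =>
  ⟨by simp only [← (h a ha).1, map_mul, map_inv], (h a ha).2⟩

theorem co_of_inj {G : Type*} [Group G] {V : Subgroup G} {n : ℕ} {T : ℕ → G} (le : n ≤ 12)
    (mul : ∀ a b, T (a ^^^ b) = T a * T b) (mem : ∀ a, T a ∈ V) (inj : ∀ a < 2 ^ n, T a = 1 → a = 0)
    (hc : Nat.card V = 2 ^ n) : Co V n T := by
  refine ⟨le, mul, mem, fun v hv => ?_, inj⟩
  have h0 : T 0 = 1 := by simpa using mul 0 0
  have : Finite V := Nat.finite_of_card_ne_zero (by rw [hc]; positivity)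
  obtain ⟨a, e⟩ := (Function.Injective.bijective_of_nat_card_le (f := fun a : Fin (2 ^ n) => (⟨T a, mem a⟩ : V))
    (fun a b e => Fin.ext (Nat.xor_eq_zero_iff.1 (inj _ (Nat.xor_lt_two_pow a.2 b.2) (by
      rw [mul, show T a = T b from congrArg Subtype.val e, ← mul, Nat.xor_self, h0])))) (by simp [hc])).2 ⟨v, hv⟩
  exact ⟨a, a.2, congrArg Subtype.val e⟩

theorem even_induction {P : Finset GolayPt → Prop} (h0 : P ∅) (h2 : ∀ a b, a ≠ b → P {a, b})
    (hs : ∀ X Y, Even X.card → Even Y.card → P X → P Y → P (X ∆ Y)) : ∀ X, Even X.card → P X := by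
  intro X
  induction hn : X.card using Nat.strong_induction_on generalizing X with
  | _ n ih =>
    intro hX
    subst hn
    rcases X.eq_empty_or_nonempty with rfl | hne
    · exact h0
    obtain ⟨a, b, ha, hb, hab⟩ := Finset.one_lt_card_iff.1 (show 1 < X.card by
      have := hne.card_pos; obtain ⟨k, hk⟩ := hX; omega)
    have h1 : ({a, b} : Finset GolayPt) ⊆ X := by intro x hx; simp at hx; rcases hx with rfl | rfl <;> assumption
    have h3 := card_symmDiff_add X {a, b}
    rw [Finset.inter_eq_right.2 h1, Finset.card_pair hab] at h3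
    have h4 : Even (X ∆ {a, b}).card := by obtain ⟨k, hk⟩ := hX; exact ⟨k - 1, by omega⟩
    have := hs _ _ h4 (by rw [Finset.card_pair hab]; decide) (ih _ (by omega) _ rfl h4) (h2 a b hab)
    rwa [symmDiff_symmDiff_cancel_right] at this

/-- An automorphism of the even cocode permuting the duads is induced by `M₂₄`. -/
theorem exists_M24_of_duads {G : Type*} [Group G] {T : Finset GolayPt → G} (hm : ∀ X Y, T (X ∆ Y) = T X * T Y)
    (h1 : ∀ X, Even X.card → (T X = 1 ↔ IsCw X)) (φ : G ≃* G)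
    (h : ∀ Y, Y.card = 2 → ∃ Y', Y'.card = 2 ∧ φ (T Y) = T Y') :
    ∃ g : M24, ∀ X, Even X.card → φ (T X) = T (g • X) := by
  classical
  have h0 : T ∅ = 1 := by simpa using hm ∅ ∅
  have hinj : ∀ X Y, Even X.card → Even Y.card → X.card + Y.card < 8 → T X = T Y → X = Y := fun X Y a b c e => by
    have := card_symmDiff_add X Y
    exact symmDiff_eq_bot.1 (((h1 _ (even_symmDiff a b)).1 (by rw [hm, e, ← hm, symmDiff_self]; exact h0)).eq_empty
      (by omega))
  choose! A hA1 hA2 using fun j (hj : j ≠ none) => h {none, j} (Finset.card_pair hj.symm)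
  have hp : ∀ i j : GolayPt, i ≠ none → j ≠ none → i ≠ j → ({none, i} : Finset GolayPt) ∆ {none, j} = {i, j} :=
    fun i j a b c => by ext x; simp only [Finset.mem_symmDiff, Finset.mem_insert, Finset.mem_singleton]; grind
  have hA3 : ∀ i j, i ≠ none → j ≠ none → i ≠ j → (A i ∩ A j).card = 1 := fun i j a b c => by
    obtain ⟨Y, e1, e2⟩ := h {i, j} (Finset.card_pair c)
    rw [← hp i j a b c, hm, map_mul, hA2 i a, hA2 j b, ← hm] at e2
    have := card_symmDiff_add (A i) (A j)
    have e3 := hinj _ _ (even_symmDiff (by rw [hA1 i a]; decide) (by rw [hA1 j b]; decide)) (by rw [e1]; decide)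
      (by rw [hA1 i a, hA1 j b] at this; omega) e2
    rw [e3, e1, hA1 i a, hA1 j b] at this; omega
  obtain ⟨p, hp0⟩ := Finset.card_eq_one.1 (hA3 (some 0) (some 1) (by simp) (by simp) (by decide))
  have hpA : ∀ j, j ≠ none → p ∈ A j := by
    have a0 : p ∈ A (some 0) ∩ A (some 1) := hp0 ▸ Finset.mem_singleton_self p
    have key : ∀ j, j ≠ none → p ∉ A j → A j = A (some 0) ∆ A (some 1) := fun j hj hn => by
      have b0 := hA3 j (some 0) hj (by simp) (by rintro rfl; exact hn (Finset.mem_inter.1 a0).1)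
      have b1 := hA3 j (some 1) hj (by simp) (by rintro rfl; exact hn (Finset.mem_inter.1 a0).2)
      have c := card_symmDiff_add (A (some 0)) (A (some 1))
      have c2 := card_symmDiff_add (A j ∩ A (some 0)) (A j ∩ A (some 1))
      rw [show A j ∩ A (some 0) ∩ (A j ∩ A (some 1)) = ∅ by
        rw [Finset.inter_inter_inter_comm, hp0]; ext x; simp; rintro h rfl; exact hn h, b0, b1,
        show (A j ∩ A (some 0)) ∆ (A j ∩ A (some 1)) = A j ∩ (A (some 0) ∆ A (some 1)) from
          (inf_symmDiff_distrib_left _ _ _).symm] at c2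
      rw [hp0, hA1 _ (by simp), hA1 _ (by simp), Finset.card_singleton] at c
      have c3 := Finset.eq_of_subset_of_card_le (Finset.inter_subset_left (s₁ := A j) (s₂ := A (some 0) ∆ A (some 1)))
        (by rw [hA1 j hj]; simp at c2; omega)
      exact Finset.eq_of_subset_of_card_le (Finset.inter_eq_left.1 c3) (by rw [hA1 j hj]; omega)
    intro j hj
    by_contra hn
    obtain ⟨k, k0, k1, k2, k3⟩ : ∃ k : GolayPt, k ≠ none ∧ k ≠ some 0 ∧ k ≠ some 1 ∧ k ≠ j := by
      by_cases e : j = some 2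
      · exact ⟨some 3, by simp, by decide, by decide, by rw [e]; decide⟩
      · exact ⟨some 2, by simp, by decide, by decide, Ne.symm e⟩
    have c1 := hA3 k j k0 hj k3
    have c2 : p ∈ A k := by
      by_contra hk
      rw [key k k0 hk, ← key j hj hn, Finset.inter_self, hA1 j hj] at c1; omega
    obtain ⟨q, hq⟩ := Finset.card_eq_one.1 c1
    have c3 : q ∈ A k ∩ A j := hq ▸ Finset.mem_singleton_self q
    rw [key j hj hn, Finset.mem_inter, Finset.mem_symmDiff] at c3
    have fin : ∀ i, i ≠ none → k ≠ i → p ∈ A i → q ∈ A i → False := fun i a b c d => by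
      have := Finset.card_le_card (s := {p, q}) (t := A k ∩ A i) (by
        intro x hx; simp at hx; rcases hx with rfl | rfl <;> simp [*])
      rw [hA3 k i k0 a b, Finset.card_pair (by
        rintro rfl; have := Finset.mem_inter.1 a0; tauto)] at this
      omega
    rcases c3.2 with e | e
    exacts [fin _ (by simp) k1 (Finset.mem_inter.1 a0).1 e.1, fin _ (by simp) k2 (Finset.mem_inter.1 a0).2 e.1]
  have hq : ∀ j, j ≠ none → ∃ q, q ≠ p ∧ A j = {p, q} := fun j hj => by
    obtain ⟨a, b, c, e⟩ := Finset.card_eq_two.1 (hA1 j hj)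
    have := hpA j hj
    rw [e] at this ⊢
    simp at this
    rcases this with rfl | rfl
    exacts [⟨b, c.symm, rfl⟩, ⟨a, c, Finset.pair_comm _ _⟩]
  choose! f f1 f2 using hq
  let σ : GolayPt → GolayPt := fun j => if j = none then p else f j
  have hσ : Function.Injective σ := fun i j e => by
    by_cases a : i = none <;> by_cases b : j = none <;> simp only [σ, a, b, if_true, if_false] at e
    · rw [a, b]
    · exact absurd e.symm (f1 j b)
    · exact absurd e (f1 i a)
    · by_contra c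
      have := hA3 i j a b c
      rw [f2 i a, f2 j b, e, Finset.inter_self, Finset.card_pair (f1 j b).symm] at this; omega
  let g : Equiv.Perm GolayPt := Equiv.ofBijective σ (Finite.injective_iff_bijective.1 hσ)
  have hn : ∀ j, j ≠ none → φ (T {none, j}) = T (g • {none, j}) := fun j hj => by
    rw [hA2 j hj, f2 j hj]; congr 1
    simp [g, σ, hj, Finset.smul_finset_insert, Finset.smul_finset_singleton]
  have key : ∀ X, Even X.card → φ (T X) = T (g • X) := even_induction (by simp [h0]) (fun a b c => by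
      by_cases e : a = none
      · subst e; exact hn b c.symm
      by_cases e' : b = none
      · subst e'; rw [Finset.pair_comm]; exact hn a c
      rw [← hp a b e e' c, smul_symmDiff, hm, hm, map_mul, hn a e, hn b e'])
    fun X Y _ _ a b => by rw [smul_symmDiff, hm, hm, map_mul, a, b]
  refine ⟨⟨g, mem_M24.2 fun X hX => ?_⟩, key⟩
  have e : Even X.card := even_iff_two_dvd.2 (dvd_trans (by norm_num) hX.four_dvd)
  exact (h1 _ (by rwa [Finset.card_smul_finset])).1 (by rw [← key X e, (h1 X e).2 hX, map_one])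

end Cfsg.Agent.J4
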