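import Cfsg.Agent.J4.CF

/-!
# Groups of type `J₄`: the classes of elements of even order
-/

set_option autoImplicit false
set_option linter.unusedSectionVars false
set_option synthInstance.maxSize 1024

namespace Cfsg.Agent.J4

open Cfsg.Agent.M24 Cfsg.Agent.GT Subgroup MulAction

theorem ncl_invol {G X : Type*} [Group G] [Finite G] [Group X] (f : X →* G) (hf : Function.Injective f) {i : X}
    (oi : orderOf (f i) = 2) (hC : C1[f i] ≤ f.range) {n : ℕ} (x : ℕ → X) (h1 : ∀ p < n, i ∈ zpowers (x p))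
    (h2 : ∀ y, i ∈ zpowers y → ∃ p < n, IsConj (x p) y)
    (h3 : ∀ p < n, ∀ q < n, ∀ c, c * i = i * c → c * x p * c⁻¹ = x q → p = q) :
    ncl {g : G | ∃ j ∈ zpowers g, IsConj (f i) j} = n := by
  have hm : ∀ y, f i ∈ zpowers (f y) ↔ i ∈ zpowers y := fun y => by
    rw [← MonoidHom.map_zpowers, mem_map_iff_mem hf]
  rw [← List.length_range (n := n)]
  refine ncl_reps List.nodup_range (fun p => f (x p))
    (fun p hp => ⟨_, (hm _).2 (h1 p (List.mem_range.1 hp)), .refl _⟩) ?_ fun p hp q hq e => ?_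
  · rintro g ⟨j, hj, e⟩
    obtain ⟨c, e⟩ := isConj_iff.1 e.symm
    have h4 : f i ∈ zpowers (c * g * c⁻¹) := e ▸ mem_zpowers_conj.2 hj
    obtain ⟨y, hy⟩ := hC (show c * g * c⁻¹ ∈ C1[f i] by
      obtain ⟨k, e⟩ := h4
      rw [← e]; exact mem_cent1.2 (Commute.self_zpow _ k))
    obtain ⟨p, hp, k⟩ := h2 y ((hm y).1 (hy ▸ h4))
    exact ⟨p, List.mem_range.2 hp, (f.map_isConj k).trans (isConj_iff.2 ⟨c, hy.symm⟩).symm⟩
  · obtain ⟨c, e⟩ := isConj_iff.1 e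
    rw [List.mem_range] at hp hq
    have h4 := invol_unique ((orderOf_isConj (isConj_iff.2 ⟨c, rfl⟩)).trans oi) oi
      (e ▸ mem_zpowers_conj.2 ((hm _).2 (h1 p hp))) ((hm _).2 (h1 q hq))
    obtain ⟨c, rfl⟩ := hC (mem_cent1.2 (mul_inv_eq_iff_eq_mul.1 h4))
    exact h3 p hp q hq c (hf (by simpa using mul_inv_eq_iff_eq_mul.1 h4)) (hf (by simpa using e))

theorem inL_sound {k : ℕ} (h : inL k = true) : ∃ r ∈ Lm, rc r = k := ⟨_, relt_mem h⟩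

theorem three_lifts {r s : R} (hr : r ∈ Lm) (hs : s ∈ Lm) (h : r.2 = s.2) :
    ∃ j < 3, rc r = rmul (rc s) (lget [rone, kW, kW2] 0 j) := by
  rw [← mul_inv_cancel_left s r, gcR.code_mul]
  rcases kerθ (Lm.mul_mem (Lm.inv_mem hs) hr) (by simp [h]) with e | e | e <;> rw [e]
  · exact ⟨0, by norm_num, by rw [gcR.code_one]; rfl⟩
  · exact ⟨1, by norm_num, by rw [rc_rW]; rfl⟩
  · exact ⟨2, by norm_num, by rw [rc_rW2]; rfl⟩

theorem cover_Lm {r : R} (hr : r ∈ Lm) : ∃ F ∈ lFZ, ∃ d ∈ Lm, rc (d * r * d⁻¹) = F.r := by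
  obtain ⟨k, hk, c, hc, e⟩ := cover_Dd (snd_mem_Dd hr)
  obtain ⟨d, hd, rfl⟩ := exists_lift hc
  have h := (nall_iff _ _).1 lRL_chk k hk
  simp only [force_eq, band_eq, Bool.and_eq_true, Nat.beq_eq, nall_iff, List.any_eq_true] at h
  obtain ⟨s, hs, e1⟩ := inL_sound h.1.1
  obtain ⟨j, hj, e2⟩ := three_lifts (Lm.mul_mem (Lm.mul_mem hd hr) (Lm.inv_mem hd)) hs
    (gcM.inj (by rw [← rp_rc s, e1, h.1.2, ← e]; rfl))
  obtain ⟨h1, F, hF, e3⟩ := h.2 j hj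
  obtain ⟨w, hw, e4⟩ := inL_sound h1
  rw [← e1, ← e2, ← e4, gcR.cjap_code] at e3
  exact ⟨F, hF, w * d, Lm.mul_mem hw hd, by rw [← e3, mul_inv_rev]; simp only [mul_assoc]⟩

namespace HM
variable {H : Type*} [Group H] [Finite H] {z ω : H} {s : ℕ → H} {Λ : H →* R} (M : HM z ω s Λ)
include M

theorem ax : AX ⊤ Λ M.cb Lm rc rmul rinv rone lo 12 inL where
  gc := gcR
  aff := M.aff
  le := le_rfl
  lt := M.cb_lt
  ex a ha r hr := by
    obtain ⟨l, hl, e⟩ := M.lift r hr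
    exact ⟨s a * l, trivial, M.cb_eq ha hl, by rw [map_mul, M.Λs ha, one_mul, e]⟩
  sound _ := inL_sound

/-- The element has the coordinates of the `i`-th representative. -/
def At (i : ℕ) (x : H) : Prop := M.cb x = lget lZa 0 i ∧ rc (Λ x) = lget lZr 0 i

/-- An invariant of conjugacy classes. -/
noncomputable def ivs (x : H) : ℕ := orderOf (Λ x) + 64 * ou (rc (Λ x)) + 128 * b2n (Nat.beq (rp (rc (Λ x))) one) +
  256 * b2n (Nat.beq (M.cb (x ^ orderOf (Λ x))) 0)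

theorem ivs_conj (g x : H) : M.ivs (g * x * g⁻¹) = M.ivs x := by
  have h1 : orderOf (Λ (g * x * g⁻¹)) = orderOf (Λ x) := orderOf_isConj (Λ.map_isConj (isConj_iff.2 ⟨g, rfl⟩))
  have h2 : Λ (x ^ orderOf (Λ x)) = 1 := by rw [map_pow, pow_orderOf_eq_one]
  rw [ivs, ivs, h1, conj_pow, M.cb_conj_ker h2, map_mul, map_mul, map_inv, ou_conj (M.mem g) (M.mem x), rp_rc, rp_rc]
  congr 3
  · rw [b2n_eq, b2n_eq, ← gcM.code_one]
    simp [gcM.inj.eq_iff]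
  · rw [Bool.eq_iff_iff, Nat.beq_eq, Nat.beq_eq]
    exact ⟨fun e => lin_rc_inj _ (M.cb_lt _) (by norm_num) (e.trans (lin_zero _).symm), fun e => by rw [e, lin_zero]⟩

theorem nc_sound {i j g P : ℕ} {tb : List ℕ} (h : ncChk i j g P tb = true) {x c : H} (hx : M.At i x) :
    ¬ M.At j (c * x * c⁻¹) := fun hy => by
  simp only [ncChk, force_eq, band_eq, Bool.and_eq_true, Nat.beq_eq, lall_iff, ← hx.1, ← hx.2, ← hy.1, ← hy.2] at h
  have e : Λ c * Λ x = Λ (c * x * c⁻¹) * Λ c := by simp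
  have h1 := trChk_sound (rp_rc _).symm (rp_rc _).symm h.2 (c := (Λ c).2) (congrArg Prod.snd e)
  simp only [mem_Dd_code.1 (snd_mem_Dd (M.mem c)), bor_eq, Nat.beq_refl, Bool.not_true, Bool.false_or, lany_iff,
    Bool.and_eq_true, Nat.beq_eq, lall_iff, Bool.or_eq_true, Bool.not_eq_true', ← Bool.not_eq_true] at h1
  obtain ⟨d, hd, h2, h3⟩ := h1
  obtain ⟨d, hL, rfl⟩ := inL_sound (h.1.2 d hd)
  obtain ⟨k, hk, e1⟩ := three_lifts (M.mem c) hL (gcM.inj (by rw [← h2, rp_rc]))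
  have h4 := h3 _ ((show ∀ k < 3, lget [rone, kW, kW2] 0 k ∈ [rone, kW, kW2] by decide +kernel) k hk)
  rw [← e1, ← gcR.code_mul, ← gcR.code_mul, e] at h4
  refine h4.resolve_left (fun k => k rfl) ?_
  change lin P (_ ^^^ _) = 0
  have h5 := congrArg (lin · (M.cb c)) h.1.1
  simp only [lin_mm, lin_zero_mat] at h5
  rw [M.cb_conj, Nat.xor_right_comm _ (lin _ (M.cb x)), Nat.xor_xor_cancel_right, ← h5]
  exact congrArg _ ((xor_lin _ _ _).trans (by rw [lin_lo, lin_idm (M.cb_lt c)])).symm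

variable (hO : ∀ l ∈ N[zpowers ω], Out (Λ l) → l * l = 1)
include hO

theorem zcx_sound {r : R} (hr : r ∈ Lm) {K : ℕ → ℕ → (ℕ → Bool) → Bool} (h : zcx (rc r) K = true) :
    ∃ N φ, K (orderOf r) N φ = true ∧ ∀ x, Λ x = r →
      M.cb (x ^ orderOf r) = lin N (M.cb x) ∧ (Ph z x ↔ φ (M.cb x) = true) := by
  obtain ⟨l, -, rfl⟩ := M.lift r hr
  simp only [zcx, force_eq, band_eq, Bool.and_eq_true, Bool.not_eq_true', ← Bool.not_eq_true, Nat.beq_eq] at h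
  rw [← M.aff.ord l 40 h.1] at h
  refine ⟨_, _, h.2, fun x e => ⟨by rw [M.aff.co_pow, e], ?_⟩⟩
  have := M.Ph_eq hO (x := x) (congrArg orderOf e)
  rw [M.aff.co_pow, M.aff.co_pow, e] at this
  rw [Nat.beq_eq, ← this]
  exact ⟨ind1_pos, fun k => by_contra fun k' => by simp [ind1_neg k'] at k⟩

theorem z_upper {x : H} (hx : Ph z x) : ∃ i < 27, ∃ g, M.At i (g * x * g⁻¹) := by
  obtain ⟨F, hF, d, hd, e⟩ := cover_Lm (M.mem x)
  obtain ⟨l, -, rfl⟩ := M.lift d hd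
  have h := List.all_eq_true.1 lFZ_chk F hF
  simp only [band_eq, Bool.and_eq_true, lall_iff, nany_iff, Nat.beq_eq] at h
  rw [← map_inv, ← map_mul, ← map_mul] at e
  obtain ⟨N, φ, h1, h2⟩ := M.zcx_sound hO (M.mem _) (e ▸ h.1)
  obtain ⟨g, -, h3, h4⟩ := M.ax.fib h1 (S := Ph z) (fun g _ x => (M.Ph_conj g x).2)
    (fun y hy k => (h2 y (gcR.inj (k.trans e.symm))).2.1 hy) ((M.Ph_conj l x).2 hx) e
  obtain ⟨i, hi, h5, h6⟩ := h.2 _ h3
  refine ⟨i, hi, g * l, ?_⟩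
  rw [show g * l * x * (g * l)⁻¹ = g * (l * x * l⁻¹) * g⁻¹ by group]
  exact ⟨h5.symm, h4.trans h6.symm⟩

theorem rep_facts {i : ℕ} (hi : i < 27) : (∃ x, M.At i x) ∧ ∀ x, M.At i x → Ph z x ∧ M.ivs x = lget lZi 0 i ∧
    (IsConj x (x * z) ∨ ¬ (z ∈ zpowers x ∧ z ∈ zpowers (x * z))) := by
  have h := (nall_iff _ _).1 lZ_chk i hi
  simp only [force_eq, band_eq, Bool.and_eq_true, Nat.blt_eq] at h
  obtain ⟨r, hr, e⟩ := inL_sound h.1.1
  obtain ⟨N, φ, h1, h2⟩ := M.zcx_sound hO hr (e ▸ h.2)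
  simp only [Bool.and_eq_true, Nat.beq_eq, bor_eq, Bool.or_eq_true] at h1
  refine ⟨let ⟨x, _, a, b⟩ := M.ax.ex _ h.1.2.1 r hr; ⟨x, a, b ▸ e⟩, fun x hx => ?_⟩
  obtain rfl : Λ x = r := gcR.inj (hx.2.trans e.symm)
  obtain ⟨h3, h4⟩ := h2 x rfl
  rw [← hx.1, ← h3] at h1
  refine ⟨h4.2 h1.1.1, h1.1.2.symm, h1.2.symm.imp (fun k => ?_) fun k k' => ?_⟩
  · have := M.conj_s x h.1.2.2
    rw [k.1, show _ ^^^ _ = 1 from k.2, pow_one, mul_inv_eq_iff_eq_mul] at this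
    refine isConj_iff.2 ⟨(s (lget lZe 0 i))⁻¹, ?_⟩
    rw [inv_inv, mul_assoc, this, mul_assoc, inv_mul_cancel_left, M.zc]
  · have h5 := M.eq_s (h := x ^ orderOf (Λ x)) (by rw [map_pow, pow_orderOf_eq_one])
    rw [k.2, M.s0, one_mul] at h5
    rw [mem_zpowers_pow Λ M.Λz, mem_zpowers_pow Λ (x := x * z) M.Λz, map_mul, M.Λz, mul_one,
      Commute.mul_pow (M.zc x), ← Nat.div_add_mod (orderOf (Λ x)) 2, k.1, pow_succ z, pow_mul z, pow_two z, M.zz,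
      one_pow, one_mul, ← k.1, Nat.div_add_mod] at k'
    rcases h5 with e | e <;> simp [e, M.zz, M.ne] at k'

theorem exists_rep {i : ℕ} (hi : i < 27) : ∃ x, M.At i x ∧ z ∈ zpowers x := by
  obtain ⟨⟨x, hx⟩, h⟩ := M.rep_facts hO hi
  exact (h x hx).1.elim (fun k => ⟨x, hx, k⟩) fun k =>
    ⟨x * z, ⟨(M.cb_mul_z x).trans hx.1, by rw [map_mul, M.Λz, mul_one, hx.2]⟩, k⟩

theorem z_cover {x : ℕ → H} (hx : ∀ i < 27, M.At i (x i) ∧ z ∈ zpowers (x i)) {y : H} (hy : z ∈ zpowers y) :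
    ∃ i < 27, IsConj (x i) y := by
  obtain ⟨i, hi, g, h⟩ := M.z_upper hO (Or.inl hy)
  refine ⟨i, hi, .trans ?_ (isConj_iff.2 ⟨g, rfl⟩).symm⟩
  rcases M.eq_of_crd (h.1.trans (hx i hi).1.1.symm) (gcR.inj (h.2.trans (hx i hi).1.2.symm)) with e | e <;> rw [e]
  refine ((M.rep_facts hO hi).2 _ (hx i hi).1).2.2.resolve_right fun k => k ⟨(hx i hi).2, ?_⟩
  rw [← e, ← mul_inv_cancel_right z g, ← M.zc, mem_zpowers_conj]
  exact hy

theorem z_lower {i j : ℕ} (hi : i < 27) (hj : j < 27) {x c : H} (hx : M.At i x) (hy : M.At j (c * x * c⁻¹)) : i = j := by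
  have h1 := ((M.rep_facts hO hi).2 _ hx).2.1
  rw [← M.ivs_conj c, ((M.rep_facts hO hj).2 _ hy).2.1] at h1
  have hx' : M.At i (c⁻¹ * (c * x * c⁻¹) * c⁻¹⁻¹) := by simpa [mul_assoc] using hx
  have h2 := (show ∀ i < 27, ∀ j < 27, lget lZi 0 j = lget lZi 0 i → i = j ∨
    (i, j) ∈ [(5, 6), (8, 9), (12, 13), (16, 24), (17, 25), (19, 20), (6, 5), (9, 8), (13, 12), (24, 16), (25, 17),
      (20, 19)] by decide +kernel) i hi j hj h1
  simp only [List.mem_cons, Prod.mk.injEq, List.not_mem_nil, or_false] at h2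
  rcases h2 with h | ⟨rfl, rfl⟩ | ⟨rfl, rfl⟩ | ⟨rfl, rfl⟩ | ⟨rfl, rfl⟩ | ⟨rfl, rfl⟩ | ⟨rfl, rfl⟩ | ⟨rfl, rfl⟩ |
    ⟨rfl, rfl⟩ | ⟨rfl, rfl⟩ | ⟨rfl, rfl⟩ | ⟨rfl, rfl⟩ | ⟨rfl, rfl⟩
  exacts [h, absurd hy (M.nc_sound nc0 hx), absurd hy (M.nc_sound nc1 hx), absurd hy (M.nc_sound nc2 hx),
    absurd hy (M.nc_sound nc3 hx), absurd hy (M.nc_sound nc4 hx), absurd hy (M.nc_sound nc5 hx),
    absurd hx' (M.nc_sound nc0 hy), absurd hx' (M.nc_sound nc1 hy), absurd hx' (M.nc_sound nc2 hy),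
    absurd hx' (M.nc_sound nc3 hy), absurd hx' (M.nc_sound nc4 hy), absurd hx' (M.nc_sound nc5 hy)]

end HM

theorem nt_sound {i j g : ℕ} (h : ntChk i j g = true) {x c : M24} (hx : mcode x = lget lTr 0 i) :
    mcode (c * x * c⁻¹) ≠ lget lTr 0 j := fun hy => by
  rw [ntChk, force_eq, force_eq] at h
  exact absurd (trChk_sound hx hy h (c := c) (by simp)) (by simp)

namespace MC
variable {G : Type*} [Group G] [Finite G] {z : G} {V : Subgroup G} {T : ℕ → G} {π : N[V] →* M24}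
  {κ : M24 →* N[V]} (M : MC z V T π κ)
include M

theorem ax : AX (Dd.comap π) π M.co Dd mcode mul inv one mat 11 inD where
  gc := gcM
  aff := M.aff
  le := by norm_num
  lt := M.co_lt
  ex a ha r hr := ⟨M.el a r, by rwa [mem_comap, M.π_el], M.co_el ha r, M.π_el a r⟩
  sound _ := inD_sound

theorem tcx_sound {r : M24} {K : ℕ → (ℕ → Bool) → Bool} (h : tcx (mcode r) K = true) :
    ∃ φ, K (orderOf r) φ = true ∧ ∀ x, π x = r → (M.tn 1458 ∈ zpowers x ↔ φ (M.co x) = true) := by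
  simp only [tcx, force_eq, band_eq, Bool.and_eq_true, Bool.not_eq_true', ← Bool.not_eq_true, Nat.beq_eq] at h
  rw [← M.ord_eq h.1] at h
  exact ⟨_, h.2, fun x e => by rw [M.tcond (congrArg orderOf e), e, Nat.beq_eq]⟩

theorem t_conj {g : N[V]} (hg : π g ∈ Dd) (x : N[V]) :
    M.tn 1458 ∈ zpowers (g * x * g⁻¹) ↔ M.tn 1458 ∈ zpowers x := by
  rw [← mem_zpowers_conj (g := g) (x := x), show g * M.tn 1458 * g⁻¹ = M.tn 1458 from
    mul_inv_eq_iff_eq_mul.2 (Subtype.ext ((M.mem_Dd_iff g).1 hg))]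

theorem t_reps {i : ℕ} (hi : i < 10) : M.tn 1458 ∈ zpowers (M.el (lget lTa 0 i) (elt (lget lTr 0 i))) ∧
    mcode (elt (lget lTr 0 i)) = lget lTr 0 i ∧ orderOf (elt (lget lTr 0 i)) = lget lTo 0 i := by
  have h := (nall_iff _ _).1 lT_chk i hi
  simp only [force_eq, band_eq, Bool.and_eq_true, Nat.blt_eq] at h
  obtain ⟨r, -, e⟩ := inD_sound h.1.1
  obtain ⟨φ, h1, h2⟩ := M.tcx_sound (e ▸ h.2)
  rw [Bool.and_eq_true, Nat.beq_eq] at h1
  rw [← e, elt_mcode, h2 _ (M.π_el _ _), M.co_el h.1.2]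
  exact ⟨h1.1, rfl, h1.2.symm⟩

theorem t_cover {y : N[V]} (hy : M.tn 1458 ∈ zpowers y) :
    ∃ i < 10, IsConj (M.el (lget lTa 0 i) (elt (lget lTr 0 i))) y := by
  obtain ⟨k, hk, d, hd, e⟩ := cover_Dd ((M.mem_Dd_iff y).2 (by
    obtain ⟨k, e⟩ := hy
    exact congrArg Subtype.val (e ▸ Commute.self_zpow y k : Commute y (M.tn 1458)).eq))
  obtain ⟨F, hF, e1⟩ := List.any_eq_true.1 (force_eq _ _ ▸ (nall_iff _ _).1 lFT_cov k hk :)
  obtain ⟨l, hl, rfl, -⟩ := M.ax.lift hd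
  have h := List.all_eq_true.1 lFT_chk F hF
  simp only [band_eq, Bool.and_eq_true, lall_iff, nany_iff, Nat.beq_eq] at h
  rw [Nat.eq_of_beq_eq_true e1, ← map_inv, ← map_mul, ← map_mul] at e
  obtain ⟨φ, h1, h2⟩ := M.tcx_sound (e ▸ h.1)
  obtain ⟨g, -, h3, h4⟩ := M.ax.fib h1 (S := fun x => M.tn 1458 ∈ zpowers x) (fun g hg x => (M.t_conj hg x).2)
    (fun y hy k => (h2 y (gcM.inj (k.trans e.symm))).1 hy) ((M.t_conj hl y).2 hy) e
  obtain ⟨i, hi, h5, h6⟩ := h.2 _ h3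
  refine ⟨i, hi, ?_⟩
  rw [h5, h6, ← h4, elt_mcode, M.el_co]
  exact ((isConj_iff.2 ⟨l, rfl⟩).trans (isConj_iff.2 ⟨g, rfl⟩)).symm

theorem ncl_t : ncl {g : G | ∃ j ∈ zpowers g, IsConj (T 1458) j} = 10 := by
  refine ncl_invol (N[V]).subtype Subtype.val_injective (i := M.tn 1458)
    (orderOf_eq_prime (by rw [pow_two]; exact M.px.co.sq 1458) M.t_ne) M.cent_t _ (fun p hp => (M.t_reps hp).1)
    (fun y => M.t_cover) fun p hp q hq c _ e => ?_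
  have e1 := congrArg π e
  rw [map_mul, map_mul, map_inv, M.π_el, M.π_el] at e1
  have h1 := (M.t_reps hp).2
  have h2 := (M.t_reps hq).2
  have h3 := (show ∀ i < 10, ∀ j < 10, lget lTo 0 j = lget lTo 0 i → i = j ∨
    (i, j) ∈ [(3, 6), (4, 7), (6, 3), (7, 4)] by decide +kernel) p hp q hq
      (by rw [← h1.2, ← h2.2]; exact orderOf_isConj (isConj_iff.2 ⟨_, e1⟩))
  have e2 : (π c)⁻¹ * elt (lget lTr 0 q) * (π c)⁻¹⁻¹ = elt (lget lTr 0 p) := by rw [← e1]; group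
  simp only [List.mem_cons, Prod.mk.injEq, List.not_mem_nil, or_false] at h3
  rcases h3 with h | ⟨rfl, rfl⟩ | ⟨rfl, rfl⟩ | ⟨rfl, rfl⟩ | ⟨rfl, rfl⟩
  exacts [h, absurd (e1 ▸ h2.1) (nt_sound nt0 h1.1), absurd (e1 ▸ h2.1) (nt_sound nt1 h1.1),
    absurd (e2 ▸ h1.1) (nt_sound nt0 h2.1), absurd (e2 ▸ h1.1) (nt_sound nt1 h2.1)]

end MC

end Cfsg.Agent.J4
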