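import Cfsg.Agent.J4.PE

/-!
# The stabiliser of a singular line and its preimage
-/

set_option autoImplicit false
set_option linter.unusedSectionVars false

namespace Cfsg.Agent.J4

open Cfsg.Agent.M24 Cfsg.Agent.TT Cfsg.Agent.GT Subgroup MulAction
open scoped Pointwise symmDiff

/-- The stabiliser of the vector `1`. -/
noncomputable def F1 : Subgroup R := gen rc (gensOf chF)
/-- The pointwise stabiliser of the line. -/
noncomputable def CZ : Subgroup R := F1 ⊓ stabilizer R (⟨2, by norm_num⟩ : Fin 4096)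
/-- Its largest normal two-subgroup. -/
noncomputable def O4 : Subgroup R := gen rc (gensOf chO4)
/-- An element of order five. -/
noncomputable def r5 : R := relt k5
theorem rc_r5 : rc r5 = k5 := rc_relt (by decide +kernel)
theorem r5_mem : r5 ∈ Lm := (relt_mem (by decide +kernel)).1
theorem card_O4 : Nat.card O4 = 16 := card_genR chO4_chk (by decide +kernel)

theorem mem_stabV {r : R} {a : ℕ} (ha : a < 4096) : r ∈ stabilizer R (⟨a, ha⟩ : Fin 4096) ↔ lin (rc r) a = a := by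
  rw [mem_stabilizer_iff, Fin.ext_iff, smulV_val]

theorem mem_F1 {r : R} : r ∈ F1 ↔ r ∈ Lm ∧ lin (rc r) 1 = 1 := by
  have h := tv1_chk
  rw [band_eq, Bool.and_eq_true, ← show gensOf chL = gL by decide +kernel] at h
  rw [F1, ← inf_stabR acV (x := ⟨1, by norm_num⟩) trivial chL_chk chF_chk rfl h.1 (by decide +kernel), ← Lm_eq,
    mem_inf, mem_stabV]

theorem mem_CZ {r : R} : r ∈ CZ ↔ r ∈ Lm ∧ lin (rc r) 1 = 1 ∧ lin (rc r) 2 = 2 := by
  rw [CZ, mem_inf, mem_F1, mem_stabV, and_assoc]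

theorem card_CZ : Nat.card CZ = 1920 := by
  have h := card_inf_stab F1 (⟨2, by norm_num⟩ : Fin 4096)
  rw [F1, card_genR chF_chk (n := 3840) (by decide +kernel), (acV.orb_sound (chkR_sound chF_chk).1
    (x₀ := ⟨2, by norm_num⟩) (t := tF2) (hi := 4096) trivial (by decide +kernel)).2.1,
    show tF2.size = 2 by decide +kernel] at h
  unfold CZ F1; omega

theorem mem_O4 {r : R} : r ∈ O4 ↔ rc r ∈ lO4 :=
  ⟨fun hr => lany_beq.1 (forall_of_enumR chO4_chk (f := fun k => lany lO4 (Nat.beq k)) (by decide +kernel) r hr),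
    fun hr => (mem_genR chO4_chk).2 ((lall_iff _ _).1 (show lall lO4 _ = true by decide +kernel) _ hr)⟩

theorem O4_facts {r : R} (hr : r ∈ O4) : r ∈ CZ ∧ r * r = 1 ∧ (r * r5 = r5 * r → r = 1) ∧
    ((∀ i < 12, 2 ^ i &&& 192 = 0 → lin (rc r) (2 ^ i) = 2 ^ i) → r = 1) ∧
    (∀ b < 4096, b &&& 192 = 0 → b ^^^ lin (rc r) b < 4) ∧ ∀ i < 5, ract (rc r) (lget lHx 0 i) = lget lHx 0 i := by
  have h := (lall_iff _ _).1 (show lall lO4 (fun k => band (band (band (inL k) (band (Nat.beq (lin k 1) 1)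
    (Nat.beq (lin k 2) 2))) (Nat.beq (rmul k k) rone)) (band (bor (Nat.beq k rone) (band (!cm k k5)
      (nany 12 fun i => band (Nat.beq (2 ^ i &&& 192) 0) (!Nat.beq (lin k (2 ^ i)) (2 ^ i)))))
      (band (nall 12 fun i => Nat.ble ((2 ^ i &&& 3903) ^^^ lin k (2 ^ i &&& 3903)) 3)
        (nall 5 fun i => Nat.beq (ract k (lget lHx 0 i)) (lget lHx 0 i))))) = true by decide +kernel) _ (mem_O4.1 hr)
  rw [← gcR.code_mul, ← gcR.code_one, ← rc_r5] at h
  simp only [band_eq, bor_eq, Bool.and_eq_true, Bool.or_eq_true, beq_rc, nany_iff, nall_iff, Nat.ble_eq,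
    Bool.not_eq_true', ← Bool.not_eq_true] at h
  simp only [Nat.beq_eq] at h
  obtain ⟨⟨⟨a1, a2⟩, a3⟩, a4, a5, a6⟩ := h
  refine ⟨mem_CZ.2 ⟨relt_rc r ▸ (relt_mem a1).1, a2⟩, a3, fun e => a4.resolve_right fun h => h.1 (cm_of e),
    fun e => a4.resolve_right fun ⟨_, i, hi, b1, b2⟩ => b2 (e i hi b1), fun b hb e => ?_, a6⟩
  have := ind12 (P := fun b => (b &&& 3903) ^^^ lin (rc r) (b &&& 3903) < 2 ^ 2) (by simp [lin_zero])
    (fun i hi => Nat.lt_succ_of_le (a5 i hi)) (fun x _ y _ h1 h2 => by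
      rw [Nat.and_xor_distrib_right, lin_xor]; convert Nat.xor_lt_two_pow h1 h2 using 1; ac_rfl) b hb
  have h3 := ball_zero (show ball (fun b => bor (!Nat.beq (b &&& 192) 0) (Nat.beq (b &&& 3903) b)) 12 0 = true by
    decide +kernel) b hb
  rw [e, bor_eq, Nat.beq_refl, Bool.not_true, Bool.false_or, Nat.beq_eq] at h3
  rwa [h3] at this

theorem not_1_20 {r : R} (hr : r ∈ Lm) : lin (rc r) 1 ≠ 20 := fun e => by
  have h := tv1_chk
  rw [band_eq, Bool.and_eq_true] at h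
  have h1 : (⟨20, by norm_num⟩ : Fin 4096) ∈ orbit (gen rc gL) (⟨1, by norm_num⟩ : Fin 4096) :=
    ⟨⟨r, hr⟩, Fin.ext ((smulV_val r _).trans e)⟩
  rw [(acV.orb_sound valid_gL (x₀ := ⟨1, by norm_num⟩) trivial h.1).1] at h1
  exact absurd h1.2 (by decide +kernel)

theorem mem_NV_of_hx {r : R} (hr : r ∈ Lm) {i j : ℕ} (hi : i < 5) (hj : j < 5)
    (h : ract (rc r) (lget lHx 0 i) = lget lHx 0 j) : (r5 ^ j)⁻¹ * r * r5 ^ i ∈ NV := by
  have h1 : ∀ i < 5, lget lHx 0 i = mask (r5 ^ i • H0) := fun i hi => by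
    rw [← acRS.ap_code _ trivial, ← gcR.cpow_code, rc_r5, mask_H0]; revert i; decide +kernel
  rw [h1 i hi, h1 j hj, acRS.ap_code _ trivial] at h
  refine mem_NV.2 ⟨mul_mem (mul_mem (inv_mem (pow_mem r5_mem _)) hr) (pow_mem r5_mem _), ?_⟩
  rw [← smulS_def, mul_smul, mul_smul, mask_inj h, inv_smul_smul]

theorem pentad_R {r : R} (hr : r ∈ Lm) (h : lin (rc r) 1 < 64) : ∃ j < 5, (r5 ^ j)⁻¹ * r⁻¹ ∈ NV := by
  have conn : ∀ {t : T} {a : ℕ} (ha : a < 4096), connChk lin (gensOf chN) a t = true → t.has (lin (rc r) 1) = true →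
      ∃ d ∈ NV, lin (rc d) a = lin (rc r) 1 := fun {t a} ha c e => by
    obtain ⟨g, hg, e⟩ := acV.conn_sound (chkR_sound chN_chk).1 (x₀ := ⟨a, ha⟩) trivial c _ (T.has_sound e)
    exact ⟨g, hg, by rw [← e, smulV_val]⟩
  have h1 := (nall_iff _ _).1 (show nall 64 (fun u => bor (Nat.beq u 0) (bor (t45.has u) (t18.has u))) = true by
    decide +kernel) _ h
  simp only [bor_eq, Bool.or_eq_true, Nat.beq_eq] at h1
  rcases h1 with e | e | e
  · exact absurd (lin_rc_inj r (by norm_num) (by norm_num) (e.trans (lin_zero _).symm)) one_ne_zero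
  · obtain ⟨d, hd, e⟩ := conn (a := 1) (by norm_num) (by decide +kernel) e
    have h2 : r⁻¹ * d ∈ F1 := mem_F1.2 ⟨mul_mem (inv_mem hr) (NV_le hd), by rw [lin_rc_mul, e, lin_rc_inv _ (by norm_num)]⟩
    have h3 := closure_smul_mem (G := R) (X := Finset GolayPt) (S := {g | rc g ∈ gensOf chF}) (E := {a | mask a ∈ lHx})
      (Set.toFinite _) (fun g hg x hx => by
        have h : lall (gensOf chF) (fun k => lall lHx fun u => force (ract k u) fun c => lany lHx (Nat.beq c)) = true := by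
          decide +kernel
        change mask (g • x) ∈ lHx
        rw [← acRS.ap_code _ trivial]
        exact lany_beq.1 ((force_eq _ _).symm.trans ((lall_iff _ _).1 ((lall_iff _ _).1 h _ hg) _ hx))) _ h2 H0
      (by change mask H0 ∈ lHx; rw [mask_H0]; decide +kernel)
    obtain ⟨j, hj, e2⟩ : ∃ j < 5, lget lHx 0 j = mask ((r⁻¹ * d) • H0) :=
      (show ∀ m ∈ lHx, ∃ j < 5, lget lHx 0 j = m by decide +kernel) _ h3
    have h4 := mem_NV_of_hx (mem_F1.1 h2).1 (i := 0) (by norm_num) hj (by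
      rw [e2, ← acRS.ap_code _ trivial, mask_H0]; rfl)
    exact ⟨j, hj, by simpa [mul_assoc] using mul_mem h4 (inv_mem hd)⟩
  · obtain ⟨d, hd, e⟩ := conn (a := 20) (by norm_num) (by decide +kernel) e
    exact absurd (by rw [lin_rc_mul, ← e, lin_rc_inv _ (by norm_num)]) (not_1_20 (mul_mem (inv_mem (NV_le hd)) hr))

theorem fpf7 {r : R} (hr : r ∈ Lm) (o : orderOf r = 7) {a : ℕ} (ha : a < 4096) (h : lin (rc r) a = a) : a = 0 := by
  have : Fact (Nat.Prime 7) := ⟨by norm_num⟩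
  obtain ⟨h1, h2⟩ := relt_mem (k := k7) (by decide +kernel)
  obtain ⟨d, hd, e⟩ := exists_conj_pow (by norm_num) h1 hr (gcR.orderOf_prime h2 (by decide +kernel)) o
    (by rw [card_Lm]; norm_num)
  have h3 := (mem_stabV ha).1 (zpowers_le.2 ((mem_stabV ha).2 h) (mem_conj.1 (e.ge (mem_zpowers _))))
  have h4 := ball_zero (show ball (fun b => bor (!fx k7 b) (Nat.beq b 0)) 12 0 = true by decide +kernel) _ (lin_lt (rc d) a)
  rw [fx, ← h2, ← lin_rc_inv' d (lin_lt _ _), ← lin_rc_mul _ d, ← lin_rc_mul d⁻¹, ← mul_assoc, h3] at h4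
  simp only [Nat.beq_refl, Bool.not_true, bor_eq, Bool.false_or, Nat.beq_eq] at h4
  exact lin_rc_inj d ha (by norm_num) (h4.trans (lin_zero _).symm)

theorem card_cent_Lm7 {r : R} (hr : r ∈ Lm) (o : orderOf r = 7) : Nat.card ↥(Lm ⊓ C1[r]) ≤ 42 := by
  have : Fact (Nat.Prime 7) := ⟨by norm_num⟩
  have h3 : rW ^ 3 = 1 := by rw [pow_succ, pow_two, rW3]
  have k : (MonoidHom.snd Mtˣ M24).ker ⊓ Lm ≤ zpowers rW := fun x hx => by
    rcases kerθ hx.2 hx.1 with rfl | rfl | rfl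
    exacts [one_mem _, mem_zpowers _, mul_mem (mem_zpowers _) (mem_zpowers _)]
  have h1 : orderOf r.2 = 7 := orderOf_eq_prime (by rw [← Prod.pow_snd, ← o, pow_orderOf_eq_one]; rfl) fun e => by
    have := (orderOf_dvd_of_mem_zpowers (k ⟨e, hr⟩)).trans (orderOf_dvd_of_pow_eq_one h3)
    rw [o] at this; omega
  rw [← card_map_mul_card_inf_ker (MonoidHom.snd _ _)]
  refine Nat.mul_le_mul (n₂ := 14) (m₂ := 3) ((card_le_of_le ?_).trans (card_cent7 h1 (Y := {none, some 0}) rfl))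
    ((card_le_of_le ((inf_le_inf_left _ inf_le_left).trans k)).trans ?_)
  · rintro _ ⟨x, hx, rfl⟩
    exact ⟨map_mem_cent1 hx.2 (MonoidHom.snd _ _), snd_mem_Dd hx.1⟩
  · rw [Nat.card_zpowers]; exact orderOf_le_of_pow_eq_one (by norm_num) h3

namespace HM

variable {H : Type*} [Group H] {z ω : H} {s : ℕ → H} {Λ : H →* R} (M : HM z ω s Λ)
include M

theorem card_ker_eq [Finite H] {F : Subgroup H} (hz : z ∈ F) {S : Finset ℕ} (hS : ∀ a, a ∈ S ↔ a < 4096 ∧ s a ∈ F) :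
    Nat.card ↥(Λ.ker ⊓ F) = S.card * 2 := by
  refine le_antisymm (M.card_ker_le hz fun a ha h => (hS a).2 ⟨ha, h⟩) ?_
  have := Nat.card_le_card_of_injective (fun x : S × Bool => (⟨s x.1 * z ^ x.2.toNat,
    mul_mem (M.Λs ((hS _).1 x.1.2).1) (M.Λzp _), mul_mem ((hS _).1 x.1.2).2 (pow_mem hz _)⟩ :
      ↥(Λ.ker ⊓ F))) fun a b e => by
    have e0 : s a.1 * z ^ a.2.toNat = s b.1 * z ^ b.2.toNat := congrArg Subtype.val e
    have e1 := congrArg M.cb e0
    rw [M.cb_mul_zp, M.cb_mul_zp, M.cb_s ((hS _).1 a.1.2).1, M.cb_s ((hS _).1 b.1.2).1] at e1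
    rw [e1, mul_right_inj] at e0
    exact Prod.ext (Subtype.ext e1) (by
      have := M.zp_inj (Bool.toNat_le _) (Bool.toNat_le _) e0
      revert this; cases a.2 <;> cases b.2 <;> simp)
  rwa [Nat.card_prod, Nat.card_eq_finsetCard, Nat.card_eq_fintype_card, Fintype.card_bool] at this

/-- The subgroup `2³`. -/
def ZH : Subgroup H where
  carrier := {h | Λ h = 1 ∧ M.cb h < 2 ^ 2}
  mul_mem' {a b} ha hb := ⟨by rw [map_mul, ha.1, hb.1, one_mul], by
    rw [M.cb_mul, ha.1, lin_rc_one (M.cb_lt b)]; exact Nat.xor_lt_two_pow ha.2 hb.2⟩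
  one_mem' := ⟨map_one _, by rw [M.cb_one]; norm_num⟩
  inv_mem' {a} ha := ⟨by rw [map_inv, ha.1, inv_one], by rw [M.cb_inv, ha.1, inv_one, lin_rc_one (M.cb_lt a)]; exact ha.2⟩

theorem mem_ZH {h : H} : h ∈ M.ZH ↔ Λ h = 1 ∧ M.cb h < 4 := Iff.rfl

theorem z_mem_ZH : z ∈ M.ZH := ⟨M.Λz, by rw [M.cb_norm M.z_mem]; norm_num⟩

theorem s_mem_ZH {a : ℕ} (ha : a < 4) : s a ∈ M.ZH := ⟨M.Λs (by omega), by rwa [M.cb_s (by omega)]⟩

theorem ZH_le : M.ZH ≤ M.VH := fun h hh => M.mem_VH.2 ⟨hh.1 ▸ one_mem _, hh.2.trans (by norm_num)⟩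

theorem cb_conj_ker {g h : H} (e : Λ h = 1) : M.cb (g * h * g⁻¹) = lin (rc (Λ g)) (M.cb h) := by
  rw [M.cb_conj, show Λ (g * h * g⁻¹) = 1 by simp [e], lin_rc_one (M.cb_lt g), Nat.xor_comm (M.cb g), Nat.xor_assoc,
    Nat.xor_self, Nat.xor_zero]

theorem mem_norm_ZH [Finite H] {g : H} (h : ∀ a < 4, lin (rc (Λ g)) a < 4) : g ∈ N[M.ZH] :=
  mem_normalizer_of_conj fun x hx => ⟨by simp [hx.1], by rw [M.cb_conj_ker hx.1]; exact h _ hx.2⟩

theorem mem_cent_ZH {h : H} : h ∈ C[M.ZH] ↔ Λ h ∈ CZ ∧ M.cb h &&& 192 = 0 := by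
  have h1 := ball_zero (show ball (fun b => Nat.beq (b2n (Nat.beq (b &&& 192) 0)) (b2n (nall 4 fun a => Nat.beq (Bf b a) 0)))
    12 0 = true by decide +kernel) _ (M.cb_lt h)
  have h2 : M.cb h &&& 192 = 0 ↔ ∀ a < 4, Bf (M.cb h) a = 0 := by
    simp only [← Nat.beq_eq (x := _ &&& _), ← Nat.beq_eq (x := Bf _ _), ← nall_iff]
    revert h1
    cases Nat.beq (M.cb h &&& 192) 0 <;> cases nall 4 fun a => Nat.beq (Bf (M.cb h) a) 0 <;> decide
  rw [h2, mem_CZ]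
  refine ⟨fun hh => ?_, fun ⟨⟨_, a1, a2⟩, a3⟩ v hv => ?_⟩
  · have h3 := fun a (ha : a < 4) => M.comm_s (by omega) (hh _ (M.s_mem_ZH ha)).symm
    exact ⟨⟨M.mem h, (h3 1 (by norm_num)).1, (h3 2 (by norm_num)).1⟩, fun a ha => by
      rw [← (h3 a ha).2, Qf_lt64 a (by omega), mul_zero]⟩
  · have h3 : h * s (M.cb v) = s (M.cb v) * h := M.comm_s_of (M.cb_lt v) (by
      have := (M.mem_ZH.1 hv).2
      have a0 := lin_xor (rc (Λ h)) 1 2
      interval_cases M.cb v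
      exacts [lin_zero _, a1, a2, by rw [a1, a2] at a0; exact a0])
      (by rw [a3 _ hv.2, Qf_lt64 _ (hv.2.trans (by norm_num)), mul_zero])
    rcases M.eq_s hv.1 with e | e <;> rw [e]
    · exact h3.symm
    · rw [← mul_assoc, h3, mul_assoc, mul_assoc, M.zc]

theorem card_cent_ZH [Finite H] {K : Subgroup R} (hK : K ≤ CZ) : Nat.card ↥(C[M.ZH] ⊓ K.comap Λ) = Nat.card K * 2 ^ 11 := by
  have h1 : (C[M.ZH] ⊓ K.comap Λ).map Λ = K := le_antisymm (by rintro _ ⟨h, hh, rfl⟩; exact hh.2) fun r hr => by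
    obtain ⟨l, hl, rfl⟩ := M.lift r (mem_CZ.1 (hK hr)).1
    exact mem_map_of_mem Λ ⟨M.mem_cent_ZH.2 ⟨hK hr, by rw [M.cb_norm hl]; rfl⟩, hr⟩
  have h2 : ∀ h, Λ h = 1 → (h ∈ C[M.ZH] ⊓ K.comap Λ ↔ M.cb h &&& 192 = 0) := fun h e => by
    simp [M.mem_cent_ZH, e]
  rw [← card_map_mul_card_inf_ker Λ, h1, M.card_ker_eq ((h2 z M.Λz).2 (by rw [M.cb_norm M.z_mem]; rfl))
    (S := (Finset.range (2 ^ 12)).filter fun b => Nat.beq (b &&& 192) 0 = true) fun a => by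
      rw [Finset.mem_filter, Finset.mem_range, Nat.beq_eq]
      exact and_congr_right fun ha => by rw [h2 _ (M.Λs ha), M.cb_s ha], ← bsum_count]
  congr 1

theorem E_cls {h : H} (h1 : Λ h = 1) (h2 : h * h = 1) (h0 : M.cb h ≠ 0) :
    (∃ l, l * s 1 * l⁻¹ = h) ∨ ∃ l, l * s 20 * l⁻¹ = h := by
  have key : ∀ r ∈ Lm, ∀ a < 64, ∀ b < 4096, Bf b a = 1 → lin (rc r) a = M.cb h → ∃ l, l * s a * l⁻¹ = h :=
    fun r hr a ha b hb e0 e => by
      obtain ⟨l, hl, rfl⟩ := M.lift r hr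
      have a1 := M.conj l hl a (by omega)
      rw [e, Qf_lt64 a ha, mul_zero, pow_zero, mul_one] at a1
      rcases M.eq_s h1 with e1 | e1
      · exact ⟨l, a1.trans e1.symm⟩
      · refine ⟨l * s b, ?_⟩
        rw [mul_inv_rev, mul_assoc l, mul_assoc l, ← mul_assoc _ (s b)⁻¹, M.s_conj hb (by omega), e0, pow_one, e1, ← a1,
          mul_assoc (s a), ← M.zc]; group
  have h3 := (M.zp_eq_one (Qf_le _)).1 ((M.sq_ker h1).symm.trans h2)
  rcases orbits_vec (M.cb_lt h) h0 with ⟨-, ⟨r, hr, e⟩ | ⟨r, hr, e⟩⟩ | ⟨e, -⟩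
  exacts [.inl (key r hr 1 (by norm_num) 64 (by norm_num) (by decide +kernel) e),
    .inr (key r hr 20 (by norm_num) 256 (by norm_num) (by decide +kernel) e), by omega]

theorem card_cent7 [Finite H] {x : H} (o : orderOf x = 7) : Nat.card C1[x] ≤ 84 := by
  have : Fact (Nat.Prime 7) := ⟨by norm_num⟩
  have h1 : orderOf (Λ x) = 7 := orderOf_eq_prime (by rw [← map_pow, ← o, pow_orderOf_eq_one, map_one]) fun e => by
    have := orderOf_dvd_card_of_mem (H := Λ.ker) e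
    rw [o, M.card_ker] at this; omega
  rw [← card_map_mul_card_inf_ker Λ]
  refine Nat.mul_le_mul (n₂ := 42) (m₂ := 2) ((card_le_of_le ?_).trans (card_cent_Lm7 (M.mem x) h1))
    (M.card_ker_le (S := {0}) (mem_cent1.2 (M.zc x).symm) fun a ha h => ?_)
  · rintro _ ⟨y, hy, rfl⟩
    exact ⟨M.mem y, map_mem_cent1 hy Λ⟩
  · exact Finset.mem_singleton.2 (fpf7 (M.mem x) h1 ha (M.comm_s ha (mem_cent1.1 h).symm).1)

end HM

end Cfsg.Agent.J4
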