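import Cfsg.Agent.J4.EG
import Cfsg.Agent.J4.BT
import Cfsg.Agent.J4.PL

/-!
# Groups of type `J₄`: the centraliser of an element of order eleven commuting with `z`
-/

set_option autoImplicit false
set_option linter.unusedSectionVars false
set_option exponentiation.threshold 600

namespace Cfsg.Agent.J4

open Cfsg.Agent.M24 Cfsg.Agent.GT Subgroup MulAction

noncomputable def rX : R := relt kX
noncomputable def rY : R := relt kY
noncomputable def rV : R := relt kV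
theorem rX_f : rX ∈ Lm ∧ rc rX = kX := relt_mem (by decide +kernel)
theorem rY_f : rY ∈ Lm ∧ rc rY = kY := relt_mem (by decide +kernel)
theorem rV_f : rV ∈ Lm ∧ rc rV = kV := relt_mem (by decide +kernel)
theorem mcode_rX : mcode rX.2 = rp kX := by rw [← rp_rc, rX_f.2]
theorem mcode_rY : mcode rY.2 = rp kY := by rw [← rp_rc, rY_f.2]
theorem mcode_rV : mcode rV.2 = rp kV := by rw [← rp_rc, rV_f.2]

theorem cent_x11 {c : M24} (h : c * rX.2 = rX.2 * c) : c ∈ zpowers rX.2 := by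
  obtain ⟨j, -, e⟩ := (nany_iff _ _).1 (trChk_sound mcode_rX mcode_rX (g := 0xa4dcd4c543ad96793cc22c181402e4)
    (f := fun c => nany 11 fun j => Nat.beq (cpow mul one (rp kX) j) c) (by decide +kernel) h)
  rw [← mcode_rX, gcM.cpow_code, beq_mcode] at e
  exact e ▸ pow_mem (mem_zpowers _) j

theorem rX_rel : rY * rX * rY⁻¹ = rX ^ 3 ∧ rV * rX * rV⁻¹ = rX⁻¹ ∧ rV * rV = 1 ∧ rX ^ 11 = 1 ∧ rX.2 ≠ 1 ∧
    rX * rW = rW * rX ∧ rY * rW = rW * rY ∧ rY * rV = rV * rY ∧ rY ^ 5 = 1 ∧ rV.2 ≠ 1 := by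
  simp only [← gcR.inj.eq_iff, gcR.code_mul, gcR.code_inv, ← gcR.cpow_code, rX_f.2, rY_f.2, rV_f.2, rc_rW,
    gcR.code_one, ne_eq, ← gcM.inj.eq_iff, mcode_rX, mcode_rV, gcM.code_one]
  decide +kernel

theorem out_rV : Out rV := ⟨rV_f.1, rX_rel.2.2.1, by rw [rV_f.2]; decide +kernel⟩

theorem orderOf_rX : orderOf rX = 11 :=
  have : Fact (Nat.Prime 11) := ⟨by norm_num⟩
  orderOf_eq_prime rX_rel.2.2.2.1 fun e => rX_rel.2.2.2.2.1 (congrArg Prod.snd e)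
theorem orderOf_rX2 : orderOf rX.2 = 11 :=
  have : Fact (Nat.Prime 11) := ⟨by norm_num⟩
  orderOf_eq_prime (congrArg Prod.snd rX_rel.2.2.2.1) rX_rel.2.2.2.2.1

/-- The vectors fixed by the element of order eleven. -/
def lQ : List ℕ := [0, 1084, 2088, 3092]

theorem mem_lQ {a : ℕ} : a ∈ lQ ↔ a < 4096 ∧ lin kX a = a :=
  ⟨by revert a; decide +kernel, fun h => lany_beq.1 (by
    simpa [bor_eq, h.2] using ball_zero (show ball (fun a => bor (!Nat.beq (lin kX a) a) (lany lQ (Nat.beq a))) 12 0 = true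
      by decide +kernel) a h.1)⟩

/-- Lifts of the element of order eleven and of an outer involution inverting it. -/
structure XD {H : Type*} [Group H] {z ω : H} {s : ℕ → H} {Λ : H →* R} (M : HM z ω s Λ) (x v : H) : Prop where
  x_mem : x ∈ N[zpowers ω]
  Λx : Λ x = rX
  x11 : x ^ 11 = 1
  v_mem : v ∈ N[zpowers ω]
  Λv : Λ v = rV
  vv : v * v = 1

theorem HM.eq_one_of_odd {H : Type*} [Group H] [Finite H] {z ω : H} {s : ℕ → H} {Λ : H →* R} (M : HM z ω s Λ) {h : H}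
    (e : Λ h = 1) (o : Odd (orderOf h)) : h = 1 :=
  orderOf_eq_one_iff.1 (((Nat.coprime_two_right.2 o).pow_right 13).eq_one_of_dvd
    (M.card_ker ▸ orderOf_dvd_card_of_mem (H := Λ.ker) e))

namespace XD

variable {H : Type*} [Group H] [Finite H] {z ω : H} {s : ℕ → H} {Λ : H →* R} {M : HM z ω s Λ} {x v : H} (D : XD M x v)
include D

theorem ox : orderOf x = 11 :=
  have : Fact (Nat.Prime 11) := ⟨by norm_num⟩
  orderOf_eq_prime D.x11 fun e => rX_rel.2.2.2.2.1 (by rw [← D.Λx, e, map_one]; rfl)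

theorem ω_mem : ω ∈ C1[x] := mem_cent1.2 (M.conj_ω D.x_mem (D.Λx ▸ rX_rel.2.2.2.2.2.1)).symm

theorem s_mem {a : ℕ} (ha : a < 4096) : s a ∈ C1[x] ↔ a ∈ lQ := by
  refine ⟨fun h => mem_lQ.2 ⟨ha, by simpa only [D.Λx, rX_f.2] using (M.comm_s ha (mem_cent1.1 h).symm).1⟩,
    fun h => mem_cent1.2 ?_⟩
  rw [eq_comm, ← mul_inv_eq_iff_eq_mul, M.conj x D.x_mem a ha, D.Λx, rX_f.2, (mem_lQ.1 h).2,
    show ou kX = 0 by decide +kernel, zero_mul, pow_zero, mul_one]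

theorem dec {h : H} (e : h ∈ C1[x]) : ∃ i < 3, ∃ c ∈ zpowers x, Λ h = rW ^ i * Λ c := by
  obtain ⟨k, hk⟩ := cent_x11 (c := (Λ h).2) (congrArg Prod.snd (D.Λx ▸ mem_cent1.1 (map_mem_cent1 e Λ)))
  have h1 := kerθ (mul_mem (M.mem h) (inv_mem (zpow_mem rX_f.1 k))) (show (Λ h).2 * (rX.2 ^ k)⁻¹ = 1 by
    rw [mul_inv_eq_one]; exact hk.symm)
  simp only [mul_inv_eq_iff_eq_mul] at h1
  rcases h1 with h1 | h1 | h1
  exacts [⟨0, by norm_num, x ^ k, zpow_mem (mem_zpowers x) k, by simpa [D.Λx] using h1⟩,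
    ⟨1, by norm_num, x ^ k, zpow_mem (mem_zpowers x) k, by simpa [D.Λx] using h1⟩,
    ⟨2, by norm_num, x ^ k, zpow_mem (mem_zpowers x) k, by simpa [D.Λx, pow_two] using h1⟩]

theorem map_cent : C1[x].map Λ = zpowers (rW * rX) := by
  have c : Commute rW rX := rX_rel.2.2.2.2.2.1.symm
  have w3 : rW ^ 3 = 1 := by rw [← rW3]; simp [pow_succ]
  refine le_antisymm ?_ (zpowers_le.2 ⟨_, mul_mem D.ω_mem (self_mem_cent1 x), by rw [map_mul, M.Λω, D.Λx]⟩)
  rintro _ ⟨h, hh, rfl⟩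
  obtain ⟨i, -, _, ⟨k, rfl⟩, e⟩ := D.dec hh
  rw [e, map_zpow, D.Λx]
  refine mul_mem (pow_mem (mem_zpowers_iff.2 ⟨(22 : ℕ), ?_⟩) i) (zpow_mem (mem_zpowers_iff.2 ⟨(12 : ℕ), ?_⟩) k)
  · simp only [zpow_natCast]
    rw [c.mul_pow, show 22 = 11 * 2 from rfl, pow_mul rX, rX_rel.2.2.2.1, show 11 * 2 = 3 * 7 + 1 from rfl, pow_succ,
      pow_mul, w3]; simp
  · simp only [zpow_natCast]
    rw [c.mul_pow, pow_succ rX, rX_rel.2.2.2.1, show 12 = 3 * 4 from rfl, pow_mul, w3]; simp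

omit D in
theorem orderOf_WX : orderOf (rW * rX) = 33 := by
  have : Fact (Nat.Prime 3) := ⟨by norm_num⟩
  have o : orderOf rW = 3 := orderOf_eq_prime (by rw [← rW3]; simp [pow_succ]) rW_ne_one
  rw [Commute.orderOf_mul_eq_mul_orderOf_of_coprime rX_rel.2.2.2.2.2.1.symm (by rw [o, orderOf_rX]; norm_num), o,
    orderOf_rX]

theorem card_cent : Nat.card C1[x] = 264 := by
  rw [← card_map_mul_card_inf_ker Λ, D.map_cent, Nat.card_zpowers, orderOf_WX,
    M.card_ker_eq (mem_cent1.2 (M.zc x).symm) (S := lQ.toFinset) fun a => by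
      rw [List.mem_toFinset]
      exact ⟨fun h => ⟨(mem_lQ.1 h).1, (D.s_mem (mem_lQ.1 h).1).2 h⟩, fun h => (D.s_mem h.1).1 h.2⟩]
  rfl

theorem cb_mem {h : H} (e : h ∈ C1[x]) (h1 : Λ h = 1) : M.cb h ∈ lQ := by
  refine (D.s_mem (M.cb_lt h)).1 ?_
  rcases M.eq_s h1 with k | k
  · exact k ▸ e
  · exact (mul_mem_cancel_right (mem_cent1.2 (M.zc x).symm)).1 (k ▸ e)

theorem inv_cases {h : H} (e : h ∈ C1[x]) (h2 : h * h = 1) : h = 1 ∨ h = z := by
  have h1 : Λ h = 1 := eq_one_of_inv (Odd.of_dvd_nat (by decide : Odd 33)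
    (orderOf_WX ▸ orderOf_dvd_of_mem_zpowers (D.map_cent ▸ mem_map_of_mem Λ e)))
    (inv_eq_of_mul_eq_one_right (by rw [← map_mul, h2, map_one]))
  have h3 := M.sq_ker h1
  rw [h2, eq_comm, M.zp_eq_one (Qf_le _)] at h3
  have h4 := (show ∀ a ∈ lQ, Qf a = 0 → a = 0 by decide +kernel) _ (D.cb_mem e h1) h3
  simpa [h4, M.s0] using M.eq_s h1

theorem mem_zpowers_of {h : H} (e : h ∈ C1[x]) (o : Odd (orderOf h))
    (o' : Odd (orderOf (h * s 1084 * h⁻¹ * (s 1084)⁻¹))) : h ∈ zpowers x := by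
  have h1 := M.eq_one_of_odd (by simp [M.Λs]) o'
  rw [mul_inv_eq_one, mul_inv_eq_iff_eq_mul] at h1
  obtain ⟨i, hi, c, hc, e1⟩ := D.dec e
  have h2 := (M.comm_s (by norm_num) h1).1
  rw [e1, lin_rc_mul, (M.comm_s (by norm_num) (zp_comm hc ((D.s_mem (by norm_num)).2 (by decide))).eq).1,
    ← gcR.cpow_code, rc_rW] at h2
  obtain rfl := (show ∀ i < 3, lin (cpow rmul rone kW i) 1084 = 1084 → i = 0 by decide +kernel) i hi h2
  have h3 : h * c⁻¹ = 1 := M.eq_one_of_odd (by simp [e1]) (Odd.of_dvd_nat (o.mul (by decide : Odd 11))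
    ((zp_comm hc e).symm.inv_right.orderOf_mul_dvd_mul_orderOf.trans (mul_dvd_mul_left _ (by
      rw [orderOf_inv, ← D.ox]; exact orderOf_dvd_of_mem_zpowers hc))))
  exact mul_inv_eq_one.1 h3 ▸ hc

theorem conj_v : v * x * v⁻¹ = x⁻¹ :=
  M.eq_of_odd (n := 5) (mul_mem (mul_mem D.v_mem D.x_mem) (inv_mem D.v_mem)) (inv_mem D.x_mem)
    (by simp only [map_mul, map_inv, D.Λx, D.Λv, rX_rel.2.1]) (by rw [conj_pow, D.x11]; group)
    (by rw [inv_pow, D.x11, inv_one])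

theorem conj_y {y : H} (hy : y ∈ N[zpowers ω]) (e : Λ y = rY) : y * x * y⁻¹ = x ^ 3 :=
  M.eq_of_odd (n := 5) (mul_mem (mul_mem hy D.x_mem) (inv_mem hy)) (pow_mem D.x_mem 3)
    (by simp only [map_mul, map_inv, map_pow, D.Λx, e, rX_rel.1]) (by rw [conj_pow, D.x11]; group)
    (by rw [← pow_mul, mul_comm, pow_mul, D.x11, one_pow])

end XD

namespace JD

variable {G H : Type*} [Group G] [Group H] [Finite G] {ι : H →* G} {z ω : H} {s : ℕ → H} {Λ : H →* R}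
  {M : GM ι z ω s Λ} {y g : H} {T : ℕ → H} {π : N[M.V] →* M24} {κ : M24 →* N[M.V]} (J : JD M y g T π κ)
include J

theorem exists_xd : ∃ x v, XD M.toHM x v := by
  obtain ⟨x, hx, e, o⟩ := M.lift_odd (k := kX) (n := 5) (by decide +kernel) (by decide +kernel)
  obtain ⟨v, hv, e'⟩ := M.lift _ rV_f.1
  obtain ⟨lc, D, -⟩ := J.exists_kd
  exact ⟨x, v, hx, gcR.inj (e.trans rX_f.2.symm), o, hv, e', D.hO v hv (e' ▸ out_rV)⟩

theorem Λy' : Λ y = rY := gcR.inj (J.vc.Λy.trans rY_f.2.symm)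

theorem el {x v : H} (D : XD M.toHM x v) : EL (ι x) (ι z) (ι (s 1084)) (ι (s 2088)) (ι ω) := by
  have := M.finH
  have hz : ι z ∈ C1[ι x] := map_mem_cent1 (mem_cent1.2 (M.zc x).symm) ι
  have ha : ι (s 1084) ∈ C1[ι x] := map_mem_cent1 ((D.s_mem (by norm_num)).2 (by decide)) ι
  refine ⟨J.card_G, by rw [orderOf_injective ι M.inj, D.ox], J.mc.z_sq, hz, ha,
    map_mem_cent1 ((D.s_mem (by norm_num)).2 (by decide)) ι, map_mem_cent1 D.ω_mem ι,
    by rw [← map_mul, M.zc, map_mul], by rw [← map_mul, M.zc, map_mul], ?_, by rw [← map_pow, M.ω3, map_one],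
    fun g => J.cent_ω, fun g hg e => ?_, fun o ho => ?_, ?_⟩
  · simp only [← map_inv, ← map_mul]
    rw [M.s_conj (by norm_num) (by norm_num), show Bf 1084 2088 = 1 by decide +kernel, pow_one, M.zc,
      mul_inv_cancel_right]
  · obtain ⟨h, e'⟩ := M.surj _ e.symm
    rcases D.inv_cases (h := h) ((map_mem_cent1_iff M.inj).1 (e' ▸ mul_mem (mul_mem hg hz) (inv_mem hg)))
      (M.inj (by rw [map_mul, e', conj_mul, J.mc.z_sq]; simp)) with k | k
    · rw [k, map_one, eq_comm, conj_eq_one_iff] at e'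
      exact absurd e' J.ms.z_ne_one
    · rw [← e', k]
  · obtain ⟨h, rfl⟩ := M.surj _ (mem_cent1.1 ho.2)
    rw [← MonoidHom.map_zpowers]
    refine mem_map_of_mem ι (D.mem_zpowers_of ((map_mem_cent1_iff M.inj).1 (OC_le _ ho.1))
      (orderOf_injective ι M.inj h ▸ odd_of_OC ho.1) ?_)
    rw [← orderOf_injective ι M.inj]
    refine odd_of_OC (X := ι x) ?_
    simpa only [map_mul, map_inv, mul_assoc] using (OC (ι x)).mul_mem ho.1 (conj_mem_of_mem_norm (le_norm_OC _ ha) (inv_mem ho.1))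
  · rw [← D.card_cent, ← card_map_of_injective (f := ι) M.inj]
    congr 2
    refine le_antisymm (fun a ha => ?_) (map_le_iff_le_comap.2 fun h hh => ⟨map_mem_cent1 hh ι, map_mem_cent1 (mem_cent1.2 (M.zc h)) ι⟩)
    obtain ⟨h, rfl⟩ := M.surj _ (mem_cent1.1 ha.2)
    exact mem_map_of_mem ι ((map_mem_cent1_iff M.inj).1 ha.1)

end JD

end Cfsg.Agent.J4
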