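import Cfsg.Agent.J4.EA

/-!
# Groups of type `J₄`: the centraliser of an element of order eleven normalising `V`
-/

set_option autoImplicit false
set_option linter.unusedSectionVars false
set_option exponentiation.threshold 600

namespace Cfsg.Agent.J4

open Cfsg.Agent.M24 Cfsg.Agent.GT Subgroup MulAction
open scoped Pointwise

theorem two_pow_mod {k : ℕ} (h : 2 ^ k % 11 = 1 % 11) (hk : k ≤ 11) : k = 0 ∨ k = 10 := by
  interval_cases k <;> simp at h ⊢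

theorem le_of_pow_dvd {p k n m : ℕ} (h : p ^ k ∣ m) (hn : ¬ p ^ (n + 1) ∣ m) : k ≤ n :=
  not_lt.1 fun e => hn ((pow_dvd_pow p e).trans h)

theorem two_M24_aux {D : Subgroup M24} (hD : IsPGroup 2 D) (hn : rX.2 ∈ N[D]) : Nat.card D = 1 ∨ Nat.card D = 1024 := by
  obtain ⟨k, hk⟩ := IsPGroup.iff_card.1 hD
  have h1 := card_modEq_one (p := 11) (by norm_num) (orderOf_rX2 ▸ pow_orderOf_eq_one _) hn fun d hd e => by
    have h2 : orderOf d ∣ 11 := orderOf_rX2 ▸ orderOf_dvd_of_mem_zpowers (cent_x11 e.symm)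
    exact orderOf_eq_one_iff.1 (Nat.eq_one_of_dvd_coprimes (Nat.Coprime.pow_left k (by norm_num : Nat.Coprime 2 11))
      (hk ▸ orderOf_dvd_card_of_mem hd) h2)
  have h2 : k ≤ 10 := le_of_pow_dvd (hk ▸ card_M24 ▸ card_subgroup_dvd_card D) (by norm_num)
  rw [hk] at h1 ⊢
  rcases two_pow_mod h1 (by omega) with rfl | rfl <;> simp

theorem two_M24 {D : Subgroup M24} (hD : IsPGroup 2 D) (hn : rX.2 ∈ N[D]) : D = ⊥ := by
  refine card_eq_one.1 ((two_M24_aux hD hn).resolve_right fun h => ?_)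
  have h1 : ∀ a : GolayPt, rX.2 • a = a → D ≤ stabilizer M24 a := fun a ha => by
    have h2 := card_inf_stab D a
    have h3 : (orbit D a).ncard ≤ 24 := by
      rw [← card_golayPt, ← Nat.card_eq_fintype_card, ← Set.ncard_univ]; exact Set.ncard_le_ncard (Set.subset_univ _)
    rcases two_M24_aux (D := D ⊓ stabilizer M24 a) hD.to_inf_left
      (zpowers_le.1 (le_norm_inf (zpowers_le.2 hn) (le_norm_self (zpowers_le.2 ha)))) with e | e
    · rw [e, h] at h2; omega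
    · exact inf_eq_left.1 (eq_of_le_of_card_ge inf_le_left (by rw [e, h]))
  obtain ⟨a, b, -⟩ := (Lm_cases rX_f.1).resolve_right fun e => rW_ne (mul_right_cancel (rX_rel.2.2.2.2.2.1.symm.trans e.2.2))
  have h2 : D ≤ Dd := fun d hd => by
    rw [Dd, mem_stabilizer_iff, Finset.smul_finset_insert, Finset.smul_finset_singleton, h1 _ a hd, h1 _ b hd]
  have := card_dvd_of_le h2
  rw [h, card_Dd] at this; omega

namespace MC

variable {G : Type*} [Group G] [Finite G] {z : G} {V : Subgroup G} {T : ℕ → G} {π : N[V] →* M24} {κ : M24 →* N[V]}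
  (M : MC z V T π κ)
include M

theorem card_N : Nat.card N[V] = 501397585920 := by
  have h := M.ms.card_map_π (W := N[V]) le_rfl
  rw [subgroupOf_self, ← MonoidHom.range_eq_map, MonoidHom.range_eq_top.2 fun g => ⟨κ g, M.ms.sec g⟩, card_top, card_M24,
    inf_eq_right.2 le_normalizer, M.ms.card] at h
  exact h.symm

theorem oκ (g : M24) : orderOf (κ g : G) = orderOf g := by rw [orderOf_coe, orderOf_injective κ M.ms.κ_inj]

theorem oY : orderOf (κ rX.2 : G) = 11 := (M.oκ _).trans orderOf_rX2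

theorem Y11 {c : G} (hc : c ∈ zpowers (κ rX.2 : G)) : c ^ 11 = 1 :=
  orderOf_dvd_iff_pow_eq_one.1 (M.oY ▸ orderOf_dvd_of_mem_zpowers hc)

theorem κ_t {r : R} (hr : r ∈ Lm) : (κ r.2 : G) * T 1458 = T 1458 * κ r.2 :=
  (M.mem_Dd_iff _).1 (by rw [M.ms.sec]; exact snd_mem_Dd hr)

theorem cent_YV {v : G} (hv : v ∈ V) (h : v ∈ C1[(κ rX.2 : G)]) : v = 1 ∨ v = T 1458 := by
  obtain ⟨a, ha, rfl⟩ := M.px.co.surj v hv
  have h1 := M.act_mat (κ rX.2) a ha
  rw [M.ms.sec, mcode_rX, ← mem_cent1.1 h, mul_inv_cancel_right] at h1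
  have h2 := ball_zero (force_eq _ _ ▸ show force (mat (rp kX)) (fun m => ball (fun a => bor (!Nat.beq (lin m a) a)
    (bor (Nat.beq a 0) (Nat.beq a 1458))) 11 0) = true by decide +kernel) a ha
  rw [← M.px.co.eq ha h1.2 h1.1] at h2
  simp only [Nat.beq_refl, Bool.not_true, bor_eq, Bool.false_or, Bool.or_eq_true, Nat.beq_eq] at h2
  rcases h2 with rfl | rfl
  exacts [.inl M.px.co.zero, .inr rfl]

theorem cent_Y {n : G} (hn : n ∈ N[V]) (h : n ∈ C1[(κ rX.2 : G)]) :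
    ∃ c ∈ zpowers (κ rX.2 : G), n = c ∨ n = T 1458 * c := by
  obtain ⟨k, hk⟩ := cent_x11 (c := π ⟨n, hn⟩) (by
    rw [← M.ms.sec rX.2, ← map_mul, ← map_mul]; exact congrArg π (Subtype.ext (mem_cent1.1 h)))
  have h1 := M.ms.mul_inv_κ_mem ⟨n, hn⟩
  rw [← hk, map_zpow] at h1
  have h2 := zpow_mem (mem_zpowers (κ rX.2 : G)) k
  have h3 := M.cent_YV h1 (mul_mem h (inv_mem (zpowers_le.2 (self_mem_cent1 _) h2)))
  simp only [mul_inv_eq_iff_eq_mul, one_mul] at h3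
  exact ⟨_, h2, h3⟩

theorem two_le_V {D : Subgroup G} (h : D ≤ N[V]) (hD : IsPGroup 2 D) (hn : (κ rX.2 : G) ∈ N[D]) : D ≤ V := fun d hd => by
  have h1 := two_M24 (D := (D.subgroupOf N[V]).map π) ((isPGroup_subgroupOf_iff h).2 hD |>.map π)
    (mem_normalizer_of_conj_le (conj_le_iff_forall.2 (by
      rintro _ ⟨e, he, rfl⟩
      exact ⟨κ rX.2 * e * (κ rX.2)⁻¹, conj_mem_of_mem_norm (H := D) hn he, by simp [M.ms.sec]⟩)))
  exact (M.ms.ker ⟨d, h hd⟩).1 (mem_bot.1 (h1 ▸ mem_map_of_mem π hd))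

variable {u : G} (hu : u ∈ C1[(κ rX.2 : G)]) (hn : u ∉ N[V])
include hu hn

theorem two_S {D : Subgroup G} (h : D ≤ N[V] ⊓ cj[u] N[V]) (hD : IsPGroup 2 D) (hY : (κ rX.2 : G) ∈ N[D]) : D = ⊥ := by
  have e0 : u⁻¹ * κ rX.2 * u = κ rX.2 := by rw [mul_assoc, ← mem_cent1.1 hu, inv_mul_cancel_left]
  have h1 := M.two_le_V (h.trans inf_le_left) hD hY
  have h2 : D ≤ cj[u] V := le_conj_iff.2 (M.two_le_V (le_conj_iff.1 (h.trans inf_le_right)) (isPGroup_conj_iff.2 hD)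
    (by rw [← conj_normalizer, mem_conj, inv_inv, mem_cent1.1 hu, mul_inv_cancel_right]; exact hY))
  have h3 := card_modEq_one (p := 11) (by norm_num) (M.Y11 (mem_zpowers _)) hY fun d hd e => by
    refine (M.cent_YV (h1 hd) (mem_cent1.2 e.symm)).resolve_right fun k => ?_
    rcases M.cent_YV (mem_conj.1 (h2 hd)) (mul_mem (mul_mem (inv_mem hu) (mem_cent1.2 e.symm)) hu) with k' | k'
    · exact M.t_ne (by rw [← k, ← mul_inv_cancel_left u d, ← mul_inv_cancel_right (u⁻¹ * d) u, k']; group)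
    · obtain ⟨n, rfl⟩ := M.cent_t (mem_cent1.2 (show u * T 1458 = T 1458 * u by nth_rw 1 [← k']; rw [k]; group))
      exact hn n.2
  obtain ⟨k, hk⟩ := IsPGroup.iff_card.1 hD
  have h4 : k ≤ 11 := le_of_pow_dvd (hk ▸ M.ms.card ▸ card_dvd_of_le h1) (by norm_num)
  rw [hk] at h3
  rcases two_pow_mod h3 h4 with rfl | rfl
  · exact card_eq_one.1 hk
  have h5 : (D.subgroupOf V).index = 2 := by
    have := card_mul_relIndex h1
    rw [hk, M.ms.card, relIndex] at this; omega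
  have h6 : ∀ c < 2048, c ≠ 0 → tbq 102 (cl clT6 c) = false → T c ∉ D := fun c hc h0 e hd => by
    obtain ⟨Y, hY, rfl⟩ := exists_duad hc h0 e
    have hs := sq_conj (fun x => M.ms.sq) u
    exact hn (conj_eq_self_iff.1 (M.ms.uniq _ (fun v hv => M.ms.cent_duad hY (mem_cent1.2 (comm_of_sq hs hv (h2 hd))))
      (elem_of_sq hs) (by rw [card_conj, M.ms.card])))
  have h7 := (mul_mem_iff_of_index_two h5 (a := ⟨_, M.px.co.mem 64⟩) (b := ⟨_, M.px.co.mem 128⟩)).2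
    (iff_of_false (h6 64 (by norm_num) (by norm_num) (by decide +kernel))
      (h6 128 (by norm_num) (by norm_num) (by decide +kernel)))
  exact absurd (M.px.co.mul 64 128 ▸ h7) (h6 (64 ^^^ 128) (by decide) (by decide) (by decide +kernel))

variable (hN : Nat.card G = 86775571046077562880)
include hN

omit hu hn in
theorem card_S (u : G) : 2897 < Nat.card ↥(N[V] ⊓ cj[u] N[V]) := by
  have h1 := (N[V]).card_mul_index
  have h2 := (N[V] ⊓ cj[u] N[V]).card_mul_index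
  have h3 := index_inf_le (H := N[V]) (K := cj[u] N[V])
  rw [M.card_N, hN] at h1
  rw [index_conj, show N[V].index = 173067389 by omega] at h3
  rw [hN] at h2
  by_contra! h
  have := Nat.mul_le_mul h h3
  omega

theorem exists_n : ∃ n ∈ N[V] ⊓ cj[u] N[V], n ∈ N[zpowers (κ rX.2 : G)] ∧ n ∉ C1[(κ rX.2 : G)] := by
  by_contra! h
  obtain ⟨S, hS⟩ : ∃ S, S = N[V] ⊓ cj[u] N[V] := ⟨_, rfl⟩
  have hY : (κ rX.2 : G) ∈ S := hS ▸ ⟨(κ rX.2).2, mem_conj.2 (by
    rw [mul_assoc, ← mem_cent1.1 hu, inv_mul_cancel_left]; exact (κ rX.2).2)⟩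
  have hc : Nat.card S ∣ 501397585920 := M.card_N ▸ card_dvd_of_le (hS ▸ inf_le_left)
  have cY : Nat.card (zpowers (κ rX.2 : G)) = 11 := by rw [Nat.card_zpowers, M.oY]
  have h1 : IsPiHallOf {11} (zpowers (κ rX.2 : G)) S :=
    syl_mk (by norm_num) (zpowers_le.2 hY) (isPGroup_of_card_eq_prime cY) fun e => by
      rw [← card_mul_relIndex (zpowers_le.2 hY), cY] at hc
      have := (mul_dvd_mul_left 11 e).trans hc; omega
  have h2 := Burnside_hall (by norm_num) h1 fun n k => (cent_zpowers _).ge (h n (hS ▸ k.1) k.2)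
  obtain ⟨D, hD⟩ : ∃ D, D = piCoreOf {11}ᶜ S := ⟨_, rfl⟩
  have hDn : zpowers (κ rX.2 : G) ≤ N[D] := hD ▸ h1.le.trans (self_le_norm_piCoreOf _ _)
  rw [← hD] at h2
  have h3 := (h2.isComplIn' h1).card_mul
  have h4 : ∀ d ∈ D, (κ rX.2 : G) * d = d * κ rX.2 → d = 1 := fun d hd e => by
    obtain ⟨c, hc, k | k⟩ := M.cent_Y (hS ▸ h2.le hd).1 (mem_cent1.2 e.symm)
    · exact mem_bot.1 ((h2.isComplIn' h1).inf_eq ▸ mem_inf.2 ⟨hd, k ▸ hc⟩)
    · have h5 : d ^ 11 = T 1458 := by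
        rw [k, (zp_comm hc (mem_cent1.2 (M.κ_t rX_f.1).symm)).symm.mul_pow, M.Y11 hc, mul_one, pow_succ,
          show 10 = 2 * 5 from rfl, pow_mul, pow_two, M.px.co.sq, one_pow, one_mul]
      refine absurd (mem_bot.1 (M.two_S hu hn (D := zpowers (T 1458)) (zpowers_le.2 (hS ▸ h5 ▸ pow_mem (h2.le hd) 11))
        (pg_of_sq fun x hx => M.ms.sq (zpowers_le.2 (M.px.co.mem _) hx))
        (cent_le_norm _ ((cent_zpowers _).ge (mem_cent1.2 (M.κ_t rX_f.1)))) ▸ mem_zpowers _)) M.t_ne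
  have h5 : IsPGroup 23 D := IsPiSubgroup.isPGroup (fun r hr hd => by
    obtain ⟨P, hP, hn'⟩ := coprime_exists_syl hr (.inr (solvable_of_isPGroup (by norm_num) (isPGroup_of_card_eq_prime cY)))
      hDn (h2.isPi.coprime' h1.isPi)
    have : Fact r.Prime := ⟨hr⟩
    obtain ⟨k, hk⟩ := IsPGroup.iff_card.1 (syl_isPGroup hr hP)
    have h6 := card_modEq_one (p := 11) (by norm_num) (M.Y11 (mem_zpowers _)) (zpowers_le.1 hn') fun d hd => h4 d (hP.le hd)
    have h7 := (syl_ne_bot_iff hr hP).2 hd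
    have h8 : k ≠ 0 := fun e => h7 (card_eq_one.1 (by rw [hk, e, pow_zero]))
    have h9 := hk ▸ (card_dvd_of_le (hP.le.trans h2.le)).trans hc
    have h10 := (dvd_pow_self r h8).trans h9
    rw [hk] at h6
    rcases primes_J4 hr (h10.trans (by norm_num)) with e | e | e | e | e | e | e | e | e | e <;> subst e
    · exact absurd (M.two_S hu hn (hS ▸ hP.le.trans h2.le) (syl_isPGroup hr hP) (zpowers_le.1 hn')) h7
    · have := le_of_pow_dvd (n := 3) h9 (by norm_num); interval_cases k <;> simp at h6 h8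
    · have := le_of_pow_dvd (n := 1) h9 (by norm_num); interval_cases k <;> simp at h6 h8
    · have := le_of_pow_dvd (n := 1) h9 (by norm_num); interval_cases k <;> simp at h6 h8
    · have := le_of_pow_dvd (n := 1) h9 (by norm_num); interval_cases k <;> simp at h6 h8
    · rfl
    all_goals omega) (by norm_num)
  have : Fact (Nat.Prime 23) := ⟨by norm_num⟩
  obtain ⟨k, hk⟩ := IsPGroup.iff_card.1 h5
  have h6 := le_of_pow_dvd (n := 1) (hk ▸ (card_dvd_of_le h2.le).trans hc) (by norm_num)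
  have h7 := M.card_S hN u
  rw [← hS, ← h3, hk, cY] at h7
  interval_cases k <;> simp at h7

omit hu hn hN in
theorem norm_form {r : R} (hr : r ∈ Lm) {m k j : ℤ} (h : r * rX * r⁻¹ = rX ^ m) (e : k * (1 - m) = 1 + (11 : ℕ) * j)
    {w : G} (hw : w ∈ N[V]) (hY : w * κ rX.2 * w⁻¹ = κ rX.2 ^ m) :
    ∃ d ∈ zpowers (κ rX.2 : G), ∃ a, (a = 1 ∨ a = T 1458) ∧ w = d * (a * κ r.2) * d⁻¹ := by
  have h1 : (κ r.2 : G) * κ rX.2 * (κ r.2 : G)⁻¹ = κ rX.2 ^ m := by
    have := congrArg (fun a : R => (κ a.2 : G)) h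
    simpa using this
  obtain ⟨c, ⟨i, hc⟩, h2⟩ := M.cent_Y (mul_mem (inv_mem (κ r.2).2) hw) (mem_cent1.2 (by
    rw [mul_assoc, mul_inv_eq_iff_eq_mul.1 hY, ← h1]; group))
  replace hc : (κ rX.2 : G) ^ i = c := hc
  have h3 : ∀ i : ℤ, (κ r.2 : G) * κ rX.2 ^ i * (κ r.2 : G)⁻¹ = (κ rX.2 ^ i) ^ m := fun i => by
    rw [← conj_zpow, h1, ← zpow_mul, ← zpow_mul, mul_comm]
  have h4 := coset_conj (h3 (i * m)) (M.Y11 (zpow_mem (mem_zpowers _) _)) e
  rw [zpow_mul, ← h3, hc, inv_mul_cancel_right] at h4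
  have h5 : ((κ r.2 : G) * c * (κ r.2 : G)⁻¹) ^ k ∈ zpowers (κ rX.2 : G) :=
    zpow_mem (by rw [← hc, h3]; exact zpow_mem (zpow_mem (mem_zpowers _) _) _) _
  refine ⟨_, h5, ?_⟩
  simp only [inv_mul_eq_iff_eq_mul] at h2
  rcases h2 with h2 | h2
  · exact ⟨1, .inl rfl, by rw [one_mul, h4, h2]⟩
  · exact ⟨_, .inr rfl, by rw [← mul_assoc _ (T 1458), (zp_comm h5 (mem_cent1.2 (M.κ_t rX_f.1).symm)).eq, mul_assoc,
      mul_assoc, ← mul_assoc _ (κ r.2 : G), h4, h2, ← mul_assoc, ← mul_assoc, M.κ_t hr]⟩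

omit hn hN in
theorem step {r : R} (hr : r ∈ Lm) {m k j : ℤ} (h : r * rX * r⁻¹ = rX ^ m) (e : k * (1 - m) = 1 + (11 : ℕ) * j)
    {w : G} (hw : w ∈ N[V] ⊓ cj[u] N[V]) (hY : w * κ rX.2 * w⁻¹ = κ rX.2 ^ m)
    (hc : ¬ IsConj (κ r.2 : G) (T 1458 * κ r.2)) :
    ∃ c ∈ zpowers (κ rX.2 : G), u * c ∈ C1[(κ r.2 : G)] ∨ u * c ∈ C1[T 1458 * κ r.2] := by
  obtain ⟨d, hd, a, ha, e1⟩ := M.norm_form hr h e hw.1 hY
  obtain ⟨d', hd', a', ha', e2⟩ := M.norm_form hr h e (mem_conj.1 hw.2) (by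
    calc _ = u⁻¹ * (w * (u * κ rX.2 * u⁻¹) * w⁻¹) * u := by group
      _ = _ := by rw [mem_cent1.1 hu, mul_inv_cancel_right, hY, mul_assoc,
        ← ((show Commute u _ from mem_cent1.1 hu).zpow_right m).eq, inv_mul_cancel_left])
  have h1 : u * (d⁻¹ * d') * (a' * κ r.2) * (u * (d⁻¹ * d'))⁻¹ = a * κ r.2 := by
    rw [← mul_assoc u, ← (zp_comm (inv_mem hd) hu).eq]
    calc _ = d⁻¹ * (u * (d' * (a' * κ r.2) * d'⁻¹) * u⁻¹) * d := by group
      _ = _ := by rw [← e2, e1]; group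
  refine ⟨_, mul_mem (inv_mem hd) hd', ?_⟩
  rcases ha with rfl | rfl <;> rcases ha' with rfl | rfl
  · exact .inl (mem_cent1.2 (by simpa only [one_mul, mul_inv_eq_iff_eq_mul] using h1))
  · exact absurd (isConj_iff.2 ⟨_, by simpa only [one_mul] using h1⟩).symm hc
  · exact absurd (isConj_iff.2 ⟨_, by simpa only [one_mul] using h1⟩) hc
  · exact .inr (mem_cent1.2 (mul_inv_eq_iff_eq_mul.1 h1))

variable (hG : ∀ g : M24, g * g = 1 → g ≠ 1 → M.Good g)
include hG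

omit hu hn hN in
theorem cls_v : IsConj z (κ rV.2) ∧ IsConj (T 1458) (T 1458 * κ rV.2) := by
  have h2 : rV.2 * rV.2 = 1 := congrArg Prod.snd rX_rel.2.2.1
  have h1 := rX_rel.2.2.2.2.2.2.2.2.2
  refine ⟨M.el_zero _ ▸ (M.zc_el hG h2 h1 (by norm_num)).2 (InIm.zero _ _), (M.tc_el hG h2 h1 (by norm_num)).2 ?_⟩
  rw [mcode_rV]
  refine ⟨by decide +kernel, fun ⟨y, hy, e⟩ => ?_⟩
  have := ball_zero (force_eq _ _ ▸ show force (mat (rp kV)) (fun m => ball (fun a => !Nat.beq 1458 (a ^^^ lin m a))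
    11 0) = true by decide +kernel) y hy
  simp [← e] at this

omit hu hn hN hG in
theorem f_facts : orderOf (κ rY.2 : G) = 5 ∧ (T 1458 * κ rY.2) ^ 5 = T 1458 := by
  have : Fact (Nat.Prime 5) := ⟨by norm_num⟩
  have h : orderOf (κ rY.2 : G) = 5 := (M.oκ _).trans (gcM.orderOf_prime mcode_rY (by decide +kernel))
  exact ⟨h, by rw [(show Commute _ _ from (M.κ_t rY_f.1).symm).mul_pow, ← h, pow_orderOf_eq_one, h, mul_one, pow_succ,
    show 4 = 2 * 2 from rfl, pow_mul, pow_two (T _), M.px.co.sq, one_pow, one_mul]⟩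

theorem key : ∃ c ∈ zpowers (κ rX.2 : G),
    u * c ∈ C1[(κ rV.2 : G)] ∨ u * c ∈ C1[T 1458 * κ rV.2] ∨ u * c ∈ C1[(κ rY.2 : G)] := by
  classical
  obtain ⟨n, h1, h2, h3⟩ := M.exists_n hu hn hN
  obtain ⟨m, hm, e⟩ := Finset.mem_image.1 (mem_zpowers_iff_mem_range_orderOf.1 (conj_mem_of_mem_norm h2 (mem_zpowers _)))
  rw [M.oY, Finset.mem_range] at hm
  have h4 : ∀ k, n ^ k * κ rX.2 * (n ^ k)⁻¹ = κ rX.2 ^ (m ^ k % 11) := fun k => by
    rw [← M.oY, pow_mod_orderOf]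
    induction k with
    | zero => simp
    | succ k ih => rw [pow_succ', mul_inv_rev, mul_assoc n, mul_assoc n, ← mul_assoc _ _ n⁻¹, ih, ← mul_assoc, ← conj_pow,
        ← e, ← pow_mul, pow_succ']
  have h5 : m ≠ 0 := by
    rintro rfl
    rw [pow_zero, eq_comm, conj_eq_one_iff, ← orderOf_eq_one_iff, M.oY] at e; omega
  have h6 : m ≠ 1 := by
    rintro rfl
    exact h3 (mem_cent1.2 (mul_inv_eq_iff_eq_mul.1 (e.symm.trans (pow_one _))))
  obtain ⟨k, -, hk | hk⟩ := (show ∀ m < 11, m ≠ 0 → m ≠ 1 → ∃ k < 10, m ^ k % 11 = 10 ∨ m ^ k % 11 = 3 by decide) m hm h5 h6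
  · obtain ⟨c, hc, e⟩ := M.step hu rV_f.1 (m := -1) (k := 6) (j := 1) (by simpa using rX_rel.2.1) (by norm_num)
      (pow_mem h1 k) (by rw [h4, hk, zpow_neg_one, eq_inv_iff_mul_eq_one, ← pow_succ, M.Y11 (mem_zpowers _)])
      fun c => M.hnc ((M.cls_v hG).1.trans (c.trans (M.cls_v hG).2.symm))
    exact ⟨c, hc, e.imp_right .inl⟩
  · obtain ⟨c, hc, e⟩ := M.step hu rY_f.1 (m := 3) (k := 5) (j := -1) (by simpa using rX_rel.1) (by norm_num)
      (pow_mem h1 k) (by rw [h4, hk]; exact (zpow_natCast _ 3).symm) fun c => M.t_ne (by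
        rw [← M.f_facts.2, ← orderOf_dvd_iff_pow_eq_one, orderOf_isConj c, M.f_facts.1])
    refine ⟨c, hc, .inr (.inr (e.elim id fun e => ?_))⟩
    have := cent1_pow_ge _ 6 e
    rwa [pow_succ, M.f_facts.2, ← mul_assoc, M.px.co.sq, one_mul] at this

end MC

end Cfsg.Agent.J4
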