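import Cfsg.Agent.J4.EA

/-!
# A subgroup `GL₂(3)` normalising an element of order eleven
-/

set_option autoImplicit false
set_option linter.unusedSectionVars false
set_option exponentiation.threshold 600

namespace Cfsg.Agent.J4

open Cfsg.Agent.M24 Cfsg.Agent.GT Subgroup MulAction

def lL6 : List ℕ := [nat_lit
  0xbdab49ca307b9ac5a928398a418820800400200100080040020010008004002001800400200100080040020010008004002001,
  nat_lit
  0xbdab49ca307b9ac5a928398a418820c008003002000c008001003000400c001003400c001003000400c003002000c008003002,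
  nat_lit
  0xbdab49ca307b9ac5a928398a418820400c001003000400c003002000c008003002c008003002000c008001003000400c001003,
  nat_lit
  0x5883388a1c8f5140b46cd317aed702801402a015008004880440080040a0050002801402a015008004880440080040a00500,
  nat_lit
  0x5883388a1c8f5140b46cd317aed703c02803f02a00c008440cc00400c0500f0003c02803f02a00c008440cc00400c0500f00,
  nat_lit
  0x5883388a1c8f5140b46cd317aed701403c01503f00400ccc08800c0080f00a0001403c01503f00400ccc08800c0080f00a00]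

def lG3 : List ℕ := [0, 0, 0, 0, 0, 0, 0, 0, 0, 0, 0, 0, 50236, 35860, 43048, 5180, 15380, 22568, 0, 0, 0, 1084, 18472,
  11284, 54332, 47144, 39956, 0, 0, 49152, 0, 8192, 32768, 0, 16384, 40960, 0, 23572, 34856, 42044, 0, 6184, 13372,
  52244, 0, 0, 10280, 48148, 17468, 55336, 0, 37948, 0, 3092, 0, 53248, 4096, 0, 45056, 20480, 0, 36864, 12288, 0,
  44052, 14376, 33852, 7188, 0, 21564, 0, 51240, 0, 38952, 19476, 9276, 0, 56340, 46140, 2088, 0]

/-- Normal form code attached to a matrix. -/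
noncomputable def g3 (a b c d : ZMod 3) : ℕ := lget lG3 0 (a.val + 3 * b.val + 9 * c.val + 27 * d.val)

/-- Product of normal form codes. -/
noncomputable def nfm (m n : ℕ) : ℕ := force (lget lL6 0 (m / 8192 % 4 + 3 * (m / 32768))) fun l =>
  force (lin l (n % 4096)) fun c => (m % 4096 ^^^ c) + 4096 * ((m / 4096 % 2 + n / 4096 % 2 + be (m % 4096) c +
    ou l * Qf (n % 4096)) % 2) + 8192 * ((m / 8192 % 4 + 2 ^ (m / 32768) * (n / 8192 % 4)) % 3) +
    32768 * ((m / 32768 + n / 32768) % 2)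

theorem g3_mul : ∀ a b c d p q r s : ZMod 3, a * d - b * c ≠ 0 → p * s - q * r ≠ 0 →
    g3 (a * p + b * r) (a * q + b * s) (c * p + d * r) (c * q + d * s) = nfm (g3 a b c d) (g3 p q r s) := by
  decide +kernel

theorem g3_facts : ∀ a b c d : ZMod 3, g3 a b c d % 4096 ∈ lQ ∧ g3 a b c d / 8192 % 4 < 3 ∧ g3 a b c d / 32768 < 2 ∧
    (a * d - b * c ≠ 0 → g3 a b c d % 4096 = 0 → g3 a b c d / 4096 % 2 = 0 →
      lget lL6 0 (g3 a b c d / 8192 % 4 + 3 * (g3 a b c d / 32768)) = rone → a = 1 ∧ b = 0 ∧ c = 0 ∧ d = 1) := by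
  decide +kernel

namespace XD

variable {H : Type*} [Group H] [Finite H] {z ω : H} {s : ℕ → H} {Λ : H →* R} {M : HM z ω s Λ} {x v : H} (D : XD M x v)
include D

theorem Λ_nf {i j : ℕ} (hi : i < 3) (hj : j < 2) : rc (Λ (ω ^ i * v ^ j)) = lget lL6 0 (i + 3 * j) := by
  rw [map_mul, map_pow, map_pow, gcR.code_mul, ← gcR.cpow_code, ← gcR.cpow_code, M.Λω, D.Λv, rc_rW, rV_f.2]
  exact (show ∀ i < 3, ∀ j < 2, rmul (cpow rmul rone kW i) (cpow rmul rone kV j) = lget lL6 0 (i + 3 * j) by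
    decide +kernel) i hi j hj

theorem v_ω : v * ω = ω ^ 2 * v := by
  rw [← mul_inv_eq_iff_eq_mul]
  exact M.eq_of_odd (n := 1) (mul_mem (mul_mem D.v_mem HM.ω_mem) (inv_mem D.v_mem)) (pow_mem HM.ω_mem 2)
    (by rw [map_mul, map_mul, map_inv, map_pow, M.Λω, D.Λv, mul_inv_eq_iff_eq_mul, pow_two]
        exact ((ou_cases rV_f.1).resolve_left fun e => by simpa [e.1] using out_rV.2.2).2)
    (by rw [conj_pow, M.ω3]; group) (by rw [← pow_mul, mul_comm, pow_mul, M.ω3, one_pow])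

/-- The element with a given normal form code. -/
def nf (_ : XD M x v) (m : ℕ) : H := s (m % 4096) * z ^ (m / 4096 % 2) * (ω ^ (m / 8192 % 4) * v ^ (m / 32768))

theorem nf_mul {m : ℕ} (h1 : m / 8192 % 4 < 3) (h2 : m / 32768 < 2) (n : ℕ) : D.nf (nfm m n) = D.nf m * D.nf n := by
  have hl : ω ^ (m / 8192 % 4) * v ^ (m / 32768) ∈ N[zpowers ω] := mul_mem (pow_mem HM.ω_mem _) (pow_mem D.v_mem _)
  have e1 := M.conj _ hl _ (Nat.mod_lt n (by norm_num))
  have e2 : ∀ j i, v ^ j * ω ^ i = ω ^ (2 ^ j * i) * v ^ j := fun j i => by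
    induction j with
    | zero => simp
    | succ j ih => rw [pow_succ', mul_assoc, ih, ← mul_assoc, ← mul_inv_eq_iff_eq_mul.2 (show v * ω ^ (2 ^ j * i) =
        ω ^ (2 ^ (j + 1) * i) * v by rw [← mul_inv_eq_iff_eq_mul, ← conj_pow, mul_inv_eq_iff_eq_mul.2 D.v_ω, ← pow_mul,
          ← mul_assoc, ← pow_succ'])]; group
  have e3 : ∀ a, z ^ (a % 2) = z ^ a := fun a => pow_mod_of_eq_one' (by rw [pow_two, M.zz]) a
  have e4 : ∀ a, ω ^ (a % 3) = ω ^ a := pow_mod_of_eq_one' M.ω3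
  have e5 : ∀ a, v ^ (a % 2) = v ^ a := fun a => pow_mod_of_eq_one' (by rw [pow_two, D.vv]) a
  rw [D.Λ_nf h1 h2] at e1
  rw [nf, nf, nf, nfm, force_eq, force_eq]
  generalize lget lL6 0 (m / 8192 % 4 + 3 * (m / 32768)) = l at *
  have b := xor_lt12 (Nat.mod_lt m (by norm_num)) (lin_lt l (n % 4096))
  have e6 := M.s_mul _ (Nat.mod_lt m (by norm_num)) _ (lin_lt l (n % 4096))
  generalize m % 4096 ^^^ lin l (n % 4096) = A at *
  generalize m / 4096 % 2 = e at *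
  generalize n / 4096 % 2 = e' at *
  generalize hE : e + e' + be (m % 4096) (lin l (n % 4096)) + ou l * Qf (n % 4096) = E
  generalize hI : m / 8192 % 4 + 2 ^ (m / 32768) * (n / 8192 % 4) = I
  generalize hJ : m / 32768 + n / 32768 = J
  rw [show (A + 4096 * (E % 2) + 8192 * (I % 3) + 32768 * (J % 2)) % 4096 = A by omega,
    show (A + 4096 * (E % 2) + 8192 * (I % 3) + 32768 * (J % 2)) / 4096 % 2 = E % 2 by omega,
    show (A + 4096 * (E % 2) + 8192 * (I % 3) + 32768 * (J % 2)) / 8192 % 4 = I % 3 by omega,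
    show (A + 4096 * (E % 2) + 8192 * (I % 3) + 32768 * (J % 2)) / 32768 = J % 2 by omega, e3, e4, e5, ← hE, ← hI, ← hJ,
    pow_add ω, pow_add v, mul_assoc (ω ^ _), ← mul_assoc (ω ^ (_ * _)), ← e2, ← mul_assoc (ω ^ _), ← mul_assoc (ω ^ _),
    mul_assoc (_ * v ^ _) (ω ^ _)]
  generalize ω ^ (m / 8192 % 4) * v ^ (m / 32768) = k at *
  generalize ω ^ (n / 8192 % 4) * v ^ (n / 32768) = k' at *
  rw [mul_assoc _ k, ← mul_assoc k, ← mul_assoc k, mul_inv_eq_iff_eq_mul.1 e1, mul_assoc _ k, M.zpc _ k]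
  simp only [← mul_assoc]
  rw [mul_assoc _ (z ^ e), ← M.zpc, ← mul_assoc, e6]
  simp only [mul_assoc, ← pow_add, ← mul_assoc (z ^ _) (z ^ _)]
  congr 3; ring

theorem exists_gl : ∃ φ : GL (Fin 2) (ZMod 3) →* H, Function.Injective φ ∧ φ.range ≤ N[zpowers x] := by
  have hd : ∀ A : GL (Fin 2) (ZMod 3), A 0 0 * A 1 1 - A 0 1 * A 1 0 ≠ 0 := fun A => by
    rw [← Matrix.det_fin_two]; exact A.det_ne_zero
  let φ : GL (Fin 2) (ZMod 3) →* H := MonoidHom.mk' (fun A => D.nf (g3 (A 0 0) (A 0 1) (A 1 0) (A 1 1))) fun A B => by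
    rw [← D.nf_mul (g3_facts _ _ _ _).2.1 (g3_facts _ _ _ _).2.2.1, ← g3_mul _ _ _ _ _ _ _ _ (hd A) (hd B)]
    simp [Matrix.mul_apply, Fin.sum_univ_two]
  refine ⟨φ, (injective_iff_map_eq_one φ).2 fun A h => ?_, ?_⟩
  · obtain ⟨f1, f2, f3, f4⟩ := g3_facts (A 0 0) (A 0 1) (A 1 0) (A 1 1)
    replace h : D.nf (g3 (A 0 0) (A 0 1) (A 1 0) (A 1 1)) = 1 := h
    generalize g3 (A 0 0) (A 0 1) (A 1 0) (A 1 1) = m at *
    have hl : ω ^ (m / 8192 % 4) * v ^ (m / 32768) ∈ N[zpowers ω] := mul_mem (pow_mem HM.ω_mem _) (pow_mem D.v_mem _)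
    have h1 := congrArg M.cb h
    rw [nf, mul_assoc, M.cb_eq (Nat.mod_lt m (by norm_num)) (mul_mem (pow_mem M.z_mem _) hl), M.cb_one] at h1
    have h2 := congrArg (fun h => rc (Λ h)) h
    simp only [nf, h1, M.s0, one_mul, map_one, gcR.code_one] at h2 h
    rw [map_mul, M.Λzp, one_mul, D.Λ_nf f2 f3] at h2
    obtain ⟨a, b⟩ := (show ∀ i < 3, ∀ j < 2, lget lL6 0 (i + 3 * j) = rone → i = 0 ∧ j = 0 by decide +kernel) _ f2 _ f3 h2
    rw [a, b, pow_zero, pow_zero, mul_one, mul_one, M.zp_eq_one (by omega)] at h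
    obtain ⟨a, b, c, d⟩ := f4 (hd A) h1 h h2
    ext i j
    fin_cases i <;> fin_cases j <;> simpa
  · rintro _ ⟨A, rfl⟩
    have c : C1[x] ≤ N[zpowers x] := (cent_zpowers x).ge.trans (cent_le_norm _)
    exact mul_mem (c (mul_mem ((D.s_mem (Nat.mod_lt _ (by norm_num))).2 (g3_facts _ _ _ _).1)
      (pow_mem (mem_cent1.2 (M.zc x).symm) _))) (mul_mem (pow_mem (c D.ω_mem) _) (pow_mem (mem_normalizer_of_conj_le (by
        rw [conj_zpowers, D.conj_v, zpowers_inv])) _))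

end XD

end Cfsg.Agent.J4
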