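import Cfsg.Agent.J4.EB
import Cfsg.Agent.J4.EL

/-!
# Groups of type `J₄`: Sylow `11`-subgroups
-/

set_option autoImplicit false
set_option linter.unusedSectionVars false
set_option exponentiation.threshold 600

namespace Cfsg.Agent.J4

open Cfsg.Agent.M24 Cfsg.Agent.GT Cfsg.Agent.PG Subgroup MulAction

theorem conj_of_card {G : Type*} [Group G] [Finite G] {K : Subgroup G} {a : G} {S : Set G}
    (hS : ∀ n ∈ K, n * a * n⁻¹ ∈ S) (h : Nat.card ↥(K ⊓ C1[a]) * S.ncard ≤ Nat.card K) :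
    ∀ v ∈ S, ∃ n ∈ K, n * a * n⁻¹ = v := fun v hv => by
  rw [← ncard_conj_orbit K a] at h
  have := Set.eq_of_subset_of_ncard_le (s := {v : G | ∃ n ∈ K, n * a * n⁻¹ = v}) (t := S)
    (by rintro _ ⟨n, hn, rfl⟩; exact hS n hn) (Nat.le_of_mul_le_mul_left h (card_pos' _))
  exact (this ▸ hv :)

theorem ncard_sdiff {G : Type*} [Group G] [Finite G] {A B : Subgroup G} (h : A ≤ B) :
    ((B : Set G) \ A).ncard = Nat.card B - Nat.card A := Set.ncard_sdiff h

theorem exists_aut {G : Type*} [Group G] [Finite G] {x : G} {p : ℕ} (hp : p.Prime) (ox : orderOf x = p) :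
    ∃ e, e ∣ p - 1 ∧ Nat.card N[zpowers x] = Nat.card C1[x] * e ∧
      ∀ n ∈ N[zpowers x], ∀ q, q.Prime → n ^ q ∈ C1[x] → n ∉ C1[x] → q ∣ e := by
  have h1 := (zpowers x).normalizerMonoidHom_ker
  refine ⟨Nat.card (zpowers x).normalizerMonoidHom.range, ?_, ?_, fun n hn q hq h2 h3 => ?_⟩
  · rw [← Nat.totient_prime hp, ← ox, ← Nat.card_zpowers, ← IsCyclic.card_mulAut]
    exact card_subgroup_dvd_card _
  · rw [← index_ker, h1, ← cent_zpowers, ← card_mul_relIndex (cent_le_norm (zpowers x))]; rfl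
  · have : Fact q.Prime := ⟨hq⟩
    rw [← cent_zpowers] at h2 h3
    rw [← orderOf_eq_prime (x := (zpowers x).normalizerMonoidHom ⟨n, hn⟩) (p := q)
      (by rw [← map_pow, ← MonoidHom.mem_ker, h1]; exact h2) (by rw [ne_eq, ← MonoidHom.mem_ker, h1]; exact h3)]
    exact orderOf_dvd_card_of_mem ⟨_, rfl⟩

theorem dvd_of_primes {n m : ℕ} (h : ∀ p k, p.Prime → k ≠ 0 → p ∣ n → p ^ k ∣ n → p ^ k ∣ m) : n ∣ m :=
  (Nat.dvd_iff_prime_pow_dvd_dvd _ _).2 fun p k hp e => by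
    by_cases k0 : k = 0
    · simp [k0]
    exact h p k hp k0 ((dvd_pow_self p k0).trans e) e

namespace EL

variable {G : Type*} [Group G] [Finite G] {X z a b w : G} (E : EL X z a b w)
include E

theorem conj_into {y : G} (hy : y ^ 11 = 1) : ∃ g, g * y * g⁻¹ ∈ OC X := by
  obtain ⟨g, -, h⟩ := syl_exists_conj_le (by norm_num) E.syl (Q := zpowers y) ((isPGroup_zpowers_iff (by norm_num)).2
    ((piNat_single_self (by norm_num)).of_dvd (orderOf_dvd_of_pow_eq_one hy))) le_top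
  exact ⟨g, h (conj_mem_conj.2 (mem_zpowers y))⟩

variable {Y : G} (oY : orderOf Y = 11) (hY : ¬ 11 ^ 3 ∣ Nat.card C1[Y])
include oY hY

theorem exists_nc : ∃ u ∈ OC X, IsConj Y u ∧ ¬ OC X ≤ C1[u] := by
  obtain ⟨g, hg⟩ := E.conj_into (oY ▸ pow_orderOf_eq_one Y)
  exact ⟨_, hg, isConj_iff.2 ⟨g, rfl⟩, fun h => hY (by
    rw [← card_conj g, conj_cent1, ← E.card_OC]; exact card_dvd_of_le h)⟩

theorem not_comm : ¬ IsMulCommutative (OC X) := fun h => by
  obtain ⟨u, hu, -, k⟩ := E.exists_nc oY hY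
  exact k ((isMulCommutative_iff_le_cent.1 h).trans (cent_le_cent1 hu))

theorem center_eq : OC X ⊓ C[OC X] = zpowers X :=
  have : Fact (Nat.Prime 11) := ⟨by norm_num⟩
  (eq_of_le_of_card_ge (zpowers_le.2 (mem_inf.2 ⟨E.X_mem, mem_cent_iff_le_cent1.2 (OC_le X)⟩)) (by
    rw [card_center_of_card_cube E.card_OC (E.not_comm oY hY), Nat.card_zpowers, E.oX])).symm

theorem norm_eq : N[OC X] = N[zpowers X] :=
  le_antisymm (E.center_eq oY hY ▸ le_norm_inf le_rfl (norm_le_norm_cent _))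
    (le_norm_piCoreOf (cent_zpowers X ▸ norm_le_norm_cent _))

end EL

namespace JD

variable {G H : Type*} [Group G] [Group H] [Finite G] {ι : H →* G} {z ω : H} {s : ℕ → H} {Λ : H →* R}
  {M : GM ι z ω s Λ} {y g : H} {T : ℕ → H} {π : N[M.V] →* M24} {κ : M24 →* N[M.V]} (J : JD M y g T π κ)
include J

theorem exists_jg : ∃ (κ' : M24 →* N[M.V]) (J' : JD M y g T π κ'), ∀ g : M24, g * g = 1 → g ≠ 1 → J'.mc.Good g := by
  obtain ⟨κ', M', h⟩ := J.exists_good
  exact ⟨κ', ⟨J.vc, J.cls, J.px, M'.ms, J.gg⟩, h⟩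

theorem card_norm_x {x v : H} (D : XD M.toHM x v) : Nat.card N[zpowers (ι x)] = 319440 := by
  have := M.finH
  have E := J.el D
  obtain ⟨e, h1, h2, h3⟩ := exists_aut (by norm_num) E.oX
  have h4 := h3 (ι v) (mem_normalizer_of_conj_le (by
    rw [conj_zpowers, ← map_inv, ← map_mul, ← map_mul, D.conj_v, map_inv, zpowers_inv])) 2 (by norm_num)
    (by rw [← map_pow, pow_two, D.vv, map_one]; exact one_mem _) fun h => by
      have := D.conj_v
      rw [mem_cent1.1 ((map_mem_cent1_iff M.inj).1 h), mul_inv_cancel_right] at this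
      have := orderOf_eq_one_iff.2 (eq_one_of_inv (by rw [D.ox]; decide) this.symm)
      rw [D.ox] at this; omega
  have h5 := h3 (ι y) (mem_normalizer_of_conj_le (by
    rw [conj_zpowers, ← map_inv, ← map_mul, ← map_mul, D.conj_y J.vc.y_mem J.Λy', map_pow]
    exact zpowers_le.2 (pow_mem (mem_zpowers _) _))) 5 (by norm_num)
    (by rw [← map_pow, J.vc.y5, map_one]; exact one_mem _) fun h => by
      have := D.conj_y J.vc.y_mem J.Λy'
      rw [mem_cent1.1 ((map_mem_cent1_iff M.inj).1 h), mul_inv_cancel_right, pow_succ, eq_comm, mul_eq_right,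
        ← orderOf_dvd_iff_pow_eq_one, D.ox] at this
      omega
  have := Nat.le_of_dvd (by norm_num) h1
  have := Nat.pos_of_dvd_of_pos h1 (by norm_num)
  rw [h2, E.card_cent, show e = 10 by omega]

theorem conj_x {x v : H} (D : XD M.toHM x v) {w : G} (hw : w ∈ zpowers (ι x)) (h1 : w ≠ 1) : IsConj (ι x) w := by
  have E := J.el D
  obtain ⟨n, -, e⟩ := conj_of_card (K := N[zpowers (ι x)]) (a := ι x) (S := (zpowers (ι x) : Set G) \ (⊥ : Subgroup G))
    (fun n hn => ⟨conj_mem_of_mem_norm hn (mem_zpowers _), fun h => by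
      have := E.oX; rw [conj_eq_one_iff.1 h, orderOf_one] at this; omega⟩)
    (by rw [ncard_sdiff bot_le, Nat.card_zpowers, E.oX, card_bot, J.card_norm_x D,
      inf_eq_right.2 ((cent_zpowers _).ge.trans (cent_le_norm _)), E.card_cent]) w ⟨hw, h1⟩
  exact isConj_iff.2 ⟨n, e⟩

theorem conj_x_of {x v : H} (D : XD M.toHM x v) {w : G} (hw : w ∈ C1[ι z]) (o : orderOf w = 11) : IsConj (ι x) w := by
  have E := J.el D
  obtain ⟨g, -, e⟩ := exists_conj_pow (by norm_num) (mem_cent1_comm.1 E.zX) hw E.oX o (by rw [J.card_cz]; norm_num)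
  exact (isConj_conj g).1 (J.conj_x D (e ▸ conj_mem_conj.2 (mem_zpowers w)) fun h => by
    rw [conj_eq_one_iff.1 h, orderOf_one] at o; omega)

variable (hG : ∀ g : M24, g * g = 1 → g ≠ 1 → J.mc.Good g) (h5 : ∀ g : G, orderOf g = 5 → Nat.card C1[g] = 6720)
include hG h5

theorem key' {u : G} (hu : u ∈ C1[(κ rX.2 : G)]) (hn : u ∉ N[M.V]) : ∃ c ∈ zpowers (κ rX.2 : G),
    orderOf (u * c) ∣ 21799895040 ∧
      (u * c ∈ C1[(κ rV.2 : G)] ∨ u * c ∈ C1[ι (T 1458) * κ rV.2] ∨ orderOf (u * c) ∣ 6720) := by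
  obtain ⟨c, hc, e⟩ := J.mc.key hu hn J.card_G hG
  refine ⟨c, hc, ?_, e.imp_right fun e => e.imp_right fun e => h5 _ J.mc.f_facts.1 ▸ orderOf_dvd_card_of_mem e⟩
  rcases e with e | e | e <;> refine (orderOf_dvd_card_of_mem e).trans ?_
  · rw [card_cent_of_isConj (J.mc.cls_v hG).1, J.card_cz]
  · rw [card_cent_of_isConj (J.mc.cls_v hG).2, J.card_ct]; norm_num
  · rw [h5 _ J.mc.f_facts.1]; norm_num

theorem not_cube : ¬ 11 ^ 3 ∣ Nat.card C1[(κ rX.2 : G)] := fun h => by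
  have : Fact (Nat.Prime 11) := ⟨by norm_num⟩
  have cY : Nat.card (zpowers (κ rX.2 : G)) = 11 := by rw [Nat.card_zpowers, J.mc.oY]
  obtain ⟨P, hP, hY⟩ := exists_syl_ge (M := C1[(κ rX.2 : G)]) (by norm_num) (isPGroup_of_card_eq_prime cY)
    (zpowers_le.2 (self_mem_cent1 _))
  have hp := syl_isPGroup (by norm_num) hP
  have h1 : ∀ u ∈ P, ∀ n, orderOf u ∣ n → n.Coprime 11 → u = 1 := fun u hu n e c => by
    obtain ⟨k, hk⟩ := IsPGroup.iff_card.1 hp
    exact orderOf_eq_one_iff.1 (Nat.eq_one_of_dvd_coprimes (c.pow_right k) e (hk ▸ orderOf_dvd_card_of_mem hu))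
  have h2 : ∀ a : G, ¬ 11 ^ 2 ∣ Nat.card C1[a] → ¬ P ≤ (P ⊓ C1[a]) ⊔ zpowers (κ rX.2 : G) := fun a ha e => by
    obtain ⟨k, hk⟩ := IsPGroup.iff_card.1 (hp.to_inf_left (K := C1[a]))
    have h3 := le_of_pow_dvd (hk ▸ card_dvd_of_le inf_le_right) ha
    have h4 := ((hP.dvd_card (piNat_single_pow (by norm_num) 3) h).trans (card_dvd_of_le e)).trans
      (card_sup_dvd (.inl ((inf_le_left.trans hP.le).trans ((cent_zpowers _).ge.trans (cent_le_norm _)))))
    rw [hk, cY] at h4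
    interval_cases k <;> omega
  refine (le_or_le_of_union fun u hu => ?_).elim
    (h2 (κ rV.2) (by rw [card_cent_of_isConj (J.mc.cls_v hG).1, J.card_cz]; norm_num))
    (h2 (ι (T 1458) * κ rV.2) (by rw [card_cent_of_isConj (J.mc.cls_v hG).2, J.card_ct]; norm_num))
  by_cases hn : u ∈ N[M.V]
  · obtain ⟨c, hc, e | e⟩ := J.mc.cent_Y hn (hP.le hu)
    · exact .inl (mem_sup_right (e ▸ hc))
    · exact absurd (h1 _ (mul_mem hu (inv_mem (hY hc))) 2 (orderOf_dvd_of_pow_eq_one (by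
        rw [e, mul_inv_cancel_right, pow_two, J.px.co.sq])) (by norm_num)) (by
          rw [e, mul_inv_cancel_right]; exact J.mc.t_ne)
  obtain ⟨c, hc, -, e | e | e⟩ := J.key' hG h5 (hP.le hu) hn
  · exact .inl ((mul_mem_cancel_right (mem_sup_right hc)).1 (mem_sup_left ⟨mul_mem hu (hY hc), e⟩))
  · exact .inr ((mul_mem_cancel_right (mem_sup_right hc)).1 (mem_sup_left ⟨mul_mem hu (hY hc), e⟩))
  · exact .inl ((mul_mem_cancel_right (mem_sup_right hc)).1 (h1 _ (mul_mem hu (hY hc)) _ e (by norm_num) ▸ one_mem _))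

theorem card_cY_dvd (h7 : ∀ g : G, orderOf g = 7 → Nat.card C1[g] = 840) : Nat.card C1[(κ rX.2 : G)] ∣ 242 := by
  refine dvd_of_primes fun p k hp k0 h e => ?_
  obtain ⟨u, hu, ou⟩ := exists_mem_orderOf_eq hp h
  have h11 : 11 ∣ Nat.card C1[u] := J.mc.oY ▸ orderOf_dvd_card_of_mem (mem_cent1_comm.1 hu)
  have ht := mem_cent1.2 (J.mc.κ_t rX_f.1).symm
  have h22 : ∀ n ∈ N[M.V], n ∈ C1[(κ rX.2 : G)] → n ∈ zpowers (ι (T 1458) * κ rX.2) := fun n h1 h2 => by
    have c : Commute (ι (T 1458)) (κ rX.2) := mem_cent1.1 ht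
    have a : (κ rX.2 : G) ∈ zpowers (ι (T 1458) * κ rX.2) := mem_zpowers_iff.2 ⟨(12 : ℕ), by
      rw [zpow_natCast, c.mul_pow, pow_succ (κ rX.2 : G), J.mc.Y11 (mem_zpowers _), show 12 = 2 * 6 from rfl, pow_mul,
        pow_two, J.px.co.sq]; simp⟩
    obtain ⟨c, hc, e | e⟩ := J.mc.cent_Y h1 h2
    · exact e ▸ zpowers_le.2 a hc
    · exact e ▸ mul_mem ((mul_mem_cancel_right a).1 (mem_zpowers _)) (zpowers_le.2 a hc)
  have o22 : orderOf (ι (T 1458) * κ rX.2) ∣ 22 := orderOf_dvd_of_pow_eq_one (by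
    rw [(show Commute _ _ from mem_cent1.1 ht).mul_pow, show 22 = 2 * 11 from rfl, pow_mul, pow_two, J.px.co.sq,
      mul_comm, pow_mul, J.mc.Y11 (mem_zpowers _)]; simp)
  have big : p.Coprime 11 → p ∣ 21799895040 := fun c => by
    by_cases hn : u ∈ N[M.V]
    · exact ou ▸ ((orderOf_dvd_of_mem_zpowers (h22 u hn hu)).trans o22).trans (by norm_num)
    obtain ⟨c', hc, e, -⟩ := J.key' hG h5 hu hn
    refine c.dvd_of_dvd_mul_left (ou ▸ orderOf_dvd_of_pow_eq_one ?_)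
    have e1 : u ^ 11 = (u * c') ^ 11 := by rw [(zp_comm hc hu).symm.mul_pow, J.mc.Y11 hc, mul_one]
    rw [pow_mul, e1, ← pow_mul, mul_comm 11, pow_mul, orderOf_dvd_iff_pow_eq_one.1 e, one_pow]
  rcases primes_J4 hp (J.card_G ▸ h.trans (card_subgroup_dvd_card _)) with e' | e' | e' | e' | e' | e' | e' | e' | e' | e'
    <;> subst e'
  · refine (pow_dvd_pow 2 (le_of_pow_dvd (n := 1) e fun h4 => ?_)).trans (by norm_num)
    have := ((sq_dvd_card_cent' hp h4 ht (orderOf_eq_prime (by rw [pow_two, J.px.co.sq]) J.mc.t_ne)).trans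
      (card_dvd_of_le fun n hn => h22 n (by simpa using J.mc.cent_t hn.2) hn.1)).trans
        ((Nat.card_zpowers _).dvd.trans o22)
    omega
  · obtain ⟨x, v, D⟩ := J.exists_xd
    obtain ⟨a, rfl⟩ := isConj_iff.1 (J.conj_ω3 ou)
    have h1 := J.conj_x_of D (w := a⁻¹ * κ rX.2 * a⁻¹⁻¹) (mem_cent1.2 (J.cent_ω (by
      rw [inv_inv, mul_assoc, mul_assoc, ← mul_inv_cancel_right (a * ι ω) a⁻¹, inv_inv, ← mul_assoc (κ rX.2 : G),
        ← mem_cent1.1 hu]; group))) (by rw [orderOf_conj, J.mc.oY])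
    exact absurd (by rw [card_cent_of_isConj ((isConj_conj _).1 h1), (J.el D).card_cent]; norm_num) (J.not_cube hG h5)
  · rw [h5 u ou] at h11; omega
  · rw [h7 u ou] at h11; omega
  · exact (pow_dvd_pow 11 (le_of_pow_dvd (n := 2) e (J.not_cube hG h5))).trans (by norm_num)
  all_goals exact absurd (big (by norm_num)) (by norm_num)

theorem syl11 (U : Sylow 11 G) : IsExtraspecial 11 ↥(U : Subgroup G) ∧ Nat.card ↥(U : Subgroup G) = 11 ^ 3 ∧
    Monoid.exponent ↥(U : Subgroup G) = 11 ∧ Nat.card N[(U : Subgroup G)] = 2 ^ 4 * 3 * 5 * 11 ^ 3 ∧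
    ∃ K : Subgroup G, K ≤ N[(U : Subgroup G)] ∧ Nonempty (↥K ≃* GL (Fin 2) (ZMod 3)) := by
  have := M.finH
  have : Fact (Nat.Prime 11) := ⟨by norm_num⟩
  obtain ⟨x, v, D⟩ := J.exists_xd
  have E := J.el D
  have hn := E.not_comm J.mc.oY (J.not_cube hG h5)
  obtain ⟨a, -, e⟩ := syl_exists_conj (by norm_num) E.syl (syl_top_of_sylow (by norm_num) U)
  have hc : Nat.card (U : Subgroup G) = 11 ^ 3 := by rw [e, card_conj, E.card_OC]
  obtain ⟨φ, h1, h2⟩ := D.exists_gl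
  refine ⟨isExtraspecial_of_card_cube hc fun h => hn (isMulCommutative_iff_forall.2 fun b hb c hc => ?_), hc, ?_, ?_,
    cj[a] (φ.range.map ι), ?_, ⟨(conjEquiv a _).symm.trans (((φ.range.equivMapOfInjective ι M.inj).symm).trans
      (MonoidHom.ofInjective h1).symm)⟩⟩
  · rw [e] at h
    have := isMulCommutative_iff_forall.1 h _ (conj_mem_conj.2 hb) _ (conj_mem_conj.2 hc)
    simpa only [conj_mul, mul_left_inj, mul_right_inj] using this
  · have : Nontrivial (U : Subgroup G) := Finite.one_lt_card_iff_nontrivial.1 (by rw [hc]; norm_num)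
    refine (Monoid.exponent_eq_prime_iff (by norm_num)).2 fun u hu => orderOf_eq_prime (Subtype.ext ?_) hu
    obtain ⟨w, hw, e'⟩ := mem_conj_iff_exists.1 (e.le u.2)
    rw [coe_pow, ← e', conj_pow, E.exp hw]; simp
  · rw [e, ← conj_normalizer, card_conj, E.norm_eq J.mc.oY (J.not_cube hG h5), J.card_norm_x D]; norm_num
  · rw [e, ← conj_normalizer, E.norm_eq J.mc.oY (J.not_cube hG h5), ← MonoidHom.map_zpowers]
    exact conj_mono a ((map_le_norm_map_iff M.inj).2 h2)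

variable (h7 : ∀ g : G, orderOf g = 7 → Nat.card C1[g] = 840)
include h7

theorem cls11 {x v : H} (D : XD M.toHM x v) : Nat.card C1[(κ rX.2 : G)] = 242 ∧
    ∀ w : G, orderOf w = 11 → IsConj (ι x) w ∨ IsConj (κ rX.2 : G) w := by
  have E := J.el D
  have hc := J.not_cube hG h5
  obtain ⟨u, hu, c, hn⟩ := E.exists_nc J.mc.oY hc
  have hS : ∀ n ∈ N[OC (ι x)], n * u * n⁻¹ ∈ (OC (ι x) : Set G) \ zpowers (ι x) := fun n h =>
    ⟨conj_mem_of_mem_norm h hu, fun k => hn (le_cent_symm (zpowers_le.2 (by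
      have := conj_mem_of_mem_norm (inv_mem (E.norm_eq J.mc.oY hc ▸ h)) k
      rw [← E.center_eq J.mc.oY hc] at this
      simpa [mul_assoc] using this.2)) |>.trans (cent_zpowers u).le)⟩
  have h1 := (card_cent_of_isConj c).dvd.trans (J.card_cY_dvd hG h5 h7)
  have h2 : ((OC (ι x) : Set G) \ zpowers (ι x)).ncard = 1320 := by
    rw [ncard_sdiff (zpowers_le.2 E.X_mem), E.card_OC, Nat.card_zpowers, E.oX]; norm_num
  have h3 : Nat.card N[OC (ι x)] = 319440 := by rw [E.norm_eq J.mc.oY hc, J.card_norm_x D]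
  have h4 := card_le_of_le (inf_le_right : N[OC (ι x)] ⊓ C1[u] ≤ _)
  have h6 := Nat.le_of_dvd (by norm_num) h1
  refine ⟨?_, fun w hw => ?_⟩
  · have h8 := ncard_conj_orbit N[OC (ι x)] u
    have h9 := Set.ncard_le_ncard (s := {v : G | ∃ n ∈ N[OC (ι x)], n * u * n⁻¹ = v})
      (by rintro _ ⟨n, hn, rfl⟩; exact hS n hn)
    rw [← card_cent_of_isConj c]
    rw [h2] at h9
    nlinarith
  obtain ⟨a, ha⟩ := E.conj_into (hw ▸ pow_orderOf_eq_one w)
  by_cases k : a * w * a⁻¹ ∈ zpowers (ι x)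
  · exact .inl ((isConj_conj a).1 (J.conj_x D k fun h => by rw [conj_eq_one_iff.1 h, orderOf_one] at hw; omega))
  obtain ⟨n, -, e⟩ := conj_of_card hS (by rw [h2, h3]; omega) _ ⟨ha, k⟩
  exact .inr ((isConj_conj a).1 (c.trans (isConj_iff.2 ⟨n, e⟩)))

theorem two11 : ∃ x y : G, orderOf x = 11 ∧ orderOf y = 11 ∧ ¬ IsConj x y ∧
    ∀ w : G, orderOf w = 11 → IsConj w x ∨ IsConj w y := by
  obtain ⟨x, v, D⟩ := J.exists_xd
  have h := J.cls11 hG h5 h7 D
  exact ⟨_, _, (J.el D).oX, J.mc.oY, fun c => by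
    have := card_cent_of_isConj c; rw [h.1, (J.el D).card_cent] at this; omega,
    fun w hw => (h.2 w hw).imp .symm .symm⟩

theorem card_c11 {w : G} (hw : orderOf w = 11) : Nat.card C1[w] = 31944 ∨ Nat.card C1[w] = 242 := by
  obtain ⟨x, v, D⟩ := J.exists_xd
  have h := J.cls11 hG h5 h7 D
  exact (h.2 w hw).imp (fun c => (card_cent_of_isConj c).trans (J.el D).card_cent) fun c =>
    (card_cent_of_isConj c).trans h.1

end JD

end Cfsg.Agent.J4
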