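import Cfsg.Agent.J4.PN
import Cfsg.Prelude.Def_TwoFusion

/-!
# Groups of type `J₄`: elements of order five
-/

set_option autoImplicit false
set_option linter.unusedSectionVars false

namespace Cfsg.Agent.J4

open Cfsg.Agent.M24 Cfsg.Agent.TT Cfsg.Agent.GT Subgroup MulAction Matrix
open scoped Pointwise symmDiff commutatorElement

theorem syl_of_card_norm {G : Type*} [Group G] [Finite G] {p : ℕ} (hp : p.Prime) {Q : Subgroup G} (hQ : Nat.card Q = p)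
    (h : ¬ p * p ∣ Nat.card N[Q]) : IsPiHallOf {p} Q ⊤ ∧ ¬ p * p ∣ Nat.card G := by
  have h1 := syl_top_of_norm_le hp (syl_mk hp le_normalizer (isPGroup_of_card_eq_prime hQ) fun e =>
    h (by rw [← card_mul_relIndex (le_normalizer (H := Q)), hQ]; exact Nat.mul_dvd_mul_left p e)) le_rfl
  refine ⟨h1, fun e => syl_not_dvd hp h1 ?_⟩
  rwa [← card_top, ← card_mul_relIndex (le_top (a := Q)), hQ, Nat.mul_dvd_mul_iff_left hp.pos] at e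

theorem cent_rot5 : ∀ σ : Equiv.Perm (Fin 5), σ * finRotate 5 = finRotate 5 * σ → ∃ j < 5, σ = finRotate 5 ^ j := by
  decide +kernel

theorem fix5_orb {r : R} (hr : r ∈ Lm) (h : lin k5 (lin (rc r) 1) = lin (rc r) 1) : lin (rc r) 1 < 4 := by
  have h0 := tv1_chk
  rw [band_eq, Bool.and_eq_true] at h0
  have h1 : (⟨lin (rc r) 1, lin_lt _ _⟩ : Fin 4096) ∈ orbit (gen rc gL) (⟨1, by norm_num⟩ : Fin 4096) :=
    ⟨⟨r, hr⟩, Fin.ext (smulV_val r _)⟩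
  rw [(acV.orb_sound valid_gL (x₀ := ⟨1, by norm_num⟩) trivial h0.1).1] at h1
  simpa [fx, h] using (lall_iff _ _).1 (show lall tv1.keys (fun b => bor (!fx k5 b) (Nat.blt b 4)) = true by
    decide +kernel) (lin (rc r) 1) h1.2

theorem fix5_line {r : R} (hr : r ∈ Lm) (h : r * r5 = r5 * r) (a : ℕ) (ha : a < 4) : lin (rc r) a < 4 := by
  rcases (show ∀ a < 4, a = 0 ∨ tv1.has a = true ∧ lin k5 a = a by decide +kernel) a ha with rfl | ⟨h1, h2⟩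
  · rw [lin_zero]; norm_num
  obtain ⟨g, hg, e⟩ := conn_vec (by norm_num) tv1_chk h1
  rw [← e, ← lin_rc_mul]
  refine fix5_orb (mul_mem hr hg) ?_
  rw [lin_rc_mul, e, ← rc_r5, ← lin_rc_mul, ← h, lin_rc_mul, rc_r5, h2]

theorem inv_CZ {r : R} (hr : r ∈ CZ) (h : r * r5 = r5 * r) (h2 : r * r = 1) : r = 1 := by
  have h1 := forall_of_enumR chF_chk (f := fun k => bor (!fx k 2) (bor (!cm k k5) (bor (Nat.beq k rone)
    (!Nat.beq (rmul k k) rone)))) (by decide +kernel) r hr.1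
  rw [← rc_r5, cm_of h, ← gcR.code_mul, h2, ← gcR.code_one, fx, (mem_CZ.1 hr).2.2] at h1
  simpa [← beq_rc] using h1

namespace JD

variable {G H : Type*} [Group G] [Group H] [Finite G] {ι : H →* G} {z ω : H} {s : ℕ → H} {Λ : H →* R}
  {M : GM ι z ω s Λ} {y g : H} {T : ℕ → H} {π : N[M.V] →* M24} {κ : M24 →* N[M.V]} (J : JD M y g T π κ)
include J

theorem uniq5 {x a b : G} (hx : x ∈ N[M.V]) (o : orderOf x = 5) (ha : a ∈ M.V) (hb : b ∈ M.V) (ca : IsConj (ι z) a)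
    (cb : IsConj (ι z) b) (ea : a ∈ C1[x]) (eb : b ∈ C1[x]) : a = b := by
  have : Fact (Nat.Prime 5) := ⟨by norm_num⟩
  have hy := J.vc.actY.map ι
  obtain ⟨n, hn, e⟩ := exists_conj_pow (p := 5) (by norm_num) (J.px.co.act_norm hy) hx
    (by rw [orderOf_injective ι M.inj]; exact orderOf_eq_prime J.vc.y5 fun e => absurd J.vc.Λy (by
      rw [e, map_one, gcR.code_one]; decide +kernel)) o (by rw [M.card_norm_V J.vc J.cls]; norm_num)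
  have key : ∀ a ∈ M.V, IsConj (ι z) a → a ∈ C1[x] → n * a * n⁻¹ = ι (T 1024) := fun a ha ca ea => by
    obtain ⟨c, hc, e1⟩ := J.px.co.surj _ (conj_mem_of_mem_norm hn ha)
    replace e1 : ι (T c) = n * a * n⁻¹ := e1
    have h1 : ι (T c) ∈ C1[ι y] := by rwa [e1, ← cent_zpowers, ← e, ← conj_centralizer, conj_mem_conj, cent_zpowers]
    have h2 := J.px.co.eq (hy c hc).2 hc ((hy c hc).1.symm.trans (mul_inv_eq_iff_eq_mul.2 (mem_cent1.1 h1).symm))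
    have h3 := ball_zero (show ball (fun c => bor (!fx mY c) (bor (!tbq 102 (cl clT6 c)) (Nat.beq c 1024))) 11 0 = true by
      decide +kernel) c hc
    rw [fx, h2, (J.cls c hc).1 (e1 ▸ (isConj_conj n).2 ca)] at h3
    rw [← e1, show c = 1024 by simpa using h3]
  simpa using (key a ha ca ea).trans (key b hb cb eb).symm

theorem cent20 {x a : G} (o : orderOf x = 5) (ha : a ∈ C1[ι z]) (hz : x ∈ C1[ι z]) (hx : x ∈ C1[a * ι (s 20) * a⁻¹]) :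
    C1[a * ι (s 20) * a⁻¹] ⊓ C1[x] ≤ C1[ι z] := by
  obtain ⟨Y, hY, e⟩ := J.exists_duad20
  have hN : C1[ι (s 20)] ≤ N[M.V] := e ▸ J.ms.cent_duad hY
  rw [← conj_cent1, mem_conj] at hx
  have h1 : ι z ∈ C1[a⁻¹ * x * a] := mem_cent1_comm.1 (mul_mem (mul_mem (inv_mem ha) hz) ha)
  rw [← conj_cent1, ← conj_eq_self_of_mem ha, show x = a * (a⁻¹ * x * a) * a⁻¹ by group, ← conj_cent1, ← conj_inf,
    conj_le_conj_iff]
  exact fun c hc => mem_cent1.2 (mul_inv_eq_iff_eq_mul.1 (J.uniq5 (hN hx) (by rw [← o, ← orderOf_conj a]; congr 1; group)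
    (conj_mem_of_mem_norm (hN hc.1) M.z_mem_V) M.z_mem_V (isConj_iff.2 ⟨c, rfl⟩) (IsConj.refl _)
    (mul_mem (mul_mem (mem_inf.1 hc).2 h1) (inv_mem (mem_inf.1 hc).2)) h1))

end JD

namespace PT

variable {G H : Type*} [Group G] [Group H] [Finite G] {ι : H →* G} {z ω : H} {s : ℕ → H} {Λ : H →* R}
  {M : GM ι z ω s Λ} {q : H} {ψ : N[M.Z] →* Equiv.Perm (Fin 5) × SL3} (P : PT M q ψ)
include P

theorem rcq : rc (Λ q) = k5 := by rw [P.Λq, rc_r5]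

theorem ordx : orderOf (ι q) = 5 := by
  have : Fact (Nat.Prime 5) := ⟨by norm_num⟩
  rw [orderOf_injective ι M.inj]
  exact orderOf_eq_prime P.q5 fun e => absurd P.rcq (by rw [e, map_one, gcR.code_one]; decide +kernel)

theorem x_cent : ι q ∈ C[M.Z] :=
  M.mem_cent_Z.2 ⟨mem_CZ.2 ⟨M.mem q, by rw [P.rcq]; decide +kernel⟩, by rw [M.cb_norm P.q_mem]; rfl⟩

theorem Z_le_X : M.Z ≤ C1[ι q] := mem_cent_iff_le_cent1.1 P.x_cent

theorem ψx : ψ ⟨ι q, cent_le_norm _ P.x_cent⟩ = (finRotate 5, 1) :=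
  Prod.ext (P.al q _ _ (by rw [P.rcq]; decide +kernel)) ((P.be _).2 P.x_cent)

theorem Λ_comm {h : H} (e : ι h ∈ C1[ι q]) : Λ h * r5 = r5 * Λ h :=
  P.Λq ▸ mem_cent1.1 (map_mem_cent1 ((map_mem_cent1_iff M.inj).1 e) Λ)

theorem cb_fix {h : H} (e : ι h ∈ C1[ι q]) (h1 : Λ h = 1) : lin k5 (M.cb h) = M.cb h := by
  rw [← P.rcq, ← M.cb_conj_ker h1, ← mem_cent1.1 ((map_mem_cent1_iff M.inj).1 e), mul_inv_cancel_right]

theorem s_mem_X {a : ℕ} (ha : a < 4096) (h : lin k5 a = a) : ι (s a) ∈ C1[ι q] :=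
  map_mem_cent1 (mem_cent1.2 (M.comm_s_of ha (by rwa [P.rcq]) (by
    rw [P.rcq, M.cb_norm P.q_mem, show ou k5 = 0 by decide +kernel, zero_mul, Bf_zero_left])).symm) ι

theorem L_inf : M.L ⊓ C1[ι q] = M.Z := by
  refine le_antisymm ?_ (le_inf M.Z_le_L P.Z_le_X)
  rintro _ ⟨⟨h, hh, rfl⟩, hc⟩
  have h1 := (O4_facts hh.2).2.2.1 (P.Λ_comm hc)
  have h2 := ball_zero (show ball (fun b => bor (!fx k5 b) (bor (!Nat.beq (b &&& 192) 0) (Nat.blt b 4))) 12 0 = true by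
    decide +kernel) _ (M.cb_lt h)
  rw [fx, P.cb_fix hc h1, (M.mem_cent_ZH.1 hh.1).2] at h2
  exact M.mem_Z.2 ⟨h1, by simpa using h2⟩

theorem cent_z_le : C1[ι q] ⊓ C1[ι z] ≤ N[M.Z] := fun c hc => by
  obtain ⟨h, rfl⟩ := M.surj c (mem_cent1.1 hc.2)
  exact M.mem_norm_Z (fix5_line (M.mem h) (P.Λ_comm hc.1))

theorem lift_q {k a : ℕ} (h : inL k = true) (e : cjap rmul rinv k k5 = cpow rmul rone k5 a) :
    ∃ l ∈ N[zpowers ω], rc (Λ l) = k ∧ l * q * l⁻¹ = q ^ a := by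
  obtain ⟨l, hl, rfl⟩ := M.lift_code h
  refine ⟨l, hl, rfl, M.eq_of_odd (n := 2) (mul_mem (mul_mem hl P.q_mem) (inv_mem hl)) (pow_mem P.q_mem a) (gcR.inj ?_)
    (by rw [conj_pow, P.q5]; simp) (by rw [← pow_mul, mul_comm, pow_mul, P.q5, one_pow])⟩
  rw [map_mul, map_mul, map_inv, map_pow, ← gcR.cjap_code, ← gcR.cpow_code, P.rcq, e]

theorem exists_x8 : ∃ e : N[M.Z], (e : G) ∈ C1[ι q] ∧ (ψ e).1 = 1 ∧ ∀ v ∈ M.Z, (v * e) ^ 4 = ι z := by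
  obtain ⟨l, hl, e, e1⟩ := P.lift_q (k := kσ) (a := 1) (by decide +kernel) (by decide +kernel)
  have h1 : rc (Λ (s 3024 * l)) = kσ := by rw [map_mul, M.Λs (by norm_num), one_mul, e]
  have hn : ι (s 3024 * l) ∈ N[M.Z] := M.mem_norm_Z (by rw [h1]; decide +kernel)
  refine ⟨⟨_, hn⟩, ?_, P.al _ hn 1 (by rw [h1]; decide +kernel), ?_⟩
  · rw [coe_mk, map_mul]
    exact mul_mem (P.s_mem_X (by norm_num) (by decide +kernel))
      (map_mem_cent1 (mem_cent1.2 (mul_inv_eq_iff_eq_mul.1 (e1.trans (pow_one q)))) ι)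
  · rintro _ ⟨v, hv, rfl⟩
    have h2 : rc (Λ (v * (s 3024 * l))) = kσ := by rw [map_mul, hv.1, one_mul, h1]
    have h3 : M.cb (v * (s 3024 * l)) = M.cb v ^^^ 3024 := by
      rw [M.cb_mul, hv.1, M.cb_eq (by norm_num) hl, lin_rc_one (by norm_num)]
    rw [coe_mk, ← map_mul, ← map_pow, show 4 = 2 * 2 from rfl, pow_mul, pow_two, pow_two, M.sq_ker (gcR.inj (by
      rw [map_mul _ (v * _), gcR.code_mul, h2, gcR.code_one]; decide +kernel)), M.cb_mul, h2, h3,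
      (show ∀ c < 4, Qf (c ^^^ 3024 ^^^ lin kσ (c ^^^ 3024)) = 1 by decide +kernel) _ hv.2, pow_one]

theorem exists_u4 : ∃ u ∈ C[M.Z], orderOf u = 4 ∧ u * ι q * u⁻¹ = ι q ^ 2 := by
  obtain ⟨l, hl, e, e1⟩ := P.lift_q (k := ku4) (a := 2) (by decide +kernel) (by decide +kernel)
  have h1 : rc (Λ (l * l)) = rmul ku4 ku4 := by rw [map_mul, gcR.code_mul, e]
  refine ⟨ι l, M.mem_cent_Z.2 ⟨mem_CZ.2 ⟨M.mem l, by rw [e]; decide +kernel⟩, by rw [M.cb_norm hl]; rfl⟩, ?_,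
    by rw [← map_pow, ← e1, map_mul, map_mul, map_inv]⟩
  rw [orderOf_injective ι M.inj]
  refine orderOf_eq_prime_pow (p := 2) (n := 1) (fun h => absurd h1 ?_) ?_
  · rw [← pow_two, show l ^ 2 = 1 from h, map_one, gcR.code_one]; decide +kernel
  · rw [pow_two 2, pow_mul, pow_two, pow_two]
    exact M.sq_inner (mul_mem hl hl) (gcR.inj (by rw [gcR.code_mul, h1, gcR.code_one]; decide +kernel))
      (by rw [h1]; decide +kernel)

end PT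

namespace JD

variable {G H : Type*} [Group G] [Group H] [Finite G] {ι : H →* G} {z ω : H} {s : ℕ → H} {Λ : H →* R}
  {M : GM ι z ω s Λ} {y g : H} {T : ℕ → H} {π : N[M.V] →* M24} {κ : M24 →* N[M.V]} (J : JD M y g T π κ)
  {q : H} {ψ : N[M.Z] →* Equiv.Perm (Fin 5) × SL3} (P : PT M q ψ)
include J P

theorem trans5 {v : G} (hv : v ∈ M.Z) (h1 : v ≠ 1) : ∃ k ∈ C1[ι q] ⊓ N[M.Z], k * ι z * k⁻¹ = v := by
  obtain ⟨j, e⟩ := J.trans_Z hv h1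
  obtain ⟨n, hn⟩ : ∃ n : N[M.Z], (n : G) = (κ (elt p7) : G) ^ j := ⟨⟨_, pow_mem (J.co3.act_norm J.act7) j⟩, rfl⟩
  obtain ⟨c, hc, e1⟩ := P.lift_cent (x := ⟨_, cent_le_norm _ P.x_cent⟩) (by rw [coe_mk, P.ordx]; decide)
    (t := (1, (ψ n).2)) (by rw [P.ψx]; simp)
  refine ⟨c, ⟨hc, c.2⟩, ?_⟩
  have := (P.be (n⁻¹ * c)).1 (by simp [e1]) _ M.z_mem_Z
  rw [← e, ← hn, ← mul_right_inj (n : G)⁻¹, ← mul_assoc, ← mul_assoc, ← coe_inv, ← coe_mul, ← this]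
  simp [mul_assoc]

theorem cls5 {i : G} (hi : i ∈ C1[ι q] ⊓ N[M.Z]) (h2 : i * i = 1) : i ∈ M.Z ∨ ∃ k ∈ C1[ι q] ⊓ N[M.Z], ∃ a ∈ C1[ι z],
    k * (a * ι (s 20) * a⁻¹) * k⁻¹ = i := by
  obtain ⟨k, hk, h3⟩ : ∃ k ∈ C1[ι q] ⊓ N[M.Z], ∀ v ∈ M.Z,
      k⁻¹ * i * k * v * (k⁻¹ * i * k)⁻¹ = v ∨ k⁻¹ * i * k * v * (k⁻¹ * i * k)⁻¹ = v * ι z := by
    obtain ⟨w, hw, h⟩ := P.inv ⟨i, hi.2⟩ (Subtype.ext h2)
    by_cases h1 : w = 1
    · exact ⟨1, one_mem _, fun v hv => .inl (by simpa [h1] using h v hv)⟩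
    obtain ⟨k, hk, rfl⟩ := J.trans5 P hw h1
    refine ⟨k, hk, fun v hv => (h _ (conj_mem_of_mem_norm hk.2 hv)).imp (fun e => ?_) fun e => ?_⟩ <;>
      rw [show k⁻¹ * i * k * v * (k⁻¹ * i * k)⁻¹ = k⁻¹ * (i * (k * v * k⁻¹) * i⁻¹) * k by group, e] <;> group
  obtain ⟨h, e⟩ := M.surj (k⁻¹ * i * k) (mul_inv_eq_iff_eq_mul.1 ((h3 _ M.z_mem_Z).resolve_right fun e => by
    rw [← map_mul, M.zz, map_one, conj_eq_one_iff, map_eq_one_iff ι M.inj] at e; exact M.ne e))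
  have hX : ι h ∈ C1[ι q] := e ▸ mul_mem (mul_mem (inv_mem (mem_inf.1 hk).1) (mem_inf.1 hi).1) (mem_inf.1 hk).1
  have h4 : h * h = 1 := M.inj (by
    rw [map_mul, e, map_one, show k⁻¹ * i * k * (k⁻¹ * i * k) = k⁻¹ * (i * i) * k by group, h2]; simp)
  have h5 : ∀ a < 4, lin (rc (Λ h)) a = a := fun a ha => by
    have a1 := h3 _ (M.mem_Z.2 (M.s_mem_ZH ha))
    have a2 := M.cb_conj_ker (g := h) (M.Λs (a := a) (by omega))
    rw [← e, ← map_inv, ← map_mul, ← map_mul, ← map_mul, M.inj.eq_iff, M.inj.eq_iff] at a1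
    rcases a1 with a1 | a1 <;> rw [a1] at a2
    · rw [M.cb_s (by omega)] at a2; exact a2.symm
    · rw [M.cb_mul_z, M.cb_s (by omega)] at a2; exact a2.symm
  have h6 := inv_CZ (mem_CZ.2 ⟨M.mem h, h5 1 (by norm_num), h5 2 (by norm_num)⟩) (P.Λ_comm hX)
    (by rw [← map_mul, h4, map_one])
  have h7 : i = k * ι h * k⁻¹ := by rw [e]; group
  by_cases h8 : M.cb h < 4
  · exact .inl (h7 ▸ conj_mem_of_mem_norm hk.2 (M.mem_Z.2 ⟨h6, h8⟩))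
  obtain ⟨l, rfl⟩ | ⟨l, rfl⟩ := M.E_cls h6 h4 (by omega)
  · have := P.cb_fix hX h6
    rw [M.cb_conj_ker (M.Λs (by norm_num)), M.cb_s (by norm_num)] at this h8
    exact absurd (fix5_orb (M.mem l) this) h8
  · exact .inr ⟨k, hk, ι l, map_mem_cent1 (mem_cent1.2 (M.zc l)) ι, by rw [h7, map_mul, map_mul, map_inv]⟩

theorem X_le : C1[ι q] ≤ N[M.Z] := by
  have : Fact (Nat.Prime 2) := ⟨Nat.prime_two⟩
  have nz : ∀ k a, ¬ IsConj (ι z) (k * (a * ι (s 20) * a⁻¹) * k⁻¹) := fun k a h =>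
    M.not_conj_20 J.vc (by rwa [isConj_conj, isConj_conj, ← J.vc.Ts 20 (by norm_num)] at h)
  have sq : ∀ {c : G}, orderOf c = 2 → c * c = 1 := fun h => by rw [← pow_two, ← h, pow_orderOf_eq_one]
  have oz : orderOf (ι z) = 2 := by rw [orderOf_injective ι M.inj]; exact orderOf_eq_prime (by rw [pow_two, M.zz]) M.ne
  have hb : ι (s 1696) ∈ C1[ι q] ⊓ N[M.Z] := ⟨P.s_mem_X (by norm_num) (by decide +kernel),
    M.mem_norm_Z fun a ha => by rwa [M.Λs (by norm_num), lin_rc_one (by omega)]⟩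
  have sb : ι (s 1696) * ι (s 1696) = 1 := by
    rw [← map_mul, M.s_sq (by norm_num), show Qf 1696 = 0 by decide +kernel, pow_zero, map_one]
  have nb : ι (s 1696) ∉ M.Z := fun h => by have := (M.mem_Z.1 h).2; rw [M.cb_s (by norm_num)] at this; omega
  have key : ∀ k ∈ C1[ι q] ⊓ N[M.Z], ∀ a, C1[ι q] ⊓ C1[a] ≤ C1[ι z] → C1[ι q] ⊓ C1[k * a * k⁻¹] ≤ N[M.Z] :=
    fun k hk a h => by
      rw [← conj_eq_self_of_mem (mem_inf.1 hk).1, ← conj_cent1, ← conj_inf]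
      exact conj_le_of_mem hk.2 ((le_inf inf_le_left h).trans P.cent_z_le)
  refine two_class ⟨P.Z_le_X M.z_mem_Z, le_normalizer M.z_mem_Z⟩ hb oz
    (orderOf_eq_prime (by rw [pow_two, sb]) fun e => nb (e ▸ one_mem _)) (fun g _ e => ?_) (fun i hi o => ?_)
    fun g hg h => ?_
  · obtain ⟨k, -, a, -, e1⟩ := (J.cls5 P hb sb).resolve_left nb
    exact nz k a (isConj_iff.2 ⟨g, e.trans e1.symm⟩)
  · obtain h | ⟨k, hk, a, ha, rfl⟩ := J.cls5 P hi (sq o)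
    · obtain ⟨k, hk, rfl⟩ := J.trans5 P h fun e => by simp [e] at o
      exact key k hk _ inf_le_right
    · refine key k hk _ (inf_comm C1[ι q] _ ▸ J.cent20 P.ordx ha (mem_cent1_comm.1 (P.Z_le_X M.z_mem_Z))
        (mem_cent1_comm.1 ?_))
      rw [← conj_mem_conj (g := k), conj_eq_self_of_mem (mem_inf.1 hk).1]
      exact hi.1
  · have o : orderOf (g * ι z * g⁻¹) = 2 := by rw [orderOf_conj, oz]
    obtain h | ⟨k, -, a, -, e⟩ := J.cls5 P (mem_inf.2 ⟨mul_mem (mul_mem hg (P.Z_le_X M.z_mem_Z)) (inv_mem hg), h⟩) (sq o)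
    · exact J.trans5 P h fun e => by simp [e] at o
    · exact absurd (isConj_iff.2 ⟨g, e.symm⟩) (nz k a)

theorem cent5 : ∃ K : Subgroup G, IsInternalDirectProduct (zpowers (ι q)) K C1[ι q] ∧ Nat.card K = 1344 ∧
    ∃ (E : Subgroup K) (_ : E.Normal), IsElementaryAbelian 2 E ∧ Nat.card E = 8 ∧ Nonempty (K ⧸ E ≃* SL3) ∧
      ∀ F : Subgroup K, ¬ E.IsComplement' F := by
  obtain ⟨K, hK⟩ : ∃ K : Subgroup G, ∀ c, c ∈ K ↔ c ∈ C1[ι q] ∧ ∃ h : c ∈ N[M.Z], (ψ ⟨c, h⟩).1 = 1 :=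
    ⟨C1[ι q] ⊓ ((MonoidHom.fst _ _).comp ψ).ker.map N[M.Z].subtype, fun c => and_congr_right fun _ =>
      ⟨fun ⟨n, a, b⟩ => b ▸ ⟨n.2, a⟩, fun ⟨a, b⟩ => ⟨⟨c, a⟩, b, rfl⟩⟩⟩
  have h1 : K ≤ N[M.Z] := fun c hc => ((hK c).1 hc).2.1
  have h2 : M.Z ≤ K := fun c hc => (hK c).2 ⟨P.Z_le_X hc, le_normalizer hc, congrArg Prod.fst ((P.ker _).2 (M.Z_le_L hc))⟩
  obtain ⟨φ, hφ⟩ : ∃ φ : K →* SL3, ∀ c, φ c = (ψ ⟨c, h1 c.2⟩).2 := ⟨((MonoidHom.snd _ _).comp ψ).comp (inclusion h1), fun _ => rfl⟩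
  have h3 : φ.ker = M.Z.subgroupOf K := ext fun c => ⟨fun h => P.L_inf.le ⟨(P.ker ⟨c, h1 c.2⟩).1
    (Prod.ext ((hK c).1 c.2).2.2 ((hφ c).symm.trans h)), ((hK c).1 c.2).1⟩,
    fun h => (hφ c).trans (congrArg Prod.snd ((P.ker ⟨c, h1 c.2⟩).2 (M.Z_le_L h)))⟩
  have h4 : Function.Surjective φ := fun t => by
    obtain ⟨c, hc, e⟩ := P.lift_cent (x := ⟨_, cent_le_norm _ P.x_cent⟩) (by rw [coe_mk, P.ordx]; decide)
      (t := (1, t)) (by rw [P.ψx]; simp)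
    exact ⟨⟨c, (hK c).2 ⟨hc, c.2, congrArg Prod.fst e⟩⟩, (hφ _).trans (congrArg Prod.snd e)⟩
  have h5 : Nat.card φ.ker = 8 := by rw [h3, card_subgroupOf h2, M.card_Z]; rfl
  refine ⟨K, ⟨zpowers_le.2 (self_mem_cent1 _), fun c hc => ((hK c).1 hc).1,
    fun a ha b hb => (cent_zpowers _).ge ((hK b).1 hb).1 a ha,
    (le_or_inf_eq_bot_of_card_prime (by rw [Nat.card_zpowers, P.ordx]; norm_num) K).resolve_left fun h =>
      absurd ((congrArg Prod.fst P.ψx).symm.trans ((hK _).1 (h (mem_zpowers _))).2.2) (by decide),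
    le_antisymm (sup_le (zpowers_le.2 (self_mem_cent1 _)) fun c hc => ((hK c).1 hc).1) fun c hc => ?_⟩, ?_,
    φ.ker, inferInstance, elem_of_sq fun c hc => Subtype.ext (M.Z_sq _ (h3.le hc)), h5,
    ⟨QuotientGroup.quotientKerEquivOfSurjective φ h4⟩, fun F hF => ?_⟩
  · obtain ⟨x, hx, e1⟩ : ∃ x : N[M.Z], (x : G) = ι q ∧ (ψ x).1 = finRotate 5 := ⟨_, rfl, congrArg Prod.fst P.ψx⟩
    obtain ⟨n, rfl⟩ : ∃ n : N[M.Z], n = c := ⟨⟨c, J.X_le P hc⟩, rfl⟩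
    obtain ⟨j, -, e⟩ := cent_rot5 (ψ n).1 (by
      rw [← e1, ← Prod.fst_mul, ← Prod.fst_mul, ← map_mul, ← map_mul, show n * x = x * n from
        Subtype.ext (mem_cent1.1 (hx ▸ hc :))])
    rw [← mul_inv_cancel_left (ι q ^ j) n]
    refine mul_mem (mem_sup_left (npow_mem_zpowers _ _)) (mem_sup_right ((hK _).2
      ⟨mul_mem (inv_mem (pow_mem (self_mem_cent1 _) _)) hc, ?_⟩))
    rw [← hx]
    exact ⟨((x ^ j)⁻¹ * n).2, show (ψ ((x ^ j)⁻¹ * n)).1 = 1 by simp [e, e1]⟩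
  · rw [← card_top, ← card_map_mul_card_inf_ker φ, inf_top_eq, h5, ← MonoidHom.range_eq_map,
      MonoidHom.range_eq_top.2 h4, card_top, card_SL3]
  · obtain ⟨e, a1, a2, a3⟩ := P.exists_x8
    obtain ⟨⟨v, k⟩, a4, -⟩ := hF.existsUnique ⟨e, (hK _).2 ⟨a1, e.2, a2⟩⟩
    have a5 : ((k : K) ^ 4 : K) = ⟨ι z, h2 M.z_mem_Z⟩ := Subtype.ext (Eq.trans (by
      rw [← show ((v : K) : G) * (k : K) = e from congrArg Subtype.val a4]; simp) (a3 _ (inv_mem (h3.le v.2))))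
    exact M.ne (M.inj ((congrArg Subtype.val (disjoint_def.1 hF.disjoint (h3.ge M.z_mem_Z)
      (a5 ▸ pow_mem k.2 4))).trans (map_one ι).symm))

theorem norm5 : ∃ u ∈ C[M.Z], orderOf u = 4 ∧ zpowers u ⊔ C1[ι q] = N[zpowers (ι q)] ∧ zpowers u ⊓ C1[ι q] = ⊥ ∧
    Nat.card N[zpowers (ι q)] = 26880 := by
  obtain ⟨u, hu, o, e⟩ := P.exists_u4
  obtain ⟨K, h1, h2, -⟩ := J.cent5 P
  obtain ⟨h3, h4, h5⟩ := norm_struct P.ordx o e (by decide) fun n i hi e => by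
    refine ((show ∀ i < 5, i ≠ 0 → ∃ j < 4, i ≡ 2 ^ j [MOD 5] by decide) i hi fun h => ?_).imp fun _ h => h.2
    rw [h, pow_zero, conj_eq_one_iff] at e
    exact absurd P.ordx (by rw [e, orderOf_one]; decide)
  refine ⟨u, hu, o, h3, h4, ?_⟩
  rw [h5, ← h1.2.2.2.2, card_sup_of_inf_eq_bot (.inl (le_norm_of_cent fun a ha b hb => (h1.2.2.1 a ha b hb).symm))
    h1.2.2.2.1, Nat.card_zpowers, P.ordx, h2]

theorem five_local : ¬ (25 ∣ Nat.card G) ∧ (∃ K : Subgroup G, IsInternalDirectProduct (zpowers (ι q)) K C[zpowers (ι q)] ∧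
    ∃ (E : Subgroup K) (_ : E.Normal), IsElementaryAbelian 2 E ∧ Nat.card E = 8 ∧ Nonempty (K ⧸ E ≃* SL3) ∧
      ∀ F : Subgroup K, ¬ E.IsComplement' F) ∧
    (∃ R : Subgroup G, zpowers (ι q) ≤ R ∧ R ≤ N[zpowers (ι q)] ∧ Nat.card R = 20 ∧ R ⊓ C[zpowers (ι q)] = zpowers (ι q)) ∧
    Nat.card N[zpowers (ι q)] = 2 ^ 8 * 3 * 5 * 7 := by
  obtain ⟨u, -, o, h1, h2, h3⟩ := J.norm5 P
  have h4 := le_sup_left.trans h1.le
  have h5 := zpowers_le.2 (self_mem_cent1 (ι q))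
  rw [cent_zpowers]
  refine ⟨(syl_of_card_norm (p := 5) (by norm_num) (by rw [Nat.card_zpowers, P.ordx]) (by rw [h3]; norm_num)).2,
    (J.cent5 P).imp fun _ h => ⟨h.1, h.2.2⟩, ⟨zpowers (ι q) ⊔ zpowers u, le_sup_left, sup_le le_normalizer h4, ?_, ?_⟩, h3⟩
  · rw [card_sup_of_inf_eq_bot (.inr h4) (eq_bot_iff.2 ((inf_comm _ _).le.trans ((inf_le_inf_left _ h5).trans h2.le))),
      Nat.card_zpowers, Nat.card_zpowers, o, P.ordx]
  · rw [dedekind (.inr h4) h5, h2, sup_bot_eq]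

end JD

theorem GM.exists_five {G H : Type*} [Group G] [Group H] [Finite G] [IsSimpleGroup G] {ι : H →* G} {z ω : H} {s : ℕ → H}
    {Λ : H →* R} (M : GM ι z ω s Λ) (hG : ¬ IsMulCommutative G) {Q : Subgroup G} (hQ : Nat.card Q = 5)
    (hz : Q ≤ C1[ι z]) : ∃ (ι' : H →* G) (M' : GM ι' z ω s Λ) (y g : H) (T : ℕ → H) (π : _) (κ : _) (q : H) (ψ : _),
      JD M' y g T π κ ∧ PT M' q ψ ∧ Q = zpowers (ι' q) := by
  have := M.finH
  obtain ⟨y, g, T, π, κ, J⟩ := M.exists_jd hG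
  obtain ⟨q, ψ, P⟩ := J.exists_pt
  obtain ⟨x, hx, o⟩ := exists_mem_orderOf_eq (H := Q) (p := 5) (by norm_num) hQ.symm.dvd
  obtain ⟨a, -, e⟩ := exists_conj_pow (p := 5) (by norm_num) (hz hx) (mem_cent1_comm.1 (P.Z_le_X M.z_mem_Z)) o P.ordx (by
    rw [← M.range_eq_cent, MonoidHom.range_eq_map, card_map_inj M.inj, card_top, M.card]; norm_num)
  obtain ⟨y, g, T, π, κ, J⟩ := (M.twist a).exists_jd hG
  obtain ⟨q', ψ', P'⟩ := J.exists_pt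
  refine ⟨_, _, y, g, T, π, κ, q', ψ', J, P', ?_⟩
  rw [M.eq_of_odd (n := 2) P'.q_mem P.q_mem (P'.Λq.trans P.Λq.symm) P'.q5 P.q5,
    eq_zpowers_of_card_prime (by rw [hQ]; norm_num) hx fun h => by simp [h] at o, ← e, conj_zpowers]
  rfl

end Cfsg.Agent.J4
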