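import Cfsg.Agent.J4.EC
import Cfsg.Agent.J4.PQ

/-!
# Groups of type `J₄`: centraliser orders of elements of order five
-/

set_option autoImplicit false
set_option linter.unusedSectionVars false

namespace Cfsg.Agent.J4

open Cfsg.Agent.M24 Cfsg.Agent.GT Subgroup MulAction

theorem card_cent_prime {G : Type*} [Group G] [Finite G] {p : ℕ} (hp : p.Prime) (h : ¬ p * p ∣ Nat.card G) {a x : G}
    (oa : orderOf a = p) (ox : orderOf x = p) :
    Nat.card C1[x] = Nat.card C1[a] ∧ Nat.card N[zpowers x] = Nat.card N[zpowers a] := by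
  obtain ⟨g, -, e⟩ := exists_conj_pow (M := ⊤) hp trivial trivial oa ox (by rwa [card_top])
  rw [← cent_zpowers, ← cent_zpowers, ← e, ← conj_centralizer, ← conj_normalizer, card_conj, card_conj]
  exact ⟨rfl, rfl⟩

theorem JD.card_c5 {G H : Type*} [Group G] [Group H] [Finite G] {ι : H →* G} {z ω : H} {s : ℕ → H} {Λ : H →* R}
    {M : GM ι z ω s Λ} {y g : H} {T : ℕ → H} {π : N[M.V] →* M24} {κ : M24 →* N[M.V]} (J : JD M y g T π κ)
    (w : G) (hw : orderOf w = 5) : Nat.card C1[w] = 6720 := by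
  obtain ⟨q, ψ, P⟩ := J.exists_pt
  obtain ⟨u, -, o, h1, h2, h3⟩ := J.norm5 P
  have h4 := card_sup_of_inf_eq_bot (.inl ((le_sup_left.trans h1.le).trans (cent_zpowers (ι q) ▸ norm_le_norm_cent _))) h2
  rw [h1, h3, Nat.card_zpowers, o] at h4
  rw [(card_cent_prime (by norm_num) (by rw [J.card_G]; norm_num) P.ordx hw).1]; omega

theorem exists_jg {G : Type*} [Group G] [Finite G] [IsSimpleGroup G] (hG : ¬ IsMulCommutative G)
    {z : G} (hJ : IsOfJankoFourTypeAt z) : ∃ (ω : C1[z]) (s : ℕ → C1[z]) (Λ : C1[z] →* R)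
      (M : GM C1[z].subtype ⟨z, self_mem_cent1 z⟩ ω s Λ) (y g : C1[z]) (T : ℕ → C1[z]) (π : N[M.V] →* M24)
      (κ : M24 →* N[M.V]) (J : JD M y g T π κ), ∀ g : M24, g * g = 1 → g ≠ 1 → J.mc.Good g := by
  obtain ⟨P, h⟩ := hJ
  obtain ⟨ω, s, Λ, M, -⟩ := GM.of_type h
  obtain ⟨y, g, T, π, κ, J⟩ := M.exists_jd hG
  obtain ⟨κ', J', h⟩ := J.exists_jg
  exact ⟨ω, s, Λ, M, y, g, T, π, κ', J', h⟩

end Cfsg.Agent.J4
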