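import Cfsg.Agent.J4.ED

/-!
# Groups of type `J₄`: the primes `23, 29, 31, 37, 43`
-/

set_option autoImplicit false
set_option linter.unusedSectionVars false

namespace Cfsg.Agent.J4

open Cfsg.Agent.M24 Cfsg.Agent.GT Subgroup MulAction

theorem syl_zpowers {G : Type*} [Group G] [Finite G] {p : ℕ} (hp : p.Prime) {K : Subgroup G}
    (h : ¬ p * p ∣ Nat.card K) {x : G} (hx : x ∈ K) (ox : orderOf x = p) : IsPiHallOf {p} (zpowers x) K :=
  syl_mk hp (zpowers_le.2 hx) (isPGroup_of_card_eq_prime (by rw [Nat.card_zpowers, ox])) fun e => h (by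
    rw [← card_mul_relIndex (zpowers_le.2 hx), Nat.card_zpowers, ox]; exact mul_dvd_mul_left p e)

theorem syl_index {G : Type*} [Group G] [Finite G] {p : ℕ} (hp : p.Prime) {K P : Subgroup G} (h : IsPiHallOf {p} P K) :
    ∃ k, k % p = 1 ∧ Nat.card ↥(N[P] ⊓ K) * k = Nat.card K := by
  have : Fact p.Prime := ⟨hp⟩
  obtain ⟨Q, e⟩ := exists_sylow_of_syl hp h
  refine ⟨N[P].relIndex K, ?_, card_inf_mul_relIndex _ _⟩
  have h1 := card_sylow_modEq_one p K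
  rw [Q.card_eq_index_normalizer] at h1
  have h2 : N[(Q : Subgroup K)].index % p = 1 % p := h1
  rw [show (Q : Subgroup K) = P.subgroupOf K by
    rw [← e, subgroupOf, comap_map_eq_self_of_injective K.subtype_injective], ← subgroupOf_norm h.le] at h2
  exact h2.trans (Nat.mod_eq_of_lt hp.one_lt)

def lP : List ℕ := [23, 29, 31, 37, 43]
def l32 : List ℕ := [1, 23, 29, 667, 31, 713, 899, 20677, 37, 851, 1073, 24679, 1147, 26381, 33263, 765049, 43, 989, 1247,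
  28681, 1333, 30659, 38657, 889111, 1591, 36593, 46139, 1061197, 49321, 1134383, 1430309, 32897107]

theorem mem_l32 {c : ℕ} (h : c ∣ 23 * (29 * (31 * (37 * 43)))) : c ∈ l32 := by
  obtain ⟨a, a', ha, h1, rfl⟩ := Nat.dvd_mul.1 h
  obtain ⟨b, b', hb, h2, rfl⟩ := Nat.dvd_mul.1 h1
  obtain ⟨c, c', hc, h3, rfl⟩ := Nat.dvd_mul.1 h2
  obtain ⟨d, e, hd, he, rfl⟩ := Nat.dvd_mul.1 h3
  rw [Nat.dvd_prime (by norm_num)] at ha hb hc hd he
  rcases ha with rfl | rfl <;> rcases hb with rfl | rfl <;> rcases hc with rfl | rfl <;> rcases hd with rfl | rfl <;>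
    rcases he with rfl | rfl <;> decide

/-- The numerical conditions on the orders of the centraliser and the automiser. -/
def okP (p c e : ℕ) : Prop := c % p = 0 ∧ (p - 1) % e = 0 ∧ 86775571046077562880 / (c * e) % p = 1 ∧ (p = 31 → e % 5 = 0)

instance (p c e : ℕ) : Decidable (okP p c e) := by unfold okP; infer_instance

theorem okP_chk : ∀ p ∈ lP, ∀ c ∈ l32, ∀ e < 43, okP p c e → (∀ q ∈ lP, c % q = 0 → ∃ c' ∈ l32, c' % p = 0 ∧ okP q c' e) →
    c = p ∧ (p, e) ∈ [(23, 22), (29, 28), (31, 10), (37, 12), (43, 14)] := by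
  decide +kernel

theorem lP_facts {p : ℕ} (h : p ∈ lP) : p.Prime ∧ ¬ p * p ∣ 86775571046077562880 ∧ 23 ≤ p ∧ p ≤ 43 ∧
    ¬ p ∣ 21799895040 ∧ (∀ e, e ∣ p - 1 → ∀ c ∈ l32, e.Coprime c) ∧ p ∣ 86775571046077562880 := by
  have : ∀ p ∈ lP, ∀ e < 43, (p - 1) % e = 0 → ∀ c ∈ l32, Nat.gcd e c = 1 := by decide +kernel
  have h1 : 23 ≤ p ∧ p ≤ 43 := by revert p; decide
  refine ⟨?_, ?_, h1.1, h1.2, ?_, fun e he => this p h e (by have := Nat.le_of_dvd (by omega) he; omega)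
    (Nat.mod_eq_zero_of_dvd he), ?_⟩ <;>
  simp only [lP, List.mem_cons, List.not_mem_nil, or_false] at h <;> rcases h with rfl | rfl | rfl | rfl | rfl <;> norm_num

namespace JD

variable {G H : Type*} [Group G] [Group H] [Finite G] {ι : H →* G} {z ω : H} {s : ℕ → H} {Λ : H →* R}
  {M : GM ι z ω s Λ} {y g : H} {T : ℕ → H} {π : N[M.V] →* M24} {κ : M24 →* N[M.V]} (J : JD M y g T π κ)
include J

theorem card_c2 {u : G} (h : orderOf u = 2) : Nat.card C1[u] = 21799895040 ∨ Nat.card C1[u] = 1816657920 :=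
  (J.hcl u h).imp (fun c => (card_cent_of_isConj c).trans J.card_cz) fun c => (card_cent_of_isConj c).trans J.card_ct

theorem card_c3_dvd {u : G} (h : orderOf u = 3) : Nat.card C1[u] ∣ 21799895040 := by
  rw [card_cent_of_isConj (J.conj_ω3 h), ← J.card_cz]
  exact card_dvd_of_le fun a ha => mem_cent1.2 (J.cent_ω (mem_cent1.1 ha))

theorem exists_L5 : ∃ K : Subgroup G, Nat.card K = 9999360 := by
  obtain ⟨⟨B, -, -, -, ⟨e⟩⟩, -⟩ := J.ms.norm_A OA_mem (elem_of_sq M.A_sq) M.card_A M.A_le_norm J.pi_A J.card_A_inf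
    M.seven_A J.duad_A M.z_mem_A M.fusion_A M.card_norm_A_inf M.cent_A
  exact ⟨B, (Nat.card_congr e.toEquiv).trans card_SL5⟩

variable (hG : ∀ g : M24, g * g = 1 → g ≠ 1 → J.mc.Good g) (h7 : ∀ g : G, orderOf g = 7 → Nat.card C1[g] = 840)
include hG h7

theorem cent_big {p : ℕ} (hp : p ∈ lP) {x : G} (ox : orderOf x = p) : Nat.card C1[x] ∈ l32 := by
  refine mem_l32 (dvd_of_primes fun q k hq k0 h e => ?_)
  obtain ⟨u, hu, ou⟩ := exists_mem_orderOf_eq hq h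
  have h1 : p ∣ Nat.card C1[u] := ox ▸ orderOf_dvd_card_of_mem (mem_cent1_comm.1 hu)
  have h2 := (lP_facts hp).2.2.2.2.1
  have h3 := J.card_G ▸ e.trans (card_subgroup_dvd_card _)
  have h4 := (show ∀ p ∈ lP, ¬ p ∣ 242 ∧ ¬ p ∣ 31944 by decide) p hp
  rcases primes_J4 hq (J.card_G ▸ h.trans (card_subgroup_dvd_card _)) with e' | e' | e' | e' | e' | e' | e' | e' | e' | e'
    <;> subst e'
  · rcases J.card_c2 ou with e | e <;> exact absurd ((e ▸ h1).trans (by norm_num)) h2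
  · exact absurd (h1.trans (J.card_c3_dvd ou)) h2
  · exact absurd ((J.card_c5 u ou ▸ h1).trans (by norm_num)) h2
  · exact absurd ((h7 u ou ▸ h1).trans (by norm_num)) h2
  · rcases J.card_c11 hG J.card_c5 h7 ou with e | e <;> rw [e] at h1
    exacts [absurd h1 h4.2, absurd h1 h4.1]
  all_goals exact (pow_dvd_pow _ (le_of_pow_dvd (n := 1) h3 (by norm_num))).trans (by norm_num)

theorem aut_big {p : ℕ} (hp : p ∈ lP) {x : G} (ox : orderOf x = p) :
    ∃ e, e ∣ p - 1 ∧ Nat.card N[zpowers x] = Nat.card C1[x] * e ∧ okP p (Nat.card C1[x]) e := by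
  obtain ⟨f1, f2, f3, f4, -, f6, -⟩ := lP_facts hp
  obtain ⟨e, h1, h2, -⟩ := exists_aut f1 ox
  refine ⟨e, h1, h2, Nat.mod_eq_zero_of_dvd (ox ▸ orderOf_dvd_card_of_mem (self_mem_cent1 x)),
    Nat.mod_eq_zero_of_dvd h1, ?_, ?_⟩
  · obtain ⟨k, h3, h4⟩ := syl_index f1 (syl_zpowers (K := ⊤) f1 (by rwa [card_top, J.card_G]) trivial ox)
    rw [inf_top_eq, card_top, J.card_G, h2] at h4
    rw [← h4, Nat.mul_div_cancel_left _ (h2 ▸ card_pos' _), h3]
  rintro rfl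
  obtain ⟨K, hK⟩ := J.exists_L5
  obtain ⟨a, ha, oa⟩ := exists_mem_orderOf_eq (H := K) f1 (by rw [hK]; norm_num)
  obtain ⟨k, h3, h4⟩ := syl_index f1 (syl_zpowers f1 (by rw [hK]; norm_num) ha oa)
  have h5 := card_dvd_of_le (inf_le_left : N[zpowers a] ⊓ K ≤ _)
  rw [← (card_cent_prime f1 (J.card_G ▸ f2) oa ox).2, h2] at h5
  have h6 := card_dvd_of_le (le_inf le_normalizer (zpowers_le.2 ha))
  rw [Nat.card_zpowers, oa] at h6
  have h7 := Nat.dvd_gcd h5 (hK ▸ card_dvd_of_le (inf_le_right : N[zpowers a] ⊓ K ≤ _))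
  generalize Nat.card ↥(N[zpowers a] ⊓ K) = n at *
  have h8 : ∀ c ∈ l32, ∀ e < 31, 30 % e = 0 → e % 5 ≠ 0 → ∀ j ≤ 6, Nat.gcd (c * e) 9999360 % (31 * j) = 0 →
    9999360 / (31 * j) % 31 ≠ 1 := by decide +kernel
  have h9 : ∀ c ∈ l32, ∀ e < 31, 30 % e = 0 → e % 5 ≠ 0 → Nat.gcd (c * e) 9999360 ≤ 31 * 6 := by decide +kernel
  have he : e < 31 := by have := Nat.le_of_dvd (by norm_num) h1; omega
  by_contra k5
  obtain ⟨j, rfl⟩ := h6
  have h10 := (Nat.le_of_dvd (Nat.gcd_pos_of_pos_right _ (by norm_num)) h7).trans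
    (h9 _ (J.cent_big hG ‹_› hp ox) e he (Nat.mod_eq_zero_of_dvd h1) k5)
  refine h8 _ (J.cent_big hG ‹_› hp ox) e he (Nat.mod_eq_zero_of_dvd h1) k5 j (by omega) (Nat.mod_eq_zero_of_dvd h7) ?_
  rw [← hK, ← h4, Nat.mul_div_cancel_left _ (Nat.pos_of_ne_zero fun e => by rw [e, hK] at h4; omega), h3]

theorem aut_dvd {p q : ℕ} (hp : p ∈ lP) (hq : q ∈ lP) {x u : G} (ox : orderOf x = p) (ou : orderOf u = q)
    (h : x ∈ C1[u]) {e e' : ℕ} (h1 : Nat.card N[zpowers x] = Nat.card C1[x] * e) (h2 : e' ∣ q - 1)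
    (h3 : Nat.card N[zpowers u] = Nat.card C1[u] * e') : e' ∣ e := by
  have c : C1[u] ≤ N[zpowers u] := (cent_zpowers u).ge.trans (cent_le_norm _)
  have c' : N[zpowers u] ≤ N[C1[u]] := cent_zpowers u ▸ norm_le_norm_cent _
  have h4 := card_of_mul (K := N[zpowers u] ⊓ N[zpowers x]) c inf_le_left c' fun g hg => by
    obtain ⟨k, hk, n, hn, e⟩ := frattini_arg_exists (lP_facts hp).1 (syl_zpowers (lP_facts hp).1
      (fun e => (lP_facts hp).2.1 (J.card_G ▸ e.trans (card_subgroup_dvd_card _))) h ox) (c' hg)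
    exact ⟨k, hk, mem_inf.2 ⟨mul_mem (inv_mem (c hk)) hg, by rwa [e, inv_mul_cancel_left]⟩⟩
  rw [h3, mul_assoc, Nat.mul_right_inj (card_pos' _).ne'] at h4
  exact ((lP_facts hq).2.2.2.2.2.1 e' h2 _ (J.cent_big hG h7 hp ox)).dvd_of_dvd_mul_left
    (h1 ▸ (Dvd.intro _ h4).trans (card_dvd_of_le inf_le_right))

theorem big {p : ℕ} (hp : p ∈ lP) {x : G} (ox : orderOf x = p) : C1[x] = zpowers x ∧
    ∃ e, Nat.card N[zpowers x] = p * e ∧ (p, e) ∈ [(23, 22), (29, 28), (31, 10), (37, 12), (43, 14)] := by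
  obtain ⟨e, h1, h2, h3⟩ := J.aut_big hG h7 hp ox
  obtain ⟨h4, h5⟩ := okP_chk p hp _ (J.cent_big hG h7 hp ox) e (by
    have := Nat.le_of_dvd (by have := (lP_facts hp).2.2.1; omega) h1; have := (lP_facts hp).2.2.2.1; omega) h3
    fun q hq k => by
      obtain ⟨u, hu, ou⟩ := exists_mem_orderOf_eq (lP_facts hq).1 (Nat.dvd_of_mod_eq_zero k)
      obtain ⟨e', k1, k2, k3⟩ := J.aut_big hG h7 hq ou
      obtain rfl := Nat.dvd_antisymm (J.aut_dvd hG h7 hp hq ox ou (mem_cent1_comm.1 hu) h2 k1 k2)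
        (J.aut_dvd hG h7 hq hp ou ox hu k2 h1 h2)
      exact ⟨_, J.cent_big hG h7 hq ou, Nat.mod_eq_zero_of_dvd (ox ▸ orderOf_dvd_card_of_mem (mem_cent1_comm.1 hu)), k3⟩
  exact ⟨(eq_of_le_of_card_ge (zpowers_le.2 (self_mem_cent1 x)) (by rw [h4, Nat.card_zpowers, ox])).symm, e, h4 ▸ h2, h5⟩

theorem big_syl {p e : ℕ} [Fact p.Prime] (h : (p, e) ∈ [(23, 22), (29, 28), (31, 10), (37, 12), (43, 14)])
    (U : Sylow p G) : C[(U : Subgroup G)] = U ∧ Nat.card N[(U : Subgroup G)] = p * e := by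
  have hp : p ∈ lP := by revert h; simp [lP]; tauto
  obtain ⟨f1, f2, -, -, -, -, f7⟩ := lP_facts hp
  have hU := syl_top_of_sylow f1 U
  obtain ⟨x, hx, ox⟩ := exists_mem_orderOf_eq f1 (hU.prime_dvd f1 rfl (by rwa [card_top, J.card_G]))
  have e1 := (syl_zpowers (K := ⊤) f1 (by rwa [card_top, J.card_G]) trivial ox).eq_of_le_hall hU (zpowers_le.2 hx)
  obtain ⟨h1, e', h2, h3⟩ := J.big hG h7 hp ox
  rw [← e1, cent_zpowers, h1, h2]
  refine ⟨rfl, ?_⟩
  simp only [List.mem_cons, Prod.mk.injEq, List.not_mem_nil, or_false] at h h3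
  rw [show e' = e by omega]

end JD

end Cfsg.Agent.J4
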