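import Cfsg.Agent.J4.PQ

/-!
# Groups of type `J₄`: elements of order seven
-/

set_option autoImplicit false
set_option linter.unusedSectionVars false

namespace Cfsg.Agent.J4

open Cfsg.Agent.M24 Cfsg.Agent.TT Cfsg.Agent.GT Subgroup MulAction Matrix
open scoped Pointwise symmDiff commutatorElement

/-- Order of a centraliser in `S₅`. -/
def ccS5 (σ : Equiv.Perm (Fin 5)) : ℕ := (Finset.univ.filter fun τ => τ * σ = σ * τ).card

theorem card_cent_S5 (σ : Equiv.Perm (Fin 5)) : Nat.card C1[σ] = ccS5 σ :=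
  Nat.subtype_card _ fun τ => by rw [Finset.mem_filter_univ]; exact mem_cent1.symm

theorem ccS5_inv : ∀ σ : Equiv.Perm (Fin 5), σ * σ = 1 →
    8 ≤ ccS5 σ ∧ (ccS5 σ = 12 → ∃ τ, τ * Equiv.swap 0 1 * τ⁻¹ = σ) := by decide +kernel

theorem orderOf_p7 : orderOf (elt p7) = 7 :=
  haveI : Fact (Nat.Prime 7) := ⟨by norm_num⟩
  gcM.orderOf_prime mcode_p7 (by decide +kernel)

theorem HM.ord7 {H : Type*} [Group H] [Finite H] {z ω : H} {s : ℕ → H} {Λ : H →* R} (M : HM z ω s Λ) {h : H}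
    (o : orderOf h = 7) : orderOf (Λ h).2 = 7 := by
  have : Fact (Nat.Prime 7) := ⟨by norm_num⟩
  refine orderOf_eq_prime (by rw [← Prod.pow_snd, ← map_pow, ← o, pow_orderOf_eq_one, map_one]; rfl) fun e => ?_
  have h3 : rW ^ 3 = 1 := by rw [pow_succ, pow_two, rW3]
  have h1 := orderOf_dvd_card_of_mem (H := Λ.ker) (x := h ^ 3) (by
    rw [MonoidHom.mem_ker, map_pow]
    rcases J4.kerθ (M.mem h) e with a | a | a <;> rw [a]
    exacts [one_pow _, h3, by rw [← pow_two, ← pow_mul, mul_comm, pow_mul, h3, one_pow]])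
  rw [M.card_ker, orderOf_pow, o] at h1
  exact absurd h1 (by norm_num)

namespace JD

variable {G H : Type*} [Group G] [Group H] [Finite G] {ι : H →* G} {z ω : H} {s : ℕ → H} {Λ : H →* R}
  {M : GM ι z ω s Λ} {y g : H} {T : ℕ → H} {π : N[M.V] →* M24} {κ : M24 →* N[M.V]} (J : JD M y g T π κ)
include J

theorem ord_x7 : orderOf (κ (elt p7) : G) = 7 := (orderOf_injective _ J.ms.κ_inj' _).trans orderOf_p7

theorem fix7 {x : G} (hx : x ∈ N[M.V]) (o : orderOf x = 7) : Nat.card ↥(C1[x] ⊓ M.V) ≤ 4 := by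
  classical
  obtain ⟨n, hn, e⟩ := exists_conj_pow (p := 7) (by norm_num) (κ (elt p7)).2 hx J.ord_x7 o
    (by rw [M.card_norm_V J.vc J.cls]; norm_num)
  have hy := J.px.act_co (f := fun c => c) J.px.co (k := m7) ((congrArg mcode (J.ms.sec _)).trans mcode_p7) lBm
    (by decide +kernel)
  rw [← card_conj n, conj_inf, conj_eq_self hn, ← cent_zpowers, conj_centralizer, e, cent_zpowers]
  by_contra h
  obtain ⟨v, hv, h1⟩ := exists_not_mem_of_card (({0, 754, 1458, 1856} : Finset ℕ).image fun c => ι (T c))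
    (Finset.card_image_le.trans_lt (not_le.1 h))
  obtain ⟨c, hc, rfl⟩ := J.px.co.surj v hv.2
  have h2 := J.px.co.eq (hy c hc).2 hc ((hy c hc).1.symm.trans (mul_inv_eq_iff_eq_mul.2 (mem_cent1.1 hv.1).symm))
  have h3 := ball_zero (show ball (fun c => bor (!fx m7 c) (lany [0, 754, 1458, 1856] (Nat.beq c))) 11 0 = true by
    decide +kernel) c hc
  rw [fx, h2, Nat.beq_refl, Bool.not_true, bor_eq, Bool.false_or, lany_beq] at h3
  exact h1 (Finset.mem_image_of_mem _ (by simpa using h3))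

theorem inv7 {x i : G} (o : orderOf x = 7) (oi : orderOf i = 2) (hx : x ∈ C1[i]) :
    Nat.card ↥(C1[x] ⊓ C1[i]) < 112 ∧ ∀ n ∈ C1[i], n * x * n⁻¹ ≠ x⁻¹ := by
  have := M.finH
  have : Fact (Nat.Prime 7) := ⟨by norm_num⟩
  suffices h : ∀ t, (t = ι z ∨ ∃ Y : Finset GolayPt, Y.card = 2 ∧ ι (T (tv (mask Y))) = t) → ∀ x, orderOf x = 7 →
      x ∈ C1[t] → Nat.card ↥(C1[x] ⊓ C1[t]) < 112 ∧ ∀ n ∈ C1[t], n * x * n⁻¹ ≠ x⁻¹ by
    obtain ⟨t, ht, a, rfl⟩ : ∃ t, (t = ι z ∨ ∃ Y : Finset GolayPt, Y.card = 2 ∧ ι (T (tv (mask Y))) = t) ∧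
        ∃ a, a * t * a⁻¹ = i := (J.two_classes i oi).elim (fun h => ⟨_, .inl rfl, isConj_iff.1 h⟩)
      fun ⟨Y, hY, h⟩ => ⟨_, .inr ⟨Y, hY, rfl⟩, isConj_iff.1 h⟩
    obtain ⟨x, rfl⟩ : ∃ x', x = a * x' * a⁻¹ := ⟨a⁻¹ * x * a, by group⟩
    rw [← conj_cent1, conj_mem_conj] at hx
    obtain ⟨h1, h2⟩ := h t ht x (orderOf_conj a x ▸ o) hx
    rw [← conj_cent1, ← conj_cent1, ← conj_inf, card_conj]
    exact ⟨h1, fun n hn e => h2 _ (mem_conj.1 hn) (by
      rw [← mul_right_inj a, ← mul_left_inj a⁻¹, ← conj_inv, ← e]; group)⟩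
  rintro t (rfl | ⟨Y, hY, rfl⟩) x o hx
  · obtain ⟨h, rfl⟩ := M.surj x (mem_cent1.1 hx)
    rw [orderOf_injective ι M.inj] at o
    refine ⟨?_, fun n hn e => ?_⟩
    · rw [inf_comm, ← M.range_eq_cent, MonoidHom.range_eq_map, ← map_inf_cent1 M.inj, card_map_inj M.inj, top_inf_eq]
      exact (M.card_cent7 o).trans_lt (by norm_num)
    · obtain ⟨k, rfl⟩ := M.surj n (mem_cent1.1 hn)
      rw [← map_inv, ← map_inv, ← map_mul, ← map_mul, M.inj.eq_iff] at e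
      exact not_real7 (n := (Λ k).2) (M.ord7 o) (by simpa using congrArg (fun u => (Λ u).2) e)
  · have hN := J.ms.cent_duad hY
    have o' : orderOf (π ⟨x, hN hx⟩) = 7 := orderOf_eq_prime (by
      rw [← map_pow, show (⟨x, hN hx⟩ : N[M.V]) ^ 7 = 1 from Subtype.ext (o ▸ pow_orderOf_eq_one x), map_one]) fun e => by
        have := orderOf_dvd_card_of_mem ((J.ms.ker _).1 e)
        rw [coe_mk, o, M.card_V] at this
        exact absurd this (by norm_num)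
    refine ⟨?_, fun n hn e => not_real7 (n := π ⟨n, hN hn⟩) o' ?_⟩
    · rw [← J.ms.card_map_π (inf_le_right.trans hN)]
      refine (Nat.mul_le_mul ((card_le_of_le ?_).trans (card_cent7 o' hY))
        ((card_le_of_le (inf_le_inf_right _ inf_le_left)).trans (J.fix7 (hN hx) o))).trans_lt (by norm_num)
      rintro _ ⟨n, hn, rfl⟩
      exact ⟨map_mem_cent1 (mem_cent1.2 (Subtype.ext (mem_cent1.1 hn.1))) π, J.ms.smul_duad hY n hn.2⟩
    · rw [← map_inv, ← map_inv, ← map_mul, ← map_mul]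
      exact congrArg π (Subtype.ext e)

variable {q : H} {ψ : N[M.Z] →* Equiv.Perm (Fin 5) × SL3} (P : PT M q ψ)
include P

theorem exists_I0 : Nonempty (↥(C[M.Z] ⊓ C1[(κ (elt p7) : G)]) ≃* Equiv.Perm (Fin 5)) := by
  have : Fact (Nat.Prime 2) := ⟨Nat.prime_two⟩
  obtain ⟨x, hx⟩ : ∃ x : N[M.Z], (κ (elt p7) : G) = x := ⟨⟨_, J.co3.act_norm J.act7⟩, rfl⟩
  have o : orderOf (x : G) = 7 := hx ▸ J.ord_x7
  rw [hx]
  have h0 : (ψ x).1 = 1 := orderOf_eq_one_iff.1 (Nat.eq_one_of_dvd_coprimes (a := 7) (b := 120) (by norm_num)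
    (orderOf_dvd_of_pow_eq_one (by
      rw [← Prod.pow_fst, ← map_pow, show x ^ 7 = 1 from Subtype.ext (o ▸ pow_orderOf_eq_one (x : G)), map_one]; rfl))
    (by simpa [Fintype.card_perm, Nat.factorial] using orderOf_dvd_card (x := (ψ x).1)))
  have h1 : C[M.Z] ⊓ C1[(x : G)] ≤ N[M.Z] := inf_le_left.trans (cent_le_norm _)
  obtain ⟨φ, hφ⟩ : ∃ φ : ↥(C[M.Z] ⊓ C1[(x : G)]) →* Equiv.Perm (Fin 5), ∀ c, φ c = (ψ ⟨c, h1 c.2⟩).1 :=
    ⟨((MonoidHom.fst _ _).comp ψ).comp (inclusion h1), fun _ => rfl⟩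
  have h2 : Function.Surjective φ := fun t => by
    obtain ⟨c, hc, e⟩ := P.lift_cent (x := x) (by rw [o]; decide) (t := (t, 1)) (Prod.ext (by simp [h0]) (by simp))
    exact ⟨⟨c, (P.be c).1 (congrArg Prod.snd e), hc⟩, (hφ _).trans (congrArg Prod.fst e)⟩
  refine ⟨MulEquiv.ofBijective φ ⟨(MonoidHom.ker_eq_bot_iff φ).1 (by_contra fun h => ?_), h2⟩⟩
  have h3 := prime_dvd_card_of_isPGroup Nat.prime_two (P := φ.ker) (IsPGroup.to_le (M.pg_L.comap_subtype) fun c hc =>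
    (P.ker ⟨c, h1 c.2⟩).1 (Prod.ext ((hφ c).symm.trans hc) ((P.be _).2 c.2.1))) h
  obtain ⟨D, hD⟩ := Sylow.exists_subgroup_card_pow_prime (G := ↥(C[M.Z] ⊓ C1[(x : G)])) 2 (n := 4) (by
    rw [← card_top, ← card_map_mul_card_inf_ker φ, inf_top_eq, ← MonoidHom.range_eq_map, MonoidHom.range_eq_top.2 h2,
      card_top, Nat.card_perm, Nat.card_eq_fintype_card (α := Fin 5), Fintype.card_fin]
    exact Nat.mul_dvd_mul (a := 8) (c := 2) (by decide) h3)
  obtain ⟨D, a1, a2⟩ : ∃ D : Subgroup G, D ≤ C1[(x : G)] ∧ Nat.card D = 2 ^ 4 :=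
    ⟨_, (map_subtype_le D).trans inf_le_right, (card_map_inj (subtype_injective _)).trans hD⟩
  have a3 : IsPGroup 2 D := .of_card a2
  obtain ⟨i, hi, oi⟩ := exists_mem_orderOf_eq Nat.prime_two (prime_dvd_card_of_isPGroup Nat.prime_two
    (a3.to_le inf_le_left) (center_ne_bot_of_nilpotent (nilpotent_of_isPGroup Nat.prime_two a3)
      (ne_bot_iff_one_lt_card.2 (by omega))))
  have a4 := mem_cent1_comm.1 (a1 hi.1)
  have a5 := card_le_of_le (sup_le (le_inf (zpowers_le.2 (self_mem_cent1 _)) (zpowers_le.2 a4))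
    (le_inf a1 (mem_cent_iff_le_cent1.1 hi.2)))
  rw [card_sup_of_inf_eq_bot (.inr (le_norm_of_cent (cent_zpowers (x : G) ▸ a1))) (GT.inf_eq_bot_of_coprime
    (by rw [Nat.card_zpowers, o, a2]; norm_num)), Nat.card_zpowers, o, a2] at a5
  exact absurd (J.inv7 o oi a4).1 (by omega)

theorem cent7 : IsInternalDirectProduct (zpowers (κ (elt p7) : G)) (C[M.Z] ⊓ C1[(κ (elt p7) : G)]) C1[(κ (elt p7) : G)] ∧
    Nat.card C1[(κ (elt p7) : G)] = 840 ∧ ∀ n, n * (κ (elt p7) : G) * n⁻¹ ≠ (κ (elt p7) : G)⁻¹ := by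
  have : Fact (Nat.Prime 2) := ⟨Nat.prime_two⟩
  obtain ⟨e⟩ := J.exists_I0 P
  have o := J.ord_x7
  generalize (κ (elt p7) : G) = x at e o ⊢
  obtain ⟨I, hI⟩ : ∃ I, I = C[M.Z] ⊓ C1[x] := ⟨_, rfl⟩
  rw [← hI] at e ⊢
  have h1 : I ≤ C1[x] := hI ▸ inf_le_right
  have h2 : Nat.card I = 120 := by rw [Nat.card_congr e.toEquiv, Nat.card_perm]; simp [Nat.factorial]
  have h3 : zpowers x ⊓ I = ⊥ := GT.inf_eq_bot_of_coprime (by rw [Nat.card_zpowers, o, h2]; norm_num)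
  have h4 : I ≤ N[zpowers x] := le_norm_of_cent (cent_zpowers x ▸ h1)
  have h5 : zpowers x ⊔ I ≤ C1[x] := sup_le (zpowers_le.2 (self_mem_cent1 x)) h1
  have sq : ∀ {c : G}, orderOf c = 2 → c * c = 1 := fun h => by rw [← pow_two, ← h, pow_orderOf_eq_one]
  have h6 : ∀ c ∈ zpowers x ⊔ I, orderOf c = 2 → c ∈ I := fun c hc oc => by
    obtain ⟨a, ha, d, hd, rfl⟩ := (mem_sup_of_le_norm' h4).1 hc
    have a1 : Commute a d := (cent_zpowers x).ge (h1 hd) a ha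
    have a2 : a ^ 2 = 1 := h3.le ⟨pow_mem ha 2, by
      rw [eq_inv_of_mul_eq_one_left ((a1.mul_pow 2).symm.trans (oc ▸ pow_orderOf_eq_one _))]
      exact I.inv_mem (pow_mem hd 2)⟩
    rwa [orderOf_eq_one_iff.1 (Nat.eq_one_of_dvd_coprimes (a := 2) (b := 7) (by norm_num) (orderOf_dvd_of_pow_eq_one a2)
      (o ▸ orderOf_dvd_of_mem_zpowers ha)), one_mul]
  have h7 : ∀ c : I, orderOf (c : G) = 2 → C1[x] ⊓ C1[(c : G)] ≤ zpowers x ⊔ I ∧
      Nat.card ↥(C1[x] ⊓ C1[(c : G)]) = 7 * ccS5 (e c) := fun c oc => by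
    have a1 := mem_cent1_comm.1 (h1 c.2)
    have a2 : Nat.card ↥((zpowers x ⊔ I) ⊓ C1[(c : G)]) = 7 * ccS5 (e c) := by
      rw [dedekind (.inr h4) (zpowers_le.2 a1), card_sup_of_inf_eq_bot (.inr (inf_le_left.trans h4))
        (eq_bot_iff.2 ((inf_le_inf_left _ inf_le_left).trans h3.le)), Nat.card_zpowers, o, ← card_cent_S5]
      have b1 := map_inf_cent1 (A := ⊤) (x := c) I.subtype_injective
      have b2 := map_inf_cent1 (f := e.toMonoidHom) (A := ⊤) (x := c) e.injective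
      rw [top_inf_eq, ← MonoidHom.range_eq_map] at b1 b2
      rw [MonoidHom.range_eq_top.2 e.surjective, top_inf_eq] at b2
      rw [range_subtype] at b1
      exact congrArg _ ((congrArg (fun K : Subgroup G => Nat.card K) b1.symm).trans ((card_map_inj I.subtype_injective).trans
        ((card_map_inj e.injective).symm.trans (congrArg (fun K : Subgroup _ => Nat.card K) b2))))
    have a3 := inf_le_inf_right C1[(c : G)] h5
    have a4 := (J.inv7 o oc a1).1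
    have a5 := (ccS5_inv (e c) (by rw [← map_mul, show c * c = 1 from Subtype.ext (sq oc), map_one])).1
    obtain ⟨k, hk⟩ := card_dvd_of_le a3
    have a6 : k = 1 := by
      have := card_pos' (C1[x] ⊓ C1[(c : G)])
      rw [hk, a2] at a4 this
      rcases k with _ | _ | k
      · simp at this
      · rfl
      · nlinarith
    rw [← eq_of_le_of_card_ge a3 (by rw [hk, a6, mul_one])]
    exact ⟨inf_le_left, a2⟩
  have h8 : ∀ σ, σ * σ = 1 → σ ≠ 1 → orderOf (e.symm σ : G) = 2 := fun σ a b =>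
    (orderOf_injective (I.subtype.comp e.symm.toMonoidHom) (I.subtype_injective.comp e.symm.injective) σ).trans
      (orderOf_eq_prime (by rwa [pow_two]) b)
  have oa := h8 (Equiv.swap 0 1) (by decide) (by decide)
  have ob := h8 (Equiv.swap 0 1 * Equiv.swap 2 3) (by decide) (by decide)
  have h9 : ∀ g ∈ N[C1[x]], ∀ c : I, g * e.symm (Equiv.swap 0 1) * g⁻¹ = c → ccS5 (e c) = 12 := fun g hg c h => by
    have a1 := (h7 c (by rw [← h, orderOf_conj, oa])).2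
    rw [← h, ← conj_cent1, ← conj_eq_self hg, ← conj_inf, card_conj, (h7 _ oa).2, e.apply_symm_apply,
      show ccS5 (Equiv.swap 0 1) = 12 by decide +kernel] at a1
    omega
  have h10 : ∀ g ∈ N[C1[x]], g * e.symm (Equiv.swap 0 1) * g⁻¹ ∈ zpowers x ⊔ I →
      ∃ k ∈ I, k * e.symm (Equiv.swap 0 1) * k⁻¹ = g * e.symm (Equiv.swap 0 1) * g⁻¹ := fun g hg h => by
    have oc : orderOf (g * e.symm (Equiv.swap 0 1) * g⁻¹) = 2 := by rw [orderOf_conj, oa]
    obtain ⟨c, hc⟩ : ∃ c : I, g * e.symm (Equiv.swap 0 1) * g⁻¹ = c := ⟨⟨_, h6 _ h oc⟩, rfl⟩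
    obtain ⟨τ, a⟩ := (ccS5_inv (e c) (by rw [← map_mul, show c * c = 1 from Subtype.ext (sq (hc ▸ oc)), map_one])).2
      (h9 g hg c hc)
    exact ⟨_, (e.symm τ).2, by rw [hc, ← e.symm_apply_apply c, ← a]; simp⟩
  have h11 : C1[x] ≤ zpowers x ⊔ I := two_class ⟨h1 (e.symm _).2, mem_sup_right (e.symm _).2⟩
    ⟨h1 (e.symm _).2, mem_sup_right (e.symm _).2⟩ oa ob
    (fun g hg h => absurd (h9 g (le_normalizer hg) _ h) (by rw [e.apply_symm_apply]; decide +kernel))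
    (fun i hi oi => (h7 ⟨i, h6 i hi.2 oi⟩ oi).1) fun g hg h =>
      (h10 g (le_normalizer hg) h).imp fun k hk => ⟨⟨h1 hk.1, mem_sup_right hk.1⟩, hk.2⟩
  refine ⟨⟨le_sup_left.trans h5, h1, fun a ha d hd => (cent_zpowers x).ge (h1 hd) a ha, h3, le_antisymm h5 h11⟩, by
    rw [← le_antisymm h5 h11, card_sup_of_inf_eq_bot (.inr h4) h3, Nat.card_zpowers, o, h2], fun n hn => ?_⟩
  have a1 : n ∈ N[C1[x]] := cent_zpowers x ▸ norm_le_norm_cent _
    (mem_normalizer_of_conj_le (by rw [conj_zpowers, hn, zpowers_inv]))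
  obtain ⟨k, hk, a2⟩ := h10 n a1 (h11 (conj_mem_of_mem_norm a1 (h1 (e.symm _).2)))
  refine (J.inv7 o oa (mem_cent1_comm.1 (h1 (e.symm _).2))).2 (k⁻¹ * n) (mem_cent1.2 (by
    rw [mul_assoc, mul_inv_eq_iff_eq_mul.1 a2.symm]; group)) ?_
  rw [show k⁻¹ * n * x * (k⁻¹ * n)⁻¹ = k⁻¹ * (n * x * n⁻¹) * k by group, hn, mul_assoc,
    ← (show Commute k x from mem_cent1.1 (h1 hk)).inv_right.eq, inv_mul_cancel_left]

theorem norm7 : N[zpowers (κ (elt p7) : G)] ≤ N[M.Z] ∧ Nat.card N[zpowers (κ (elt p7) : G)] = 3 * 840 := by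
  have : Fact (Nat.Prime 3) := ⟨Nat.prime_three⟩
  obtain ⟨h1, h2, h3⟩ := J.cent7 P
  have e3 : mcode (elt p3) = p3 := mcode_elt (by decide +kernel)
  obtain ⟨h4, -, h5⟩ := norm_struct (u := (κ (elt p3) : G)) (a := 2) J.ord_x7
    ((orderOf_injective _ J.ms.κ_inj' _).trans (gcM.orderOf_prime (p := 3) e3 (by decide +kernel))) (by
      rw [← coe_inv, ← coe_mul, ← coe_mul, ← coe_pow, ← map_inv, ← map_mul, ← map_mul, ← map_pow, gcM.inj (show
        mcode (elt p3 * elt p7 * (elt p3)⁻¹) = mcode (elt p7 ^ 2) by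
          rw [← gcM.cjap_code, ← gcM.cpow_code, e3, mcode_p7]; decide +kernel)]) (by decide) fun n i hi e => by
    rcases (show ∀ i < 7, i = 0 ∨ (∃ j < 3, i ≡ 2 ^ j [MOD 7]) ∨ i ^ 3 + 1 ≡ 0 [MOD 7] by decide) i hi with rfl | h | h
    · rw [pow_zero, conj_eq_one_iff] at e
      exact absurd J.ord_x7 (by rw [e, orderOf_one]; decide)
    · exact h.imp fun _ h => h.2
    · exact absurd ((conj_pow_pow e 3).trans (eq_inv_of_mul_eq_one_left (by
        rw [← pow_succ, pow_eq_pow_iff_modEq.2 (J.ord_x7 ▸ h), pow_zero]))) (h3 _)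
  refine ⟨h4 ▸ sup_le (zpowers_le.2 (J.L3_le ⟨_, (mem_iff_sift chL3_chk).2 (by rw [e3]; decide +kernel), rfl⟩))
    (h1.2.2.2.2 ▸ sup_le (zpowers_le.2 (J.co3.act_norm J.act7)) (inf_le_left.trans (cent_le_norm _))), by rw [h5, h2]⟩

theorem syl7 : IsPiHallOf {7} (zpowers (κ (elt p7) : G)) ⊤ ∧ ¬ 7 * 7 ∣ Nat.card G :=
  syl_of_card_norm (by norm_num) (by rw [Nat.card_zpowers, J.ord_x7]) (by rw [(J.norm7 P).2]; norm_num)

theorem seven_local {S : Subgroup G} (hS : Nat.card S = 7) : ¬ (49 ∣ Nat.card G) ∧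
    (∃ I : Subgroup G, IsInternalDirectProduct S I C[S] ∧ Nonempty (I ≃* Equiv.Perm (Fin 5))) ∧
    Nat.card N[S] = 3 * Nat.card C[S] ∧ Nat.card N[S] = 2 ^ 3 * 3 ^ 2 * 5 * 7 := by
  obtain ⟨a, -, h⟩ := syl_exists_le_conj (by norm_num) (J.syl7 P).1 (isPGroup_of_card_eq_prime hS) le_top
  obtain rfl := eq_of_le_of_card_ge h (by rw [card_conj, Nat.card_zpowers, J.ord_x7, hS])
  obtain ⟨⟨h1, h2, h3, h4, h5⟩, h6, -⟩ := J.cent7 P
  rw [← conj_centralizer, ← conj_normalizer, card_conj, card_conj, cent_zpowers, (J.norm7 P).2, h6]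
  refine ⟨(J.syl7 P).2, ⟨_, ⟨conj_mono a h1, conj_mono a h2, ?_, by rw [← conj_inf, h4, conj_bot],
    by rw [← conj_sup, h5]⟩, (J.exists_I0 P).map (conjEquiv a _).symm.trans⟩, rfl, rfl⟩
  rintro _ ⟨b, hb, rfl⟩ _ ⟨c, hc, rfl⟩
  rw [← map_mul, h3 b hb c hc, map_mul]

end JD

end Cfsg.Agent.J4
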