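import Cfsg.Agent.J4.EE
import Cfsg.Agent.J4.PS

/-!
# Groups of type `J₄`: centraliser orders of elements of order seven
-/

set_option autoImplicit false
set_option linter.unusedSectionVars false

namespace Cfsg.Agent.J4

open Cfsg.Agent.M24 Cfsg.Agent.GT Subgroup MulAction

theorem JD.card_c7 {G H : Type*} [Group G] [Group H] [Finite G] {ι : H →* G} {z ω : H} {s : ℕ → H} {Λ : H →* R}
    {M : GM ι z ω s Λ} {y g : H} {T : ℕ → H} {π : N[M.V] →* M24} {κ : M24 →* N[M.V]} (J : JD M y g T π κ)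
    (w : G) (hw : orderOf w = 7) : Nat.card C1[w] = 840 := by
  obtain ⟨q, ψ, P⟩ := J.exists_pt
  rw [(card_cent_prime (by norm_num) (by rw [J.card_G]; norm_num) J.ord_x7 hw).1]
  exact (J.cent7 P).2.1

end Cfsg.Agent.J4
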