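import Cfsg.Agent.J4.OFI
import Cfsg.Agent.J4.AX

/-!
# The order of a group of type `J₄`
-/

set_option autoImplicit false
set_option linter.unusedSectionVars false
set_option linter.unusedVariables false
set_option exponentiation.threshold 600

namespace Cfsg.Agent.J4

open Cfsg.Agent.M24 Cfsg.Agent.GT Subgroup MulAction HM
open scoped Pointwise symmDiff

theorem of_mu_two {H : Type*} [Group H] {z : H} {K : H → Prop} {h : H} (e : mu z K h = 2) : K h ∧ K (h * z) := by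
  have h1 := ind1_le (K h)
  have h2 := ind1_le (K (h * z))
  rw [mu] at e
  exact ⟨by_contra fun k => by rw [ind1_neg k] at e; omega, by_contra fun k => by rw [ind1_neg k] at e; omega⟩

namespace JD

variable {G H : Type*} [Group G] [Group H] [Finite G] {ι : H →* G} {z ω : H} {s : ℕ → H} {Λ : H →* R}
  {M : GM ι z ω s Λ} {y g : H} {T : ℕ → H} {π : N[M.V] →* M24} {κ : M24 →* N[M.V]} (J : JD M y g T π κ)
include J

theorem mc : MC (ι z) M.V (fun a => ι (T a)) π κ := ⟨J.px, J.cls, J.ms⟩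

theorem iv_cls {i : G} (hi : i * i = 1) : Iv z (mu z fun h => IsConj i (ι h)) :=
  have := M.finH
  M.iv_mu (fun g h => by simp only [map_mul, map_inv, isConj_conj]) fun h e =>
    M.inj (by rw [map_mul, map_one, sq_of_isConj hi e])

theorem cls_E {h : H} (h1 : Λ h = 1) : (tyE (M.cb h) = 2 → IsConj (ι z) (ι h)) ∧
    (tyE (M.cb h) = 3 → IsConj (ι (T 1458)) (ι h)) := by
  have := M.finH
  refine ⟨fun e => (of_mu_two (K := fun h => IsConj (ι z) (ι h)) (z := z) ?_).1,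
    fun e => (of_mu_two (K := fun h => IsConj (ι (T 1458)) (ι h)) (z := z) ?_).1⟩
  · rw [M.typeE (J.iv_cls J.mc.z_sq) h1, e, ← J.vc.Ts 1 (by norm_num), J.vc.mu_T J.cls (by norm_num),
      show b2n (tbq 102 (cl clT6 1)) + b2n (tbq 102 (cl clT6 (1 ^^^ 1024))) = 2 by decide +kernel]
    simp [b2n_eq]
  · rw [M.typeE (J.iv_cls (J.mc.px.co.sq _)) h1, e, ← J.vc.Ts 20 (by norm_num),
      J.vc.mu_T (fun a => J.mc.tc_T) (by norm_num),
      show b2n (du 20) + b2n (du (20 ^^^ 1024)) = 2 by decide +kernel]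
    simp [b2n_eq]

theorem cls_Ts {u a : ℕ} (hu : u < 64) (ha : a < 4096) : (tyE (u ^^^ a) = 2 → IsConj (ι z) (ι (T u) * ι (s a))) ∧
    (tyE (u ^^^ a) = 3 → IsConj (ι (T 1458)) (ι (T u) * ι (s a))) := by
  have := J.cls_E (h := s u * s a) (by rw [map_mul, M.Λs ha, M.Λs (by omega), mul_one])
  rwa [M.cb_mul, M.cb_s ha, M.cb_s (by omega), M.Λs (by omega), lin_rc_one ha, map_mul, ← J.vc.Ts u hu] at this

theorem exists_good : ∃ (κ' : M24 →* N[M.V]) (M' : MC (ι z) M.V (fun a => ι (T a)) π κ'),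
    ∀ g : M24, g * g = 1 → g ≠ 1 → M'.Good g := by
  have hm : ∀ a < 4096, ι (s a) ∈ N[M.V] := fun a ha => M.mem_norm_V.2 (by rw [M.Λs ha]; exact one_mem _)
  have h1 : mcode (π ⟨_, hm 64 (by norm_num)⟩) = lget pE 0 0 :=
    J.px.code_eq ((J.vc.actE 0 (by norm_num)).map ι) (by decide +kernel)
  have h2 : mcode (π ⟨_, hm 1024 (by norm_num)⟩) = lget pE 0 4 :=
    J.px.code_eq ((J.vc.actE 4 (by norm_num)).map ι) (by decide +kernel)
  have t0 : ∀ x, ι (T 0) * x = x := fun x => by rw [J.vc.co.zero, map_one, one_mul]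
  have h3 := t0 _ ▸ (J.cls_Ts (u := 0) (a := 1024) (by norm_num) (by norm_num)).2 (by decide +kernel)
  have h4 := t0 _ ▸ (J.cls_Ts (u := 0) (a := 64) (by norm_num) (by norm_num)).1 (by decide +kernel)
  obtain ⟨κ', M', h⟩ := J.mc.exists_twist h2 (Subtype.ext (sq_of_isConj (J.mc.px.co.sq _) h3))
  exact ⟨κ', M', fun g => M'.good_all h1 h2
    (M'.goodA h1 h4
      ((J.cls_Ts (by norm_num) (by norm_num)).2 (by decide +kernel))
      ((J.cls_Ts (by norm_num) (by norm_num)).2 (by decide +kernel)))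
    (M'.goodB h2 h3 ((J.cls_Ts (by norm_num) (by norm_num)).1 (by decide +kernel)) h)⟩

theorem hcl (i : G) (hi : orderOf i = 2) : IsConj (ι z) i ∨ IsConj (ι (T 1458)) i :=
  (J.two_classes i hi).imp_right fun ⟨Y, hY, e⟩ => ((J.mc.tc_T (tv_lt _)).2 (by
    simp [du, band_eq, ← Bool.not_eq_true, (tv_duad hY).1, (tv_duad hY).2.1])).trans e

theorem card_cz : Nat.card C1[ι z] = 21799895040 := by
  rw [← M.range_eq_cent, ← Nat.card_congr (MonoidHom.ofInjective M.inj).toEquiv, M.card]; norm_num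

theorem card_ct : Nat.card C1[ι (T 1458)] = 1816657920 := by
  have h := J.ms.card_map_π (W := C1[ι (T 1458)]) (by simpa using J.mc.cent_t)
  have e : (C1[ι (T 1458)].subgroupOf N[M.V]).map π = Dd := by
    ext d
    refine ⟨?_, fun e => ⟨κ d, mem_cent1.2 ((J.mc.mem_Dd_iff _).1 (by rwa [J.ms.sec])), J.ms.sec d⟩⟩
    rintro ⟨n, hn, rfl⟩
    exact (J.mc.mem_Dd_iff n).2 (mem_cent1.1 hn)
  rw [e, card_Dd, inf_eq_right.2 (J.ms.le_cent1 (J.px.co.mem _)), M.card_V] at h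
  exact h.symm

theorem exists_kd : ∃ lc, KD M.toHM y g T (fun h => IsConj (ι z) (ι h)) lc ∧
    mu z (fun h => IsConj (ι (T 1458)) (ι h)) (s 1152 * T 64) = 2 ∧
    mu z (fun h => IsConj (ι (T 1458)) (ι h)) g = 1 ∧ mu z (fun h => IsConj (ι (T 1458)) (ι h)) lc = 2 := by
  have := M.finH
  obtain ⟨κ', M', hG⟩ := J.exists_good
  obtain ⟨lc, hc, ec⟩ := M.lift _ rC_mem
  have I := J.iv_cls (J.mc.px.co.sq 1458)
  have h1 := double_count (ι z) (ι (T 1458))
  rw [M'.count_z hG, J.card_cz, J.card_ct, sm_inj _ ι M.inj fun a h => M.surj a h.2,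
    sm_congr (Q := fun h => IsConj (ι (T 1458)) (ι h)) (φ := fun _ => 1)
      (fun h => and_iff_left (by rw [← map_mul, M.zc, map_mul])) fun _ _ => rfl] at h1
  have h2 := M.sm_mu (fun h => IsConj (ι (T 1458)) (ι h)) (φ := fun _ => 1) fun _ => rfl
  simp only [mul_one] at h2
  have t := fun a => J.vc.mu_T (K := fun h => IsConj (ι (T 1458)) (ι h)) (fun a => J.mc.tc_T) (a := a)
  rw [M.types I J.vc.T64.1 J.vc.T64.2 J.vc.g_mem J.vc.Λg' hc ec, ← J.vc.co.zero, ← J.vc.Ts 1 (by norm_num),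
    ← J.vc.Ts 20 (by norm_num), ← J.vc.co.mul, t _ (by norm_num), t _ (by norm_num), t _ (by norm_num),
    t _ (by norm_num), t _ (by decide), show b2n (du 0) + b2n (du (0 ^^^ 1024)) +
      693 * (b2n (du 1) + b2n (du (1 ^^^ 1024))) + 1386 * (b2n (du 20) + b2n (du (20 ^^^ 1024))) = 2772 by
        decide +kernel, show 16 * (b2n (du 64) + b2n (du (64 ^^^ 1024))) +
      48 * (b2n (du (1 ^^^ 64)) + b2n (du (1 ^^^ 64 ^^^ 1024))) = 16 by decide +kernel] at h2
  have b1 := mu_le (z := z) (fun h => IsConj (ι (T 1458)) (ι h)) (s 1152 * T 64)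
  have b2 := mu_le (z := z) (fun h => IsConj (ι (T 1458)) (ι h)) g
  have b3 := mu_le (z := z) (fun h => IsConj (ι (T 1458)) (ι h)) lc
  obtain ⟨e1, e2, e3⟩ : mu z (fun h => IsConj (ι (T 1458)) (ι h)) (s 1152 * T 64) = 2 ∧
    mu z (fun h => IsConj (ι (T 1458)) (ι h)) g = 1 ∧ mu z (fun h => IsConj (ι (T 1458)) (ι h)) lc = 2 := by omega
  have z0 : ∀ h, mu z (fun h => IsConj (ι (T 1458)) (ι h)) h = 2 → mu z (fun h => IsConj (ι z) (ι h)) h = 0 :=
    fun h e => by
      rw [mu, ind1_neg fun k => J.mc.hnc (k.trans (of_mu_two e).1.symm),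
        ind1_neg fun k => J.mc.hnc (k.trans (of_mu_two e).2.symm)]
  have z1 : ∀ h, h * h = 1 → Λ h ≠ 1 →
      ind1 (IsConj (ι z) (ι h)) + ind1 (IsConj (ι (T 1458)) (ι h)) = 1 := fun h a b => by
    rcases J.hcl (ι h) (orderOf_eq_prime (by rw [pow_two, ← map_mul, a, map_one]) fun k => b (by
      rw [M.inj (k.trans (map_one ι).symm), map_one])) with k | k
    · rw [ind1_pos k, ind1_neg fun c => J.mc.hnc (k.trans c.symm)]
    · rw [ind1_pos k, ind1_neg fun c => J.mc.hnc (c.trans k.symm)]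
  have gn : Λ g ≠ 1 := fun e => by simpa [← J.vc.Λg', e, ou_one] using ou_rB
  refine ⟨lc, ⟨J.vc, fun g h => by simp only [map_mul, map_inv, isConj_conj], fun h e =>
    M.inj (by rw [map_mul, map_one, sq_of_isConj J.mc.z_sq e]), J.cls, z0 _ e1, ?_, hc, ec, z0 _ e3,
    fun l hl o => by_contra fun k => ?_⟩, e1, e2, e3⟩
  · have a := z1 g J.gg gn
    have b := z1 (g * z) (M.sq_mul_z g ▸ J.gg) (by rwa [map_mul, M.Λz, mul_one])
    simp only [mu] at e2 ⊢
    omega
  · have a := I.supp l k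
    rcases out_cases o with ⟨d, hd, e⟩ | ⟨d, hd, e⟩
    · rw [← M.iv_lift I hd (h := g) (by rw [M.cb_norm J.vc.g_mem, M.cb_norm hl, lin_zero])
        (by rw [J.vc.Λg', e])] at a
      omega
    · rw [← M.iv_lift I hd (h := lc) (by rw [M.cb_norm hc, M.cb_norm hl, lin_zero]) (by rw [ec, e])] at a
      omega

theorem tn_z : tn (ι z) (ι (T 1458)) (ι z) = 29236337328 := by
  have := M.finH
  obtain ⟨lc, D, e1, e2, e3⟩ := J.exists_kd
  have t2 := J.mc.px.co.sq 1458
  have I := J.iv_cls t2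
  have t := fun a => J.vc.mu_T (K := fun h => IsConj (ι (T 1458)) (ι h)) (fun a => J.mc.tc_T) (a := a)
  have hz : ∀ v, sm (fun h => IsConj (ι z) (ι h)) (fun u => ind1 (Ph z (u * (v * z)))) =
      sm (fun h => IsConj (ι z) (ι h)) fun u => ind1 (Ph z (u * v)) := fun v => by
    simp only [← mul_assoc, M.Ph_z]
  have h2 := M.sm_mu (fun h => IsConj (ι (T 1458)) (ι h))
    (φ := fun v => sm (fun h => IsConj (ι z) (ι h)) fun u => ind1 (Ph z (u * v))) hz
  rw [M.types (I.mul (φ := fun v => sm (fun h => IsConj (ι z) (ι h)) fun u => ind1 (Ph z (u * v))) (fun g v => by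
      rw [sm_conj _ _ g]
      refine sm_congr (D.conj g) fun u _ => ?_
      rw [← M.Ph_conj g (u * v)]
      congr 2; group) hz) J.vc.T64.1 J.vc.T64.2 J.vc.g_mem J.vc.Λg' D.lc_mem D.Λlc, e1, e2, e3,
    D.cF_eq (s 20) (o := 0) (n := 4544) (M.cb_s (by norm_num)) (by rw [M.Λs (by norm_num), gcR.code_one])
      (by decide +kernel) (by rw [force_eq, show lo rone = idm by decide +kernel, cF1]) (by decide),
    D.cF_eq (T 64) (M.cb_norm J.vc.T64.1) (by rw [J.vc.T64.2, rc_w0]) (by decide +kernel) cF2 (by decide),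
    D.cF_eq (s 1152 * T 64) (M.cb_eq (by norm_num) J.vc.T64.1)
      (by rw [map_mul, M.Λs (by norm_num), one_mul, J.vc.T64.2, rc_w0]) (by decide +kernel) cF3 (by decide),
    D.cF_eq g (M.cb_norm J.vc.g_mem) J.vc.Λg (by decide +kernel) cF4 (by decide),
    D.cF_eq lc (M.cb_norm D.lc_mem) (by rw [D.Λlc, rc_rC]) (by decide +kernel) cF5 (by decide),
    ← J.vc.co.zero, ← J.vc.Ts 1 (by norm_num), ← J.vc.Ts 20 (by norm_num), ← J.vc.co.mul, t _ (by norm_num),
    t _ (by norm_num), t _ (by norm_num), t _ (by norm_num), t _ (by decide),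
    show b2n (du 0) + b2n (du (0 ^^^ 1024)) = 0 by decide +kernel,
    show b2n (du 1) + b2n (du (1 ^^^ 1024)) = 0 by decide +kernel,
    show b2n (du 20) + b2n (du (20 ^^^ 1024)) = 2 by decide +kernel,
    show b2n (du 64) + b2n (du (64 ^^^ 1024)) = 1 by decide +kernel,
    show b2n (du (1 ^^^ 64)) + b2n (du (1 ^^^ 64 ^^^ 1024)) = 0 by decide +kernel] at h2
  rw [tn_transfer ι M.inj J.mc.z_sq t2 M.zz M.range_eq_cent.ge, sm_congr (fun _ => Iff.rfl)
    (φ := fun v => sm (fun h => IsConj (ι z) (ι h)) fun u => ind1 (Ph z (u * v))) fun v hv => ?_]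
  · omega
  rw [sm_and]
  refine sm_congr (fun _ => Iff.rfl) fun u hu => ?_
  rw [mul_one, M.Ph_even]
  rw [← orderOf_injective ι M.inj, map_mul]
  exact even_orderOf_mul J.mc.z_sq t2 J.mc.hnc hu hv

theorem card_G : Nat.card G = 86775571046077562880 := by
  obtain ⟨κ', M', hG⟩ := J.exists_good
  rw [thompson (orderOf_eq_prime (by rw [pow_two, J.mc.z_sq]) J.ms.z_ne_one)
    (orderOf_eq_prime (by rw [pow_two, J.mc.px.co.sq]) J.mc.t_ne) J.mc.hnc J.hcl, J.tn_z, M'.tn_t hG, J.card_cz,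
    J.card_ct]

end JD

theorem card_of_type {G : Type*} [Group G] [Finite G] [IsSimpleGroup G] (hG : ¬ IsMulCommutative G)
    (hJ : IsOfJankoFourType G) : Nat.card G = 86775571046077562880 := by
  obtain ⟨z, P, h⟩ := hJ
  obtain ⟨ω, s, Λ, M, -⟩ := GM.of_type h
  obtain ⟨y, g, T, π, κ, J⟩ := M.exists_jd hG
  exact J.card_G

end Cfsg.Agent.J4
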