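import Cfsg.Agent.J4.TB
import Cfsg.Agent.J4.OFG

/-!
# General lemmas on centralisers of elements of odd prime order
-/

set_option autoImplicit false
set_option linter.unusedSectionVars false

namespace Cfsg.Agent.J4

open Cfsg.Agent.GT Subgroup
open scoped commutatorElement

variable {G : Type*} [Group G] [Finite G]

theorem exists_inv_mul {g z : G} (hz : z * z = 1) (ho : Odd (orderOf (g * z * g⁻¹ * z⁻¹))) :
    ∃ i ∈ zpowers (g * z * g⁻¹ * z⁻¹), z * i * z⁻¹ = i⁻¹ ∧ i⁻¹ * g ∈ C1[z] := by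
  obtain ⟨k, hk⟩ := ho
  have zi : z⁻¹ = z := inv_eq_of_mul_eq_one_right hz
  obtain ⟨w, hw⟩ : ∃ w, w = g * z * g⁻¹ * z⁻¹ := ⟨_, rfl⟩
  rw [← hw] at hk ⊢
  have h1 : z * w * z⁻¹ = w⁻¹ := by
    rw [hw, mul_inv_rev, mul_inv_rev, mul_inv_rev, inv_inv, inv_inv, zi, mul_assoc, mul_assoc _ z z, hz]; group
  have h2 : z * w ^ (k + 1) * z⁻¹ = (w ^ (k + 1))⁻¹ := by rw [← conj_pow, h1, inv_pow]
  have h3 : w ^ (k + 1) * w ^ (k + 1) = w := by
    rw [← pow_add, show k + 1 + (k + 1) = 2 * k + 1 + 1 by ring, pow_succ, ← hk, pow_orderOf_eq_one, one_mul]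
  refine ⟨w ^ (k + 1), pow_mem (mem_zpowers w) _, h2, mem_cent1.2 ?_⟩
  generalize w ^ (k + 1) = i at h2 h3
  have h4 : z * i⁻¹ = i * z := by rw [← h2, zi, ← mul_assoc, ← mul_assoc, hz, one_mul]
  rw [← mul_assoc z, h4, ← mul_right_inj i, ← mul_assoc, ← mul_assoc, ← mul_assoc, ← mul_assoc, h3, hw]; group

theorem zstar_sub {C : Subgroup G} {z : G} (hz : z * z = 1) (hC : z ∈ C)
    (h : ∀ g ∈ C, z * (g * z * g⁻¹) = g * z * g⁻¹ * z → g * z * g⁻¹ = z) {g : G} (hg : g ∈ C) :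
    ∃ o ∈ piCoreOf {2}ᶜ C, o⁻¹ * g ∈ C1[z] := by
  have h1 := BS.zstar (G := C) (t := ⟨_, hC⟩) (Subtype.ext hz)
    (fun g hg => Subtype.ext (h g g.2 (congrArg Subtype.val hg))) ⟨g, hg⟩
  rw [← piCoreOf_subgroupOf_self, mem_subgroupOf] at h1
  have h2 : g * z * g⁻¹ * z⁻¹ ∈ piCoreOf {2}ᶜ C := by
    have := conj_mem_of_mem_norm (self_le_norm_piCoreOf _ _ (inv_mem hC)) h1
    have e : z⁻¹ * (z * (g * z * g⁻¹)) * z⁻¹⁻¹ = g * z * g⁻¹ * z⁻¹ := by
      rw [inv_inv, inv_mul_cancel_left, inv_eq_of_mul_eq_one_right hz]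
    exact e ▸ this
  obtain ⟨i, hi, -, e⟩ := exists_inv_mul hz ((BS.piNat_two_compl.1 (piCoreOf_isPi _ _)).of_dvd_nat
    (orderOf_dvd_card_of_mem h2))
  exact ⟨i, zpowers_le.2 h2 hi, e⟩

theorem mem_zpowers_of_comm {p : ℕ} (hp : p.Prime) {K : Subgroup G} (h : ¬ p * p ∣ Nat.card K) {u v : G}
    (hu : u ∈ K) (hv : v ∈ K) (ou : orderOf u = p) (ov : v ^ p = 1) (e : u * v = v * u) : v ∈ zpowers u := by
  by_contra hn
  have : Fact p.Prime := ⟨hp⟩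
  have o : orderOf v = p := orderOf_eq_prime ov fun e => hn (e ▸ one_mem _)
  have h1 : zpowers v ⊓ zpowers u = ⊥ :=
    (le_or_inf_eq_bot_of_card_prime (by rwa [Nat.card_zpowers, o]) _).resolve_left fun k => hn (k (mem_zpowers v))
  have h2 := card_sup_of_inf_eq_bot (.inl (le_norm_of_cent (by
    rw [cent_zpowers]; exact zpowers_le.2 (mem_cent1.2 e.symm)))) h1
  rw [Nat.card_zpowers, Nat.card_zpowers, o, ou] at h2
  exact h (h2 ▸ card_dvd_of_le (sup_le (zpowers_le.2 hv) (zpowers_le.2 hu)))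

theorem comm_cent_of_norm {u a b : G} (ha : a * u * a⁻¹ ∈ zpowers u) (hb : b * u * b⁻¹ ∈ zpowers u) :
    a * b * a⁻¹ * b⁻¹ * u = u * (a * b * a⁻¹ * b⁻¹) := by
  obtain ⟨m, hm⟩ := ha
  obtain ⟨n, hn⟩ := hb
  replace hm : u ^ m = _ := hm
  replace hn : u ^ n = _ := hn
  have h1 : a * b * u * (a * b)⁻¹ = b * a * u * (b * a)⁻¹ := by
    calc _ = a * (b * u * b⁻¹) * a⁻¹ := by group
      _ = b * (a * u * a⁻¹) * b⁻¹ := by
        rw [← hm, ← hn, ← conj_zpow, ← conj_zpow, ← hm, ← hn, ← zpow_mul, ← zpow_mul, mul_comm]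
      _ = _ := by group
  have h2 : ∀ v ∈ zpowers u, a * b * v * (a * b)⁻¹ = b * a * v * (b * a)⁻¹ := by
    rintro _ ⟨k, rfl⟩
    simp only [← conj_zpow, h1]
  have hN : ∀ {c : G}, c * u * c⁻¹ ∈ zpowers u → c ∈ N[zpowers u] := fun h =>
    mem_normalizer_of_conj_le (by rw [conj_zpowers]; exact zpowers_le.2 h)
  have h3 := h2 _ (conj_mem_of_mem_norm (inv_mem (mul_mem (hN ⟨n, hn⟩) (hN ⟨m, hm⟩))) (mem_zpowers u))
  rw [← mul_inv_eq_iff_eq_mul]
  calc _ = a * b * ((b * a)⁻¹ * u * (b * a)⁻¹⁻¹) * (a * b)⁻¹ := by group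
    _ = _ := by rw [h3]; group

theorem eq_one_of_inv {u : G} (ho : Odd (orderOf u)) (h : u⁻¹ = u) : u = 1 := by
  have h1 : orderOf u ∣ 2 := orderOf_dvd_of_pow_eq_one (by rw [pow_two]; nth_rw 1 [← h]; exact inv_mul_cancel u)
  exact orderOf_eq_one_iff.1 ((Nat.coprime_two_right.2 ho).eq_one_of_dvd h1)

theorem card_of_mul {O K C : Subgroup G} (hO : O ≤ C) (hK : K ≤ C) (hn : C ≤ N[O])
    (h : ∀ g ∈ C, ∃ o ∈ O, o⁻¹ * g ∈ K) : Nat.card C * Nat.card ↥(O ⊓ K) = Nat.card O * Nat.card K := by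
  have e : O ⊔ K = C := le_antisymm (sup_le hO hK) fun g hg => by
    obtain ⟨o, ho, e⟩ := h g hg
    simpa using mul_mem (mem_sup_left ho) (mem_sup_right e)
  rw [← e]; exact card_sup_mul_card_inf' (hK.trans hn)

theorem sq_dvd_card_cent' {p : ℕ} (hp : p.Prime) {K : Subgroup G} (h : p * p ∣ Nat.card K) {x : G} (hK : x ∈ K)
    (ox : orderOf x = p) : p * p ∣ Nat.card ↥(K ⊓ C1[x]) := by
  by_contra hn
  have : Fact p.Prime := ⟨hp⟩
  obtain ⟨P, hP, hx⟩ := exists_syl_ge (M := K) (Q := zpowers x) hp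
    (isPGroup_of_card_eq_prime (by rw [Nat.card_zpowers, ox])) (zpowers_le.2 hK)
  have h0 : P ≠ ⊥ := (syl_ne_bot_iff hp hP).2 ((dvd_mul_right p p).trans h)
  obtain ⟨w, hw, ow⟩ := exists_mem_orderOf_eq hp (prime_dvd_card_of_isPGroup hp ((syl_isPGroup hp hP).to_inf_left)
    (inf_cent_ne_bot_of_isPGroup hp (syl_isPGroup hp hP) (syl_isPGroup hp hP) (le_norm_self le_rfl) h0))
  have h1 : w ∈ C1[x] := cent_le_cent1 (hx (mem_zpowers x)) hw.2
  have h2 := mem_zpowers_of_comm hp hn ⟨hP.le hw.1, h1⟩ ⟨hK, self_mem_cent1 x⟩ ow (ox ▸ pow_orderOf_eq_one x)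
    (mem_cent1.1 h1)
  have h3 : P ≤ C1[x] := (le_cent_symm (zpowers_le.2 hw.2)).trans (cent_le_cent1 h2)
  exact hn ((hP.dvd_card ((piNat_single_self hp).mul (piNat_single_self hp)) h).trans
    (card_dvd_of_le (le_inf hP.le h3)))

theorem sq_dvd_card_cent {p : ℕ} (hp : p.Prime) (h : p * p ∣ Nat.card G) {x : G} (ox : orderOf x = p) :
    p * p ∣ Nat.card C1[x] := by
  simpa using sq_dvd_card_cent' (K := ⊤) hp (by rwa [card_top]) trivial ox

theorem card_modEq_one {p : ℕ} (hp : p.Prime) {D : Subgroup G} {y : G} (hy : y ^ p = 1) (hn : y ∈ N[D])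
    (h : ∀ d ∈ D, y * d = d * y → d = 1) : Nat.card D % p = 1 % p := by
  have : Fact p.Prime := ⟨hp⟩
  have h1 := ncard_modEq_fix hy (S := D) fun s hs => conj_mem_of_mem_norm hn hs
  rw [show {s | s ∈ (D : Set G) ∧ y * s = s * y} = {1} from Set.ext fun s =>
    ⟨fun e => h s e.1 e.2, fun e => by rw [e]; exact ⟨D.one_mem, by simp⟩⟩, Set.ncard_singleton] at h1
  exact h1

theorem le_or_le_of_union {P A B : Subgroup G} (h : ∀ x ∈ P, x ∈ A ∨ x ∈ B) : P ≤ A ∨ P ≤ B := by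
  by_contra! k
  obtain ⟨a, ha, ha'⟩ := SetLike.not_le_iff_exists.1 k.1
  obtain ⟨b, hb, hb'⟩ := SetLike.not_le_iff_exists.1 k.2
  rcases h _ (mul_mem ha hb) with e | e
  · exact ha' ((mul_mem_cancel_right ((h b hb).resolve_right hb')).1 e)
  · exact hb' ((mul_mem_cancel_left ((h a ha).resolve_left ha')).1 e)

theorem coset_conj {r c : G} {m k j : ℤ} {n : ℕ} (h : r * c * r⁻¹ = c ^ m) (hc : c ^ n = 1)
    (e : k * (1 - m) = 1 + n * j) : c ^ k * r * (c ^ k)⁻¹ = c * r := by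
  have h1 : c ^ k * r * (c ^ k)⁻¹ = c ^ k * (r * c * r⁻¹) ^ (-k) * r := by rw [conj_zpow, zpow_neg]; group
  rw [h1, h, ← zpow_mul, ← zpow_add, show k + m * -k = 1 + n * j by rw [← e]; ring, zpow_add, zpow_mul, zpow_natCast, hc]
  simp

theorem card_cent_of_isConj {a b : G} (h : IsConj a b) : Nat.card C1[b] = Nat.card C1[a] := by
  obtain ⟨g, rfl⟩ := isConj_iff.1 h
  rw [← conj_cent1, card_conj]

theorem primes_J4 {r : ℕ} (hr : r.Prime) (h : r ∣ 86775571046077562880) :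
    r = 2 ∨ r = 3 ∨ r = 5 ∨ r = 7 ∨ r = 11 ∨ r = 23 ∨ r = 29 ∨ r = 31 ∨ r = 37 ∨ r = 43 := by
  have h1 : r ∣ (2 * (3 * (5 * (7 * (11 * (23 * (29 * (31 * (37 * 43))))))))) ^ 21 := h.trans (by norm_num)
  have e : ∀ {q : ℕ}, q.Prime → (r ∣ q ↔ r = q) := fun hq => Nat.prime_dvd_prime_iff_eq hr hq
  simpa only [hr.dvd_mul, e (q := 2) (by norm_num), e (q := 3) (by norm_num), e (q := 5) (by norm_num),
    e (q := 7) (by norm_num), e (q := 11) (by norm_num), e (q := 23) (by norm_num), e (q := 29) (by norm_num),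
    e (q := 31) (by norm_num), e (q := 37) (by norm_num), e (q := 43) (by norm_num)] using hr.dvd_of_dvd_pow h1

theorem not_sq_dvd_J4 {r : ℕ} (hr : r.Prime) (h2 : r ≠ 2) (h3 : r ≠ 3) (h11 : r ≠ 11) :
    ¬ r * r ∣ 86775571046077562880 := fun h => by
  rcases primes_J4 hr ((dvd_mul_right r r).trans h) with e | e | e | e | e | e | e | e | e | e <;> subst e <;> omega

/-- The situation in the centraliser of an element of order eleven. -/
structure EL (X z a b w : G) : Prop where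
  card : Nat.card G = 86775571046077562880
  oX : orderOf X = 11
  zz : z * z = 1
  zX : z ∈ C1[X]
  aX : a ∈ C1[X]
  bX : b ∈ C1[X]
  wX : w ∈ C1[X]
  az : a * z = z * a
  bz : b * z = z * b
  ab : a * b * a⁻¹ * b⁻¹ = z
  w3 : w ^ 3 = 1
  cw : ∀ g, g * w = w * g → g * z = z * g
  iso : ∀ g ∈ C1[X], z * (g * z * g⁻¹) = g * z * g⁻¹ * z → g * z * g⁻¹ = z
  oz : piCoreOf {2}ᶜ C1[X] ⊓ C1[z] ≤ zpowers X
  cc : Nat.card ↥(C1[X] ⊓ C1[z]) = 264

/-- The largest normal subgroup of odd order of the centraliser. -/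
abbrev OC (X : G) : Subgroup G := piCoreOf {2}ᶜ C1[X]

theorem OC_le (X : G) : OC X ≤ C1[X] := piCoreOf_le _ _
theorem le_norm_OC (X : G) : C1[X] ≤ N[OC X] := self_le_norm_piCoreOf _ _
theorem odd_OC (X : G) : Odd (Nat.card (OC X)) := BS.piNat_two_compl.1 (piCoreOf_isPi _ _)
theorem odd_of_OC {X u : G} (h : u ∈ OC X) : Odd (orderOf u) := (odd_OC X).of_dvd_nat (orderOf_dvd_card_of_mem h)
theorem zp_comm {X c u : G} (hc : c ∈ zpowers X) (hu : u ∈ C1[X]) : Commute c u :=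
  commute_of_mem_zpowers_left hc (mem_cent1.1 hu).symm

namespace EL

variable {X z a b w : G} (E : EL X z a b w)
include E

theorem X_mem : X ∈ OC X := zpowers_le.1 (le_piCoreOf (zpowers_le.2 (self_mem_cent1 X))
  (le_norm_of_cent (cent_zpowers X).ge) (BS.piNat_two_compl.2 (by rw [Nat.card_zpowers, E.oX]; decide)))

theorem pow11 {c : G} (hc : c ∈ zpowers X) : c ^ 11 = 1 :=
  orderOf_dvd_iff_pow_eq_one.1 (E.oX ▸ orderOf_dvd_of_mem_zpowers hc)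

theorem dec {u : G} (hu : u ∈ OC X) : ∃ i ∈ OC X, z * i * z⁻¹ = i⁻¹ ∧ ∃ c ∈ zpowers X, u = i * c := by
  have h : u * z * u⁻¹ * z⁻¹ ∈ OC X := by
    simpa only [mul_assoc] using mul_mem hu (conj_mem_of_mem_norm (le_norm_OC X E.zX) (inv_mem hu))
  obtain ⟨i, hi, e, e'⟩ := exists_inv_mul E.zz (odd_of_OC h)
  have hi' : i ∈ OC X := zpowers_le.2 h hi
  exact ⟨i, hi', e, _, E.oz (mem_inf.2 ⟨mul_mem (inv_mem hi') hu, e'⟩), by group⟩

theorem hinv {u : G} (hu : u ∈ OC X) : ∃ c ∈ zpowers X, z * u * z⁻¹ = c * u⁻¹ := by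
  obtain ⟨i, hi, e, c, hc, rfl⟩ := E.dec hu
  refine ⟨c * c, mul_mem hc hc, ?_⟩
  rw [← conj_mul, e, ← (zp_comm hc E.zX).eq, mul_inv_cancel_right, ← (zp_comm hc (inv_mem (OC_le X hi))).eq]; group

theorem comm_mem {u v : G} (hu : u ∈ OC X) (hv : v ∈ OC X) : ⁅u, v⁆ ∈ zpowers X := by
  obtain ⟨c, hc, e1⟩ := E.hinv hu
  obtain ⟨d, hd, e2⟩ := E.hinv hv
  obtain ⟨e, he, e3⟩ := E.hinv (mul_mem hu hv)
  rw [← conj_mul, e1, e2, mul_assoc, ← mul_assoc _ d, ← (zp_comm hd (inv_mem (OC_le X hu))).eq] at e3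
  have h : ⁅u, v⁆ = (u * v) * ((c * d)⁻¹ * e) * (u * v)⁻¹ := by
    rw [mul_assoc, mul_assoc _ e, ← e3, commutatorElement_def]; group
  rw [h, ← (zp_comm (mul_mem (inv_mem (mul_mem hc hd)) he) (OC_le X (mul_mem hu hv))).eq, mul_inv_cancel_right]
  exact mul_mem (inv_mem (mul_mem hc hd)) he

theorem eq_one_of {c : G} (hc : c ∈ zpowers X) {r : ℕ} (hr : r.Coprime 11) (h : c ^ r = 1) : c = 1 :=
  orderOf_eq_one_iff.1 (Nat.eq_one_of_dvd_coprimes hr (orderOf_dvd_of_pow_eq_one h)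
    (orderOf_dvd_of_pow_eq_one (E.pow11 hc)))

theorem inv_of {u : G} (hu : u ∈ OC X) {r : ℕ} (hr : r.Coprime 11) (h : u ^ r = 1) : z * u * z⁻¹ = u⁻¹ := by
  obtain ⟨c, hc, e⟩ := E.hinv hu
  have h1 : (c * u⁻¹) ^ r = 1 := by rw [← e, conj_pow, h]; group
  rw [(zp_comm hc (inv_mem (OC_le X hu))).mul_pow, inv_pow, h, inv_one, mul_one] at h1
  rw [e, E.eq_one_of hc hr h1, one_mul]

theorem comm_of {u v : G} (hu : u ∈ OC X) (hv : v ∈ OC X) {r : ℕ} (hr : r.Coprime 11) (h : v ^ r = 1) :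
    u * v = v * u := by
  have h1 := E.comm_mem hu hv
  refine commutatorElement_eq_one_iff_mul_comm.1 (E.eq_one_of h1 hr ?_)
  rw [← commutatorElement_pow_right_of_commute (zp_comm h1 (OC_le X hv)), h, commutatorElement_one_right]

theorem eq_one_of_norm {u : G} (hu : u ∈ OC X) (h : z * u * z⁻¹ = u⁻¹) (ha : a * u * a⁻¹ ∈ zpowers u)
    (hb : b * u * b⁻¹ ∈ zpowers u) : u = 1 := by
  refine eq_one_of_inv (odd_of_OC hu) ?_
  rw [← h, ← E.ab, comm_cent_of_norm ha hb, mul_inv_cancel_right]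

theorem no_three {u : G} (hu : u ∈ OC X) (h : u ^ 3 = 1) : u = 1 := by
  have c : Nat.Coprime 3 11 := by norm_num
  have key : ∀ u ∈ OC X, u ^ 3 = 1 → u * w = w * u → u = 1 := fun u hu h e =>
    eq_one_of_inv (odd_of_OC hu) (by rw [← E.inv_of hu c h, ← E.cw u e, mul_inv_cancel_right])
  have st : ∀ u ∈ OC X, u ^ 3 = 1 → w * u * w⁻¹ ∈ OC X ∧ (w * u * w⁻¹) ^ 3 = 1 := fun u hu h =>
    ⟨conj_mem_of_mem_norm (le_norm_OC X E.wX) hu, by rw [conj_pow, h]; group⟩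
  obtain ⟨v, hv⟩ : ∃ v, v = w * u * w⁻¹ := ⟨_, rfl⟩
  obtain ⟨t, ht⟩ : ∃ t, t = w * v * w⁻¹ := ⟨_, rfl⟩
  have h1 := hv ▸ st u hu h
  have h2 := ht ▸ st v h1.1 h1.2
  have h3 : w * t * w⁻¹ = u := by
    rw [ht, hv, show w * (w * (w * u * w⁻¹) * w⁻¹) * w⁻¹ = w ^ 3 * u * (w ^ 3)⁻¹ by simp [pow_succ, mul_assoc], E.w3]
    group
  have uv : Commute u v := E.comm_of hu h1.1 c h1.2
  have ut : Commute u t := E.comm_of hu h2.1 c h2.2
  have vt : Commute v t := E.comm_of h1.1 h2.1 c h2.2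
  have h4 : u * v * t = 1 := key _ (mul_mem (mul_mem hu h1.1) h2.1)
    (by rw [(ut.mul_left vt).mul_pow, uv.mul_pow, h, h1.2, h2.2]; group) (by
      rw [eq_comm, ← mul_inv_eq_iff_eq_mul, ← conj_mul, ← conj_mul, ← hv, ← ht, h3, ← (uv.mul_right ut).eq, mul_assoc])
  have h5 : v * u⁻¹ = 1 := key _ (mul_mem h1.1 (inv_mem hu))
    (by rw [uv.symm.inv_right.mul_pow, inv_pow, h, h1.2]; group) (by
      rw [eq_comm, ← mul_inv_eq_iff_eq_mul, ← conj_mul, ← ht, ← conj_inv, ← hv, ← inv_eq_of_mul_eq_one_right h4,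
        ← uv.inv_left.eq, mul_inv_rev, ← uv.inv_inv.eq, mul_assoc, mul_right_inj, eq_comm, ← mul_inv_rev,
        eq_inv_iff_mul_eq_one, ← h1.2]
      simp [pow_succ, mul_assoc])
  exact key u hu h (by rw [eq_comm, ← mul_inv_eq_iff_eq_mul, ← hv, ← mul_inv_eq_one, h5])

theorem isP : IsPGroup 11 (OC X) := by
  refine IsPiSubgroup.isPGroup (fun r hr hd => by_contra fun h => ?_) (by norm_num)
  obtain ⟨u, hu, ou⟩ := exists_mem_orderOf_eq hr hd
  have c : r.Coprime 11 := (Nat.coprime_primes hr (by norm_num)).2 h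
  have h1 := ou ▸ pow_orderOf_eq_one u
  have h2 : u = 1 := by
    by_cases h3 : r = 3
    · exact E.no_three hu (h3 ▸ h1)
    have h4 : ∀ q ∈ C1[X], q * u * q⁻¹ ∈ zpowers u := fun q hq =>
      mem_zpowers_of_comm (K := ⊤) hr (by
        rw [card_top, E.card]
        exact not_sq_dvd_J4 hr (by rintro rfl; exact absurd (ou ▸ odd_of_OC hu) (by decide)) h3 h) trivial trivial ou
        (by rw [conj_pow, h1]; group) (E.comm_of (conj_mem_of_mem_norm (le_norm_OC X hq) hu) hu c h1).symm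
    exact E.eq_one_of_norm hu (E.inv_of hu c h1) (h4 a E.aX) (h4 b E.bX)
  rw [h2, orderOf_one] at ou
  exact hr.one_lt.ne ou

theorem inf_eq : OC X ⊓ C1[z] = zpowers X :=
  le_antisymm E.oz (zpowers_le.2 ⟨E.X_mem, mem_cent1_comm.1 E.zX⟩)

theorem card_eq : Nat.card C1[X] = Nat.card (OC X) * 24 := by
  have h := card_of_mul (OC_le X) (inf_le_left (b := C1[z])) (le_norm_OC X) fun g hg => by
    obtain ⟨o, ho, e⟩ := zstar_sub E.zz E.zX E.iso hg
    exact ⟨o, ho, mem_inf.2 ⟨mul_mem (inv_mem (OC_le X ho)) hg, e⟩⟩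
  rw [← inf_assoc, inf_eq_left.2 (OC_le X), E.inf_eq, Nat.card_zpowers, E.oX, E.cc] at h
  omega

theorem inv_eq_one {i c : G} (hi : z * i * z⁻¹ = i⁻¹) (h1 : c ∈ zpowers i) (h2 : c ∈ zpowers X) : c = 1 := by
  obtain ⟨k, rfl⟩ := h1
  refine eq_one_of_inv (odd_of_OC (zpowers_le.2 E.X_mem h2)) ?_
  have : z * i ^ k * z⁻¹ = (i ^ k)⁻¹ := by rw [← conj_zpow, hi, inv_zpow]
  rw [← this, ← (zp_comm h2 E.zX).eq, mul_inv_cancel_right]

theorem small {i : G} (hi : i ∈ OC X) (e : z * i * z⁻¹ = i⁻¹) (h1 : i ≠ 1) : orderOf i * 11 < Nat.card (OC X) := by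
  have hn : zpowers X ≤ N[zpowers i] :=
    le_norm_of_cent (by rw [cent_zpowers]; exact zpowers_le.2 (mem_cent1_comm.1 (OC_le X hi)))
  have h2 := card_sup_of_inf_eq_bot (.inr hn) (eq_bot_iff.2 fun c hc => E.inv_eq_one e hc.1 hc.2)
  rw [Nat.card_zpowers, Nat.card_zpowers, E.oX] at h2
  rw [← h2]
  refine card_lt_of_lt (lt_of_le_of_ne (sup_le (zpowers_le.2 hi) (zpowers_le.2 E.X_mem)) fun h => h1 ?_)
  have h4 : ∀ q ∈ C1[X], q * z = z * q → q * i * q⁻¹ ∈ zpowers i := fun q hq e' => by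
    obtain ⟨j, hj, c, hc, e1⟩ := (mem_sup_of_le_norm' hn).1 (h ▸ conj_mem_of_mem_norm (le_norm_OC X hq) hi)
    have h5 : z * (q * i * q⁻¹) * z⁻¹ = (q * i * q⁻¹)⁻¹ := by
      rw [conj_inv, ← e, ← mul_assoc, ← mul_assoc, ← e', mul_assoc _ q⁻¹, ← mul_inv_rev, ← e']; group
    obtain ⟨k, rfl⟩ := hj
    have h6 : z * i ^ k * z⁻¹ = (i ^ k)⁻¹ := by rw [← conj_zpow, e, inv_zpow]
    replace e1 : q * i * q⁻¹ = i ^ k * c := e1
    rw [e1, ← conj_mul, h6, ← (zp_comm hc E.zX).eq, mul_inv_cancel_right, mul_inv_rev,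
      (zp_comm (inv_mem hc) (inv_mem (zpow_mem (OC_le X hi) k))).eq, mul_right_inj] at h5
    rw [e1, eq_one_of_inv (odd_of_OC (zpowers_le.2 E.X_mem hc)) h5.symm, mul_one]
    exact zpow_mem (mem_zpowers i) k
  exact E.eq_one_of_norm hi e (h4 a E.aX E.az) (h4 b E.bX E.bz)

theorem ord_cases {u : G} (hu : u ∈ OC X) : ∃ k, orderOf u = 11 ^ k :=
  have : Fact (Nat.Prime 11) := ⟨by norm_num⟩
  (IsPGroup.iff_orderOf.1 E.isP ⟨u, hu⟩).imp fun k e => by rwa [← orderOf_coe] at e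

theorem card_OC : Nat.card (OC X) = 11 ^ 3 := by
  have : Fact (Nat.Prime 11) := ⟨by norm_num⟩
  obtain ⟨k, hk⟩ := IsPGroup.iff_card.1 E.isP
  have h1 : k ≤ 3 := by
    by_contra h
    have := ((pow_dvd_pow 11 (not_le.1 h)).trans hk.symm.dvd).trans (card_subgroup_dvd_card _)
    rw [E.card] at this; norm_num at this
  have h2 := sq_dvd_card_cent (by norm_num) (by rw [E.card]; norm_num) E.oX
  rw [E.card_eq, hk] at h2
  obtain ⟨u, hu, hn⟩ : ∃ u ∈ OC X, u ∉ zpowers X := by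
    by_contra! h
    have := card_le_of_le (show OC X ≤ zpowers X from h)
    rw [Nat.card_zpowers, E.oX, hk] at this
    interval_cases k <;> omega
  obtain ⟨i, hi, e, c, hc, rfl⟩ := E.dec hu
  have h3 : i ≠ 1 := fun e => hn (by rwa [e, one_mul])
  have h4 := E.small hi e h3
  obtain ⟨j, hj⟩ := E.ord_cases hi
  rw [hk, hj, ← pow_succ, Nat.pow_lt_pow_iff_right (by norm_num)] at h4
  have h5 : j ≠ 0 := fun e => h3 (orderOf_eq_one_iff.1 (by rw [hj, e, pow_zero]))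
  rw [hk, show k = 3 by omega]

theorem exp {u : G} (hu : u ∈ OC X) : u ^ 11 = 1 := by
  obtain ⟨i, hi, e, c, hc, rfl⟩ := E.dec hu
  rw [(zp_comm hc (OC_le X hi)).symm.mul_pow, E.pow11 hc, mul_one]
  by_cases h3 : i = 1
  · rw [h3, one_pow]
  have h4 := E.small hi e h3
  obtain ⟨j, hj⟩ := E.ord_cases hi
  rw [E.card_OC, hj, ← pow_succ, Nat.pow_lt_pow_iff_right (by norm_num)] at h4
  exact orderOf_dvd_iff_pow_eq_one.1 (hj ▸ pow_dvd_pow 11 (show j ≤ 1 by omega))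

theorem card_cent : Nat.card C1[X] = 31944 := by rw [E.card_eq, E.card_OC]; norm_num

theorem syl : IsPiHallOf {11} (OC X) ⊤ := syl_mk (by norm_num) le_top E.isP fun h => by
  have := card_mul_relIndex (le_top (a := OC X))
  rw [card_top, E.card, E.card_OC] at this
  omega

end EL

end Cfsg.Agent.J4
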