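import Cfsg.Agent.J4.GA
import Cfsg.Agent.BS.ZStar

/-!
# Groups of type `J₄`: the central involution is not weakly closed in `2¹¹`
-/

set_option autoImplicit false

namespace Cfsg.Agent.J4

open Cfsg.Agent.M24 Cfsg.Agent.TT Cfsg.Agent.GT Subgroup

theorem exists_comm_conj {G : Type*} [Group G] [Finite G] [IsSimpleGroup G] (hG : ¬ IsMulCommutative G) {z : G}
    (h2 : z * z = 1) (h1 : z ≠ 1) : ∃ g, z * (g * z * g⁻¹) = g * z * g⁻¹ * z ∧ g * z * g⁻¹ ≠ z := by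
  by_contra! hc
  have key := BS.zstar h2 hc
  rcases (piCore_normal {2}ᶜ G).eq_bot_or_eq_top with h | h
  · have hz' : z ∈ center G := mem_center_iff.2 fun g => by
      have := key g
      rw [h, mem_bot, mul_eq_one_iff_inv_eq, inv_eq_of_mul_eq_one_right h2] at this
      exact mul_inv_eq_iff_eq_mul.1 this.symm
    rcases (inferInstance : (center G).Normal).eq_bot_or_eq_top with e | e
    · exact h1 (by rwa [e, mem_bot] at hz')
    · exact hG ⟨⟨fun a b => mem_center_iff.1 (e ▸ mem_top b) a⟩⟩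
  · have := BS.piNat_two_compl.1 ((piCoreOf_isPi {2}ᶜ (⊤ : Subgroup G)).orderOf (x := z)
      (by rw [piCoreOf_top, h]; exact mem_top z))
    rw [orderOf_eq_prime (p := 2) (by rw [pow_two, h2]) h1] at this
    exact absurd this (by decide)

namespace HM

variable {H : Type*} [Group H] {z ω : H} {s : ℕ → H} {Λ : H →* R} (M : HM z ω s Λ)
include M

theorem sq_ker {c : H} (h1 : Λ c = 1) : c * c = z ^ Qf (M.cb c) := by
  rw [← M.s_sq (M.cb_lt c)]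
  rcases M.eq_s h1 with e | e
  · rw [← e]
  · conv_lhs => rw [e, mul_assoc, ← mul_assoc z, ← M.zc, mul_assoc, M.zz, mul_one]

theorem conj_E_VH {c : H} (h1 : Λ c = 1) (h2 : c * c = 1) : ∃ l, l * c * l⁻¹ ∈ M.VH := by
  have key : ∀ r ∈ Lm, ∀ a < 64, lin (rc r) a = M.cb c → ∃ l, l * c * l⁻¹ ∈ M.VH := fun r hr a ha e => by
    obtain ⟨l, hl, rfl⟩ := M.lift r hr
    refine ⟨l⁻¹, M.mem_VH.2 ⟨by simp [h1], ?_⟩⟩
    rwa [M.cb_conj, M.cb_norm (inv_mem hl), lin_zero, ← e, map_inv, lin_rc_inv _ (by omega), Nat.xor_zero, Nat.zero_xor]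
  by_cases h0 : M.cb c = 0
  · exact key 1 (one_mem _) 0 (by norm_num) (by rw [h0, lin_zero])
  have h3 := (M.zp_eq_one (Qf_le _)).1 ((M.sq_ker h1).symm.trans h2)
  rcases orbits_vec (M.cb_lt c) h0 with ⟨-, ⟨r, hr, e⟩ | ⟨r, hr, e⟩⟩ | ⟨e, -⟩
  exacts [key r hr 1 (by norm_num) e, key r hr 20 (by norm_num) e, by omega]

theorem conj_w0 {u : H} (h2 : u * u = 1) (h1 : Λ u ≠ 1) (ho : ou (rc (Λ u)) = 0) : ∃ l, Λ (l * u * l⁻¹) = w0 := by
  obtain ⟨d, hd, e⟩ := inner_conj (M.mem u) (by rw [← map_mul, h2, map_one]) h1 ho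
  obtain ⟨l, -, rfl⟩ := M.lift d hd
  exact ⟨l⁻¹, by simp [← e, mul_assoc]⟩

theorem conj_mul_z {u : H} (h : Λ u ∈ Wb) (hb : u ∉ M.VH) : IsConj u (u * z) := by
  have h1 : ¬ M.cb u < 64 := fun e => hb (M.mem_VH.2 ⟨h, e⟩)
  obtain ⟨i, hi, e⟩ : ∃ i < 6, Bf (M.cb u) (2 ^ i) ≠ 0 := by
    by_contra! hc; exact h1 (lt64_of_perp (M.cb_lt u) hc)
  have h2 : 2 ^ i < 64 := Nat.pow_lt_pow_right (a := 2) (n := 6) (by norm_num) hi
  have h3 := M.conj_s u (a := 2 ^ i) (by omega)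
  have := Bf_le (M.cb u) (2 ^ i)
  rw [(Wb_facts h).2.2.1 _ h2, (Wb_facts h).2.1, zero_mul, Nat.zero_xor, show Bf (M.cb u) (2 ^ i) = 1 by omega,
    pow_one, mul_inv_eq_iff_eq_mul] at h3
  exact isConj_iff.2 ⟨(s (2 ^ i))⁻¹, by rw [inv_inv, mul_assoc, h3, M.zc u]; group⟩

end HM

namespace GM

variable {G H : Type*} [Group G] [Group H] {ι : H →* G} {z ω : H} {s : ℕ → H} {Λ : H →* R} (M : GM ι z ω s Λ)
include M

theorem exists_conj_V [Finite G] [IsSimpleGroup G] (hG : ¬ IsMulCommutative G) :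
    ∃ h ∈ M.VH, h ≠ z ∧ IsConj (ι z) (ι h) := by
  by_contra! hn
  have cj : ∀ {u : H} (l : H), IsConj (ι z) (ι u) → IsConj (ι z) (ι (l * u * l⁻¹)) := fun l h =>
    h.trans (isConj_iff.2 ⟨ι l, by simp⟩)
  have hV : ∀ u l : H, l * u * l⁻¹ ∈ M.VH → IsConj (ι z) (ι u) → u = z := fun u l h1 h2 => by
    by_contra h3
    refine hn _ h1 (fun e => h3 ?_) (cj l h2)
    rw [mul_inv_eq_iff_eq_mul, ← M.zc, mul_right_inj] at e; exact e
  have hE : ∀ c : H, Λ c = 1 → c * c = 1 → IsConj (ι z) (ι c) → c = z := fun c h1 h2 h3 =>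
    let ⟨l, hl⟩ := M.conj_E_VH h1 h2; hV c l hl h3
  have hin : ∀ u : H, u * u = 1 → IsConj (ι z) (ι u) → u ≠ z → ¬ IsConj (ι z) (ι (u * z)) → ou (rc (Λ u)) = 1 :=
    fun u h1 h2 h3 h4 => by
      by_contra h5
      have := ou_le (rc (Λ u))
      obtain ⟨l, e⟩ := M.conj_w0 h1 (fun e => h3 (hE u e h1 h2)) (by omega)
      refine h4 (((cj l h2).trans (ι.map_isConj (M.conj_mul_z (e ▸ w0_mem) fun h => h3 (hV u l h h2)))).trans
        (isConj_iff.2 ⟨ι l⁻¹, ?_⟩))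
      rw [← map_inv, ← map_mul, ← map_mul, mul_assoc, mul_assoc _ z, ← M.zc]; congr 1; group
  have zz : ι z * ι z = 1 := by rw [← map_mul, M.zz, map_one]
  obtain ⟨g, h1, h2⟩ := exists_comm_conj hG zz fun e => M.ne (M.inj (by rw [e, map_one]))
  obtain ⟨d₀, e0⟩ := M.surj _ h1.symm
  have a1 : d₀ * d₀ = 1 := M.inj (by rw [map_mul, e0, conj_mul, zz]; simp)
  obtain ⟨r, hr, h3⟩ := conj_chC (K := zpowers (Λ d₀)) (zpowers_le.2 (M.mem _))
    (PG.isPGroup_zpowers_of_pow_eq_one (k := 1) (by rw [pow_one, pow_two, ← map_mul, a1, map_one]))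
  obtain ⟨l, -, rfl⟩ := M.lift r hr
  obtain ⟨d, hd⟩ : ∃ d, d = l * d₀ * l⁻¹ := ⟨_, rfl⟩
  have b1 : d * d = 1 := by rw [hd, conj_mul, a1]; simp
  have b2 : IsConj (ι z) (ι d) := hd ▸ cj l (isConj_iff.2 ⟨g, e0.symm⟩)
  have b3 : d ≠ z := fun e => h2 (by
    rw [hd, mul_inv_eq_iff_eq_mul, ← M.zc, mul_right_inj] at e; rw [← e0, e])
  have b4 : Λ d ∈ gen rc (gensOf chC) := by
    rw [hd, map_mul, map_mul, map_inv]; exact h3 (conj_mem_conj.2 (mem_zpowers _))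
  obtain ⟨i, hi, j, hj, ⟨c1, c2, c3⟩, c4, c5, c6⟩ := exists_pair b4 (by rw [← map_mul, b1, map_one])
    fun e => b3 (hE d e b1 b2)
  have hi' := pow_lt12 hi
  have hj' := pow_lt12 hj
  generalize 2 ^ i = e₁ at *
  generalize 2 ^ j = e₂ at *
  have key : ∀ e < 4096, Λ (s e * d * (s e)⁻¹ * d) = 1 ∧ M.cb (s e * d * (s e)⁻¹ * d) = e ^^^ lin (rc (Λ d)) e :=
    fun e he => by
      have h : Λ (s e * d * (s e)⁻¹) = Λ d := by simp [M.Λs he]
      refine ⟨by rw [map_mul, h, ← map_mul, b1, map_one], ?_⟩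
      have h' := congrArg M.cb b1
      rw [M.cb_mul, M.cb_one] at h'
      rw [M.cb_mul, M.cb_conj, h, M.cb_s he, M.Λs he, lin_rc_one (M.cb_lt d), Nat.xor_assoc, Nat.xor_assoc,
        Nat.xor_left_comm (M.cb d), h', Nat.xor_zero]
  obtain ⟨x, hx⟩ : ∃ x, x = s e₁ * d * (s e₁)⁻¹ * d := ⟨_, rfl⟩
  obtain ⟨y, hy⟩ : ∃ y, y = s e₂ * d * (s e₂)⁻¹ * d := ⟨_, rfl⟩
  obtain ⟨x1, x2⟩ := hx ▸ key e₁ hi'
  obtain ⟨y1, y2⟩ := hy ▸ key e₂ hj'
  have x3 : x * x = 1 := by rw [M.sq_ker x1, x2, c4, pow_zero]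
  have y3 : y * y = 1 := by rw [M.sq_ker y1, y2, c5, pow_zero]
  have x4 : x * d = s e₁ * d * (s e₁)⁻¹ := by rw [hx, mul_assoc, b1, mul_one]
  have y4 : y * d = s e₂ * d * (s e₂)⁻¹ := by rw [hy, mul_assoc, b1, mul_one]
  have cm : ∀ x c : H, x * x = 1 → x * d = c * d * c⁻¹ → d * x = x * d := fun x c h1 h2 => by
    rw [← inv_eq_of_mul_eq_one_right (show x * d * (x * d) = 1 by rw [h2, conj_mul, b1]; simp), mul_inv_rev,
      inv_eq_of_mul_eq_one_right h1, inv_eq_of_mul_eq_one_right b1]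
  have x5 := cm x _ x3 x4
  have y5 := cm y _ y3 y4
  have xy : y * x * d = (s e₁ * s e₂) * d * (s e₁ * s e₂)⁻¹ := by
    have h := (M.comm_s_of (h := y) hi' (by rw [y1, lin_rc_one hi']) (by rw [y1, ou_rc, y2, Bf_comm, c6]; simp))
    rw [mul_assoc, x4, ← mul_assoc, ← mul_assoc, h, mul_assoc _ y, y4]; group
  have xy2 : d * (y * x) = y * x * d := by rw [← mul_assoc, y5, mul_assoc, x5, mul_assoc]
  have xy3 : y * x * (y * x) = 1 := by
    have : y * x * d * (y * x * d) = 1 := by rw [xy, conj_mul, b1]; simp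
    rwa [mul_assoc, ← mul_assoc d, xy2, mul_assoc (y * x) d, b1, mul_one] at this
  obtain ⟨k, hk⟩ := isConj_iff.1 b2.symm
  have fin : ∀ x c : H, Λ x = 1 → M.cb x ≠ 0 → x * x = 1 → d * x = x * d → x * d = c * d * c⁻¹ →
      ∃ u, ι u = k * ι (x * d) * k⁻¹ ∧ ou (rc (Λ u)) = 1 := fun x c h1 h2 h3 h4 h5 => by
    obtain ⟨u, hu⟩ := M.surj (k * ι (x * d) * k⁻¹) (by
      rw [← hk, conj_mul, conj_mul, ← map_mul, ← map_mul, ← mul_assoc d, h4])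
    have h6 : ι (u * z) = k * ι x * k⁻¹ := by rw [map_mul, hu, ← hk, conj_mul, ← map_mul, mul_assoc x, b1, mul_one]
    refine ⟨u, hu, hin u (M.inj (by
      rw [map_mul, hu, conj_mul, ← map_mul, h5, conj_mul, b1]; simp)) ((h5 ▸ cj c b2).trans (isConj_iff.2 ⟨k, hu.symm⟩))
      (fun e => h2 ?_) fun e => h2 ?_⟩
    · rw [e, M.zz, map_one, eq_comm, conj_eq_one_iff, map_eq_one_iff _ M.inj] at h6
      rw [h6, M.cb_one]
    · rw [hE x h1 h3 (e.trans (isConj_iff.2 ⟨k⁻¹, by rw [h6]; group⟩)), M.cb_norm M.z_mem]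
  obtain ⟨u₁, p1, q1⟩ := fin x _ x1 (x2 ▸ c1) x3 x5 x4
  obtain ⟨u₂, p2, q2⟩ := fin y _ y1 (y2 ▸ c2) y3 y5 y4
  obtain ⟨u₃, p3, q3⟩ := fin (y * x) _ (by rw [map_mul, x1, y1, one_mul]) (by
    rw [M.cb_mul, y1, lin_rc_one (M.cb_lt x), x2, y2]; exact fun e => c3 (Nat.xor_eq_zero_iff.1 e).symm) xy3 xy2 xy
  have e : u₁ * u₂ * u₃ = z := M.inj (by
    rw [map_mul, map_mul, p1, p2, p3, conj_mul, conj_mul, ← map_mul, ← map_mul, ← hk, ← y5, mul_assoc x d, ← mul_assoc d d,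
      b1, one_mul, mul_assoc x, ← mul_assoc y, ← mul_assoc y, y3, one_mul, ← mul_assoc x x, x3, one_mul])
  have := congrArg (fun h => ou (rc (Λ h))) e
  simp only [map_mul] at this
  rw [ou_mul (mul_mem (M.mem _) (M.mem _)) (M.mem _), ou_mul (M.mem _) (M.mem _), q1, q2, q3, M.Λz, ou_rc] at this
  simp at this

end GM

end Cfsg.Agent.J4
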