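import Cfsg.Agent.J4.FD
import Cfsg.Agent.J4.ZS

/-!
# Groups of type `J₄`: fusion in the subgroup `2¹¹`
-/

set_option autoImplicit false

namespace Cfsg.Agent.J4

open Cfsg.Agent.M24 Cfsg.Agent.TT Cfsg.Agent.GT Subgroup

theorem tbq_iff (m i : ℕ) : tbq m i = m.testBit i := by
  rw [Bool.eq_iff_iff, tbq, Nat.beq_eq, Nat.testBit, Nat.and_comm]
  change (m >>> i) &&& 1 = 1 ↔ _
  have := and_one_le (m >>> i)
  rw [bne_iff_ne]; omega

theorem no_transv {r : R} (hr : r ∈ NV) (h : ∀ u < 64, lin (rc r) u = u ∨ lin (rc r) u = u ^^^ 20)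
    {u : ℕ} (hu : u < 64) : lin (rc r) u = u := by
  have hW : ∀ u < 64, lin kW u < 64 := by decide +kernel
  rcases ou_cases (NV_le hr) with ⟨-, e⟩ | ⟨-, e⟩
  · refine (h u hu).resolve_right fun e1 => ?_
    have e2 := congrArg (fun x => lin (rc x) u) e
    simp only [lin_rc_mul, rc_rW] at e2
    rw [e1, lin_xor] at e2
    rcases h _ (hW u hu) with e3 | e3 <;> rw [e3] at e2
    · exact absurd (Nat.xor_right_inj.1 ((Nat.xor_zero _).trans e2)) (by decide +kernel)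
    · exact absurd (Nat.xor_right_inj.1 e2) (by decide +kernel)
  · have e2 := congrArg (fun x => lin (rc x) 1) e
    simp only [lin_rc_mul, rc_rW] at e2
    rcases h _ (hW 1 (by norm_num)) with e3 | e3 <;> rcases h 1 (by norm_num) with e4 | e4 <;> rw [e3, e4] at e2 <;>
      exact absurd e2 (by decide +kernel)

theorem Co.cv_eq {G : Type*} [Group G] {V : Subgroup G} {T : ℕ → G} (C : Co V 11 T) {g : G} {k t m m' : ℕ}
    (h : Act 11 T g k) (h1 : ∀ a < 2 ^ 11, tbq m (cl t (lin k a)) = tbq m (cl t a))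
    (h2 : ∀ a < 2 ^ 11, tbq m' (cl t (lin k a)) = tbq m' (cl t a)) {x : ℕ} (hx : x < 2048) :
    cv t m m' (lin k x) = cv t m m' x :=
  C.cv_act h (φ := fun a => tbq m (cl t a)) (ψ := fun a => tbq m' (cl t a)) h1 h2 hx

namespace VC

variable {H : Type*} [Group H] {z ω : H} {s : ℕ → H} {Λ : H →* R} {M : HM z ω s Λ} {y g : H} {T : ℕ → H} {f : ℕ}
  (D : VC M y g T f)
include D

theorem real_gJ : ∀ k ∈ gJ f, ∃ h, Act 11 T h k := fun k hk => by
  rcases List.mem_append.1 hk with hk | hk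
  · obtain ⟨i, hi, rfl⟩ : ∃ i < 6, lget lE 0 i = k := (by decide +kernel : ∀ k ∈ lE, ∃ i < 6, lget lE 0 i = k) k hk
    exact ⟨_, D.actE i hi⟩
  · simp only [List.mem_cons, List.not_mem_nil, or_false] at hk
    rcases hk with rfl | rfl | rfl
    exacts [⟨_, D.actW⟩, ⟨_, D.actY⟩, ⟨_, D.actG⟩]

theorem orb {t : ℕ} {tr : M24.T} (h : orbC f t tr = true) {a : ℕ} (ha : a < 2048) :
    cl t a < 7 ∧ rep (cl t a) < 2048 ∧ ∃ h k, Act 11 T h k ∧ lin k (rep (cl t a)) = a := by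
  rw [orbC, band_eq, Bool.and_eq_true] at h
  have h2 := ball_zero h.2
  simp only [band_eq, Bool.and_eq_true, lall_iff, force_eq, Nat.beq_eq, Nat.ble_eq] at h2
  have h3 : ∀ i < 7, rep i < 2048 := by decide +kernel
  have h4 := Nat.lt_succ_of_le (h2 a ha).1.2
  refine ⟨h4, h3 _ h4, (for_ind h.1 (P := fun a => a < 2048 ∧ ∃ h k, Act 11 T h k ∧ lin k (rep (cl t a)) = a)
    (fun k hk => ?_) (fun s hs k hk => ?_) a (M24.T.has_sound (h2 a ha).1.1)).2⟩
  · simp only [band_eq, Bool.and_eq_true, Nat.beq_eq, Nat.ble_eq] at hk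
    exact ⟨by omega, 1, idm, D.co.act_one, by rw [← hk.2, lin_idm (by omega)]⟩
  · obtain ⟨x, hx⟩ := D.real_gJ s hs
    obtain ⟨a1, x', k', a2, a3⟩ := hk
    exact ⟨(hx k a1).2, _, _, hx.mul a2, by rw [(h2 k a1).2 s hs, lin_mm, a3]⟩

theorem Λ_eq_one {c : ℕ} (hc : c < 2048) : Λ (T c) = 1 ↔ c &&& 960 = 0 := by
  rw [← gcR.inj.eq_iff, D.ΛT c hc, gcR.code_one]
  have := ball_zero (show ball (fun c => Nat.beq (b2n (Nat.beq (lget lW 0 ((c >>> 6) &&& 15)) rone))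
    (b2n (Nat.beq (c &&& 960) 0))) 11 0 = true by decide +kernel) c hc
  rw [Nat.beq_eq, b2n_eq, b2n_eq] at this
  rw [← Nat.beq_eq, ← Nat.beq_eq (x := c &&& 960)]
  split_ifs at this <;> simp_all

end VC

namespace GM

variable {G H : Type*} [Group G] [Group H] {ι : H →* G} {z ω : H} {s : ℕ → H} {Λ : H →* R} (M : GM ι z ω s Λ)
  {y g : H} {T : ℕ → H} {f : ℕ} (D : VC M.toHM y g T f)
include M D

theorem coV : Co M.V 11 fun a => ι (T a) := D.co.map M.inj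

theorem exists_act [Finite G] {a : ℕ} (ha : a < 2048) (h : IsConj (ι z) (ι (T a))) :
    ∃ n k, Act 11 (fun a => ι (T a)) n k ∧ lin k 1024 = a := by
  obtain ⟨x, hx⟩ := isConj_iff.1 h
  obtain ⟨n, hn, e⟩ := M.fusion_V M.z_mem_V (g := x) (hx ▸ (M.coV D).mem a)
  obtain ⟨k, hk⟩ := (M.coV D).exists_act hn
  have : n * ι (T 1024) * n⁻¹ = ι (T (lin k 1024)) ∧ _ := hk 1024 (by norm_num)
  refine ⟨n, k, hk, (M.coV D).eq this.2 ha ?_⟩
  rw [← this.1, D.Tz, e, hx]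

theorem not_conj_20 [Finite G] : ¬ IsConj (ι z) (ι (T 20)) := fun h => by
  obtain ⟨r, lC, lD, wC, tR, tF, hc⟩ : ∃ r lC lD wC tR tF, exC f r lC lD wC tR tF = true := by
    rcases D.hf with rfl | rfl
    exacts [⟨_, _, _, _, _, _, exC0⟩, ⟨_, _, _, _, _, _, exC6⟩]
  obtain ⟨n, k, hk', e⟩ := M.exists_act D (by norm_num) h
  have hk : ∀ a < 2048, n * ι (T a) * n⁻¹ = ι (T (lin k a)) ∧ lin k a < 2048 := hk'
  have C := M.coV D
  have hz : n * ι z * n⁻¹ = ι (T 20) := by have := (hk 1024 (by norm_num)).1; rwa [e, D.Tz] at this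
  simp only [exC, band_eq, Bool.and_eq_true, lall_iff, lany_iff, bor_eq, Bool.or_eq_true, Nat.beq_eq, nall_iff] at hc
  obtain ⟨⟨c1, c2⟩, ⟨c3, c4, c5⟩, c6, c7⟩ := hc
  have c8 := words_ind c1 (P := fun k => ∃ h, Act 11 T h k) ⟨1, D.co.act_one⟩
    (fun _ _ ⟨_, a⟩ ⟨_, b⟩ => ⟨_, a.mul b⟩) D.real_gJ
  let P : ℕ → Prop := fun c => c < 2048 ∧ n⁻¹ * ι (T c) * n ∈ Λ.ker.map ι
  have Px : ∀ a b, P a → P b → P (a ^^^ b) := fun a b h1 h2 => ⟨Nat.xor_lt_two_pow (n := 11) h1.1 h2.1, by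
    rw [D.co.mul, map_mul, show n⁻¹ * (ι (T a) * ι (T b)) * n = n⁻¹ * ι (T a) * n * (n⁻¹ * ι (T b) * n) by group]
    exact mul_mem h1.2 h2.2⟩
  have Pc : ∀ s ∈ lC, ∀ a, P a → P (lin s a) := fun s hs a ha => by
    obtain ⟨x, hx⟩ := c8 s hs
    have h1 := (hx 20 (by norm_num)).1
    rw [Nat.eq_of_beq_eq_true (c2 s hs)] at h1
    obtain ⟨x', e'⟩ := M.surj (n⁻¹ * ι x * n) (by
      have h2 := congrArg ι h1
      rw [map_mul, map_mul, map_inv, ← hz] at h2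
      calc _ = n⁻¹ * (ι x * (n * ι z * n⁻¹) * (ι x)⁻¹) * ι x * n := by group
        _ = _ := by rw [h2]; group)
    obtain ⟨w, hw, e2⟩ := ha.2
    refine ⟨(hx a ha.1).2, x' * w * x'⁻¹, Λ.normal_ker.conj_mem _ hw _, ?_⟩
    rw [← (hx a ha.1).1]; simp only [map_mul, map_inv, e', e2]; group
  have Pd : ∀ s ∈ lD, ∀ a, P a → P (lin s a) := fun s hs a ha => by
    obtain ⟨c, hc, e | e⟩ := c3 s hs <;> rw [e]
    · exact Pc c hc a ha
    · rw [xor_lin, lin_idm (by have := ha.1; omega)]; exact Px _ _ (Pc c hc a ha) ha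
  have P7 : ∀ a, P a → a &&& 960 = 0 := fun a ha => by
    have h1 := ball_zero c6 a ha.1
    simp only [bor_eq, Bool.or_eq_true, Nat.beq_eq] at h1
    refine h1.resolve_right fun h1 => ?_
    have h2 := conn_ind c5 (rev_ind c4 Pd a (M24.T.has_sound h1) ha) Pd
    have h3 := bits_induction (n := 11) (P := P) ⟨by norm_num, by simp [D.co.zero]⟩
      (fun i hi => h2 _ (M24.T.has_sound (c7 i hi))) fun x _ y _ => Px x y
    obtain ⟨w, hw, e2⟩ := (h3 _ (hk 64 (by norm_num)).2).2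
    rw [← (hk 64 (by norm_num)).1, ← mul_assoc, ← mul_assoc, inv_mul_cancel, one_mul, inv_mul_cancel_right] at e2
    exact absurd ((D.Λ_eq_one (c := 64) (by norm_num)).1 (M.inj e2 ▸ hw)) (by decide)
  obtain ⟨S, mS⟩ : ∃ S : Finset ℕ, ∀ a, a ∈ S ↔ a < 2048 ∧ a &&& 960 = 0 :=
    ⟨(Finset.range 2048).filter fun a => a &&& 960 = 0, fun a => by rw [Finset.mem_filter, Finset.mem_range]⟩
  have kS : ∀ a ∈ S, lin k a ∈ S := fun a ha => by
    have h1 := hk a ((mS a).1 ha).1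
    refine (mS _).2 ⟨h1.2, P7 _ ⟨h1.2, T a, (D.Λ_eq_one ((mS a).1 ha).1).2 ((mS a).1 ha).2, ?_⟩⟩
    rw [← h1.1]; group
  have sS := Finset.surj_on_of_inj_on_of_card_le (s := S) (t := S) (fun a _ => lin k a) kS
    (fun a b ha hb => C.act_inj hk' ((mS a).1 ha).1 ((mS b).1 hb).1) le_rfl
  obtain ⟨u₀, h0, e0⟩ := sS 1024 ((mS _).2 (by decide))
  obtain ⟨i, hi, j, hj, m, hm, b1, b2⟩ : ∃ i < 6, ∃ j < 6, ∃ m < 64, Bf (64 * m) (u₀ &&& 63) = 0 ∧ Bf (64 * m) (2 ^ j) = 1 := by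
    have : ∀ b < 64, ∃ m < 64, Bf (64 * m) b = 0 ∧ ∃ j < 6, Bf (64 * m) (2 ^ j) = 1 := by decide +kernel
    obtain ⟨m, hm, b1, j, hj, b2⟩ := this _ (and63_lt u₀)
    exact ⟨0, by norm_num, j, hj, m, hm, b1, b2⟩
  have cs : ∀ a ∈ S, s (64 * m) * T a * (s (64 * m))⁻¹ = T a * z ^ Bf (64 * m) (a &&& 63) := fun a ha => by
    have h1 := M.eq_s ((D.Λ_eq_one ((mS a).1 ha).1).2 ((mS a).1 ha).2)
    rw [D.cbT a ((mS a).1 ha).1] at h1
    have h2 := M.s_conj (a := 64 * m) (b := a &&& 63) (by omega) (by have := and63_lt a; omega)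
    rcases h1 with h1 | h1 <;> rw [h1]
    · exact h2
    · rw [← mul_assoc, mul_assoc _ z, ← M.zc, ← mul_assoc, h2, mul_assoc, mul_assoc, M.zc]
  have cx : ∀ a ∈ S, n * ι (s (64 * m)) * n⁻¹ * ι (T (lin k a)) * (n * ι (s (64 * m)) * n⁻¹)⁻¹ =
      ι (T (lin k a)) * ι (T 20) ^ Bf (64 * m) (a &&& 63) := fun a ha => by
    have h1 := congrArg ι (cs a ha)
    rw [← (hk a ((mS a).1 ha).1).1, ← hz, conj_pow, conj_mul (a := ι (T a)), ← map_pow, ← map_mul ι (T a), ← h1]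
    simp only [map_mul, map_inv]; group
  obtain ⟨x, hx⟩ := M.surj (n * ι (s (64 * m)) * n⁻¹) (by
    have := cx u₀ h0
    rwa [b1, pow_zero, mul_one, ← e0, D.Tz, mul_inv_eq_iff_eq_mul] at this)
  have xN : Λ x ∈ NV := M.mem_norm_V.1 (hx ▸ mul_mem (mul_mem (C.act_norm hk') (M.mem_norm_V.2 (by
    rw [M.Λs (by omega)]; exact one_mem _))) (inv_mem (C.act_norm hk')))
  have cy : ∀ a ∈ S, lin (rc (Λ x)) (lin k a &&& 63) = (lin k a &&& 63) ^^^ 20 * Bf (64 * m) (a &&& 63) := fun a ha => by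
    have h1 := cx a ha
    rw [← hx, ← map_inv, ← map_mul, ← map_mul, ← map_pow, ← map_mul] at h1
    have h2 := congrArg M.cb (M.inj h1)
    have h3 := (mS _).1 (kS a ha)
    have h4 := (D.Λ_eq_one h3.1).2 h3.2
    rw [M.cb_conj, M.cb_mul, map_mul, map_mul, h4, mul_one, map_inv, mul_inv_cancel, lin_rc_one (M.cb_lt _),
      lin_rc_one (M.cb_lt _), Nat.xor_comm, ← Nat.xor_assoc, Nat.xor_self, Nat.zero_xor, D.cbT _ h3.1] at h2
    rw [h2]
    have := Bf_le (64 * m) (a &&& 63)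
    interval_cases Bf (64 * m) (a &&& 63) <;> simp [M.cb_one, D.cbT 20]
  have h5 := cy (2 ^ j) ((mS _).2 (by clear b2; revert j; decide))
  rw [no_transv xN (fun u hu => ?_) (and63_lt _), show 2 ^ j &&& 63 = 2 ^ j by clear b2 h5; revert j; decide, b2] at h5
  · exact absurd (Nat.xor_right_inj.1 ((Nat.xor_zero _).trans h5)) (by decide)
  · obtain ⟨a, ha, rfl⟩ := sS u ((mS _).2 (by clear h5; revert u; decide))
    have h6 := cy a ha
    rw [show lin k a &&& 63 = lin k a from (Nat.and_two_pow_sub_one_eq_mod _ 6).trans (Nat.mod_eq_of_lt hu)] at h6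
    have := Bf_le (64 * m) (a &&& 63)
    interval_cases Bf (64 * m) (a &&& 63) <;> simp [h6]

theorem fusion [Finite G] [IsSimpleGroup G] (hG : ¬ IsMulCommutative G) :
    f = 6 ∧ ∀ a < 2048, IsConj (ι z) (ι (T a)) ↔ tbq 102 (cl clT6 a) = true := by
  classical
  have C := M.coV D
  have key : ∀ t tr, orbC f t tr = true → ∀ l, cntC t l = true → ∃ m ∈ l, m ≠ 2 ∧ m.testBit 3 = false ∧
      (∀ a < 2048, IsConj (ι z) (ι (T a)) ↔ tbq m (cl t a) = true) := fun t tr h1 l h2 => by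
    obtain ⟨m, hm, e⟩ : ∃ m < 128, ∀ i < 7, tbq m i = true ↔ IsConj (ι z) (ι (T (rep i))) :=
      ⟨Nat.ofBits fun i : Fin 7 => decide (IsConj (ι z) (ι (T (rep i)))), Nat.ofBits_lt_two_pow _, fun i hi => by
        rw [tbq_iff, Nat.testBit_ofBits_lt _ _ hi]; simp⟩
    have e2 : ∀ a < 2048, IsConj (ι z) (ι (T a)) ↔ tbq m (cl t a) = true := fun a ha => by
      obtain ⟨a1, a2, h, k, a3, a4⟩ := D.orb h1 ha
      have a5 : IsConj (ι (T (rep (cl t a)))) (ι (T a)) := ι.map_isConj (isConj_iff.2 ⟨h, by rw [(a3 _ a2).1, a4]⟩)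
      rw [e _ a1]; exact ⟨fun h => h.trans a5.symm, fun h => h.trans a5⟩
    have e3 : ∀ n k, Act 11 (fun a => ι (T a)) n k → ∀ a < 2 ^ 11, tbq m (cl t (lin k a)) = tbq m (cl t a) :=
      fun n k h a ha => by
        have a5 : IsConj (ι (T a)) (ι (T (lin k a))) := isConj_iff.2 ⟨n, (h a ha).1⟩
        rw [Bool.eq_iff_iff, ← e2 _ (h a ha).2, ← e2 a ha]; exact ⟨fun h => h.trans a5.symm, fun h => h.trans a5⟩
    have h3 := (nall_iff _ _).1 h2 m hm
    have r0 : tbq m 0 = false := by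
      rw [Bool.eq_false_iff, Ne, e 0 (by norm_num), show rep 0 = 0 from rfl, D.co.zero, map_one, isConj_one_left]
      exact fun e => M.ne (M.inj (by rw [e, map_one]))
    have r1 : tbq m 1 = true := by rw [e 1 (by norm_num), show rep 1 = 1024 from rfl, D.Tz]
    simp only [r0, r1, bor_eq, Bool.not_true, Bool.or_self, Bool.false_or, Bool.or_eq_true, lany_beq, force_eq, nany_iff,
      band_eq, Bool.and_eq_true] at h3
    refine ⟨m, h3.resolve_right fun ⟨i, hi, a, b⟩ => ?_, ?_, ?_, e2⟩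
    · obtain ⟨n, k, a1, a2⟩ := M.exists_act D (a := rep i) (by clear a b; revert i; decide +kernel) ((e i hi).1 a)
      rw [← a2, C.cv_eq a1 (e3 n k a1) (e3 n k a1) (by norm_num)] at b
      simp at b
    · rintro rfl
      obtain ⟨h, a1, a2, a3⟩ := M.exists_conj_V hG
      obtain ⟨a, ha, rfl⟩ := D.co.surj h a1
      obtain ⟨b1, b2, x, k, b3, b4⟩ := D.orb h1 ha
      have b5 : ∀ i < 7, tbq 2 i = true → rep i = 1024 := by decide +kernel
      rw [b5 _ b1 ((e2 a ha).1 a3)] at b4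
      exact a2 (by rw [← b4, ← (b3 _ (by norm_num)).1, D.Tz, M.zc, mul_inv_cancel_right])
    · rw [← tbq_iff, Bool.eq_false_iff, Ne, e 3 (by norm_num)]; exact M.not_conj_20 D
  rcases D.hf with rfl | rfl
  · obtain ⟨m, h1, h2, h3, h4⟩ := key _ _ orbC0 _ cntC0
    obtain rfl : m = 66 := by simp only [List.mem_cons, List.not_mem_nil, or_false] at h1; rcases h1 with rfl | rfl | rfl | rfl <;> simp_all <;> exact absurd h3 (by decide)
    have e3 : ∀ n k, Act 11 (fun a => ι (T a)) n k → ∀ a < 2 ^ 11, tbq 66 (cl clT0 (lin k a)) = tbq 66 (cl clT0 a) :=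
      fun n k h a ha => by
        have a5 : IsConj (ι (T a)) (ι (T (lin k a))) := isConj_iff.2 ⟨n, (h a ha).1⟩
        rw [Bool.eq_iff_iff, ← h4 _ (h a ha).2, ← h4 a ha]; exact ⟨fun h => h.trans a5.symm, fun h => h.trans a5⟩
    have e4 : ∀ a < 2048, tbq 8 (cl clT0 a) = Nat.beq (cv clT0 66 66 a) 40 := fun a ha => by
      obtain ⟨a1, a2, h, k, a3, a4⟩ := D.orb orbC0 ha
      have a5 : ∀ i < 7, tbq 8 i = Nat.beq (cv clT0 66 66 (rep i)) 40 := by decide +kernel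
      rw [a5 _ a1, ← C.cv_eq (a3.map ι) (e3 _ k (a3.map ι)) (e3 _ k (a3.map ι)) a2, a4]
    obtain ⟨n, k, a1, a2⟩ := M.exists_act D (a := 83) (by norm_num) ((h4 83 (by norm_num)).2 (by decide +kernel))
    have e5 : ∀ a < 2 ^ 11, tbq 8 (cl clT0 (lin k a)) = tbq 8 (cl clT0 a) := fun a ha => by
      rw [e4 _ (a1 a ha).2, e4 a ha, C.cv_eq a1 (e3 n k a1) (e3 n k a1) ha]
    have := C.cv_eq a1 e5 e5 (x := 1024) (by norm_num)
    rw [a2] at this
    exact absurd this (by decide +kernel)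
  · obtain ⟨m, h1, h2, h3, h4⟩ := key _ _ orbC6 _ cntC6
    obtain rfl : m = 102 := by simp only [List.mem_cons, List.not_mem_nil, or_false] at h1; rcases h1 with rfl | rfl | rfl | rfl <;> simp_all <;> exact absurd h3 (by decide)
    exact ⟨rfl, h4⟩

end GM

end Cfsg.Agent.J4
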