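import Cfsg.Agent.J4.HC

/-!
# Groups of type `J₄`: Sylow 2-subgroups and the subgroup `2¹¹`
-/

set_option autoImplicit false

namespace Cfsg.Agent.J4

open Cfsg.Agent.M24 Cfsg.Agent.TT Cfsg.Agent.GT Subgroup
open scoped Pointwise

/-- `ι` identifies the coordinatised group `H` with the centraliser of `ι z`. -/
structure GM {G H : Type*} [Group G] [Group H] (ι : H →* G) (z ω : H) (s : ℕ → H) (Λ : H →* R) : Prop
    extends HM z ω s Λ where
  inj : Function.Injective ι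
  surj : ∀ g, g * ι z = ι z * g → ∃ h, ι h = g

theorem GM.of_type {G : Type*} [Group G] [Finite G] {z : G} {P : Subgroup G} (hJ : IsOfJankoFourTypeWith z P) :
    ∃ (ω : centralizer ({z} : Set G)) (s : ℕ → centralizer ({z} : Set G))
      (Λ : centralizer ({z} : Set G) →* R), GM (centralizer {z}).subtype ⟨z, self_mem_cent1 z⟩ ω s Λ ∧
        P = zpowers (ω : G) := by
  obtain ⟨ω, s, Λ, M, e⟩ := HM.of_type hJ
  exact ⟨ω, s, Λ, ⟨M, subtype_injective _, fun g hg => ⟨⟨g, mem_cent1.2 hg⟩, rfl⟩⟩, e⟩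

theorem sq_of_elem {G : Type*} [Group G] {F : Subgroup G} (h : IsElementaryAbelian 2 F) : ∀ x ∈ F, x * x = 1 :=
  fun x hx => by rw [← pow_two, h.2 x hx]

theorem elem_of_sq {G : Type*} [Group G] {F : Subgroup G} (h : ∀ x ∈ F, x * x = 1) : IsElementaryAbelian 2 F :=
  ⟨isMulCommutative_iff_forall.2 fun _ hx _ hy => comm_of_sq h hx hy, fun _ hx => by rw [pow_two, h _ hx]⟩

theorem sq_conj {G : Type*} [Group G] {F : Subgroup G} (h : ∀ x ∈ F, x * x = 1) (g : G) :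
    ∀ x ∈ cj[g] F, x * x = 1 := fun x hx => by
  obtain ⟨y, hy, rfl⟩ := mem_conj_iff_exists.1 hx
  rw [conj_mul, h y hy]; simp

theorem pg_of_sq {G : Type*} [Group G] {F : Subgroup G} (h : ∀ x ∈ F, x * x = 1) : IsPGroup 2 F :=
  fun x => ⟨1, Subtype.ext (by simpa [pow_two] using h x x.2)⟩

namespace GM

variable {G H : Type*} [Group G] [Group H] {ι : H →* G} {z ω : H} {s : ℕ → H} {Λ : H →* R} (M : GM ι z ω s Λ)
include M

theorem finH [Finite G] : Finite H := Finite.of_injective _ M.inj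

theorem range_eq_cent : ι.range = C1[ι z] :=
  le_antisymm (by rintro _ ⟨h, rfl⟩; rw [mem_cent1, ← map_mul, M.zc, map_mul]) fun g hg => M.surj g (mem_cent1.1 hg)

/-- The subgroup `2¹¹` of `G`. -/
noncomputable def V : Subgroup G := M.VH.map ι
/-- The subgroup `2¹⁰` of `G`. -/
noncomputable def A : Subgroup G := M.AH.map ι

theorem mem_V {h : H} : ι h ∈ M.V ↔ h ∈ M.VH := mem_map_inj M.inj
theorem mem_A {h : H} : ι h ∈ M.A ↔ h ∈ M.AH := mem_map_inj M.inj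
theorem z_mem_V : ι z ∈ M.V := M.mem_V.2 (M.z_mem_EA _)
theorem z_mem_A : ι z ∈ M.A := M.mem_A.2 (M.z_mem_EA _)
theorem V_sq : ∀ x ∈ M.V, x * x = 1 := by rintro _ ⟨h, hh, rfl⟩; rw [← map_mul, M.EA_sq _ hh, map_one]
theorem A_sq : ∀ x ∈ M.A, x * x = 1 := by rintro _ ⟨h, hh, rfl⟩; rw [← map_mul, M.EA_sq _ hh, map_one]
theorem card_V [Finite G] : Nat.card M.V = 2 ^ 11 := by
  have := M.finH; rw [V, card_map_inj M.inj, M.card_VH]
theorem card_A [Finite G] : Nat.card M.A = 2 ^ 10 := by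
  have := M.finH; rw [A, card_map_inj M.inj, M.card_AH]

theorem cent_EA' {O : Subgroup R} {U : Finset ℕ} (P : Pr O U) : C[(M.EA P).map ι] = (M.EA P).map ι := by
  refine le_antisymm (fun g hg => ?_) (map_le_cent_map (isMulCommutative_iff_le_cent.1 (M.EA_elem P).1) ι)
  obtain ⟨h, rfl⟩ := M.surj g (hg _ (mem_map_of_mem ι (M.z_mem_EA P))).symm
  exact mem_map_of_mem ι (M.cent_EA P fun v hv => (((map_mem_cent_map_iff M.inj).1 hg) v hv).symm)

theorem cent_V : C[M.V] = M.V := M.cent_EA' prV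
theorem cent_A : C[M.A] = M.A := M.cent_EA' prA

theorem mem_norm_V [Finite G] {h : H} : ι h ∈ N[M.V] ↔ Λ h ∈ NV := by
  have := M.finH
  rw [← M.mem_norm_VH]; exact map_mem_norm_map_iff M.inj

theorem norm_V_inf : [Finite G] → N[M.V] ⊓ C1[ι z] = (NV.comap Λ).map ι := by
  intro _
  refine le_antisymm (fun g hg => ?_) ?_
  · obtain ⟨h, rfl⟩ := M.surj g (mem_cent1.1 hg.2)
    exact mem_map_of_mem ι (M.mem_norm_V.1 hg.1)
  · rintro _ ⟨h, hh, rfl⟩
    exact ⟨M.mem_norm_V.2 hh, M.range_eq_cent ▸ ⟨h, rfl⟩⟩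

theorem card_norm_V_inf [Finite G] : Nat.card ↥(N[M.V] ⊓ C1[ι z]) = 2 ^ 11 * 138240 := by
  have := M.finH
  rw [M.norm_V_inf, card_map_inj M.inj, M.card_comap NV_le, card_NV]; norm_num

theorem exists_syl' [Finite G] : ∃ S : Subgroup H, S ≤ NV.comap Λ ∧ Nat.card S = 2 ^ 21 ∧
    IsPiHallOf {2} (S.map ι) ⊤ := by
  have := M.finH
  obtain ⟨S, hS⟩ := exists_syl Nat.prime_two (NV.comap Λ)
  have h0 := card_mul_relIndex (le_top (a := NV.comap Λ))
  rw [card_top, M.card, M.card_comap NV_le, card_NV] at h0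
  have h1 : IsPiHallOf {2} S ⊤ := syl_trans Nat.prime_two hS le_top (by omega)
  have hp := syl_isPGroup Nat.prime_two h1
  have hE : Λ.ker ≤ S := le_syl_of_norm Nat.prime_two h1 M.es.isPGroup le_top le_norm_of_normal
  have h2 : IsPiHallOf {2} (S.map ι) ι.range := syl_mk Nat.prime_two (map_le_range _ _) (hp.map _) (by
    rw [MonoidHom.range_eq_map, relIndex_map_inj M.inj]; exact syl_not_dvd Nat.prime_two h1)
  refine ⟨S, syl_le hS, ?_, syl_top_of_norm_le Nat.prime_two h2 fun g hg => ?_⟩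
  · obtain ⟨n, hn⟩ := IsPGroup.iff_card.1 hp
    have h3 := card_mul_relIndex (le_top (a := S))
    have h4 := syl_not_dvd Nat.prime_two h1
    rw [card_top, M.card, hn] at h3
    have h5 := factorization_eq_of (p := 2) h3.symm h4
    rw [factorization_eq_of (p := 2) (a := 21) (m := 10395) (by norm_num) (by norm_num)] at h5
    rw [hn, ← h5]
  · obtain ⟨h, hh, e⟩ := conj_mem_of_mem_norm hg (mem_map_of_mem ι (hE M.Λz))
    have h3 := M.cent_E (h := h) fun a ha => M.inj (by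
      obtain ⟨k, -, e2⟩ := conj_mem_of_mem_norm (inv_mem hg) (mem_map_of_mem ι (hE (M.Λs ha)))
      have := congrArg ι (M.zc k)
      rw [map_mul, map_mul, e2] at this
      rw [map_mul, map_mul, e]
      calc _ = g * (ι z * (g⁻¹ * ι (s a) * g⁻¹⁻¹)) * g⁻¹ := by group
        _ = _ := by rw [← this]; group)
    rcases h3 with rfl | rfl
    · exact absurd (M.inj (by simpa using e.symm)) M.ne
    · exact M.surj g (mul_inv_eq_iff_eq_mul.1 e.symm)

theorem conj_le_syl [Finite G] {T : Subgroup G} (hT : IsPGroup 2 T) : ∃ g, cj[g] T ≤ (NV.comap Λ).map ι := by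
  obtain ⟨S, h1, -, h2⟩ := M.exists_syl'
  obtain ⟨g, -, h3⟩ := syl_exists_conj_le Nat.prime_two h2 hT le_top
  exact ⟨g, h3.trans (map_mono h1)⟩

theorem eq_V_of_le [Finite G] {F : Subgroup G} (hF : ∀ x ∈ F, x * x = 1) (hc : 2 ^ 11 ≤ Nat.card F)
    (h : F ≤ (NV.comap Λ).map ι) : F = M.V := by
  have := M.finH
  have h1 : (F.comap ι).map ι = F := map_comap_eq_self (h.trans (map_le_range _ _))
  rw [← h1, V, M.eq_VH (F := F.comap ι) (fun x hx => M.inj (by rw [map_mul, hF _ hx, map_one]))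
    (by rwa [← card_map_inj M.inj, h1]) fun x hx => M.mem_norm_VH.2 ((mem_map_inj M.inj).1 (h hx))]

theorem uniq11 [Finite G] {T F F' : Subgroup G} (hT : IsPGroup 2 T) (hF : ∀ x ∈ F, x * x = 1)
    (hc : 2 ^ 11 ≤ Nat.card F) (h : F ≤ T) (hF' : ∀ x ∈ F', x * x = 1) (hc' : 2 ^ 11 ≤ Nat.card F') (h' : F' ≤ T) :
    F = F' := by
  obtain ⟨g, hg⟩ := M.conj_le_syl hT
  rw [← conj_inj (g := g), M.eq_V_of_le (sq_conj hF g) (by rwa [card_conj]) ((conj_mono g h).trans hg),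
    M.eq_V_of_le (sq_conj hF' g) (by rwa [card_conj]) ((conj_mono g h').trans hg)]

theorem conj_eq_V [Finite G] {F : Subgroup G} (hF : ∀ x ∈ F, x * x = 1) (hc : 2 ^ 11 ≤ Nat.card F) :
    ∃ g, cj[g] F = M.V := by
  obtain ⟨g, hg⟩ := M.conj_le_syl (pg_of_sq hF)
  exact ⟨g, M.eq_V_of_le (sq_conj hF g) (by rwa [card_conj]) hg⟩

theorem eq_V_of_norm [Finite G] {F : Subgroup G} (hF : ∀ x ∈ F, x * x = 1) (hc : 2 ^ 11 ≤ Nat.card F)
    (h : F ≤ N[M.V]) : F = M.V :=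
  M.uniq11 (T := F ⊔ M.V) (IsPGroup.to_sup_of_normal_right' (pg_of_sq hF) (pg_of_sq M.V_sq) h) hF hc le_sup_left
    M.V_sq M.card_V.ge le_sup_right

theorem exists_eleven [Finite G] (T : Sylow 2 G) :
    ∃! V : Subgroup G, V ≤ (T : Subgroup G) ∧ IsElementaryAbelian 2 V ∧ Nat.card V = 2 ^ 11 := by
  obtain ⟨g, -, hg⟩ := syl_exists_conj_le Nat.prime_two (syl_top_of_sylow Nat.prime_two T) (pg_of_sq M.V_sq) le_top
  have h1 : Nat.card (cj[g] M.V) = 2 ^ 11 := by rw [card_conj, M.card_V]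
  exact ⟨cj[g] M.V, ⟨hg, elem_of_sq (sq_conj M.V_sq g), h1⟩, fun F hF =>
    M.uniq11 T.isPGroup' (sq_of_elem hF.2.1) hF.2.2.ge hF.1 (sq_conj M.V_sq g) h1.ge hg⟩

/-- The normaliser of `V` controls fusion in `V`. -/
theorem fusion_V [Finite G] {a g : G} (ha : a ∈ M.V) (hb : g * a * g⁻¹ ∈ M.V) :
    ∃ n ∈ N[M.V], n * a * n⁻¹ = g * a * g⁻¹ := by
  have hc : ∀ x ∈ M.V, M.V ≤ C1[x] := fun x hx y hy => mem_cent1.2 (comm_of_sq M.V_sq hy hx)
  obtain ⟨P, hP, h1⟩ := exists_syl_ge Nat.prime_two (pg_of_sq M.V_sq) (hc _ hb)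
  obtain ⟨c, hc', h2⟩ := syl_exists_conj_le Nat.prime_two hP (pg_of_sq (sq_conj M.V_sq g))
    (by rw [← conj_cent1]; exact conj_mono g (hc a ha))
  rw [← mul_conj] at h2
  refine ⟨c * g, conj_eq_self_iff.1 (M.uniq11 (syl_isPGroup Nat.prime_two hP) (sq_conj M.V_sq _)
    (by rw [card_conj, M.card_V]) h2 M.V_sq M.card_V.ge h1), ?_⟩
  rw [mul_inv_rev, mul_assoc c, mul_assoc c, ← mul_assoc _ g⁻¹, ← mul_assoc c, mem_cent1.1 hc', mul_inv_cancel_right]

end GM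

end Cfsg.Agent.J4
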