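import Cfsg.Agent.J4.HM
import Cfsg.Agent.J4.L1

/-!
# Computing in `2¹⁺¹².3.M₂₂.2`
-/

set_option autoImplicit false

namespace Cfsg.Agent.J4

open Cfsg.Agent.M24 Cfsg.Agent.TT Cfsg.Agent.GT Subgroup

theorem be_zero_left (a : ℕ) : be 0 a = 0 := by rw [be, lin_zero, Bf_zero_left]
theorem be_zero_right (a : ℕ) : be a 0 = 0 := by rw [be, Bf_zero_right]

theorem be_symm {a b : ℕ} (ha : a < 4096) (hb : b < 4096) : be a b = be b a ^^^ Bf a b := by
  have e : lin kW2 a = lin kW a ^^^ a := by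
    have := xor_W ha
    rw [Nat.xor_eq_zero_iff] at this
    rw [← this, Nat.xor_comm]
  have e2 : lin kW (lin kW2 b) = b := by
    rw [← rc_rW2, ← rc_rW, ← lin_rc_mul, ← mul_assoc, rW3, lin_rc_one hb]
  rw [be, be, e, Bf_xor_left, ← Bf_W (lin_lt kW2 b) ha, e2, Bf_comm b]

theorem Bf_pow (b : ℕ) : ∀ i < 12, Bf b (2 ^ i) = (b >>> ((i + 6) % 12)) &&& 1 := by
  have h : ∀ i < 12, ∀ j < 12, Bf (2 ^ j) (2 ^ i) = ((2 ^ j) >>> ((i + 6) % 12)) &&& 1 := by decide +kernel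
  intro i hi
  have h2 : ∀ b < 4096, Bf b (2 ^ i) = (b >>> ((i + 6) % 12)) &&& 1 :=
    ind12 (by simp [Bf_zero_left]) (h i hi) fun x _ y _ h1 h2 => by
      rw [Bf_xor_left, h1, h2, Nat.shiftRight_xor_distrib, Nat.and_xor_distrib_right]
  have h3 : Bf b (2 ^ i) = Bf (b % 4096) (2 ^ i) := by
    rw [Bf_def, Bf_def]
    congr 1
    apply Nat.eq_of_testBit_eq
    intro t
    by_cases ht : t < 6
    · simp only [Nat.testBit_and, Nat.testBit_xor, Nat.testBit_shiftRight, show 4096 = 2 ^ 12 from rfl,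
        Nat.testBit_mod_two_pow, show t < 12 by omega, show 6 + t < 12 by omega, decide_true, Bool.true_and]
    · simp only [Nat.testBit_and, show 63 = 2 ^ 6 - 1 from rfl, Nat.testBit_two_pow_sub_one, ht]; simp
  rw [h3, h2 _ (Nat.mod_lt _ (by norm_num))]
  apply Nat.eq_of_testBit_eq
  intro t
  rcases t with _ | t
  · simp only [Nat.testBit_and, Nat.testBit_shiftRight, show 4096 = 2 ^ 12 from rfl, Nat.testBit_mod_two_pow,
      show (i + 6) % 12 + 0 < 12 from Nat.mod_lt _ (by norm_num), decide_true, Bool.true_and]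
  · simp only [Nat.testBit_and, tb1, Bool.and_false]

theorem Bf_nondeg {b : ℕ} (hb : b < 4096) (h : ∀ i < 12, Bf b (2 ^ i) = 0) : b = 0 := by
  have := ball_zero (show ball (fun b => bor (Nat.beq b 0) (nany 12 fun i => Nat.beq (Bf b (2 ^ i)) 1)) 12 0
    = true by decide +kernel) b hb
  simp only [bor_eq, Bool.or_eq_true, Nat.beq_eq, nany_iff] at this
  rcases this with e | ⟨i, hi, e⟩
  · exact e
  · rw [h i hi] at e; omega

theorem lt64_of_perp {b : ℕ} (hb : b < 4096) (h : ∀ i < 6, Bf b (2 ^ i) = 0) : b < 64 := by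
  have := ball_zero (show ball (fun b => bor (Nat.ble b 63) (nany 6 fun i => Nat.beq (Bf b (2 ^ i)) 1)) 12 0
    = true by decide +kernel) b hb
  simp only [bor_eq, Bool.or_eq_true, Nat.beq_eq, nany_iff, Nat.ble_eq] at this
  rcases this with e | ⟨i, hi, e⟩
  · omega
  · rw [h i hi] at e; omega

theorem Qf_lt64 : ∀ u < 64, Qf u = 0 := by decide +kernel
theorem Bf_lt64 {u v : ℕ} (hu : u < 64) (hv : v < 64) : Bf u v = 0 := by
  rw [Bf_eq, Qf_lt64 u hu, Qf_lt64 v hv, Qf_lt64 _ (Nat.xor_lt_two_pow (n := 6) hu hv)]; rfl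

theorem es_abelian_le {G : Type*} [Group G] [Finite G] {Q W : Subgroup G} {z : G} (h : ES Q z)
    (hW : W ≤ Q) (hz : z ∈ W) (hab : ∀ x ∈ W, ∀ y ∈ W, Commute x y) :
    Nat.card W * Nat.card W ≤ 2 * Nat.card Q := by
  have hn : (W.subgroupOf Q).Normal := normal_subgroupOf (h.le_norm hW hz)
  have sym : ∀ a b : Q, h.chi a b = h.chi b a := fun a b => by
    classical exact if_congr Commute.symm_iff rfl rfl
  let φ : W →* (Q ⧸ W.subgroupOf Q →* ℂˣ) :=
    { toFun := fun w => QuotientGroup.lift _ (h.chi ⟨w, hW w.2⟩) fun y hy =>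
        (h.chi_eq_one _ _).2 (hab _ hy _ w.2)
      map_one' := by
        ext y
        simp only [MonoidHom.comp_apply, QuotientGroup.mk'_apply, QuotientGroup.lift_mk,
          MonoidHom.one_apply]
        exact congrArg _ ((h.chi_eq_one _ _).2 (Commute.one_right _))
      map_mul' := fun a b => by
        refine QuotientGroup.monoidHom_ext _ (MonoidHom.ext fun y => ?_)
        change h.chi ⟨_, hW (a * b).2⟩ y = h.chi ⟨_, hW a.2⟩ y * h.chi ⟨_, hW b.2⟩ y
        rw [sym, sym _ y, sym _ y, ← map_mul]; rfl }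
  have h1 : Nat.card φ.ker ≤ 2 := by
    rw [← card_zpowers_two h.zz h.ne, ← card_map_of_injective W.subtype_injective]
    refine card_le_of_le ?_
    rintro _ ⟨w, hw, rfl⟩
    refine h.mem_zp.2 (h.cent _ (hW w.2) fun y hy => ?_)
    have := DFunLike.congr_fun (MonoidHom.mem_ker.1 hw) (QuotientGroup.mk ⟨y, hy⟩)
    exact ((h.chi_eq_one _ _).1 this).symm
  have h2 : Nat.card (Q ⧸ W.subgroupOf Q →* ℂˣ) = Nat.card (Abelianization (Q ⧸ W.subgroupOf Q)) := by
    rw [Nat.card_congr (Abelianization.lift (G := Q ⧸ W.subgroupOf Q) (A := ℂˣ))]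
    have : NeZero (Monoid.exponent (Abelianization (Q ⧸ W.subgroupOf Q))) :=
      ⟨Monoid.exponent_ne_zero_of_finite⟩
    exact CommGroup.card_monoidHom_of_hasEnoughRootsOfUnity _ ℂ
  have h3 : Nat.card (Abelianization (Q ⧸ W.subgroupOf Q)) ≤ W.relIndex Q :=
    Nat.card_le_card_of_surjective Abelianization.of fun x => Quot.exists_rep x
  have hfin : Finite (Q ⧸ W.subgroupOf Q →* ℂˣ) :=
    Nat.finite_of_card_ne_zero (by rw [h2]; exact Nat.card_pos.ne')
  have h4 : Nat.card φ.range ≤ W.relIndex Q := (card_le_card_group _).trans (h2 ▸ h3)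
  have h5 := φ.ker.card_mul_index
  rw [index_ker] at h5
  rw [← card_mul_relIndex hW]
  calc Nat.card W * Nat.card W = Nat.card W * (Nat.card φ.ker * Nat.card φ.range) := by rw [h5]
    _ ≤ Nat.card W * (2 * W.relIndex Q) := by gcongr
    _ = _ := by ring

theorem mem_zp_three {G : Type*} [Group G] {w x : G} (hw : w ^ 3 = 1) (hx : x ∈ zpowers w) :
    x = 1 ∨ x = w ∨ x = w * w := by
  obtain ⟨k, rfl⟩ := hx
  have h1 : w ^ k = w ^ (k % 3) := by
    conv_lhs => rw [← Int.emod_add_mul_ediv k 3, zpow_add, zpow_mul]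
    rw [show w ^ (3 : ℤ) = 1 from by exact_mod_cast hw]; simp
  have h2 : k % 3 = 0 ∨ k % 3 = 1 ∨ k % 3 = 2 := by omega
  rcases h2 with e | e | e <;> simp only [h1, e] <;> simp [zpow_ofNat, pow_two]

namespace HM

variable {H : Type*} [Group H] {z ω : H} {s : ℕ → H} {Λ : H →* R} (M : HM z ω s Λ)
include M

theorem zx (x y : ℕ) : z ^ (x ^^^ y) = z ^ x * z ^ y := zpow_xor M.zz x y
theorem zpc (n : ℕ) (h : H) : h * z ^ n = z ^ n * h := (Commute.pow_right (M.zc h) n)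
theorem zinv : z⁻¹ = z := inv_eq_of_mul_eq_one_right M.zz
theorem zp_cases (n : ℕ) : z ^ n = 1 ∨ z ^ n = z := by
  induction n with
  | zero => simp
  | succ n ih => rcases ih with e | e <;> simp [pow_succ, e, M.zz]
theorem zp_sq (n : ℕ) : z ^ n * z ^ n = 1 := by rcases M.zp_cases n with e | e <;> simp [e, M.zz]
theorem zp_eq_one {n : ℕ} (hn : n ≤ 1) : z ^ n = 1 ↔ n = 0 := by
  interval_cases n <;> simp [M.ne]
theorem zp_inj {m n : ℕ} (hm : m ≤ 1) (hn : n ≤ 1) (h : z ^ m = z ^ n) : m = n := by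
  have := M.ne
  interval_cases m <;> interval_cases n <;> simp_all [eq_comm]

theorem s0 : s 0 = 1 := by
  have := M.s_mul 0 (by norm_num) 0 (by norm_num)
  rw [be_zero_left] at this; simpa using this

theorem s_sq {a : ℕ} (ha : a < 4096) : s a * s a = z ^ Qf a := by
  rw [M.s_mul a ha a ha, Nat.xor_self, M.s0, one_mul, be_self ha]

theorem s_inv {a : ℕ} (ha : a < 4096) : (s a)⁻¹ = s a * z ^ Qf a :=
  inv_eq_of_mul_eq_one_right (by rw [← mul_assoc, M.s_sq ha, M.zp_sq])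

theorem s_comm {a b : ℕ} (ha : a < 4096) (hb : b < 4096) : s a * s b = s b * s a * z ^ Bf a b := by
  rw [M.s_mul a ha b hb, M.s_mul b hb a ha, be_symm ha hb, M.zx, Nat.xor_comm a b, mul_assoc]

theorem s_conj {a b : ℕ} (ha : a < 4096) (hb : b < 4096) : s a * s b * (s a)⁻¹ = s b * z ^ Bf a b := by
  rw [M.s_comm ha hb, mul_assoc (s b), M.zpc, ← mul_assoc]; simp

theorem Λs {a : ℕ} (ha : a < 4096) : Λ (s a) = 1 := (M.ker _).2 ⟨a, ha, .inl rfl⟩
theorem Λz : Λ z = 1 := (M.ker _).2 ⟨0, by norm_num, .inr (by rw [M.s0, one_mul])⟩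
theorem Λzp (n : ℕ) : Λ (z ^ n) = 1 := by rw [map_pow, M.Λz, one_pow]

theorem z_mem : z ∈ normalizer (zpowers ω : Set H) :=
  centralizer_le_normalizer _ fun h _ => M.zc h

theorem conj_ω {l : H} (hl : l ∈ normalizer (zpowers ω : Set H)) (h : Λ l * rW = rW * Λ l) : l * ω = ω * l := by
  have hk := mem_zp_three M.ω3 ((mem_normalizer_iff.1 hl ω).1 (mem_zpowers ω))
  have h1 : Λ (l * ω * l⁻¹) = rW := by rw [map_mul, map_mul, M.Λω, h, map_inv, mul_inv_cancel_right]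
  rcases hk with e | e | e
  · rw [e, map_one] at h1; exact absurd (by rw [← h1, one_mul]) rW_ne
  · exact mul_inv_eq_iff_eq_mul.1 e
  · rw [e, map_mul, M.Λω] at h1; exact absurd h1.symm rW_ne

omit M in
theorem ω_mem : ω ∈ normalizer (zpowers ω : Set H) := le_normalizer (mem_zpowers ω)

theorem ker_norm {l : H} (hl : l ∈ normalizer (zpowers ω : Set H)) (h : Λ l = 1) : l = 1 ∨ l = z := by
  have h1 := M.conj_ω hl (by rw [h]; simp)
  obtain ⟨a, ha, e⟩ := (M.ker l).1 h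
  have h2 : ω * s a * ω⁻¹ = s a := by
    rcases e with e | e <;> rw [e] at h1
    · rw [← h1]; simp
    · rw [mul_assoc, ← M.zc, ← mul_assoc, ← mul_assoc, mul_left_inj] at h1
      rw [← h1]; simp
  have h3 := M.conj ω ω_mem a ha
  rw [h2, M.Λω, rc_rW] at h3
  have h4 : s (a ^^^ lin kW a) = 1 ∨ s (a ^^^ lin kW a) = z := by
    have h5 := M.s_mul a ha _ (lin_lt kW a)
    have h6 : s (lin kW a) = s a * z ^ (ou kW * Qf a) := by
      rw [h3, mul_assoc, M.zp_sq, mul_one]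
    rw [h6, ← mul_assoc, M.s_sq ha, ← pow_add] at h5
    have h7 : s (a ^^^ lin kW a) = z ^ (Qf a + ou kW * Qf a + be a (lin kW a)) := by
      rw [pow_add, h5, mul_assoc, M.zp_sq, mul_one]
    rw [h7]; exact M.zp_cases _
  have h5 := M.s_inj _ (xor_lt12 ha (lin_lt _ _)) h4
  have h6 := xor_W ha
  rw [h5, Nat.zero_xor, ← lin_WW, ← Nat.xor_eq_zero_iff.1 h5, ← Nat.xor_eq_zero_iff.1 h5] at h6
  rw [h6, M.s0] at e; simpa using e

theorem dec (h : H) : ∃ b < 4096, ∃ l ∈ normalizer (zpowers ω : Set H), h = s b * l := by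
  obtain ⟨l, hl, e⟩ := M.lift _ (M.mem h)
  obtain ⟨a, ha, e2⟩ := (M.ker (h * l⁻¹)).1 (by rw [map_mul, map_inv, e, mul_inv_cancel])
  rcases e2 with e2 | e2
  · exact ⟨a, ha, l, hl, by rw [← e2]; simp⟩
  · exact ⟨a, ha, z * l, mul_mem M.z_mem hl, by rw [← mul_assoc, ← e2]; simp⟩

/-- The vector coordinate of an element. -/
noncomputable def cb (h : H) : ℕ := (M.dec h).choose

theorem cb_lt (h : H) : M.cb h < 4096 := (M.dec h).choose_spec.1

theorem cb_dec (h : H) : ∃ l ∈ normalizer (zpowers ω : Set H), h = s (M.cb h) * l ∧ Λ l = Λ h := by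
  obtain ⟨l, hl, e⟩ := (M.dec h).choose_spec.2
  refine ⟨l, hl, e, ?_⟩
  conv_rhs => rw [e, map_mul, M.Λs (M.dec h).choose_spec.1, one_mul]

theorem cb_eq {b : ℕ} (hb : b < 4096) {l : H} (hl : l ∈ normalizer (zpowers ω : Set H)) : M.cb (s b * l) = b := by
  obtain ⟨m, hm, e, e2⟩ := M.cb_dec (s b * l)
  have hc := M.cb_lt (s b * l)
  generalize M.cb (s b * l) = c at *
  rw [map_mul, M.Λs hb, one_mul] at e2
  have h1 := M.ker_norm (mul_mem hm (inv_mem hl)) (by rw [map_mul, map_inv, e2, mul_inv_cancel])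
  have h2 : s c * s b = z ^ Qf c * (m * l⁻¹) := by
    rw [← M.s_sq hc, mul_assoc, ← mul_assoc (s c) m, ← e]; simp
  have h3 : s (c ^^^ b) = z ^ (Qf c + be c b) * (m * l⁻¹) := by
    rw [M.s_mul c hc b hb] at h2
    rw [add_comm, pow_add, mul_assoc, ← h2, M.zpc, ← mul_assoc, M.zp_sq, one_mul]
  refine Nat.xor_eq_zero_iff.1 (M.s_inj _ (xor_lt12 hc hb) ?_)
  rw [h3]
  rcases h1 with e | e <;> rcases M.zp_cases (Qf c + be c b) with e' | e' <;> simp [e, e', M.zz]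

theorem cb_norm {l : H} (hl : l ∈ normalizer (zpowers ω : Set H)) : M.cb l = 0 := by
  have := M.cb_eq (b := 0) (by norm_num) hl
  rwa [M.s0, one_mul] at this

theorem cb_s {b : ℕ} (hb : b < 4096) : M.cb (s b) = b := by
  have := M.cb_eq hb (one_mem _); rwa [mul_one] at this

theorem cb_one : M.cb 1 = 0 := M.cb_norm (one_mem _)
theorem cb_zp (n : ℕ) : M.cb (z ^ n) = 0 := M.cb_norm (pow_mem M.z_mem n)

theorem mem_norm_of_cb {h : H} (e : M.cb h = 0) : h ∈ normalizer (zpowers ω : Set H) := by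
  obtain ⟨l, hl, e2, -⟩ := M.cb_dec h
  rw [e, M.s0, one_mul] at e2; rwa [e2]

theorem cb_mul (h k : H) : M.cb (h * k) = M.cb h ^^^ lin (rc (Λ h)) (M.cb k) := by
  obtain ⟨l, hl, e, e2⟩ := M.cb_dec h
  obtain ⟨m, hm, e3, -⟩ := M.cb_dec k
  have hb := M.cb_lt h
  have hc := M.cb_lt k
  generalize M.cb h = b at *
  generalize M.cb k = c at *
  have h1 : h * k = s (b ^^^ lin (rc (Λ h)) c) * (z ^ be b (lin (rc (Λ h)) c) * (z ^ (ou (rc (Λ l)) * Qf c) * (l * m))) := by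
    rw [← mul_assoc, ← M.s_mul b hb _ (lin_lt _ _), ← e2, mul_assoc, ← mul_assoc (s (lin _ _)), ← M.conj l hl c hc,
      e, e3]
    simp [mul_assoc]
  rw [h1, M.cb_eq (xor_lt12 hb (lin_lt _ _))
    (mul_mem (pow_mem M.z_mem _) (mul_mem (pow_mem M.z_mem _) (mul_mem hl hm)))]

theorem cb_mul_zp (h : H) (n : ℕ) : M.cb (h * z ^ n) = M.cb h := by rw [M.cb_mul, M.cb_zp, lin_zero, Nat.xor_zero]
theorem cb_mul_z (h : H) : M.cb (h * z) = M.cb h := by simpa using M.cb_mul_zp h 1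

theorem cb_inv (h : H) : M.cb h⁻¹ = lin (rc (Λ h)⁻¹) (M.cb h) := by
  have := M.cb_mul h⁻¹ h
  rw [inv_mul_cancel, M.cb_one, map_inv] at this
  exact Nat.xor_eq_zero_iff.1 this.symm

theorem cb_conj (g h : H) : M.cb (g * h * g⁻¹) =
    M.cb g ^^^ lin (rc (Λ g)) (M.cb h) ^^^ lin (rc (Λ (g * h * g⁻¹))) (M.cb g) := by
  rw [M.cb_mul, M.cb_mul, M.cb_inv, ← lin_rc_mul, map_mul _ _ g⁻¹, map_inv]

theorem eq_of_crd {h k : H} (e1 : M.cb h = M.cb k) (e2 : Λ h = Λ k) : h = k ∨ h = k * z := by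
  obtain ⟨l, hl, e, e3⟩ := M.cb_dec h
  obtain ⟨m, hm, e4, e5⟩ := M.cb_dec k
  have h1 := M.ker_norm (mul_mem (inv_mem hm) hl) (by rw [map_mul, map_inv, e3, e5, e2, inv_mul_cancel])
  rw [e, e4, e1]
  rcases h1 with e | e
  · left; rw [inv_mul_eq_one.1 e]
  · right; rw [mul_assoc, inv_mul_eq_iff_eq_mul.1 e]

theorem eq_s {h : H} (e : Λ h = 1) : h = s (M.cb h) ∨ h = s (M.cb h) * z :=
  M.eq_of_crd (M.cb_s (M.cb_lt h)).symm (by rw [e, M.Λs (M.cb_lt h)])

theorem conj_s (h : H) {a : ℕ} (ha : a < 4096) : h * s a * h⁻¹ =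
    s (lin (rc (Λ h)) a) * z ^ (ou (rc (Λ h)) * Qf a ^^^ Bf (M.cb h) (lin (rc (Λ h)) a)) := by
  obtain ⟨l, hl, e, e2⟩ := M.cb_dec h
  have h1 : h * s a * h⁻¹ = s (M.cb h) * (l * s a * l⁻¹) * (s (M.cb h))⁻¹ := by
    conv_lhs => rw [e]
    simp [mul_assoc]
  rw [h1, M.conj l hl a ha, e2, ← mul_assoc, mul_assoc _ (z ^ _), ← M.zpc, ← mul_assoc,
    M.s_conj (M.cb_lt h) (lin_lt _ _), Nat.xor_comm, M.zx, mul_assoc]

/-- An element commuting with `s a` fixes `a`. -/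
theorem comm_s {h : H} {a : ℕ} (ha : a < 4096) (e : h * s a = s a * h) :
    lin (rc (Λ h)) a = a ∧ ou (rc (Λ h)) * Qf a = Bf (M.cb h) a := by
  have h1 := M.conj_s h ha
  rw [e, mul_inv_cancel_right] at h1
  have h2 := congrArg M.cb h1
  rw [M.cb_mul_zp, M.cb_s ha, M.cb_s (lin_lt _ _)] at h2
  rw [← h2, eq_comm, mul_eq_left] at h1
  refine ⟨h2.symm, Nat.xor_eq_zero_iff.1 ((M.zp_eq_one ?_).1 h1)⟩
  exact Nat.lt_succ_iff.1 (Nat.xor_lt_two_pow (n := 1)
    (by have := ou_le (rc (Λ h)); have := Qf_le a; nlinarith) (by have := Bf_le (M.cb h) a; omega))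

theorem comm_s_of {h : H} {a : ℕ} (ha : a < 4096) (e1 : lin (rc (Λ h)) a = a)
    (e2 : ou (rc (Λ h)) * Qf a = Bf (M.cb h) a) : h * s a = s a * h := by
  have h1 := M.conj_s h ha
  rw [e1, e2, Nat.xor_self, pow_zero, mul_one] at h1
  exact mul_inv_eq_iff_eq_mul.1 h1

theorem cent_E {h : H} (e : ∀ a < 4096, h * s a = s a * h) : h = 1 ∨ h = z := by
  have h1 := M.faith _ (M.mem h) fun a ha => (M.comm_s ha (e a ha)).1
  have h2 : M.cb h = 0 := Bf_nondeg (M.cb_lt h) fun i hi => by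
    have := (M.comm_s (pow_lt12 hi) (e _ (pow_lt12 hi))).2
    rw [h1, ou_rc] at this; simpa using this.symm
  have := M.eq_s h1
  rwa [h2, M.s0, one_mul] at this

theorem es : ES Λ.ker z where
  mem := M.Λz
  zz := M.zz
  ne := M.ne
  zc x _ := (M.zc x).symm
  conj x hx y hy := by
    have h1 := M.conj_s x (M.cb_lt y)
    rw [show Λ x = 1 from hx, lin_rc_one (M.cb_lt y)] at h1
    have h2 : x * y * x⁻¹ = y * z ^ (ou (rc 1) * Qf (M.cb y) ^^^ Bf (M.cb x) (M.cb y)) := by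
      rcases M.eq_s hy with e | e
      · rw [← e] at h1; exact h1
      · conv_lhs => rw [e, ← mul_assoc, mul_assoc _ z, ← M.zc, ← mul_assoc, h1, mul_assoc, ← M.zpc, ← mul_assoc, ← e]
    rw [h2]; rcases M.zp_cases (ou (rc 1) * Qf (M.cb y) ^^^ Bf (M.cb x) (M.cb y)) with e | e <;> simp [e]
  sq x hx := by
    have h1 : x * x = z ^ Qf (M.cb x) := by
      rw [← M.s_sq (M.cb_lt x)]
      rcases M.eq_s hx with e | e
      · rw [← e]
      · conv_lhs => rw [e, mul_assoc, ← mul_assoc z, ← M.zc, mul_assoc, M.zz, mul_one]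
    rw [h1]; exact M.zp_cases _
  cent x _ h := M.cent_E fun a ha => h _ (M.Λs ha)
  nonab := ⟨s 1, M.Λs (by norm_num), s 64, M.Λs (by norm_num), fun h => by
    have := (M.comm_s (by norm_num) h).2
    rw [M.cb_s (by norm_num), M.Λs (by norm_num), ou_rc] at this
    revert this; simp only [Prod.snd_one, one_smul, if_true]; decide +kernel⟩

theorem range_eq : Λ.range = Lm :=
  le_antisymm (by rintro _ ⟨h, rfl⟩; exact M.mem h) fun r hr => let ⟨l, _, e⟩ := M.lift r hr; ⟨l, e⟩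

theorem card_comap [Finite H] {K : Subgroup R} (hK : K ≤ Lm) : Nat.card (K.comap Λ) = 2 ^ 13 * Nat.card K := by
  have h1 := card_map_mul_card_inf_ker Λ (K.comap Λ)
  have h2 := card_map_mul_card_inf_ker Λ ⊤
  rw [← MonoidHom.range_eq_map, M.range_eq, card_Lm, card_top, M.card, inf_top_eq] at h2
  rw [map_comap_eq_self (M.range_eq ▸ hK), inf_eq_left.2 (ker_le_comap _ _), show Nat.card Λ.ker = 2 ^ 13 by omega] at h1
  rw [← h1, mul_comm]

theorem card_ker [Finite H] : Nat.card Λ.ker = 2 ^ 13 := by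
  have := M.card_comap (K := ⊥) bot_le
  rwa [MonoidHom.comap_bot, card_bot, mul_one] at this

theorem card_inf_ker [Finite H] {F : Subgroup H} (hz : z ∈ F) (hF : ∀ x ∈ F, ∀ y ∈ F, x * y = y * x) :
    Nat.card ↥(Λ.ker ⊓ F) ≤ 128 := by
  have := es_abelian_le M.es (W := Λ.ker ⊓ F) inf_le_left ⟨M.Λz, hz⟩ fun x hx y hy => hF x hx.2 y hy.2
  rw [M.card_ker] at this
  exact Nat.mul_self_le_mul_self_iff.1 (this.trans (by norm_num))

/-- Lifts of inner involutions to the normaliser of `ω` are involutions. -/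
theorem sq_inner {l : H} (hl : l ∈ normalizer (zpowers ω : Set H)) (h2 : Λ l * Λ l = 1) (ho : ou (rc (Λ l)) = 0) :
    l * l = 1 := by
  have key : ∀ l ∈ normalizer (zpowers ω : Set H), Λ l * Λ l = 1 → ou (rc (Λ l)) = 0 → Λ l ≠ 1 →
      ∀ m ∈ normalizer (zpowers ω : Set H), Λ m = w0 → l * l = m * m := by
    intro l hl h2 ho h1 m hm e
    obtain ⟨d, hd, e2⟩ := inner_conj (M.mem l) h2 h1 ho
    obtain ⟨k, hk, rfl⟩ := M.lift d hd
    have h3 := M.eq_of_crd (h := l) (k := k * m * k⁻¹) (by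
      rw [M.cb_norm hl, M.cb_norm (mul_mem (mul_mem hk hm) (inv_mem hk))]) (by simp [e, e2])
    have h4 := M.ker_norm (mul_mem hm hm) (by rw [map_mul, e, (Wb_facts w0_mem).1])
    have h5 : k * m * k⁻¹ * (k * m * k⁻¹) = m * m := by
      rw [conj_mul]; rcases h4 with e | e <;> rw [e]
      · simp
      · rw [M.zc]; simp
    rcases h3 with e | e <;> rw [e]
    · exact h5
    · rw [mul_assoc, ← mul_assoc z, ← M.zc, mul_assoc _ z, M.zz, mul_one, h5]
  by_cases h1 : Λ l = 1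
  · rcases M.ker_norm hl h1 with e | e <;> simp [e, M.zz]
  obtain ⟨m, hm, e⟩ := M.lift w0 (Wb_le w0_mem)
  rw [key l hl h2 ho h1 m hm e]
  refine (M.ker_norm (mul_mem hm hm) (by rw [map_mul, e, (Wb_facts w0_mem).1])).resolve_right fun hz => ?_
  have key2 : ∀ l ∈ normalizer (zpowers ω : Set H), Λ l ∈ Wb → Λ l ≠ 1 → l * l = z := fun l hl h h1 =>
    (key l hl (Wb_facts h).1 (Wb_facts h).2.1 h1 m hm e).trans hz
  have anti : ∀ a ∈ normalizer (zpowers ω : Set H), ∀ b ∈ normalizer (zpowers ω : Set H), Λ a ∈ Wb → Λ b ∈ Wb →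
      Λ a ≠ 1 → Λ b ≠ 1 → Λ (a * b) ≠ 1 → a * b = b * a * z := by
    intro a ha b hb h1 h2 h3 h4 h5
    have h6 := key2 _ (mul_mem ha hb) (by rw [map_mul]; exact mul_mem h1 h2) h5
    have h7 := key2 a ha h1 h3
    have h8 := key2 b hb h2 h4
    have h9 : b * a = a⁻¹ * z * b⁻¹ := by rw [← h6]; group
    rw [h9, inv_eq_of_mul_eq_one_right (show a * (a * z) = 1 by rw [← mul_assoc, h7, M.zz]),
      inv_eq_of_mul_eq_one_right (show b * (b * z) = 1 by rw [← mul_assoc, h8, M.zz]), mul_assoc a, M.zz,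
      mul_one, mul_assoc, mul_assoc, M.zz, mul_one]
  have hv : ∀ i < 16, ∃ a ∈ normalizer (zpowers ω : Set H), Λ a ∈ Wb ∧ rc (Λ a) = lget lW 0 i := fun i hi => by
    have h1 : nall 16 (fun i => band (isR (lget lW 0 i)) (lany lW (Nat.beq (lget lW 0 i)))) = true := by
      decide +kernel
    have h2 := (nall_iff _ _).1 h1 i hi
    simp only [band_eq, Bool.and_eq_true, lany_iff, Nat.beq_eq] at h2
    obtain ⟨h3, x, h4, h5⟩ := h2
    have h6 : relt (lget lW 0 i) ∈ Wb := mem_Wb.2 (by rw [rc_relt h3, h5]; exact h4)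
    obtain ⟨a, ha, e⟩ := M.lift _ (Wb_le h6)
    exact ⟨a, ha, e ▸ h6, by rw [e, rc_relt h3]⟩
  obtain ⟨a, ha, a1, a2⟩ := hv 1 (by norm_num)
  obtain ⟨b, hb, b1, b2⟩ := hv 2 (by norm_num)
  obtain ⟨c, hc, c1, c2⟩ := hv 4 (by norm_num)
  have ne : ∀ x : H, Nat.beq (rc (Λ x)) rone = false → Λ x ≠ 1 := fun x h e => by
    rw [e, gcR.code_one] at h; simp at h
  have n1 := ne a (by rw [a2]; decide +kernel)
  have n2 := ne b (by rw [b2]; decide +kernel)
  have n3 := ne c (by rw [c2]; decide +kernel)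
  have e1 := anti a ha b hb a1 b1 n1 n2 (ne _ (by rw [map_mul, gcR.code_mul, a2, b2]; decide +kernel))
  have e2 := anti a ha c hc a1 c1 n1 n3 (ne _ (by rw [map_mul, gcR.code_mul, a2, c2]; decide +kernel))
  have e3 := anti a ha (b * c) (mul_mem hb hc) a1 (by rw [map_mul]; exact mul_mem b1 c1) n1
    (ne _ (by rw [map_mul, gcR.code_mul, b2, c2]; decide +kernel))
    (ne _ (by rw [map_mul, map_mul, gcR.code_mul, gcR.code_mul, a2, b2, c2]; decide +kernel))
  rw [← mul_assoc, e1, mul_assoc _ z, ← M.zc, mul_assoc b, ← mul_assoc a, e2, mul_assoc _ z, M.zz, mul_one,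
    ← mul_assoc, eq_comm, mul_eq_left] at e3
  exact M.ne e3

end HM

end Cfsg.Agent.J4
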