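import Cfsg.Agent.J4.L2

/-!
# Large elementary abelian subgroups of `2¹⁺¹².3.M₂₂.2`
-/

set_option autoImplicit false

namespace Cfsg.Agent.J4

open Cfsg.Agent.M24 Cfsg.Agent.TT Cfsg.Agent.GT Subgroup
open scoped Pointwise

namespace HM

variable {H : Type*} [Group H] {z ω : H} {s : ℕ → H} {Λ : H →* R} (M : HM z ω s Λ)
  {O : Subgroup R} {U : Finset ℕ}
include M

/-- The elementary abelian subgroup attached to a pair. -/
def EA (P : Pr O U) : Subgroup H where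
  carrier := {h | Λ h ∈ O ∧ M.cb h ∈ U}
  one_mem' := ⟨by simp, by rw [M.cb_one]; exact P.zero⟩
  mul_mem' := fun {a b} ha hb => ⟨by rw [map_mul]; exact mul_mem ha.1 hb.1, by
    rw [M.cb_mul, P.fix _ ha.1 _ hb.2]; exact P.xor _ ha.2 _ hb.2⟩
  inv_mem' := fun {a} ha => ⟨by rw [map_inv]; exact inv_mem ha.1, by
    rw [M.cb_inv, P.fix _ (inv_mem ha.1) _ ha.2]; exact ha.2⟩

theorem mem_EA {P : Pr O U} {h : H} : h ∈ M.EA P ↔ Λ h ∈ O ∧ M.cb h ∈ U := Iff.rfl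

theorem s_mem_EA (P : Pr O U) {u : ℕ} (hu : u ∈ U) : s u ∈ M.EA P :=
  ⟨by rw [M.Λs (P.lt u hu)]; exact one_mem _, by rwa [M.cb_s (P.lt u hu)]⟩

theorem z_mem_EA (P : Pr O U) : z ∈ M.EA P :=
  ⟨by rw [M.Λz]; exact one_mem _, by rw [M.cb_norm M.z_mem]; exact P.zero⟩

theorem norm_mem_EA (P : Pr O U) {l : H} (hl : l ∈ N[zpowers ω]) (h : Λ l ∈ O) : l ∈ M.EA P :=
  ⟨h, by rw [M.cb_norm hl]; exact P.zero⟩

theorem EA_sq (P : Pr O U) {h : H} (hh : h ∈ M.EA P) : h * h = 1 := by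
  obtain ⟨l, hl, e, e2⟩ := M.cb_dec h
  have h1 := M.sq_inner hl (e2 ▸ P.sq _ hh.1) (e2 ▸ P.inn _ hh.1)
  have h2 := M.comm_s_of (h := l) (P.lt _ hh.2) (e2 ▸ P.fix _ hh.1 _ hh.2)
    (by rw [M.cb_norm hl, Bf_zero_left, P.Q _ hh.2, mul_zero])
  rw [e, mul_assoc, ← mul_assoc l, h2, mul_assoc, h1, mul_one, M.s_sq (P.lt _ hh.2), P.Q _ hh.2, pow_zero]

theorem EA_elem (P : Pr O U) : IsElementaryAbelian 2 (M.EA P) :=
  ⟨isMulCommutative_iff_forall.2 fun _ hx _ hy => comm_of_sq (fun _ h => M.EA_sq P h) hx hy,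
    fun _ h => by rw [pow_two, M.EA_sq P h]⟩

theorem map_EA (P : Pr O U) : (M.EA P).map Λ = O :=
  le_antisymm (by rintro _ ⟨h, hh, rfl⟩; exact hh.1) fun r hr =>
    let ⟨l, hl, e⟩ := M.lift r (P.le hr); ⟨l, M.norm_mem_EA P hl (e ▸ hr), e⟩

theorem card_ker_le {F : Subgroup H} (hz : z ∈ F) {S : Finset ℕ} (hS : ∀ a < 4096, s a ∈ F → a ∈ S) :
    Nat.card ↥(Λ.ker ⊓ F) ≤ S.card * 2 := by
  classical
  have h1 : ∀ h ∈ Λ.ker ⊓ F, M.cb h ∈ S := fun h hh => hS _ (M.cb_lt h) (by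
    rcases M.eq_s hh.1 with e | e
    · exact e ▸ hh.2
    · have := mul_mem hh.2 hz
      rwa [e, mul_assoc, M.zz, mul_one] at this)
  have := Nat.card_le_card_of_injective (fun h : ↥(Λ.ker ⊓ F) =>
    ((⟨M.cb h, h1 h h.2⟩, decide (h.1 = s (M.cb h))) : S × Bool)) fun a b e => by
      have e1 : M.cb a = M.cb b := congrArg (fun x => x.1.1) e
      have e2 : a.1 = s (M.cb a) ↔ b.1 = s (M.cb b) := decide_eq_decide.1 (congrArg Prod.snd e)
      refine Subtype.ext ?_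
      by_cases e3 : a.1 = s (M.cb a)
      · rw [e3, e2.1 e3, e1]
      · rw [(M.eq_s a.2.1).resolve_left e3, (M.eq_s b.2.1).resolve_left (mt e2.2 e3), e1]
  rwa [Nat.card_prod, Nat.card_eq_finsetCard, Nat.card_eq_fintype_card (α := Bool), Fintype.card_bool] at this

theorem card_EA [Finite H] (P : Pr O U) : Nat.card (M.EA P) = Nat.card O * 128 := by
  rw [← card_map_mul_card_inf_ker Λ, M.map_EA]
  congr 1
  refine le_antisymm (M.card_inf_ker (M.z_mem_EA P) fun _ hx _ hy => comm_of_sq (fun _ h => M.EA_sq P h) hx hy) ?_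
  have := Nat.card_le_card_of_injective (fun x : U × Bool => (⟨s x.1 * z ^ x.2.toNat,
    mul_mem (M.Λs (P.lt _ x.1.2)) (M.Λzp _), mul_mem (M.s_mem_EA P x.1.2) (pow_mem (M.z_mem_EA P) _)⟩ :
      ↥(Λ.ker ⊓ M.EA P))) fun a b e => by
    have e0 : s a.1 * z ^ a.2.toNat = s b.1 * z ^ b.2.toNat := congrArg Subtype.val e
    have e1 := congrArg M.cb e0
    rw [M.cb_mul_zp, M.cb_mul_zp, M.cb_s (P.lt _ a.1.2), M.cb_s (P.lt _ b.1.2)] at e1
    rw [e1, mul_right_inj] at e0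
    exact Prod.ext (Subtype.ext e1) (by
      have := M.zp_inj (Bool.toNat_le _) (Bool.toNat_le _) e0
      revert this; cases a.2 <;> cases b.2 <;> simp)
  rwa [Nat.card_prod, Nat.card_eq_finsetCard, Nat.card_eq_fintype_card, Fintype.card_bool, P.card] at this

theorem cent_EA (P : Pr O U) {h : H} (hh : ∀ v ∈ M.EA P, h * v = v * h) : h ∈ M.EA P := by
  have h1 := fun u hu => M.comm_s (P.lt u hu) (hh _ (M.s_mem_EA P hu))
  refine ⟨P.cent _ (M.mem h) (fun u hu => (h1 u hu).1) fun o ho => ?_,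
    P.perp _ (M.cb_lt h) fun u hu => by rw [← (h1 u hu).2, P.Q u hu, mul_zero]⟩
  obtain ⟨l, hl, rfl⟩ := M.lift o (P.le ho)
  rw [← map_mul, hh l (M.norm_mem_EA P hl ho), map_mul]

theorem conj_mem_EA (P : Pr O U) {g h : H} (h1 : Λ g * Λ h * (Λ g)⁻¹ ∈ O) (h2 : lin (rc (Λ g)) (M.cb h) ∈ U) :
    g * h * g⁻¹ ∈ M.EA P := by
  have h3 : Λ (g * h * g⁻¹) ∈ O := by simpa using h1
  refine ⟨h3, ?_⟩
  rw [M.cb_conj, Nat.xor_comm (M.cb g), Nat.xor_assoc]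
  exact P.xor _ h2 _ (P.com h3 (M.cb_lt g))

/-- The subgroup `2¹¹`. -/
noncomputable def VH : Subgroup H := M.EA prV
/-- The subgroup `2¹⁰`. -/
noncomputable def AH : Subgroup H := M.EA prA

theorem mem_VH {h : H} : h ∈ M.VH ↔ Λ h ∈ Wb ∧ M.cb h < 64 := by rw [VH, mem_EA, Finset.mem_range]
theorem mem_AH {h : H} : h ∈ M.AH ↔ Λ h ∈ Ob ∧ M.cb h ∈ lU0 := by rw [AH, mem_EA, List.mem_toFinset]
theorem card_VH [Finite H] : Nat.card M.VH = 2 ^ 11 := by rw [VH, card_EA, card_Wb]; rfl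
theorem card_AH [Finite H] : Nat.card M.AH = 2 ^ 10 := by rw [AH, card_EA, card_Ob]; rfl

theorem conj_mem_VH {g h : H} (hg : Λ g ∈ NV) (hh : h ∈ M.VH) : g * h * g⁻¹ ∈ M.VH :=
  M.conj_mem_EA prV (NV_conj_Wb hg hh.1) (Finset.mem_range.2 (NV_lin hg _ (M.mem_VH.1 hh).2))

theorem mem_norm_VH [Finite H] {g : H} : g ∈ N[M.VH] ↔ Λ g ∈ NV := by
  refine ⟨fun hg => mem_NV_of_conj (M.mem g) fun w hw => ?_,
    fun hg => mem_normalizer_of_conj fun _ hx => M.conj_mem_VH hg hx⟩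
  obtain ⟨l, hl, rfl⟩ := M.lift w (Wb_le hw)
  have := (conj_mem_of_mem_norm hg (M.norm_mem_EA prV hl hw)).1
  rw [map_mul, map_mul, map_inv] at this
  exact (mem_NV.1 (Wb_le_NV this)).2

theorem elem_cls_aux [Finite H] {F : Subgroup H} (hz : z ∈ F) (hF : ∀ x ∈ F, x * x = 1) (hc : 2 ^ 10 ≤ Nat.card F)
    (hw : w0 ∈ F.map Λ) : F ≤ M.VH ∨ F ≤ M.AH ∨ ∃ g, cj[g] F ≤ M.AH := by
  classical
  obtain ⟨S, mS⟩ : ∃ S : Finset ℕ, ∀ a, a ∈ S ↔ a < 4096 ∧ s a ∈ F :=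
    ⟨(Finset.range 4096).filter fun a => s a ∈ F, fun a => by rw [Finset.mem_filter, Finset.mem_range]⟩
  have h1 := card_map_mul_card_inf_ker Λ F
  have h2 := M.card_inf_ker hz fun _ hx _ hy => comm_of_sq hF hx hy
  have h3 := M.card_ker_le hz (S := S) fun a ha h => (mS a).2 ⟨ha, h⟩
  have h4 := fun h hh a ha => M.comm_s (h := h) ((mS a).1 ha).1 (comm_of_sq hF hh ((mS a).1 ha).2)
  have hQ : ∀ a ∈ S, Qf a = 0 := fun a ha => (M.zp_eq_one (Qf_le a)).1 (by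
    rw [← M.s_sq ((mS a).1 ha).1, hF _ ((mS a).1 ha).2])
  have hB : ∀ h ∈ F, ∀ a ∈ S, Bf (M.cb h) a = 0 := fun h hh a ha => by rw [← (h4 h hh a ha).2, hQ a ha, mul_zero]
  have hc' : 512 ≤ Nat.card (F.map Λ) * S.card := by nlinarith
  have full : ∀ U : Finset ℕ, U.card = 64 → (∀ a ∈ S, a ∈ U) → 64 ≤ S.card → ∀ a ∈ U, a ∈ S := fun U a b c =>
    Finset.eq_of_subset_of_card_le b (a ▸ c) ▸ fun _ h => h
  rcases clsR (K := F.map Λ) (M.range_eq ▸ map_le_range _ _) (by rintro _ ⟨h, hh, rfl⟩; rw [← map_mul, hF h hh, map_one])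
    hw (by nlinarith) (S := S) (fun a ha => ⟨((mS a).1 ha).1, by rintro _ ⟨h, hh, rfl⟩; exact (h4 h hh a ha).1⟩) hc'
    with ⟨a1, a2⟩ | ⟨a1, a2⟩ | ⟨a1, a2⟩
  · have b1 := card_le_of_le a1
    rw [card_Wb] at b1
    refine .inl fun h hh => M.mem_VH.2 ⟨a1 ⟨h, hh, rfl⟩, ?_⟩
    by_cases b2 : 64 ≤ S.card
    · exact Finset.mem_range.1 (prV.perp _ (M.cb_lt h) fun u hu => hB h hh u
        (full _ prV.card (fun a ha => Finset.mem_range.2 (a2 a ha)) b2 u hu))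
    have b3 : F.map Λ = Wb := by
      have hp : IsPGroup 2 Wb := IsPGroup.of_card (n := 4) card_Wb
      refine eq_of_le_of_card_ge a1 ?_
      obtain ⟨k, hk⟩ := card_dvd_of_le a1
      rw [card_Wb] at hk ⊢
      have : Nat.card (F.map Λ) ∣ 16 := ⟨k, hk⟩
      have h9 : 8 < Nat.card (F.map Λ) := by nlinarith
      generalize Nat.card (F.map Λ) = n at this h9 b1
      interval_cases n <;> omega
    by_contra b4
    refine b4 (fix_Wb (M.cb_lt h) fun w hw => ?_)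
    obtain ⟨k, hk, rfl⟩ : w ∈ F.map Λ := b3 ▸ hw
    have key : ∀ k ∈ F, M.cb k < 64 → lin (rc (Λ k)) (M.cb h) = M.cb h := fun k hk e => by
      have := congrArg M.cb (comm_of_sq hF hh hk)
      rw [M.cb_mul, M.cb_mul, (Wb_facts (a1 ⟨h, hh, rfl⟩)).2.2.1 _ e, Nat.xor_comm] at this
      exact (Nat.xor_right_inj.1 this).symm
    have b5 : lin (rc (Λ h)) (M.cb h) = M.cb h := by
      have := congrArg M.cb (hF h hh)
      rw [M.cb_mul, M.cb_one] at this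
      exact (Nat.xor_eq_zero_iff.1 this).symm
    rcases hi_eq a2 (by nlinarith) (M.cb_lt h) (M.cb_lt k) (hB h hh) (hB k hk) with e | e | e
    · exact absurd e b4
    · exact key k hk e
    · have := key (k * h) (mul_mem hk hh) (by
        have := Nat.xor_lt_two_pow (n := 6) e ((Wb_facts (a1 ⟨k, hk, rfl⟩)).2.2.2.1 _ (M.cb_lt h))
        rwa [Nat.xor_comm (M.cb h), Nat.xor_assoc, Nat.xor_comm (lin _ _), ← Nat.xor_assoc (M.cb h), Nat.xor_self,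
          Nat.zero_xor, ← M.cb_mul] at this)
      rwa [map_mul, lin_rc_mul, b5] at this
  · have b1 := card_le_codes a1
    have b2 : 64 ≤ S.card := by change _ ≤ 8 at b1; nlinarith
    exact .inr (.inl fun h hh => ⟨mem_Ob.2 (a1 _ ⟨h, hh, rfl⟩), prA.perp _ (M.cb_lt h) fun u hu => hB h hh u
      (full _ prA.card (fun a ha => List.mem_toFinset.2 (a2 a ha)) b2 u hu)⟩)
  · have b1 := card_le_codes a1
    have b2 : 64 ≤ S.card := by change _ ≤ 8 at b1; nlinarith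
    obtain ⟨k, hk, c1, c2⟩ := swap_A
    obtain ⟨g, -, rfl⟩ := M.lift k hk
    refine .inr (.inr ⟨g, conj_le_iff_forall.2 fun h hh => M.conj_mem_EA prA (c1 _ (a1 _ ⟨h, hh, rfl⟩)) ?_⟩)
    refine prA.perp _ (lin_lt _ _) fun u hu => ?_
    have c3 : (S.image (lin (rc (Λ g)))).card = S.card := Finset.card_image_of_injOn fun a ha b hb =>
      lin_rc_inj _ ((mS a).1 ha).1 ((mS b).1 hb).1
    have c4 := Finset.eq_of_subset_of_card_le (s := S.image (lin (rc (Λ g)))) (t := lU0.toFinset) (fun a ha => by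
      obtain ⟨b, hb, rfl⟩ := Finset.mem_image.1 ha
      exact List.mem_toFinset.2 (c2 b (a2 b hb))) (by rw [c3, prA.card]; exact b2)
    obtain ⟨b, hb, rfl⟩ := Finset.mem_image.1 (c4 ▸ hu)
    rw [Bf_lin hk (M.cb_lt h) ((mS b).1 hb).1, hB h hh b hb]

theorem elem_cls [Finite H] {F : Subgroup H} (hz : z ∈ F) (hF : ∀ x ∈ F, x * x = 1) (hc : 2 ^ 10 ≤ Nat.card F) :
    ∃ g, cj[g] F ≤ M.VH ∨ cj[g] F ≤ M.AH := by
  classical
  have h1 := card_map_mul_card_inf_ker Λ F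
  have h2 := M.card_inf_ker hz fun _ hx _ hy => comm_of_sq hF hx hy
  have h3 := card_inner (K := F.map Λ) (M.range_eq ▸ map_le_range _ _)
  obtain ⟨_, ⟨hr, h, hh, rfl⟩, h4⟩ := exists_not_mem_of_card (K := centralizer {rW} ⊓ F.map Λ) {1}
    (by rw [Finset.card_singleton]; nlinarith)
  obtain ⟨d, hd, e⟩ := inner_conj (M.mem h) (by rw [← map_mul, hF h hh, map_one]) (by simpa using h4)
    ((ou_eq_zero (M.mem h)).2 (mem_cent1.1 hr))
  obtain ⟨g, -, rfl⟩ := M.lift d hd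
  rcases M.elem_cls_aux (F := cj[g⁻¹] F) (by rwa [mem_conj, inv_inv, M.zc, mul_inv_cancel_right])
    (fun x hx => by
      obtain ⟨y, hy, rfl⟩ := mem_conj_iff_exists.1 hx
      rw [conj_mul, hF y hy]; simp) (by rwa [card_conj])
    ⟨g⁻¹ * h * g⁻¹⁻¹, conj_mem_conj.2 hh, by simp [← e, mul_assoc]⟩ with e | e | ⟨k, e⟩
  exacts [⟨_, .inl e⟩, ⟨_, .inr e⟩, ⟨k * g⁻¹, .inr (by rwa [mul_conj])⟩]

theorem elem_eleven [Finite H] {F : Subgroup H} (hF : ∀ x ∈ F, x * x = 1) (hc : 2 ^ 11 ≤ Nat.card F) :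
    ∃ g, cj[g] F = M.VH := by
  have hn : zpowers z ≤ N[F] := by
    rw [zpowers_le]; exact centralizer_le_normalizer _ fun h _ => M.zc h
  have h1 : Nat.card F ≤ Nat.card ↥(zpowers z ⊔ F) := card_le_of_le le_sup_right
  obtain ⟨g, e | e⟩ := M.elem_cls (F := zpowers z ⊔ F) (mem_sup_left (mem_zpowers z)) (fun x hx => by
    obtain ⟨a, ha, b, hb, rfl⟩ := (mem_sup_of_le_norm hn).1 hx
    rcases M.es.mem_zp.1 ha with rfl | rfl
    · rw [one_mul, hF b hb]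
    · rw [mul_assoc, ← mul_assoc b, M.zc, mul_assoc, hF b hb, mul_one, M.zz]) (by omega)
  · exact ⟨g, eq_of_le_of_card_ge ((conj_mono g le_sup_right).trans e) (by rwa [card_conj, M.card_VH])⟩
  · have := card_le_of_le e
    rw [card_conj, M.card_AH] at this; omega

theorem eq_VH [Finite H] {F : Subgroup H} (hF : ∀ x ∈ F, x * x = 1) (hc : 2 ^ 11 ≤ Nat.card F)
    (hn : F ≤ N[M.VH]) : F = M.VH := by
  obtain ⟨g, e⟩ := M.elem_eleven hF hc
  rw [conj_eq_iff] at e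
  rw [e]
  refine conj_eq_self (M.mem_norm_VH.2 (mem_NV_of_conj (M.mem _) fun w hw => ?_))
  obtain ⟨l, hl, rfl⟩ := M.lift w (Wb_le hw)
  have := M.mem_norm_VH.1 (hn (e ▸ conj_mem_conj.2 (M.norm_mem_EA prV hl hw)))
  rw [map_mul, map_mul, map_inv _ g⁻¹] at this
  exact (mem_NV.1 this).2

end HM

end Cfsg.Agent.J4
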