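import Cfsg.Agent.J4.Model2
import Cfsg.Agent.TT.Extra
import Cfsg.Agent.GT.MapInj
import Cfsg.Prelude.Def_JankoFourType

/-!
# Coordinates on the centraliser `2¹⁺¹².3.M₂₂.2`
-/

set_option autoImplicit false

namespace Cfsg.Agent.J4

open Cfsg.Agent.M24 Cfsg.Agent.TT Cfsg.Agent.GT Subgroup

/-- Coordinates on `H = 2¹⁺¹².3.M₂₂.2`: `s` is the canonical section of `E → E/⟨z⟩ = 𝔽₂¹²` and `Λ`
maps `H` onto the model group with kernel `E`. -/
structure HM {H : Type*} [Group H] (z ω : H) (s : ℕ → H) (Λ : H →* R) : Prop where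
  zz : z * z = 1
  ne : z ≠ 1
  zc : ∀ h, h * z = z * h
  s_mul : ∀ a < 4096, ∀ b < 4096, s a * s b = s (a ^^^ b) * z ^ be a b
  s_inj : ∀ a < 4096, s a = 1 ∨ s a = z → a = 0
  ω3 : ω ^ 3 = 1
  Λω : Λ ω = rW
  ker : ∀ h, Λ h = 1 ↔ ∃ a < 4096, h = s a ∨ h = s a * z
  mem : ∀ h, Λ h ∈ Lm
  lift : ∀ r ∈ Lm, ∃ l ∈ normalizer (zpowers ω : Set H), Λ l = r
  conj : ∀ l ∈ normalizer (zpowers ω : Set H), ∀ a < 4096,
    l * s a * l⁻¹ = s (lin (rc (Λ l)) a) * z ^ (ou (rc (Λ l)) * Qf a)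
  faith : ∀ r ∈ Lm, (∀ a < 4096, lin (rc r) a = a) → r = 1
  kerθ : ∀ r ∈ Lm, r.2 = 1 → r = 1 ∨ r = rW ∨ r = rW * rW
  card : Nat.card H = 2 ^ 13 * 3 * 887040

universe u

theorem exists_module {H : Type u} [Group H] [Finite H] {E : Subgroup H} [E.Normal] {z : H}
    (hE : ES E z) (hz : ∀ h, h * z = z * h) (hc : Nat.card E = 2 ^ 13) :
    ∃ (M : Type u) (_ : AddCommGroup M) (ρ : H →* Module.End ℤ M) (p : H → M),
      (∀ m : M, m + m = 0) ∧ Nat.card M = 4096 ∧ (∀ e ∈ E, ∀ f ∈ E, p (e * f) = p e + p f) ∧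
      (∀ e ∈ E, p e = 0 ↔ e = 1 ∨ e = z) ∧ (∀ m, ∃ e ∈ E, p e = m) ∧
      ∀ h, ∀ e ∈ E, ρ h (p e) = p (h * e * h⁻¹) := by
  classical
  have hZ : (zpowers z).Normal := ⟨fun n hn g => by
    rcases hE.mem_zp.1 hn with rfl | rfl
    · simp
    · rw [hz, mul_inv_cancel_right]; exact hn⟩
  let q := QuotientGroup.mk' (zpowers z)
  let B := E.map q
  have hB : B.Normal := Normal.map inferInstance _ (QuotientGroup.mk'_surjective _)
  have hq : ∀ e, q e = 1 ↔ e = 1 ∨ e = z := fun e => (QuotientGroup.eq_one_iff e).trans hE.mem_zp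
  have h2 : ∀ b : B, b * b = 1 := by
    rintro ⟨_, e, he, rfl⟩
    exact Subtype.ext (by change q e * q e = 1; rw [← map_mul, hq]; exact hE.sq e he)
  letI : CommGroup B := { (inferInstance : Group B) with
    mul_comm := fun a b => by
      rw [← inv_eq_of_mul_eq_one_right (h2 (a * b)), mul_inv_rev, inv_eq_of_mul_eq_one_right (h2 a),
        inv_eq_of_mul_eq_one_right (h2 b)] }
  let ρ0 : H → Module.End ℤ (Additive B) := fun h =>
    (MonoidHom.toAdditive (MulAut.conjNormal (H := B) (q h)).toMonoidHom).toIntLinearMap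
  have hρ : ∀ h (b : B), ρ0 h (Additive.ofMul b) = Additive.ofMul (MulAut.conjNormal (q h) b) :=
    fun _ _ => rfl
  let p : H → Additive B := fun e => if he : e ∈ E then Additive.ofMul ⟨q e, mem_map_of_mem q he⟩ else 0
  have hp : ∀ e (he : e ∈ E), p e = Additive.ofMul ⟨q e, mem_map_of_mem q he⟩ := fun e he => dif_pos he
  refine ⟨Additive B, inferInstance, ⟨⟨ρ0, ?_⟩, fun g h => ?_⟩, p, fun m => h2 m, ?_, fun e he f hf => ?_,
    fun e he => ?_, ?_, fun h e he => ?_⟩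
  · ext b; change ((MulAut.conjNormal (q 1) (Additive.toMul b) : B) : H ⧸ zpowers z) = _; simp
  · ext b; change ((MulAut.conjNormal (q (g * h)) (Additive.toMul b) : B) : H ⧸ zpowers z) =
      (MulAut.conjNormal (q g) (MulAut.conjNormal (q h) (Additive.toMul b)) : B)
    simp [mul_assoc]
  · have h1 := card_map_mul_card_inf_ker q E
    change Nat.card (E.map q) = _
    rw [QuotientGroup.ker_mk', inf_eq_left.2 hE.zp_le, card_zpowers_two hE.zz hE.ne, hc] at h1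
    omega
  · rw [hp _ he, hp _ hf, hp _ (E.mul_mem he hf)]; exact Subtype.ext (map_mul q e f)
  · rw [hp _ he, ← hq]; exact Subtype.ext_iff
  · rintro ⟨_, e, he, rfl⟩; exact ⟨e, he, hp e he⟩
  · change ρ0 h _ = _
    rw [hp _ he, hp _ (Normal.conj_mem inferInstance e he h), hρ]
    exact Subtype.ext (show q h * q e * (q h)⁻¹ = q (h * e * h⁻¹) by simp)

/-- The matrix of an endomorphism as an element of the matrix monoid. -/
noncomputable def Crd.mt {M : Type*} [AddCommGroup M] (C : Crd M) (f : Module.End ℤ M) : Mt :=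
  ⟨C.mat f, C.mat_lt f⟩

theorem Crd.mt_c {M : Type*} [AddCommGroup M] (C : Crd M) (f : Module.End ℤ M) : (C.mt f).c = C.mat f := rfl

/-- The matrix homomorphism. -/
noncomputable def Crd.hom {M : Type*} [AddCommGroup M] (C : Crd M) : Module.End ℤ M →* Mt where
  toFun := C.mt
  map_one' := Mt.ext (by rw [Mt.one_c, C.mt_c, C.mat_one])
  map_mul' f g := Mt.ext (by rw [Mt.mul_c, C.mt_c, C.mt_c, C.mt_c, C.mat_mul])

/-- The coordinates of squares and commutators. -/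
theorem sq_comm_of_crd {H : Type*} [Group H] {E : Subgroup H} [E.Normal] {z : H} (hE : ES E z)
    (hz : ∀ h, h * z = z * h) {co : H → ℕ} (c1 : ∀ e, co e < 4096)
    (c2 : ∀ e ∈ E, ∀ f ∈ E, co (e * f) = co e ^^^ co f) (c3 : ∀ e ∈ E, co e = 0 ↔ e = 1 ∨ e = z)
    (c4 : ∀ a < 4096, ∃ e ∈ E, co e = a)
    (c5 : ∀ k ∈ gL, ∃ h, ∀ e ∈ E, co (h * e * h⁻¹) = lin k (co e)) :
    (∀ e ∈ E, e * e = z ^ Qf (co e)) ∧ ∀ e ∈ E, ∀ f ∈ E, e * f = f * e * z ^ Bf (co e) (co f) := by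
  classical
  let ε : H → ZMod 2 := fun g => if g = 1 then 0 else 1
  have hε : ∀ g h, (g = 1 ∨ g = z) → (h = 1 ∨ h = z) → ε (g * h) = ε g + ε h := by
    rintro g h (rfl | rfl) (rfl | rfl) <;> simp [ε, hE.zz, hE.ne]; rfl
  have hcm : ∀ e ∈ E, ∀ f ∈ E, e * f * e⁻¹ * f⁻¹ = 1 ∨ e * f * e⁻¹ * f⁻¹ = z := fun e he f hf =>
    hE.mem_zp.1 (hE.commutator_mem he hf)
  have hc : ∀ g h, (g = 1 ∨ g = z) → h * g = g * h := by
    rintro g h (rfl | rfl)
    · simp
    · exact hz h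
  have q1 : ∀ e ∈ E, ∀ f ∈ E, ε (e * f * (e * f)) = ε (e * e) + ε (f * f) + ε (f * e * f⁻¹ * e⁻¹) := by
    intro e he f hf
    rw [← hε _ _ (hE.sq e he) (hE.sq f hf), ← hε _ _ _ (hcm f hf e he)]
    · congr 1
      rw [mul_assoc (e * e), hc _ (f * f) (hcm f hf e he), mul_assoc e e, ← mul_assoc e (f * e * f⁻¹ * e⁻¹),
        hc _ e (hcm f hf e he)]
      group
    · rcases hE.sq e he with h | h <;> rcases hE.sq f hf with h' | h' <;> simp [h, h', hE.zz]
  have q2 : ∀ g ∈ E, ∀ e ∈ E, ∀ f ∈ E, ε (g * (e * f) * g⁻¹ * (e * f)⁻¹) =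
      ε (g * e * g⁻¹ * e⁻¹) + ε (g * f * g⁻¹ * f⁻¹) := by
    intro g hg e he f hf
    rw [← hε _ _ (hcm g hg e he) (hcm g hg f hf)]
    congr 1
    have := hc _ e⁻¹ (hcm g hg f hf)
    rw [mul_assoc (g * e * g⁻¹), this]
    group
  have same : ∀ e ∈ E, ∀ f ∈ E, co e = co f → e * e = f * f := fun e he f hf h => by
    have h1 : co (e * f) = 0 := by rw [c2 e he f hf, h, Nat.xor_self]
    have h2 : f * f * (f * f) = 1 := by rcases hE.sq f hf with h | h <;> simp [h, hE.zz]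
    have h3 : e = (e * f) * f⁻¹ := by simp
    have h4 := (c3 _ (E.mul_mem he hf)).1 h1
    have h5 : e * f * (e * f) = 1 := by rcases h4 with h | h <;> simp [h, hE.zz]
    rw [h3, mul_assoc (e * f), ← mul_assoc f⁻¹, hc _ f⁻¹ h4, ← mul_assoc, ← mul_assoc, h5, one_mul,
      ← mul_inv_rev, inv_eq_of_mul_eq_one_right h2]
  choose! t ht1 ht2 using c4
  have ht : ∀ e ∈ E, ε (t (co e) * t (co e)) = ε (e * e) := fun e he => by
    rw [same _ (ht1 _ (c1 e)) e he (ht2 _ (c1 e))]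
  have key := quad_eq (q := fun a => ε (t a * t a)) (by
      rcases (c3 _ (ht1 0 (by norm_num))).1 (ht2 0 (by norm_num)) with h | h <;> simp [h, ε, hE.zz])
    (fun a ha b hb c hc => by
      have ea := ht1 a ha
      have eb := ht1 b hb
      have ec := ht1 c hc
      have e1 := ht _ (E.mul_mem (E.mul_mem ea eb) ec)
      have e2 := ht _ (E.mul_mem ea eb)
      have e3 := ht _ (E.mul_mem ea ec)
      have e4 := ht _ (E.mul_mem eb ec)
      rw [c2 _ (E.mul_mem ea eb) _ ec] at e1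
      rw [c2 _ ea _ eb, ht2 a ha, ht2 b hb] at e1 e2
      rw [c2 _ ea _ ec, ht2 a ha] at e3
      rw [c2 _ eb _ ec, ht2 b hb] at e4
      rw [ht2 c hc] at e1 e3 e4
      simp only [e1, e2, e3, e4]
      rw [q1 _ (E.mul_mem ea eb) _ ec, q2 _ ec _ ea _ eb, q1 _ ea _ ec, q1 _ eb _ ec]
      generalize ε (t a * t b * (t a * t b)) = x1, ε (t a * t a) = x2, ε (t b * t b) = x3,
        ε (t c * t c) = x4, ε (t c * t a * (t c)⁻¹ * (t a)⁻¹) = x5, ε (t c * t b * (t c)⁻¹ * (t b)⁻¹) = x6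
      revert x1 x2 x3 x4 x5 x6; decide)
    (fun k hk a ha => by
      obtain ⟨h, hh⟩ := c5 k hk
      have e1 := ht _ (Normal.conj_mem inferInstance _ (ht1 a ha) h)
      rw [hh _ (ht1 a ha), ht2 a ha] at e1
      simp only [e1]
      have : h * t a * h⁻¹ * (h * t a * h⁻¹) = h * (t a * t a) * h⁻¹ := by group
      rw [this, hc _ h (hE.sq _ (ht1 a ha)), mul_inv_cancel_right])
    (by
      by_contra hn
      push Not at hn
      have h1 : ∀ e ∈ E, e * e = 1 := fun e he => by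
        have := hn _ (c1 e)
        rw [ht e he] at this
        by_contra h; simp [ε, h] at this
      obtain ⟨x, hx, y, hy, h⟩ := hE.nonab
      exact h (commute_of_sq (h1 x hx) (h1 y hy) (by rw [pow_two]; exact h1 _ (E.mul_mem hx hy))))
  have dec : ∀ g (n : ℕ), (g = 1 ∨ g = z) → n ≤ 1 → ε g = n → g = z ^ n := by
    rintro g n (rfl | rfl) hn h <;> interval_cases n
    · rw [pow_zero]
    · simp [ε] at h
    · simp [ε, hE.ne] at h
    · rw [pow_one]
  have k1 : ∀ e ∈ E, ε (e * e) = Qf (co e) := fun e he => by rw [← ht e he]; exact key _ (c1 e)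
  refine ⟨fun e he => dec _ _ (hE.sq e he) (Qf_le _) (k1 e he), fun e he f hf => ?_⟩
  have h1 := q1 f hf e he
  rw [k1 _ (E.mul_mem hf he), k1 e he, k1 f hf, c2 f hf e he, Qf_xor, Bf_comm] at h1
  have h2 : ε (e * f * e⁻¹ * f⁻¹) = Bf (co e) (co f) := by
    have := Qf_le (co e); have := Qf_le (co f); have := Bf_le (co e) (co f)
    generalize Qf (co e) = x at *; generalize Qf (co f) = y at *; generalize Bf (co e) (co f) = b at *
    generalize ε (e * f * e⁻¹ * f⁻¹) = w at *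
    interval_cases x <;> interval_cases y <;> interval_cases b <;> revert w <;> decide
  rw [← dec _ _ (hcm e he f hf) (Bf_le _ _) h2, hc _ (f * e) (hcm e he f hf)]
  group

set_option maxHeartbeats 800000 in
theorem HM.of_data {H : Type*} [Group H] [Finite H] {E N : Subgroup H} [E.Normal] [N.Normal] {z ω₀ : H}
    (hE : ES E z) (hz : ∀ h, h * z = z * h) (hc : Nat.card E = 2 ^ 13)
    (hC : centralizer (E : Set H) ≤ E) (hEN : E ≤ N) (hN : Nat.card N = 3 * 2 ^ 13)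
    (θ : H →* M24) (hk : θ.ker = N) (hr : θ.range = Dd) (ho : orderOf ω₀ = 3) (hωN : ω₀ ∈ N)
    (hfix : ∀ e ∈ E, ω₀ * e = e * ω₀ → e = 1 ∨ e = z)
    (hl : ∃ l ∈ normalizer (zpowers ω₀ : Set H), l * ω₀ ≠ ω₀ * l) :
    ∃ ω s Λ, HM z ω s Λ ∧ zpowers ω = zpowers ω₀ := by
  classical
  obtain ⟨M, _, ρ, p, m2, mc, p1, p2, p3, p4⟩ := exists_module hE hz hc
  have cP : Nat.card (zpowers ω₀) = 3 := by rw [Nat.card_zpowers, ho]
  have hEP : zpowers ω₀ ⊓ E = ⊥ := GT.inf_eq_bot_of_coprime (by rw [cP, hc]; norm_num)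
  have hPN : zpowers ω₀ ≤ N := zpowers_le_of_mem hωN
  have hNe : zpowers ω₀ ⊔ E = N := eq_of_le_of_card_ge (sup_le hPN hEN) (by
    rw [card_sup_of_inf_eq_bot (Or.inl le_norm_of_normal) hEP, cP, hc, hN])
  have w3 : ω₀ ^ 3 = 1 := ho ▸ pow_orderOf_eq_one ω₀
  have hzp : ∀ g ∈ zpowers ω₀, g = 1 ∨ g = ω₀ ∨ g = ω₀ * ω₀ := fun g hg => by
    obtain ⟨k, rfl⟩ := mem_powers_iff_mem_zpowers.2 hg
    simp only [← pow_mod_of_eq_one' w3 k]
    have : k % 3 < 3 := Nat.mod_lt _ (by norm_num)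
    generalize k % 3 = j at *
    interval_cases j <;> simp [pow_two]
  have hρ : ∀ h, ρ h = 1 ↔ h ∈ E := fun h => by
    constructor
    · intro e
      refine hE.mem_of_trivial hC fun y hy => ?_
      have h1 := p4 h y hy
      have h2 := Normal.conj_mem inferInstance y hy h
      rw [e, Module.End.one_apply] at h1
      have := (p2 _ (E.mul_mem (E.inv_mem hy) h2)).1 (by
        rw [p1 _ (E.inv_mem hy) _ h2, ← h1, ← p1 _ (E.inv_mem hy) _ hy, inv_mul_cancel, p2 _ E.one_mem]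
        simp)
      exact this.imp (fun h => (inv_mul_eq_one.1 h).symm) fun h => inv_mul_eq_iff_eq_mul.1 h
    · intro he
      ext m
      obtain ⟨y, hy, rfl⟩ := p3 m
      rw [p4 h y hy, Module.End.one_apply]
      rcases hE.conj h he y hy with e | e <;> rw [e]
      rw [p1 y hy z hE.mem, (p2 z hE.mem).2 (Or.inr rfl), add_zero]
  let q := QuotientGroup.mk' E
  have hq : ∀ h, q h = 1 ↔ h ∈ E := fun h => QuotientGroup.eq_one_iff h
  let θ' : H ⧸ E →* M24 := QuotientGroup.lift E θ fun g hg => show g ∈ θ.ker from hk ▸ hEN hg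
  let ρ' : H ⧸ E →* Module.End ℤ M := QuotientGroup.lift E ρ fun g hg => (hρ g).2 hg
  have hθ' : ∀ h, θ' (q h) = θ h := fun _ => rfl
  have hρ' : ∀ h, ρ' (q h) = ρ h := fun _ => rfl
  have hker : ∀ h, θ h = 1 → ∃ a ∈ zpowers ω₀, ∃ e ∈ E, h = a * e := fun h hh =>
    (mem_sup_of_le_norm le_norm_of_normal).1 (by rw [hNe, ← hk]; exact hh)
  obtain ⟨x, y, u, v, hx, hy, hu, hv, r1, r2, r3, r4, r5, r6, r7, r8, r9, r10, r11, r12, r13, r14, r15⟩ :=
    exists_gens (w := q ω₀) (θ := θ') (by rw [← map_pow, w3, map_one]) (fun g => by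
      obtain ⟨h, rfl⟩ := QuotientGroup.mk'_surjective E g
      have h0 : θ' (q ω₀) = 1 := show ω₀ ∈ θ.ker from hk ▸ hωN
      constructor
      · intro hh
        obtain ⟨a, ha, e, he, rfl⟩ := hker h hh
        change q _ = 1 ∨ q _ = _ ∨ q _ = _
        rw [map_mul, (hq e).2 he, mul_one]
        rcases hzp a ha with rfl | rfl | rfl <;> simp
      · rintro (e | e | e) <;> rw [e] <;> simp [h0])
      (by rw [← hr]; ext g; simp only [MonoidHom.mem_range]
          exact ⟨fun ⟨a, ha⟩ => by obtain ⟨h, rfl⟩ := QuotientGroup.mk'_surjective E a; exact ⟨h, ha⟩,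
            fun ⟨a, ha⟩ => ⟨q a, ha⟩⟩)
      (by
        obtain ⟨l, hl1, hl2⟩ := hl
        refine ⟨q l, fun h => hl2 ?_⟩
        have h1 : l * ω₀ * l⁻¹ * ω₀⁻¹ ∈ zpowers ω₀ ⊓ E :=
          ⟨(zpowers ω₀).mul_mem (conj_mem_of_mem_norm hl1 (mem_zpowers _)) ((zpowers ω₀).inv_mem (mem_zpowers _)), (hq _).1 (by
            simp only [map_mul, map_inv, h]; group)⟩
        rw [hEP, mem_bot, mul_inv_eq_one, mul_inv_eq_iff_eq_mul] at h1
        exact h1)
  have hB : RelB (ρ ω₀) (ρ' x) (ρ' y) (ρ' u) (ρ' v) := by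
    rw [← hρ']
    refine ⟨⟨by rw [← map_pow, ← map_pow, w3]; simp, fun m => ?_, by rw [← map_pow, r1, map_one], fun h => ?_,
      by rw [← map_pow, r3, map_one], ?_, ?_, ?_⟩, ?_, ?_, ?_, ?_, ?_, ?_, ?_, ?_, ?_⟩
    · obtain ⟨f, hf, e⟩ := p3 (m + ρ' (q ω₀) m + ρ' (q ω₀) (ρ' (q ω₀) m))
      have h3 : ρ ω₀ (ρ ω₀ (ρ ω₀ m)) = m := by
        change (ρ ω₀ * (ρ ω₀ * ρ ω₀)) m = m
        rw [← map_mul, ← map_mul, ← pow_three, w3, map_one]; rfl
      have h4 : p (ω₀ * f * ω₀⁻¹) = p f := by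
        rw [← p4 _ _ hf, e, hρ', map_add, map_add, h3]; abel
      have h2 := Normal.conj_mem inferInstance f hf ω₀
      rw [← e, p2 f hf]
      refine hfix f hf ?_
      rcases (p2 _ (E.mul_mem (E.inv_mem hf) h2)).1 (by
        rw [p1 _ (E.inv_mem hf) _ h2, h4, ← p1 _ (E.inv_mem hf) _ hf, inv_mul_cancel, p2 _ E.one_mem]
        simp) with h | h
      · rw [inv_mul_eq_one, eq_mul_inv_iff_mul_eq] at h; exact h.symm
      · rw [inv_mul_eq_iff_eq_mul] at h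
        have hh : ω₀ * (f * z) * ω₀⁻¹ = f := by
          rw [mul_assoc ω₀, mul_assoc f, ← hz, ← mul_assoc, ← mul_assoc, h, mul_assoc, hE.zz,
            mul_one]
        have : ω₀ ^ 3 * f * (ω₀ ^ 3)⁻¹ = ω₀ * (ω₀ * (ω₀ * f * ω₀⁻¹) * ω₀⁻¹) * ω₀⁻¹ := by
          simp only [pow_three, mul_assoc, mul_inv_rev]
        rw [h, hh, h, w3, one_mul, inv_one, mul_one, left_eq_mul] at this
        exact absurd this hE.ne
    · obtain ⟨g, rfl⟩ := QuotientGroup.mk'_surjective E x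
      exact r2 ((hq g).2 ((hρ g).1 h))
    all_goals simp only [← map_mul ρ', ← map_pow ρ']
    exacts [congrArg _ r4, congrArg _ r5, congrArg _ r6, congrArg _ r7, congrArg _ r8,
      by rw [r9, map_one], r10.imp (fun h => by rw [h, map_one]) (Or.imp (congrArg _) (congrArg _)),
      congrArg _ r11, congrArg _ r12, congrArg _ r13, congrArg _ r14, by rw [r15, map_one]]
  obtain ⟨C, j, k, hj, a0, a1, a2, a3, a4⟩ := hB.recog m2 mc
  let μ : H →* Mt := C.hom.comp ρ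
  let Λ : H →* R := μ.toHomUnits.prod θ
  have hΛ1 : ∀ h, (Λ h).1.val.c = C.mat (ρ h) := fun _ => rfl
  have hΛ2 : ∀ h, (Λ h).2 = θ h := fun _ => rfl
  clear_value Λ
  have hθω : θ ω₀ = 1 := show ω₀ ∈ θ.ker from hk ▸ hωN
  have hP : zpowers (ω₀ ^ j) = zpowers ω₀ := by
    rcases hj with rfl | rfl
    · rw [pow_one]
    · refine le_antisymm (zpowers_le_of_mem (pow_mem (mem_zpowers _) _)) (zpowers_le_of_mem ?_)
      have : ω₀ = (ω₀ ^ 2) ^ 2 := by rw [← pow_mul, show 2 * 2 = 3 + 1 from rfl, pow_succ, w3, one_mul]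
      have h := (zpowers (ω₀ ^ 2)).pow_mem (mem_zpowers _) 2
      rwa [← this] at h
  set ω := ω₀ ^ j with hω
  have ω3 : ω ^ 3 = 1 := by rw [hω, ← pow_mul, mul_comm, pow_mul, w3, one_pow]
  have hgen : ∀ c ∈ gL, ∃ h, rc (Λ h) = c := by
    obtain ⟨x, rfl⟩ := QuotientGroup.mk'_surjective E x
    obtain ⟨y, rfl⟩ := QuotientGroup.mk'_surjective E y
    obtain ⟨u, rfl⟩ := QuotientGroup.mk'_surjective E u
    obtain ⟨v, rfl⟩ := QuotientGroup.mk'_surjective E v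
    intro c hc
    have hv' := valid_gL c hc
    simp only [gL, List.mem_cons, List.not_mem_nil, or_false] at hc
    rcases hc with rfl | rfl | rfl | rfl | rfl
    · exact ⟨ω, eq_of_parts hv' (by rw [hΛ1, hω, map_pow, a0])
        (by rw [hΛ2, hω, map_pow, hθω, one_pow, ← rW_snd, ← rp_rc, rc_rW])⟩
    · exact ⟨x, eq_of_parts hv' (by rw [hΛ1]; exact a1) (by rw [hΛ2]; exact hx)⟩
    · exact ⟨y, eq_of_parts hv' (by rw [hΛ1]; exact a2) (by rw [hΛ2]; exact hy)⟩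
    · exact ⟨u, eq_of_parts hv' (by rw [hΛ1]; exact a3) (by rw [hΛ2]; exact hu)⟩
    · exact ⟨v * ω₀ ^ k, eq_of_parts hv' (by rw [hΛ1, map_mul, map_pow]; exact a4)
        (by rw [hΛ2, map_mul, map_pow, hθω, one_pow, mul_one]; exact hv)⟩
  have Λω : Λ ω = rW := gcR.inj (by
    rw [rc_rW]
    exact eq_of_parts (valid_gL _ (by simp [gL])) (by rw [hΛ1, hω, map_pow, a0])
      (by rw [hΛ2, hω, map_pow, hθω, one_pow, ← rW_snd, ← rp_rc, rc_rW]))
  have kerΛ : ∀ h, Λ h = 1 ↔ h ∈ E := fun h => by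
    constructor
    · intro e
      exact (hρ h).1 (C.mat_inj (by rw [← hΛ1, e, C.mat_one]; rfl))
    · intro he
      refine Prod.ext (Units.ext (Mt.ext ?_)) ((hΛ2 h).trans (show h ∈ θ.ker from hk ▸ hEN he))
      rw [hΛ1, (hρ h).2 he, C.mat_one]; rfl
  have hNL : ∀ h, θ h = 1 → Λ h = 1 ∨ Λ h = rW ∨ Λ h = rW * rW := fun h hh => by
    obtain ⟨a, ha, e, he, rfl⟩ := hker h hh
    rw [map_mul, (kerΛ e).2 he, mul_one]
    obtain ⟨i, rfl⟩ := mem_powers_iff_mem_zpowers.2 (hP ▸ ha : a ∈ zpowers ω)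
    simp only [← pow_mod_of_eq_one' ω3 i]
    have : i % 3 < 3 := Nat.mod_lt _ (by norm_num)
    generalize i % 3 = j at *
    interval_cases j <;> simp [pow_two, Λω]
  have memL : ∀ h, Λ h ∈ Lm := fun h => by
    have h1 : Dd ≤ (Lm.comap Λ).map θ := by
      rw [Dd_eq]
      refine gen_le fun g hg => ?_
      obtain ⟨c, hc, e⟩ : ∃ c ∈ gL, rp c = mcode g := by
        simp only [List.mem_cons, List.not_mem_nil, or_false] at hg
        rcases hg with e | e | e | e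
        exacts [⟨kX, by simp [gL], e.symm⟩, ⟨kY, by simp [gL], e.symm⟩, ⟨kU, by simp [gL], e.symm⟩,
          ⟨kV, by simp [gL], e.symm⟩]
      obtain ⟨h, rfl⟩ := hgen c hc
      exact ⟨h, mem_gen_of_mem hc, gcM.inj (by rw [← e, rp_rc, hΛ2])⟩
    obtain ⟨g, hg, e⟩ := h1 (hr ▸ ⟨h, rfl⟩ : θ h ∈ Dd)
    have h2 : Λ (g⁻¹ * h) ∈ Lm := by
      rcases hNL (g⁻¹ * h) (by rw [map_mul, map_inv, e, inv_mul_cancel]) with e | e | e <;> rw [e]
      exacts [one_mem _, rW_mem, mul_mem rW_mem rW_mem]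
    have := Lm.mul_mem hg h2
    rwa [← map_mul, mul_inv_cancel_left] at this
  have surj : ∀ r ∈ Lm, ∃ h, Λ h = r := fun r hr =>
    (gen_le (H := Λ.range) fun g hg => by obtain ⟨h, e⟩ := hgen _ hg; exact ⟨h, gcR.inj e⟩) hr
  have frat : ∀ h, ∃ l ∈ normalizer (zpowers ω : Set H), Λ l = Λ h := fun h => by
    have : Fact (Nat.Prime 3) := ⟨by norm_num⟩
    have h1 := Sylow.normalizer_sup_eq_top (Sylow.ofCard (p := 3) ((zpowers ω₀).subgroupOf N) (by
      rw [card_subgroupOf hPN, cP, hN, factorization_eq_of (a := 1) (m := 2 ^ 13) (by norm_num) (by norm_num)]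
      norm_num))
    rw [Sylow.coe_ofCard, subgroupOf_map_subtype, inf_eq_left.2 hPN] at h1
    obtain ⟨l, hl, n, hn, e⟩ := (mem_sup_of_le_norm le_norm_of_normal).1 (h1 ▸ mem_top h)
    obtain ⟨a, ha, e, he, rfl⟩ := hker n (show n ∈ θ.ker from hk ▸ hn)
    refine ⟨l * a, hP ▸ mul_mem hl (le_normalizer ha), ?_⟩
    rw [e]; simp [(kerΛ _).2 he]
  -- coordinates on `E`
  let co : H → ℕ := fun e => C.τ (p e)
  have c1 : ∀ e, co e < 4096 := fun _ => C.τ_lt _
  have c2 : ∀ e ∈ E, ∀ f ∈ E, co (e * f) = co e ^^^ co f := fun e he f hf =>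
    C.inj _ (c1 _) _ (xor_lt12 (c1 _) (c1 _)) (by
      rw [C.xor _ (c1 _) _ (c1 _), C.σ_τ, C.σ_τ, C.σ_τ, p1 e he f hf])
  have c3 : ∀ e ∈ E, co e = 0 ↔ e = 1 ∨ e = z := fun e he => by
    rw [← p2 e he, ← C.σ_τ (p e), ← C.zero]
    exact ⟨fun h => congrArg _ h, C.inj _ (c1 _) _ (by norm_num)⟩
  have c4 : ∀ a < 4096, ∃ e ∈ E, co e = a := fun a ha => by
    obtain ⟨e, he, h⟩ := p3 (C.σ a); exact ⟨e, he, by simp only [co]; rw [h, C.τ_σ ha]⟩
  have c5 : ∀ h, ∀ e ∈ E, co (h * e * h⁻¹) = lin (rc (Λ h)) (co e) := fun h e he => by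
    simp only [co]
    rw [← p4 h e he, lin_rc, hΛ1, ← C.σ_τ (p e), C.spec _ (C.τ_lt _), C.τ_σ (lin_lt _ _), C.τ_σ (C.τ_lt _)]
  obtain ⟨-, cm⟩ := sq_comm_of_crd hE hz c1 c2 c3 c4 fun k hk => by
    obtain ⟨h, rfl⟩ := hgen k hk; exact ⟨h, c5 h⟩
  have cE : ∀ h, ∀ e ∈ E, h * e * h⁻¹ ∈ E := fun h e he => Normal.conj_mem inferInstance e he h
  have zn : ∀ h (n : ℕ), h * z ^ n = z ^ n * h := fun h n => (Commute.pow_right (hz h) n).eq
  have cW : ∀ e ∈ E, co (ω * e * ω⁻¹) = lin kW (co e) := fun e he => by rw [c5 _ _ he, Λω, rc_rW]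
  have same : ∀ e ∈ E, ∀ f ∈ E, co e = co f → f = e ∨ f = e * z := fun e he f hf h => by
    have h1 : co e⁻¹ = co e := by
      have := (c3 1 E.one_mem).2 (Or.inl rfl)
      rw [← inv_mul_cancel e, c2 _ (E.inv_mem he) _ he] at this
      exact Nat.xor_eq_zero_iff.1 this
    have := (c3 _ (E.mul_mem (E.inv_mem he) hf)).1 (by rw [c2 _ (E.inv_mem he) _ hf, h1, h, Nat.xor_self])
    exact this.imp (fun h => (inv_mul_eq_one.1 h).symm) fun h => inv_mul_eq_iff_eq_mul.1 h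
  let n : H → H := fun e => e * (ω * e * ω⁻¹) * (ω * (ω * e * ω⁻¹) * ω⁻¹)
  have nz : ∀ e (i : ℕ), n (e * z ^ i) = n e * z ^ i := fun e i => by
    have h1 : ∀ e, ω * (e * z ^ i) * ω⁻¹ = ω * e * ω⁻¹ * z ^ i := fun e => by
      rw [mul_assoc (ω * e), zn ω⁻¹]; simp [mul_assoc]
    have h2 : z ^ i * z ^ i = 1 := by rw [← zpow_xor hE.zz, Nat.xor_self, pow_zero]
    simp only [n, h1]
    generalize ω * (ω * e * ω⁻¹) * ω⁻¹ = c, ω * e * ω⁻¹ = b
    simp only [mul_assoc, ← zn, h2, mul_one]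
  have n1 : ∀ e ∈ E, n e = 1 ∨ n e = z := fun e he =>
    (c3 _ (mul_mem (mul_mem he (cE _ _ he)) (cE _ _ (cE _ _ he)))).1 (by
      rw [c2 _ (mul_mem he (cE _ _ he)) _ (cE _ _ (cE _ _ he)), c2 _ he _ (cE _ _ he), cW _ (cE _ _ he),
        cW _ he, lin_WW, xor_W (c1 _)])
  have hs : ∀ a < 4096, ∃ e ∈ E, co e = a ∧ n e = 1 := fun a ha => by
    obtain ⟨e, he, h⟩ := c4 a ha
    rcases n1 e he with h1 | h1
    · exact ⟨e, he, h, h1⟩
    · refine ⟨e * z, mul_mem he hE.mem, by rw [c2 _ he _ hE.mem, (c3 z hE.mem).2 (Or.inr rfl), h]; simp, ?_⟩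
      have := nz e 1
      rwa [pow_one, h1, hE.zz] at this
  choose! s s1 s2 s3 using hs
  have uniq : ∀ e ∈ E, ∀ i : ℕ, n e = z ^ i → e = s (co e) * z ^ i := fun e he i h => by
    have h2 : z ^ i * z ^ i = 1 := by rw [← zpow_xor hE.zz, Nat.xor_self, pow_zero]
    rcases same _ (s1 _ (c1 e)) _ he (s2 _ (c1 e)) with h1 | h1
    · rw [h1, s3 _ (c1 e)] at h; rw [← h, mul_one]; exact h1
    · have h3 := nz (s (co e)) 1
      rw [pow_one, ← h1, s3 _ (c1 e), one_mul, h] at h3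
      rw [h3]; exact h1
  refine ⟨ω, s, Λ, ⟨hE.zz, hE.ne, hz, fun a ha b hb => ?_, fun a ha h => ?_, ω3, Λω, fun h => ?_, memL,
    fun r hr => ?_, fun l hl a ha => ?_, fun r hr h => ?_, fun r hr h => ?_, ?_⟩, hP⟩
  · have ea := s1 a ha
    have eb := s1 b hb
    rw [← s2 a ha, ← s2 b hb, ← c2 _ (s1 _ ha) _ (s1 _ hb), s2 a ha, s2 b hb]
    refine uniq _ (mul_mem ea eb) _ ?_
    have h1 : ∀ e f, ω * (e * f) * ω⁻¹ = ω * e * ω⁻¹ * (ω * f * ω⁻¹) := fun e f => by group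
    have t1 := cm _ eb _ (cE ω _ ea)
    have t2 := cm _ (cE ω _ eb) _ (cE ω _ (cE ω _ ea))
    have t3 := cm _ eb _ (cE ω _ (cE ω _ ea))
    rw [cW _ (cE ω _ ea)] at t2 t3
    rw [cW _ eb, Bf_W (c1 _) (c1 _)] at t2
    rw [cW _ ea, s2 a ha, s2 b hb] at t1 t2 t3
    rw [lin_WW, Bf_comm] at t3
    have na := s3 a ha
    have nb := s3 b hb
    have h2 : z ^ Bf b (lin kW a) * z ^ Bf b (lin kW a) = 1 := by
      rw [← zpow_xor hE.zz, Nat.xor_self, pow_zero]
    simp only [n] at na nb ⊢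
    rw [h1 (s a) (s b), h1 (ω * s a * ω⁻¹)]
    generalize ω * (ω * s a * ω⁻¹) * ω⁻¹ = a2 at *
    generalize ω * (ω * s b * ω⁻¹) * ω⁻¹ = b2 at *
    generalize ω * s a * ω⁻¹ = a1 at *
    generalize ω * s b * ω⁻¹ = b1 at *
    calc s a * s b * (a1 * b1) * (a2 * b2) = s a * (s b * a1) * (b1 * a2) * b2 := by group
      _ = s a * a1 * (s b * a2) * b1 * b2 * (z ^ Bf b (lin kW a) * z ^ Bf b (lin kW a)) := by
        rw [t1, t2]; simp only [mul_assoc, ← zn]
      _ = (s a * a1 * a2) * (s b * b1 * b2) * z ^ be a b := by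
        rw [h2, t3, mul_one]; simp only [mul_assoc, ← zn]; rfl
      _ = _ := by rw [na, nb]; simp
  · rw [← s2 a ha]; exact (c3 _ (s1 a ha)).2 h
  · rw [kerΛ]
    constructor
    · intro he; exact ⟨_, c1 h, same _ (s1 _ (c1 h)) _ he (s2 _ (c1 h))⟩
    · rintro ⟨a, ha, rfl | rfl⟩
      exacts [s1 a ha, mul_mem (s1 a ha) hE.mem]
  · obtain ⟨h, rfl⟩ := surj r hr; exact frat h
  · have ea := s1 a ha
    rw [← s2 a ha, ← c5 _ _ (s1 _ ha), s2 a ha]
    refine uniq _ (cE _ _ ea) _ ?_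
    have na := s3 a ha
    have h1 : l * ω * l⁻¹ = ω ∨ l * ω * l⁻¹ = ω * ω := by
      have h1 := hP ▸ conj_mem_of_mem_norm hl (mem_zpowers ω)
      obtain ⟨i, e⟩ := mem_powers_iff_mem_zpowers.2 (conj_mem_of_mem_norm hl (mem_zpowers ω))
      simp only [← pow_mod_of_eq_one' ω3 i] at e
      have : i % 3 < 3 := Nat.mod_lt _ (by norm_num)
      generalize i % 3 = j at *
      interval_cases j
      · have : ω = 1 := by simpa using e.symm
        rw [this, map_one] at Λω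
        exact absurd (by rw [← Λω]; simp) rW_ne
      · left; simpa using e.symm
      · right; simpa [pow_two] using e.symm
    have h2 : ∀ g, Λ (l * ω * l⁻¹) = g → Λ l * rW = g * Λ l := fun g h => by
      rw [← h, ← Λω]; simp
    rcases h1 with h1 | h1
    · have h3 := h2 _ (by rw [h1, Λω])
      rw [((ou_cases (memL l)).resolve_right fun h => rW_ne (mul_right_cancel (h3.symm.trans h.2))).1,
        zero_mul, pow_zero]
      have h4 : ∀ e, ω * (l * e * l⁻¹) * ω⁻¹ = l * (ω * e * ω⁻¹) * l⁻¹ := fun e => by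
        conv_lhs => rw [← h1]
        group
      simp only [n, h4] at na ⊢
      rw [conj_mul, conj_mul, na]; simp
    · have h3 := h2 _ (by rw [h1, map_mul, Λω])
      rw [((ou_cases (memL l)).resolve_left fun h => rW_ne (mul_right_cancel (h.2.symm.trans h3))).1, one_mul]
      have h5 : l * (ω * ω) * l⁻¹ = ω := by
        rw [← conj_mul, h1, mul_assoc, ← pow_three, ω3, mul_one]
      have h4 : ∀ e, ω * (l * e * l⁻¹) * ω⁻¹ = l * (ω * (ω * e * ω⁻¹) * ω⁻¹) * l⁻¹ := fun e => by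
        conv_lhs => rw [← h5]
        group
      have h6 : ∀ e, ω * (ω * (ω * e * ω⁻¹) * ω⁻¹) * ω⁻¹ = e := fun e => by
        have : ω * (ω * (ω * e * ω⁻¹) * ω⁻¹) * ω⁻¹ = ω ^ 3 * e * (ω ^ 3)⁻¹ := by
          simp only [pow_three, mul_assoc, mul_inv_rev]
        rw [this, ω3]; simp
      have t := cm _ (cE ω _ (cE ω _ ea)) _ (cE ω _ ea)
      rw [cW _ (cE ω _ ea), cW _ ea, s2 a ha, Bf_W (lin_lt _ _) ha, Bf_W_self ha] at t
      simp only [n, h4, h6] at na ⊢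
      rw [conj_mul, conj_mul, mul_assoc (s a), t, ← mul_assoc (s a), ← mul_assoc (s a), na, one_mul, zn]
      simp
  · obtain ⟨g, rfl⟩ := surj r hr
    exact (kerΛ g).2 ((hρ g).1 (C.mat_inj (by
      rw [C.mat_one]
      exact mat_ext' (C.mat_lt _) idm_lt fun a ha => by rw [← hΛ1, ← lin_rc, h a ha, lin_idm ha])))
  · obtain ⟨g, rfl⟩ := surj r hr; exact hNL g (hΛ2 g ▸ h)
  · rw [← card_mul_index θ.ker, index_ker, hk, hr, hN, card_Dd]; norm_num

theorem HM.of_type {G : Type*} [Group G] [Finite G] {z : G} {P : Subgroup G}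
    (hJ : IsOfJankoFourTypeWith z P) :
    ∃ (ω : centralizer ({z} : Set G)) (s : ℕ → centralizer ({z} : Set G))
      (Λ : centralizer ({z} : Set G) →* R), HM ⟨z, self_mem_cent1 z⟩ ω s Λ ∧ P = zpowers (ω : G) := by
  obtain ⟨h1, h2, h3, h4, ⟨N, n1, n2, -, n4, ⟨hN, ⟨φ⟩⟩, n5⟩, h5, h6, h7, -⟩ := hJ
  set H := centralizer ({z} : Set G)
  have hEH : twoCoreOfCentralizer z ≤ H := map_subtype_le _
  obtain ⟨w, hw⟩ := ES.of_isExtraspecial h2
  have hzE : z ∈ twoCoreOfCentralizer z := (h6.ge (mem_zpowers z)).1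
  obtain rfl : z = w := hw.unique hzE (ne_one_of_orderOf h1) fun y hy => (mem_cent1.1 (hEH hy)).symm
  have hnE : ((twoCoreOfCentralizer z).subgroupOf H).Normal := by
    rw [twoCoreOfCentralizer, subgroupOf, comap_map_eq_self_of_injective H.subtype_injective]
    infer_instance
  obtain ⟨ω₀, hω, ho⟩ := exists_mem_orderOf_eq (H := P) (p := 3) (by norm_num) (by rw [h5])
  have hP : P = zpowers ω₀ := eq_zpowers_of_card_prime (by rw [h5]; norm_num) hω (by
    rintro rfl; simp at ho)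
  obtain ⟨ψ⟩ := autM22
  let θ : H →* M24 := Dd.subtype.comp (((φ.trans ψ).toMonoidHom).comp (QuotientGroup.mk' _))
  have hmap : ∀ a : H, (zpowers a).map H.subtype = zpowers (a : G) := fun a => MonoidHom.map_zpowers _ _
  obtain ⟨ω, s, Λ, hM, e⟩ := HM.of_data (ω₀ := ⟨ω₀, n2 (n5 hω)⟩) (N := N.subgroupOf H) (hw.subgroupOf hEH)
    (fun h => Subtype.ext (mem_cent1.1 h.2)) (by rw [card_subgroupOf hEH, h3])
    (fun g hg => h4 ⟨g.2, fun y hy => congrArg Subtype.val (hg ⟨y, hEH hy⟩ hy)⟩) (fun g hg => n1 hg)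
    (by rw [card_subgroupOf n2, n4, h3]) θ
    (by ext g; simp [θ]; rfl) (by
      rw [MonoidHom.range_comp, MonoidHom.range_eq_top.2, ← MonoidHom.range_eq_map, range_subtype]
      exact (φ.trans ψ).surjective.comp (QuotientGroup.mk'_surjective _))
    (by rw [← orderOf_coe]; exact ho) (n5 hω)
    (fun e he h => by
      have : (e : G) ∈ zpowers z := h6 ▸ ⟨he, by
        rw [hP, cent_zpowers]; exact mem_cent1.2 (congrArg Subtype.val h).symm⟩
      exact (hw.mem_zp.1 this).imp Subtype.ext Subtype.ext)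
    (by
      by_contra hn
      push Not at hn
      refine h7 (le_antisymm (fun g hg => ⟨hg.1, ?_⟩) (inf_le_inf_left _ (cent_le_norm _)))
      rw [hP, cent_zpowers]
      refine mem_cent1.2 (congrArg Subtype.val (hn ⟨g, hg.1⟩ (mem_normalizer_of_conj fun x hx => ?_)))
      rw [← mem_map_iff_mem H.subtype_injective, hmap, ← hP] at hx ⊢
      exact conj_mem_of_mem_norm hg.2 hx)
  exact ⟨ω, s, Λ, hM, by rw [← hmap, e, hmap, hP]⟩

end Cfsg.Agent.J4
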