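import Cfsg.Agent.J4.QG

/-!
# Groups of type `J₄`: the rank seven action
-/

set_option autoImplicit false
set_option linter.unusedSectionVars false

namespace Cfsg.Agent.J4

open Cfsg.Agent.M24 Cfsg.Agent.TT Cfsg.Agent.GT Subgroup MulAction
open scoped Pointwise

variable {G H : Type*} [Group G] [Group H] [Finite G] {ι : H →* G} {z ω : H} {s : ℕ → H} {Λ : H →* R}
  {M : GM ι z ω s Λ} {y g : H} {T : ℕ → H} {π : N[M.V] →* M24} {κ : M24 →* N[M.V]}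

theorem GM.Z_le_Ex (M : GM ι z ω s Λ) : M.Z ≤ M.Ex := by
  rintro _ ⟨h, hh, rfl⟩; exact M.mem_Ex.2 (M.mem_ZH.1 hh).1

namespace JD

variable (J : JD M y g T π κ)
include J

theorem idx : Nat.card (G ⧸ N[M.V]) = 173067389 := by
  have h := N[M.V].index_mul_card
  rw [J.mc.card_N, J.card_G] at h
  exact Nat.eq_of_mul_eq_mul_right (by norm_num) (h.trans (show _ = 173067389 * 501397585920 by norm_num))

theorem orb_mul (q : G ⧸ N[M.V]) : (inv3 M.V (pq M.V q)).2.2 * (orbit N[M.V] q).ncard = 501397585920 :=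
  J.mc.card_N ▸ card_orb _ q

theorem arith {q : G ⧸ N[M.V]} (h : pq M.V q ⊓ N[M.V] = ⊥) :
    (23 ∣ (inv3 M.V (pq M.V q)).2.2 → (inv3 M.V (pq M.V q)).2.2 = 6072) ∧
      (¬ 23 ∣ (inv3 M.V (pq M.V q)).2.2 → (inv3 M.V (pq M.V q)).2.2 ≤ 9216) := by
  obtain ⟨q5, ψ, P⟩ := J.exists_pt
  have ne : ∀ n : G, n * ι z * n⁻¹ ≠ 1 := fun n e => M.es_Ex.ne (by simpa using e)
  obtain ⟨l5, -, e5⟩ := M.lift_code (k := k5h) (by decide +kernel)
  have h5 := excl (V := M.V) (by norm_num) (syl_zp (S := ⊤) (by norm_num) trivial P.ordx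
    (by rw [card_top, J.card_G]; norm_num)) (c₀ := ι l5)
    (zpowers_le.2 (M.mem_norm_cjV.2 (mask_inj (by
      rw [← acRS.ap_code _ trivial, ← acRS.ap_code _ trivial, P.rcq, e5, mask_H0]
      decide +kernel)))) (fun n hn => by
      obtain ⟨u, hu, -, e, -⟩ := J.norm5 P
      exact ne_bot_of_mem ⟨conj_mem_conj.2 (M.z_mem_cjV _), M.Ex_le_norm _ (M.Z_le_Ex (conj_mem_of_mem_norm
        ((e.ge.trans (sup_le (zpowers_le.2 (cent_le_norm _ hu)) (J.X_le P))) hn) M.z_mem_Z))⟩ (ne n)) h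
  have h7 := excl (V := M.V) (by norm_num) (J.syl7 P).1 (c₀ := 1) (by rw [one_conj]; exact zpowers_le.2 (κ _).2)
    (fun n hn => by
      rw [one_conj]
      exact ne_bot_of_mem ⟨conj_mem_conj.2 M.z_mem_V, le_normalizer (M.Z_le (conj_mem_of_mem_norm
        ((J.norm7 P).1 hn) M.z_mem_Z))⟩ (ne n)) h
  obtain ⟨Q, hQ⟩ := exists_syl (p := 3) (by norm_num) (N[M.V] ⊓ C1[ι z])
  have hQ' : IsPiHallOf {3} Q ⊤ := syl_trans (by norm_num) hQ le_top fun e => by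
    have := card_mul_relIndex (le_top (a := N[M.V] ⊓ C1[ι z]))
    rw [M.card_norm_V_inf, card_top, J.card_G] at this
    omega
  obtain ⟨-, c3, -, n3, -⟩ := J.three_syl hQ' ((syl_le hQ).trans inf_le_right)
  have h3 := excl (V := M.V) (by norm_num) hQ' (c₀ := 1) (by rw [one_conj]; exact (syl_le hQ).trans inf_le_left)
    (fun n hn => by
      rw [one_conj]
      refine ne_bot_of_mem ⟨conj_mem_conj.2 M.z_mem_V, ?_⟩ (ne n)
      rw [mem_cent1.1 (n3 hn), mul_inv_cancel_right]; exact le_normalizer M.z_mem_V) h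
  rw [Nat.card_zpowers, P.ordx] at h5
  rw [Nat.card_zpowers, J.ord_x7] at h7
  rw [c3] at h3
  obtain ⟨π', κ', T', ms, -⟩ := J.ms.conj_ q.out
  have e := ms.card_map_π (W := N[M.V] ⊓ N[pq M.V q]) inf_le_right
  rw [show N[M.V] ⊓ N[pq M.V q] ⊓ M.V.map (MulAut.conj q.out).toMonoidHom = ⊥ from
    eq_bot_iff.2 (h ▸ le_inf inf_le_right (inf_le_left.trans inf_le_left)), card_bot, mul_one] at e
  have h1 := J.orb_mul q
  have h2 : (orbit N[M.V] q).ncard ≤ 173067389 := J.idx ▸ Set.ncard_le_card _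
  have h4 := m24_arith (e ▸ h5) (e ▸ h7) (e ▸ h3)
  rw [e] at h4
  exact ⟨fun k => h4.1 k (by
    by_contra! a
    have := Nat.mul_le_mul a h2
    rw [show Nat.card ↥(N[M.V] ⊓ N[pq M.V q]) = (inv3 M.V (pq M.V q)).2.2 from rfl, h1] at this
    omega), h4.2⟩

theorem no23 {x d : G} (o : orderOf x = 23) (hd : d * d = 1) (e : x * d = d * x) : d = 1 := by_contra fun k => by
  have h := o ▸ orderOf_dvd_card_of_mem (mem_cent1.2 e)
  rcases J.hcl d (orderOf_eq_prime (by rw [pow_two, hd]) k) with c | c <;> rw [card_cent_of_isConj c] at h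
  · rw [J.card_cz] at h; omega
  · rw [J.card_ct] at h; omega

theorem fix23 {x : G} (hx : x ∈ N[M.V]) (o : orderOf x = 23) {q : G ⧸ N[M.V]} (h : x ∈ N[pq M.V q])
    (hq : pq M.V q ≠ M.V) : pq M.V q ⊓ N[M.V] = ⊥ := by
  have c : Nat.card (pq M.V q) = 2 ^ 11 := by rw [pq, card_conj, M.card_V]
  have h1 := card_modEq_one (p := 23) (by norm_num) (o ▸ pow_orderOf_eq_one x) (D := pq M.V q ⊓ N[M.V])
    (zpowers_le.1 (le_norm_inf (zpowers_le.2 h) (le_norm_self (zpowers_le.2 hx)))) fun d hd =>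
      J.no23 o (sq_conj M.V_sq _ d hd.1)
  obtain ⟨k, hk, e⟩ := (Nat.dvd_prime_pow (by norm_num)).1 (c ▸ card_dvd_of_le (inf_le_left : pq M.V q ⊓ N[M.V] ≤ _))
  rw [e] at h1
  rcases (show ∀ k ≤ 11, 2 ^ k % 23 = 1 % 23 → k = 0 ∨ k = 11 by decide) k hk h1 with rfl | rfl
  · exact card_eq_one.1 e
  · exact absurd (M.eq_V_of_norm (sq_conj M.V_sq _) c.ge
      (inf_eq_left.1 (eq_of_le_of_card_ge inf_le_left (c.trans e.symm).le))) hq

theorem exists_fix {x : G} (o : orderOf x = 23) : ∃ q, x ∈ N[pq M.V q] ∧ pq M.V q ≠ M.V := by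
  have := Fact.mk (show Nat.Prime 23 by norm_num)
  by_contra! k
  have h1 := (isPGroup_of_card_eq_prime (P := zpowers x) (by rw [Nat.card_zpowers, o])).card_modEq_card_fixedPoints
    (G ⧸ N[M.V])
  have h2 : Nat.card (fixedPoints (zpowers x) (G ⧸ N[M.V])) ≤ 1 := Finite.card_le_one_iff_subsingleton.2 ⟨fun a b =>
    Subtype.ext (pq_inj ((k _ (stab_pq a.1 ▸ a.2 ⟨x, mem_zpowers x⟩)).trans
      (k _ (stab_pq b.1 ▸ b.2 ⟨x, mem_zpowers x⟩)).symm))⟩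
  rw [J.idx, Nat.ModEq] at h1
  omega

theorem exists_AB : (∃ q, (inv3 M.V (pq M.V q)).2.1 = 2 ∧ (inv3 M.V (pq M.V q)).2.2 ≤ 15360) ∧ ∃ q,
    (2 < (inv3 M.V (pq M.V q)).2.1 ∧ (inv3 M.V (pq M.V q)).2.1 ≤ 16) ∧ (inv3 M.V (pq M.V q)).2.2 ≤ 147456 := by
  obtain ⟨τ, W⟩ := J.exists_sw
  obtain ⟨l, hl, el⟩ := M.lift_code (k := k32) (by decide +kernel)
  obtain ⟨m, hm, em⟩ := M.lift_code (k := k40) (by decide +kernel)
  obtain ⟨a, ha⟩ := exists_pq (V := M.V) (τ * ι l) (ι l)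
  obtain ⟨b, hb⟩ := exists_pq (V := M.V) (τ * ι l) (ι m)
  exact ⟨⟨a, ha ▸ W.pairA hl el⟩, b, hb ▸ W.pairB J hl el hm em⟩

theorem orb_ge {q : G ⧸ N[M.V]} {n m : ℕ} (h : (inv3 M.V (pq M.V q)).2.2 ≤ n) (e : n * m = 501397585920) :
    m ≤ (orbit N[M.V] q).ncard := by
  have h1 := Nat.mul_le_mul_right (orbit N[M.V] q).ncard h
  rw [J.orb_mul, ← e] at h1
  exact Nat.le_of_mul_le_mul_left h1 (Nat.pos_of_ne_zero fun k => by simp [k] at e)

theorem orb23 {a b : G ⧸ N[M.V]} (ha : pq M.V a ⊓ N[M.V] = ⊥) (hb : pq M.V b ⊓ N[M.V] = ⊥)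
    (a' : 23 ∣ (inv3 M.V (pq M.V a)).2.2) (b' : 23 ∣ (inv3 M.V (pq M.V b)).2.2) : b ∈ orbit N[M.V] a := by
  by_contra k
  obtain ⟨c, c1, c2⟩ := J.exists_AB.1
  have n : ∀ x, pq M.V x ⊓ N[M.V] = ⊥ → orbit N[M.V] x ≠ orbit N[M.V] c := fun x hx e => by
    rw [← inv3_orbit (orbit_eq_iff.1 e)] at c1
    simp [inv3, hx] at c1
  have k' : orbit N[M.V] a ≠ orbit N[M.V] b := fun e => k (orbit_eq_iff.1 e.symm)
  have h := orb_sum_le (K := N[M.V]) (c := ![a, b, c]) (fun i j => by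
    fin_cases i <;> fin_cases j <;> simp [k', k'.symm, n a ha, n b hb, (n a ha).symm, (n b hb).symm])
    fun _ => Set.subset_univ _
  have h1 := J.orb_ge ((J.arith ha).1 a').le (m := 82575360) (by norm_num)
  have h2 := J.orb_ge ((J.arith hb).1 b').le (m := 82575360) (by norm_num)
  have h3 := J.orb_ge c2 (m := 32643072) (by norm_num)
  simp [Fin.sum_univ_three, J.idx] at h
  omega

theorem exists_a : ∃ q, pq M.V q ⊓ N[M.V] = ⊥ ∧ 23 ∣ (inv3 M.V (pq M.V q)).2.2 := by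
  have o := (J.mc.oκ x23).trans orderOf_x23
  obtain ⟨q, h1, h2⟩ := J.exists_fix o
  exact ⟨q, J.fix23 (κ _).2 o h1 h2, o ▸ orderOf_dvd_card_of_mem (H := N[M.V] ⊓ N[pq M.V q]) ⟨(κ _).2, h1⟩⟩

theorem exists_b : ∃ q, pq M.V q ⊓ N[M.V] = ⊥ ∧ ¬ 23 ∣ (inv3 M.V (pq M.V q)).2.2 := by
  by_contra! k
  obtain ⟨a, h1, h2⟩ := J.exists_a
  have h3 := J.orb_mul a
  rw [(J.arith h1).1 h2] at h3
  have h4 := (Set.ncard_le_ncard (s := Set.univ) fun q _ => or_iff_not_imp_left.2 fun e =>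
    J.orb23 h1 (not_not.1 e) h2 (k q (not_not.1 e))).trans
      (Set.ncard_union_le {q | pq M.V q ⊓ N[M.V] ≠ ⊥} (orbit N[M.V] a))
  have h5 := J.card_X
  rw [Set.ncard_univ, J.idx] at h4
  omega

theorem rank7 : ∃ c : Fin 7 → G ⧸ N[M.V], (∀ i j, i ≠ j → orbit N[M.V] (c i) ≠ orbit N[M.V] (c j)) ∧
    (∀ q, ∃ i, q ∈ orbit N[M.V] (c i)) ∧ ∀ i, (orbit N[M.V] (c i)).ncard =
      ![1, 15180, 28336, 3400320, 32643072, 54405120, 82575360] i := by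
  obtain ⟨⟨d1, p1⟩, d2, p2⟩ := M.exists_near
  obtain ⟨⟨q4, p4⟩, q3, p3⟩ := J.exists_AB
  obtain ⟨q5, p5⟩ := J.exists_b
  obtain ⟨q6, p6⟩ := J.exists_a
  rw [← pq_mk] at p1 p2
  have p0 : (inv3 M.V (pq M.V ((1 : G) : G ⧸ N[M.V]))).1 = 2048 ∧ (inv3 M.V (pq M.V ((1 : G) : G ⧸ N[M.V]))).2.1 = 2048 := by
    simp [inv3, pq_mk, one_conj, inf_eq_left.2 (le_normalizer (H := M.V)), M.card_V]
  have a5 : (inv3 M.V (pq M.V q5)).2.1 = 1 := by simp [inv3, p5.1]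
  have a6 : (inv3 M.V (pq M.V q6)).2.1 = 1 := by simp [inv3, p6.1]
  have hd : ∀ i j, i ≠ j → orbit N[M.V] (![((1 : G) : G ⧸ N[M.V]), d1, d2, q3, q4, q5, q6] i) ≠
      orbit N[M.V] (![((1 : G) : G ⧸ N[M.V]), d1, d2, q3, q4, q5, q6] j) := fun i j h e => by
    have := inv3_orbit (orbit_eq_iff.1 e)
    rw [Prod.ext_iff, Prod.ext_iff] at this
    have b5 := p5.2
    have b6 := p6.2
    fin_cases i <;> fin_cases j <;> simp at h this <;> omega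
  refine ⟨_, hd, orb_cover hd (fun i => ?_) (by rw [J.idx]; decide)⟩
  fin_cases i
  exacts [(Set.ncard_pos (Set.toFinite _)).2 ⟨_, mem_orbit_self _⟩, J.orb_ge p1.2.2 (by norm_num),
    J.orb_ge p2.2.2 (by norm_num), J.orb_ge p3.2 (by norm_num), J.orb_ge p4.2 (by norm_num),
    J.orb_ge ((J.arith p5.1).2 p5.2) (by norm_num), J.orb_ge ((J.arith p6.1).1 p6.2).le (by norm_num)]

end JD

end Cfsg.Agent.J4
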