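import Cfsg.Agent.J4.EF
import Cfsg.Agent.J4.QH
import Cfsg.Agent.Cl.DicksonCount

/-!
# Groups of type `J₄`: Sylow counts in subgroups
-/

set_option autoImplicit false
set_option linter.unusedSectionVars false

namespace Cfsg.Agent.J4

open Cfsg.Agent.M24 Cfsg.Agent.TT Cfsg.Agent.GT Subgroup MulAction
open scoped Pointwise

/-- `m / d ≡ 1` modulo `p`. -/
def sv (m p d : ℕ) : Prop := m % d = 0 ∧ m / d % p = 1
instance instDecSv (m p d : ℕ) : Decidable (sv m p d) := by unfold sv; infer_instance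

/-- The divisors. -/
def dv (e : ℕ) : List ℕ := (List.range (e + 1)).filter fun c => e % c = 0

theorem mem_dv {c e : ℕ} (he : 0 < e) (h : c ∣ e) : c ∈ dv e := by
  simp [dv, Nat.lt_succ_iff, Nat.le_of_dvd he h, Nat.mod_eq_zero_of_dvd h]

def lBig : List (ℕ × ℕ) := [(23, 22), (29, 28), (31, 10), (37, 12), (43, 14)]
def okB (m : ℕ) : Prop := ∀ t ∈ lBig, m % t.1 = 0 → ∃ c ∈ dv t.2, sv m t.1 (t.1 * c)
instance instDecOkB (m : ℕ) : Decidable (okB m) := by unfold okB; infer_instance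
def okM (x m p e f : ℕ) : Prop :=
  ∃ b ∈ dv e, (b % f = 0 ∧ sv x p (p * b)) ∧ ∃ c ∈ dv e, c % b = 0 ∧ sv m p (p * c)
instance instDecOkM (x m p e f : ℕ) : Decidable (okM x m p e f) := by unfold okM; infer_instance
def l16 : List ℕ := [1, 2, 3, 6, 11, 22, 33, 66, 121, 242, 363, 726, 1331, 2662, 3993, 7986]

section
variable {G : Type*} [Group G] [Finite G] {p : ℕ} {X K P : Subgroup G}

theorem sv_of {m d n : ℕ} (h : d * n = m) (hm : 0 < m) (hn : n % p = 1) : sv m p d := by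
  subst h
  exact ⟨Nat.mul_mod_right _ _, by rwa [Nat.mul_div_cancel_left _ (Nat.pos_of_mul_pos_right hm)]⟩

theorem sv_syl (hp : p.Prime) (h : IsPiHallOf {p} P K) : sv (Nat.card K) p (Nat.card ↥(K ⊓ N[P])) :=
  let ⟨_, h1, h2⟩ := syl_count hp h; sv_of h2 Nat.card_pos h1

theorem sv_zp (hp : p.Prime) (h : ¬ p * p ∣ Nat.card G) {x : G} (hx : x ∈ K) (o : orderOf x = p) {e : ℕ}
    (he : Nat.card N[zpowers x] = p * e) :
    ∃ c, c ∣ e ∧ Nat.card ↥(K ⊓ N[zpowers x]) = p * c ∧ sv (Nat.card K) p (p * c) := by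
  obtain ⟨c, hc⟩ : p ∣ Nat.card ↥(K ⊓ N[zpowers x]) :=
    o ▸ orderOf_dvd_card_of_mem ⟨hx, le_normalizer (mem_zpowers x)⟩
  exact ⟨c, Nat.dvd_of_mul_dvd_mul_left hp.pos (by rw [← hc, ← he]; exact card_dvd_of_le inf_le_right), hc,
    hc ▸ sv_syl hp (syl_zp hp hx o fun k => h (k.trans (card_subgroup_dvd_card K)))⟩

theorem okM_of (hp : p.Prime) (h : ¬ p * p ∣ Nat.card G) (hK : X ≤ K) {x : G} (hx : x ∈ X) (o : orderOf x = p) {e f : ℕ}
    (he : Nat.card N[zpowers x] = p * e) (hf : p * f ∣ Nat.card ↥(X ⊓ N[zpowers x])) :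
    okM (Nat.card X) (Nat.card K) p e f := by
  have e0 : 0 < e := Nat.pos_of_mul_pos_left (he ▸ Nat.card_pos)
  obtain ⟨b, b1, b2, b3⟩ := sv_zp hp h hx o he
  obtain ⟨c, c1, c2, c3⟩ := sv_zp hp h (hK hx) o he
  exact ⟨b, mem_dv e0 b1, ⟨Nat.mod_eq_zero_of_dvd (Nat.dvd_of_mul_dvd_mul_left hp.pos (b2 ▸ hf)), b3⟩, c, mem_dv e0 c1,
    Nat.mod_eq_zero_of_dvd (Nat.dvd_of_mul_dvd_mul_left hp.pos (by
      rw [← b2, ← c2]; exact card_dvd_of_le (inf_le_inf_right _ hK))), c3⟩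

theorem sv_ti (hp : p.Prime) (h : IsPiHallOf {p} P ⊤) (hP : P ≤ K) (h1 : 1 < Nat.card P)
    (ti : ∀ g, ∀ u ∈ P, u ∈ cj[g] P → u ≠ 1 → g ∈ N[P]) : sv (Nat.card K) (Nat.card P) (Nat.card ↥(K ⊓ N[P])) := by
  have e := card_orb (V := P) K ((1 : G) : G ⧸ N[P])
  rw [pq_mk, one_conj] at e
  refine sv_of e Nat.card_pos ?_
  have h2 := Cl.card_dvd_ncard_of_free (H := P) (orbit K ((1 : G) : G ⧸ N[P]) \ {((1 : G) : G ⧸ N[P])})
    (fun u q hq => ⟨mem_orbit_iff.2 (let ⟨k, hk⟩ := hq.1; ⟨⟨u, hP u.2⟩ * k, by rw [mul_smul, ← hk]; rfl⟩), fun k => hq.2 (by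
      have : u • ((1 : G) : G ⧸ N[P]) = ((1 : G) : G ⧸ N[P]) := (stab_pq (V := P) _).ge (by
        rw [pq_mk, one_conj]; exact le_normalizer u.2)
      exact smul_left_cancel u (Eq.trans k this.symm))⟩) fun u q hq k => by
      obtain ⟨g, rfl⟩ := QuotientGroup.mk_surjective q
      by_contra n
      refine hq.2 (pq_inj ?_)
      rw [pq_mk, pq_mk, one_conj]
      have h3 : zpowers (u : G) ≤ N[cj[g] P] := zpowers_le.2 (pq_mk (V := P) g ▸ (stab_pq _).le k)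
      exact conj_eq_self (ti g u u.2 (le_syl_of_le_norm hp (conj_top g ▸ syl_conj h g)
        ((syl_isPGroup hp h).to_le (zpowers_le.2 u.2)) le_top h3 (mem_zpowers _)) fun e => n (Subtype.ext e))
  rw [Set.ncard_sdiff_singleton_of_mem (mem_orbit_self _)] at h2
  have h3 := (Set.ncard_pos (Set.toFinite _)).2 ⟨_, mem_orbit_self (M := K) ((1 : G) : G ⧸ N[P])⟩
  obtain ⟨c, hc⟩ := h2
  rw [show (orbit K ((1 : G) : G ⧸ N[P])).ncard = Nat.card P * c + 1 by omega, Nat.mul_add_mod, Nat.mod_eq_of_lt h1]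

theorem exists_k (hK : X ≤ K) {x i : ℕ} (hx : Nat.card X = x) (hi : x * i = Nat.card G)
    (hd : i ∣ 7986 * (23 * (29 * (31 * (37 * 43))))) :
    ∃ a ∈ l16, ∃ c ∈ l32, i % (a * c) = 0 ∧ Nat.card K = x * (a * c) := by
  have h1 := card_mul_relIndex hK
  have h2 : X.relIndex K ∣ i := Nat.dvd_of_mul_dvd_mul_left (hx ▸ Nat.card_pos) (by
    rw [hi, ← hx, h1]; exact card_subgroup_dvd_card K)
  obtain ⟨a, c, ha, hc, e⟩ := Nat.dvd_mul.1 (h2.trans hd)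
  exact ⟨a, (show ∀ a ∈ dv 7986, a ∈ l16 by decide +kernel) a (mem_dv (by norm_num) ha), c, mem_l32 hc,
    Nat.mod_eq_zero_of_dvd (e ▸ h2), by rw [e, ← hx, h1]⟩

theorem coatom_of (h : Nat.card X ≠ Nat.card G)
    (h' : ∀ K, X ≤ K → Nat.card K = Nat.card X ∨ Nat.card K = Nat.card G) : IsCoatom X :=
  ⟨fun e => h (by rw [e, card_top]), fun K hK => (h' K hK.le).elim
    (fun e => absurd (card_lt_of_lt hK) e.not_gt) (eq_top_of_card_eq K)⟩

end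

namespace JD

variable {G H : Type*} [Group G] [Group H] [Finite G] {ι : H →* G} {z ω : H} {s : ℕ → H} {Λ : H →* R}
  {M : GM ι z ω s Λ} {y g : H} {T : ℕ → H} {π : N[M.V] →* M24} {κ : M24 →* N[M.V]} (J : JD M y g T π κ)
  (hG : ∀ g : M24, g * g = 1 → g ≠ 1 → J.mc.Good g)
include J hG

theorem big' {t : ℕ × ℕ} (ht : t ∈ lBig) {x : G} (o : orderOf x = t.1) :
    (t.1.Prime ∧ ¬ t.1 * t.1 ∣ Nat.card G ∧ 0 < t.2) ∧ C1[x] = zpowers x ∧ Nat.card N[zpowers x] = t.1 * t.2 := by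
  have h := (show ∀ t ∈ lBig, t.1 ∈ lP ∧ 0 < t.2 ∧ ∀ u ∈ lBig, t.1 = u.1 → t.2 = u.2 by decide) t ht
  obtain ⟨c, e, n, he⟩ := J.big hG J.card_c7 h.1 o
  exact ⟨⟨(lP_facts h.1).1, J.card_G ▸ (lP_facts h.1).2.1, h.2.1⟩, c, h.2.2 _ he rfl ▸ n⟩

theorem okB (K : Subgroup G) : okB (Nat.card K) := fun t ht h => by
  obtain ⟨x, hx, o⟩ := exists_mem_orderOf_eq (lP_facts ((show ∀ t ∈ lBig, t.1 ∈ lP by decide) t ht)).1
    (Nat.dvd_of_mod_eq_zero h)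
  obtain ⟨⟨h1, h2, h3⟩, -, n⟩ := J.big' hG ht o
  obtain ⟨c, c1, -, c3⟩ := sv_zp h1 h2 hx o n
  exact ⟨c, mem_dv h3 c1, c3⟩

variable {x v : H} (D : XD M.toHM x v)
include D

theorem norm_U : N[OC (ι x)] = N[zpowers (ι x)] ∧ Nat.card N[OC (ι x)] = 319440 :=
  have h := (J.el D).norm_eq J.mc.oY (J.not_cube hG J.card_c5)
  ⟨h, h ▸ J.card_norm_x D⟩

theorem nc11 {w : G} (hw : w ∈ OC (ι x)) (k : w ∉ zpowers (ι x)) : Nat.card C1[w] = 242 := by
  have E := J.el D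
  have hc := J.not_cube hG J.card_c5
  obtain ⟨u, hu, c, hn⟩ := E.exists_nc J.mc.oY hc
  have hS : ∀ n ∈ N[OC (ι x)], n * u * n⁻¹ ∈ (OC (ι x) : Set G) \ zpowers (ι x) := fun n h =>
    ⟨conj_mem_of_mem_norm h hu, fun k => hn (le_cent_symm (zpowers_le.2 (by
      have := conj_mem_of_mem_norm (inv_mem (E.norm_eq J.mc.oY hc ▸ h)) k
      rw [← E.center_eq J.mc.oY hc] at this
      simpa [mul_assoc] using this.2)) |>.trans (cent_zpowers u).le)⟩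
  have h1 := (card_cent_of_isConj c).trans (J.cls11 hG J.card_c5 J.card_c7 D).1
  have h4 := card_le_of_le (inf_le_right : N[OC (ι x)] ⊓ C1[u] ≤ _)
  obtain ⟨n, -, e⟩ := conj_of_card hS (by
    rw [ncard_sdiff (zpowers_le.2 E.X_mem), E.card_OC, Nat.card_zpowers, E.oX, (J.norm_U hG D).2]; omega) _ ⟨hw, k⟩
  exact (card_cent_of_isConj (isConj_iff.2 ⟨n, e⟩)).trans h1

theorem mem_of_A {w : G} (hw : w ∈ OC (ι x)) (c : IsConj (ι x) w) : w ∈ zpowers (ι x) := by_contra fun k => by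
  have := J.nc11 hG D hw k
  rw [card_cent_of_isConj c, (J.el D).card_cent] at this
  omega

theorem norm_of_mem {a : G} (h : a * ι x * a⁻¹ ∈ OC (ι x)) : a ∈ N[OC (ι x)] :=
  (J.norm_U hG D).1 ▸ mem_normalizer_of_conj_le (by
    rw [conj_zpowers]; exact zpowers_le.2 (J.mem_of_A hG D h (isConj_iff.2 ⟨a, rfl⟩)))

theorem ti11 (a : G) (u : G) (hu : u ∈ OC (ι x)) (ha : u ∈ cj[a] (OC (ι x))) (h1 : u ≠ 1) : a ∈ N[OC (ι x)] := by
  have E := J.el D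
  have : Fact (Nat.Prime 11) := ⟨by norm_num⟩
  have ou : orderOf u = 11 := orderOf_eq_prime (E.exp hu) h1
  have h2 : a * ι x * a⁻¹ ∈ C1[u] := mem_cent1_comm.1 (conj_cent1 a (ι x) ▸ conj_mono a (OC_le _) ha)
  refine J.norm_of_mem hG D ?_
  have pg : IsPGroup 11 (zpowers (a * ι x * a⁻¹)) := isPGroup_of_card_eq_prime (by
    rw [Nat.card_zpowers, orderOf_conj, E.oX])
  by_cases k : u ∈ zpowers (ι x)
  · rw [← cent_zpowers, ← eq_zpowers_of_card_prime (by rw [Nat.card_zpowers, E.oX]; norm_num) k h1, cent_zpowers] at h2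
    exact le_syl_of_le_norm (by norm_num) E.syl pg le_top (zpowers_le.2 (le_norm_OC _ h2)) (mem_zpowers _)
  have h3 := sq_dvd_card_cent' (p := 11) (by norm_num) (by rw [E.card_OC]; norm_num) hu ou
  have h4 := card_mul_relIndex (inf_le_right : OC (ι x) ⊓ C1[u] ≤ _)
  have h5 := (card_dvd_of_le (inf_le_left : OC (ι x) ⊓ C1[u] ≤ _))
  rw [J.nc11 hG D hu k] at h4
  rw [E.card_OC] at h5
  obtain ⟨c, hc⟩ := h3
  rw [hc] at h4 h5
  have h6 : c ≤ 2 := Nat.le_of_dvd (by norm_num) (Nat.dvd_of_mul_dvd_mul_left (by norm_num : 0 < 11 * 11) ⟨_, h4.symm⟩)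
  have h7 : (OC (ι x) ⊓ C1[u]).relIndex C1[u] = 2 := by interval_cases c <;> omega
  have h8 : (a * ι x * a⁻¹) ^ 2 ∈ OC (ι x) := (sq_mem_of_index_two h7 ⟨_, h2⟩).1
  have := pow_mem h8 6
  rwa [← pow_mul, pow_succ', conj_pow, E.pow11 (mem_zpowers _), mul_one a, mul_inv_cancel, mul_one] at this

theorem sv11 {K : Subgroup G} (h : OC (ι x) ≤ K) : ∃ d ∈ dv 240, Nat.card ↥(K ⊓ N[OC (ι x)]) = 1331 * d ∧
    sv (Nat.card K) 1331 (1331 * d) := by
  have E := J.el D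
  have c : Nat.card (OC (ι x)) = 1331 := E.card_OC
  obtain ⟨d, hd⟩ := card_dvd_of_le (le_inf h le_normalizer)
  have h1 := sv_ti (by norm_num) E.syl h (by omega) (J.ti11 hG D)
  have h2 := card_dvd_of_le (inf_le_right : K ⊓ N[OC (ι x)] ≤ _)
  rw [c] at hd h1
  rw [hd] at h1
  rw [hd, (J.norm_U hG D).2] at h2
  exact ⟨d, mem_dv (by norm_num) (Nat.dvd_of_mul_dvd_mul_left (by norm_num : 0 < 1331) h2), hd, h1⟩

theorem conj_U {K Q : Subgroup G} (h : Nat.card K % 1331 = 0) (hQ : IsPiHallOf {11} Q K) : ∃ a, Q = cj[a] (OC (ι x)) := by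
  have E := J.el D
  obtain ⟨a, -, e⟩ := syl_exists_conj (by norm_num) E.syl (syl_of_card_le (by norm_num) E.syl
    (syl_isPGroup (by norm_num) hQ) le_top (Nat.le_of_dvd Nat.card_pos (E.card_OC ▸
      hQ.dvd_card (piNat_single_pow (by norm_num) 3) (Nat.dvd_of_mod_eq_zero h))))
  exact ⟨a, e⟩

end JD

end Cfsg.Agent.J4
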