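import Cfsg.Agent.J4.MA

/-!
# Groups of type `J₄`: the maximal 2-local subgroups
-/

set_option autoImplicit false
set_option linter.unusedSectionVars false

namespace Cfsg.Agent.J4

open Cfsg.Agent.M24 Cfsg.Agent.TT Cfsg.Agent.GT Subgroup MulAction
open scoped Pointwise

theorem sieveV : ∀ a ∈ l16, ∀ c ∈ l32, 173067389 % (a * c) = 0 → okB (501397585920 * (a * c)) →
    okM 501397585920 (501397585920 * (a * c)) 23 22 1 → a * c = 1 ∨ a * c = 173067389 := by decide +kernel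

theorem sieveH : ∀ a ∈ l16, ∀ c ∈ l32, 3980549947 % (a * c) = 0 → okB (21799895040 * (a * c)) →
    sv (21799895040 * (a * c)) 3 864 → (21799895040 * (a * c) % 1331 = 0 →
      ∃ d ∈ dv 240, 1331 * d % 528 = 0 ∧ sv (21799895040 * (a * c)) 1331 (1331 * d)) →
    a * c = 1 ∨ a * c = 3980549947 := by decide +kernel

theorem sieveL : ∀ a ∈ l16, ∀ c ∈ l32, 131358148251 % (a * c) = 0 → okB (660602880 * (a * c)) →
    sv (660602880 * (a * c)) 5 26880 → sv (660602880 * (a * c)) 7 2520 → (660602880 * (a * c) % 1331 = 0 →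
      ∃ d ∈ dv 240, sv (660602880 * (a * c)) 1331 (1331 * d)) → a * c = 1 ∨ a * c = 131358148251 := by decide +kernel

theorem sieveA : ∀ a ∈ l16, ∀ c ∈ l32, 8474719242 % (a * c) = 0 → okB (10239344640 * (a * c)) →
    okM 10239344640 (10239344640 * (a * c)) 31 10 1 → okM 10239344640 (10239344640 * (a * c)) 7 360 2 →
    a * c ≤ 33 ∨ a * c = 4237359621 ∨ a * c = 8474719242 := by decide +kernel

theorem small_over {G : Type*} [Group G] [Finite G] {A K : Subgroup G} (hc : Nat.card A = 2 ^ 10) (hs : C[A] = A)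
    (irr : ∀ W ≤ A, N[A] ≤ N[W] → W = ⊥ ∨ W = A) (h31 : 31 ∣ Nat.card N[A])
    (c31 : ∀ x : G, orderOf x = 31 → C1[x] = zpowers x) (hK : N[A] ≤ K) (hk : Nat.card K ≤ Nat.card N[A] * 33) :
    K ≤ N[A] := by
  have hA : IsPGroup 2 A := IsPGroup.of_card hc
  by_cases h : ∀ m : K, A ≤ cj[(m : G)] N[A]
  · have h1 : (⨅ m : K, cj[(m : G)] N[A]) ≤ N[A] := (iInf_le _ 1).trans (one_conj _).le
    have h2 : K ≤ N[piCoreOf {2} (⨅ m : K, cj[(m : G)] N[A])] := le_norm_piCoreOf (le_norm_iff.2 fun a ha x hx =>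
      mem_iInf.2 fun m => by simpa [mem_conj, mul_assoc] using mem_iInf.1 hx ((⟨a, ha⟩ : K)⁻¹ * m))
    have h3 := (piCoreOf_le {2} _).trans h1
    have h4 := (irr _ inf_le_left (le_norm_inf le_rfl (le_norm_cent (hK.trans h2)))).resolve_left
      (inf_cent_ne_bot_of_isPGroup (by norm_num) hA (piCoreOf_isPGroup (by norm_num) _) h3
        (ne_bot_iff_one_lt_card.2 (by omega)))
    rwa [le_antisymm ((le_cent_symm (inf_eq_left.1 h4)).trans hs.le)
      (le_piCoreOf_single (by norm_num) (le_iInf h) h1 hA)] at h2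
  push Not at h
  obtain ⟨m, hm⟩ := h
  generalize hY : cj[(m : G)] N[A] = Y at hm
  have hYK : Y ≤ K := hY ▸ conj_le_of_mem m.2 hK
  have h1 := card_mul_relIndex hYK
  have h2 := relIndex_le_of_le_right (H := Y) hK (relIndex_pos _ _).ne'
  have h3 := card_inf_mul_relIndex Y N[A]
  have h4 := card_sup_mul_card_inf (inf_le_right : Y ⊓ N[A] ≤ N[A])
  have h5 : Y ⊓ N[A] ⊔ A ≤ N[A] := sup_le inf_le_right le_normalizer
  have h6 := card_mul_relIndex h5
  have h7 : Y ⊓ N[A] ⊔ A ≤ N[Y ⊓ A] := sup_le (le_norm_inf (le_norm_self inf_le_left) inf_le_right)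
    (le_norm_of_cent (hs.ge.trans (cent_anti inf_le_right)))
  rw [inf_assoc, inf_eq_right.2 le_normalizer, hc] at h4
  have h8 : Y.relIndex K ≤ 33 := Nat.le_of_mul_le_mul_left (by rw [h1, ← hY, card_conj]; exact hk) (card_pos' Y)
  have h9 : 2 ^ 10 * (Y ⊓ N[A] ⊔ A).relIndex N[A] = Y.relIndex N[A] * Nat.card ↥(Y ⊓ A) :=
    Nat.eq_of_mul_eq_mul_left (card_pos' (Y ⊓ N[A])) (by
      rw [← mul_assoc, ← h4, ← mul_assoc, h3, ← h6]; ring)
  have j0 := relIndex_pos (Y ⊓ N[A] ⊔ A) N[A]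
  obtain ⟨k, hk', e⟩ := (Nat.dvd_prime_pow (by norm_num)).1 (hc ▸ card_dvd_of_le (inf_le_right : Y ⊓ A ≤ A))
  have k0 : k ≠ 10 := fun k0 => hm (inf_eq_right.1 (eq_of_le_of_card_ge inf_le_right (by rw [e, hc, k0])))
  have h10 := Nat.mul_le_mul (h2.trans h8) (Nat.pow_le_pow_right (n := 2) (by norm_num) (show k ≤ 9 by omega))
  rw [← e, ← h9] at h10
  obtain ⟨x, hx, o⟩ := exists_mem_orderOf_eq (p := 31) (by norm_num) (((Nat.Prime.dvd_mul (by norm_num)).1
    (h6 ▸ h31)).resolve_right fun d => by have := Nat.le_of_dvd j0 d; omega)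
  have h11 := card_modEq_one (p := 31) (by norm_num) (o ▸ pow_orderOf_eq_one x) (h7 hx) fun d hd c =>
    orderOf_eq_one_iff.1 (Nat.eq_one_of_dvd_coprimes (show Nat.Coprime (2 ^ 10) 31 by norm_num)
      (hc ▸ orderOf_dvd_card_of_mem hd.2) (o ▸ orderOf_dvd_of_mem_zpowers (c31 x o ▸ mem_cent1.2 c.symm)))
  rw [e] at h11
  have h12 := Nat.mul_le_mul (h2.trans h8) (Nat.pow_le_pow_right (n := 2) (by norm_num)
    ((show ∀ k < 10, 2 ^ k % 31 = 1 % 31 → k ≤ 5 by decide) k (by omega) h11))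
  rw [← e, ← h9] at h12
  rcases irr _ inf_le_right ((relIndex_eq_one.1 (by omega)).trans h7) with b | b
  · rw [b, card_bot] at h9; omega
  · exact absurd (inf_eq_right.1 b) hm

namespace JD

variable {G H : Type*} [Group G] [Group H] [Finite G] {ι : H →* G} {z ω : H} {s : ℕ → H} {Λ : H →* R}
  {M : GM ι z ω s Λ} {y g : H} {T : ℕ → H} {π : N[M.V] →* M24} {κ : M24 →* N[M.V]} (J : JD M y g T π κ)
  (hG : ∀ g : M24, g * g = 1 → g ≠ 1 → J.mc.Good g)
include J hG

theorem okM_big {t : ℕ × ℕ} (ht : t ∈ lBig) {X K : Subgroup G} (hK : X ≤ K) (h : t.1 ∣ Nat.card X) :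
    okM (Nat.card X) (Nat.card K) t.1 t.2 1 := by
  obtain ⟨x, hx, o⟩ := exists_mem_orderOf_eq (lP_facts ((show ∀ t ∈ lBig, t.1 ∈ lP by decide) t ht)).1 h
  obtain ⟨⟨h1, h2, -⟩, -, n⟩ := J.big' hG ht o
  exact okM_of h1 h2 hK hx o n (by
    rw [mul_one, ← o]; exact orderOf_dvd_card_of_mem ⟨hx, le_normalizer (mem_zpowers x)⟩)

theorem coatom_V : IsCoatom N[M.V] := by
  refine coatom_of (by rw [J.mc.card_N, J.card_G]; norm_num) fun K hK => ?_
  obtain ⟨a, ha, c, hc, h1, h2⟩ := exists_k hK J.mc.card_N (i := 173067389) (by rw [J.card_G]) (by norm_num)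
  have h3 := J.okM_big hG (t := (23, 22)) (by decide) hK (by rw [J.mc.card_N]; norm_num)
  rw [J.mc.card_N, h2] at h3
  rw [h2, J.mc.card_N, J.card_G]
  rcases sieveV a ha c hc h1 (h2 ▸ J.okB hG K) h3 with e | e <;> simp [e]

theorem coatom_H : IsCoatom C1[ι z] := by
  refine coatom_of (by rw [J.card_cz, J.card_G]; norm_num) fun K hK => ?_
  obtain ⟨a, ha, c, hc, h1, h2⟩ := exists_k hK J.card_cz (i := 3980549947) (by rw [J.card_G]) (by norm_num)
  obtain ⟨Q, hQ⟩ := exists_syl (p := 3) (by norm_num) C1[ι z]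
  have hQ' : IsPiHallOf {3} Q ⊤ := syl_trans (by norm_num) hQ le_top fun e => by
    have := card_mul_relIndex (le_top (a := C1[ι z]))
    rw [J.card_cz, card_top, J.card_G] at this
    omega
  obtain ⟨-, -, -, n3, c3⟩ := J.three_syl hQ' hQ.le
  have h3 := sv_syl (by norm_num) (syl_of_le hQ' (hQ.le.trans hK) le_top)
  rw [inf_eq_right.2 (n3.trans hK), c3, h2] at h3
  rw [h2, J.card_cz, J.card_G]
  refine (sieveH a ha c hc h1 (h2 ▸ J.okB hG K) h3 fun h => ?_).imp (fun e => by rw [e]) fun e => by rw [e]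
  obtain ⟨x, v, D⟩ := J.exists_xd
  have E := J.el D
  have := M.finH
  have xz := mem_cent1_comm.1 E.zX
  obtain ⟨P, hP, hx⟩ := exists_syl_ge (p := 11) (by norm_num) (isPGroup_of_card_eq_prime (by
    rw [Nat.card_zpowers, E.oX])) (zpowers_le.2 (hK xz))
  obtain ⟨b, rfl⟩ := J.conj_U hG D (h2 ▸ h) hP
  rw [conj_eq_self (inv_mem_iff.1 (J.norm_of_mem hG D (by simpa using mem_conj.1 (hx (mem_zpowers _)))))] at hP
  obtain ⟨d, d1, d2, d3⟩ := J.sv11 hG D hP.le
  refine ⟨d, d1, Nat.mod_eq_zero_of_dvd ?_, h2 ▸ d3⟩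
  have vz : ι v ∈ C1[ι z] := M.range_eq_cent.le ⟨v, rfl⟩
  have vx : ι v * ι x * (ι v)⁻¹ = (ι x)⁻¹ := by rw [← map_inv, ← map_mul, ← map_mul, D.conj_v, map_inv]
  have vn : ι v ∈ N[zpowers (ι x)] := mem_normalizer_of_conj_le (by rw [conj_zpowers, vx, zpowers_inv])
  have v1 : ι v ∉ C1[ι x] := fun k => by
    rw [mem_cent1.1 k, mul_inv_cancel_right] at vx
    have := orderOf_eq_one_iff.2 (eq_one_of_inv (by rw [E.oX]; decide) vx.symm)
    rw [E.oX] at this; omega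
  have ov : Nat.card (zpowers (ι v)) = 2 := by
    rw [Nat.card_zpowers]
    exact orderOf_eq_prime (by rw [pow_two, ← map_mul, D.vv, map_one]) fun k => v1 (k ▸ one_mem _)
  have h4 := card_sup_of_inf_eq_bot (H := zpowers (ι v)) (K := C1[ι x] ⊓ C1[ι z]) (.inl (le_norm_inf
    (cent_zpowers (ι x) ▸ le_norm_cent (zpowers_le.2 vn)) (le_norm_self (zpowers_le.2 vz))))
    ((le_or_inf_eq_bot_of_card_prime (by rw [ov]; norm_num) _).resolve_left fun k => v1 (k (mem_zpowers _)).1)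
  rw [ov, E.cc] at h4
  rw [← d2, show 528 = 2 * 264 from rfl, ← h4, (J.norm_U hG D).1]
  exact card_dvd_of_le (sup_le (zpowers_le.2 ⟨hK vz, vn⟩) (le_inf (inf_le_right.trans hK)
    (inf_le_left.trans ((cent_zpowers _).ge.trans (cent_le_norm _)))))

theorem coatom_L : IsCoatom N[M.L] := by
  obtain ⟨q, ψ, P⟩ := J.exists_pt
  have c : Nat.card N[M.L] = 660602880 := by
    obtain ⟨e⟩ := P.quot_L
    rw [card_eq_card_quotient_mul_card_subgroup (M.L.subgroupOf N[M.L]), Nat.card_congr e.toEquiv,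
      card_subgroupOf le_normalizer, M.card_L, Nat.card_prod, card_SL3, Nat.card_perm, Nat.card_fin]; rfl
  refine coatom_of (by rw [c, J.card_G]; norm_num) fun K hK => ?_
  obtain ⟨a, ha, b, hb, h1, h2⟩ := exists_k hK c (i := 131358148251) (by rw [J.card_G]) (by norm_num)
  rw [P.norm_L] at hK
  obtain ⟨u, hu, -, e, -, c5⟩ := J.norm5 P
  have n5 := (e.ge.trans (sup_le (zpowers_le.2 (cent_le_norm _ hu)) (J.X_le P))).trans hK
  have h5 := sv_syl (by norm_num) (syl_zp (p := 5) (by norm_num) (n5 (le_normalizer (mem_zpowers _))) P.ordx fun k =>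
    absurd (k.trans (card_subgroup_dvd_card K)) (by rw [J.card_G]; norm_num))
  have n7 := (J.norm7 P).1.trans hK
  have h7 := sv_syl (by norm_num) (syl_of_le (J.syl7 P).1 (le_normalizer.trans n7) le_top)
  rw [inf_eq_right.2 n5, c5, h2] at h5
  rw [inf_eq_right.2 n7, (J.norm7 P).2, h2] at h7
  rw [h2, c, J.card_G]
  refine (sieveL a ha b hb h1 (h2 ▸ J.okB hG K) h5 h7 fun h => ?_).imp (fun e => by rw [e]) fun e => by rw [e]
  obtain ⟨x, v, D⟩ := J.exists_xd
  obtain ⟨Q, hQ⟩ := exists_syl (p := 11) (by norm_num) K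
  obtain ⟨n, rfl⟩ := J.conj_U hG D (h2 ▸ h) hQ
  obtain ⟨d, d1, -, d3⟩ := J.sv11 hG D (conj_le_iff.1 hQ.le)
  exact ⟨d, d1, by rwa [card_conj, h2] at d3⟩

theorem coatom_A [IsSimpleGroup G] : IsCoatom N[M.A] := by
  obtain ⟨⟨B, b1, b2, b3, ⟨e⟩⟩, irr⟩ := J.ms.norm_A OA_mem (elem_of_sq M.A_sq) M.card_A M.A_le_norm J.pi_A J.card_A_inf
    M.seven_A J.duad_A M.z_mem_A M.fusion_A M.card_norm_A_inf M.cent_A
  have c : Nat.card N[M.A] = 10239344640 := by
    rw [← b3, card_sup_of_inf_eq_bot (.inl b1) b2, Nat.card_congr e.toEquiv, card_SL5, M.card_A]; rfl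
  refine coatom_of (by rw [c, J.card_G]; norm_num) fun K hK => ?_
  obtain ⟨a, ha, b, hb, h1, h2⟩ := exists_k hK c (i := 8474719242) (by rw [J.card_G]) (by norm_num)
  have h3 := J.okM_big hG (t := (31, 10)) (by decide) hK (by rw [c]; norm_num)
  obtain ⟨q, ψ, P⟩ := J.exists_pt
  obtain ⟨x, hx, o⟩ := exists_mem_orderOf_eq (p := 7) (H := N[M.A]) (by norm_num) (by rw [c]; norm_num)
  obtain ⟨d, d1, d2, d3⟩ : ∃ d ∈ M.A, x * d = d * x ∧ d ≠ 1 := by
    by_contra! k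
    have := card_modEq_one (p := 7) (by norm_num) (o ▸ pow_orderOf_eq_one x) hx k
    rw [M.card_A] at this
    omega
  have h4 := okM_of (by norm_num) (J.syl7 P).2 hK hx o (e := 360) (f := 2) (by
    rw [(J.seven_local P (by rw [Nat.card_zpowers, o])).2.2.2]; rfl) (Nat.Coprime.mul_dvd_of_dvd_of_dvd (by norm_num)
      (o ▸ orderOf_dvd_card_of_mem ⟨hx, le_normalizer (mem_zpowers x)⟩) (by
        rw [← orderOf_eq_prime (p := 2) (by rw [pow_two, M.A_sq d d1]) d3]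
        exact orderOf_dvd_card_of_mem ⟨le_normalizer d1, cent_le_norm _ ((cent_zpowers x).ge (mem_cent1.2 d2.symm))⟩))
  rw [c, h2] at h3 h4
  rcases sieveA a ha b hb h1 (h2 ▸ J.okB hG K) h3 h4 with e | e | e
  · exact .inl (congrArg _ (congrArg _ (le_antisymm (small_over M.card_A M.cent_A irr (by rw [c]; norm_num)
      (fun x o => (J.big' hG (t := (31, 10)) (by decide) o).2.1) hK (by rw [h2, c]; omega)) hK)))
  · have h5 := K.card_mul_index
    rw [h2, e, J.card_G] at h5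
    rcases (normal_of_index_eq_two (H := K) (by omega)).eq_bot_or_eq_top with k | k
    · rw [k, card_bot, e] at h2; omega
    · exact .inr (by rw [k, card_top])
  · exact .inr (by rw [h2, e, J.card_G])

end JD

end Cfsg.Agent.J4
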