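import Cfsg.Agent.J4.AutM22
import Cfsg.Agent.J4.Gasch
import Cfsg.Agent.M24.Struct
import Cfsg.Prelude.Def_JankoFourType

/-!
# The structure `2¹¹ : M₂₄` inside a group of type `J₄`
-/

set_option autoImplicit false

namespace Cfsg.Agent.J4

open Cfsg.Agent.M24 Subgroup
open scoped Pointwise symmDiff

/-- `V` is the even Golay cocode, coordinatised by `T`, its normaliser is `V : M₂₄` (projection `π`,
section `κ`); the sextet elements are conjugate to `z`, the duad elements are not. -/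
structure MS {G : Type*} [Group G] (z : G) (V : Subgroup G)
    (π : normalizer (V : Set G) →* M24) (κ : M24 →* normalizer (V : Set G))
    (T : Finset GolayPt → G) : Prop where
  T_mul : ∀ X Y, T (X ∆ Y) = T X * T Y
  T_mem : ∀ X, T X ∈ V
  T_surj : ∀ v ∈ V, ∃ X, Even X.card ∧ T X = v
  T_one : ∀ X, Even X.card → (T X = 1 ↔ IsCw X)
  card : Nat.card V = 2 ^ 11
  conj : ∀ (n : normalizer (V : Set G)) (X : Finset GolayPt), Even X.card →
    (n : G) * T X * (n : G)⁻¹ = T (π n • X)
  ker : ∀ n, π n = 1 ↔ (n : G) ∈ V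
  sec : ∀ g, π (κ g) = g
  sext : ∀ X, X.card = 4 → IsConj z (T X)
  duad : ∀ X, X.card = 2 → ¬ IsConj z (T X)
  cent2 : ∀ X Y, X.card = 4 → Y.card = 2 →
    centralizer {T X} ⊓ centralizer {T Y} ≤ normalizer (V : Set G)
  uniq : ∀ F : Subgroup G, F ≤ normalizer (V : Set G) → IsElementaryAbelian 2 F → Nat.card F = 2 ^ 11 → F = V

end Cfsg.Agent.J4
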