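import Cfsg.Agent.J4.MSa
import Cfsg.Agent.BS.Invol

/-!
# The centraliser of a duad element lies in `N(V)`
-/

set_option autoImplicit false
set_option linter.unusedSectionVars false
set_option linter.unusedVariables false

namespace Cfsg.Agent.J4

open Cfsg.Agent.M24 Cfsg.Agent.GT Subgroup MulAction
open scoped Pointwise symmDiff

theorem fixs_octad {g : M24} (hg : orderOf g = 2) {p : GolayPt} (hp : g • p = p) :
    fixs g ∈ octads := by
  obtain ⟨k, rfl⟩ := class2A hg (fun h => h p hp)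
  rw [fixs_conj', fixs_zA']
  exact octad_smul O0_mem k.2

theorem symmDiff_cancel_both (A B U : Finset GolayPt) : (A ∆ U) ∆ (B ∆ U) = A ∆ B := by
  rw [symmDiff_symmDiff_symmDiff_comm, symmDiff_self, symmDiff_bot]

/-- a subgroup of exponent two of a point stabiliser in `M₂₄` has order dividing `16` -/
theorem card_dvd_sixteen {E : Subgroup M24} (h2 : ∀ e ∈ E, e * e = 1) {p : GolayPt}
    (hp : ∀ e ∈ E, e • p = p) : Nat.card E ∣ 16 := by
  classical
  have := Fintype.ofFinite E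
  have := Fintype.ofFinite (Quotient (orbitRel E GolayPt))
  have hB := sum_card_fixedBy_eq_card_orbits_mul_card_group E GolayPt
  have hf : ∀ e : E, Fintype.card (fixedBy GolayPt e) = 8 + if e = 1 then 16 else 0 := by
    intro e
    have : Fintype.card (fixedBy GolayPt e) = (fixs (e : M24)).card := by
      rw [← Fintype.card_coe]
      exact Fintype.card_congr (Equiv.subtypeEquivRight fun a => by rw [mem_fixs]; rfl)
    rw [this]
    split_ifs with h1
    · have : fixs ((e : M24) : Equiv.Perm GolayPt) = Finset.univ := by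
        ext a; simp [h1, mem_fixs]
      rw [this, Finset.card_univ, card_golayPt]
    · exact (mem_octads.1 (fixs_octad (BS.orderOf_eq_two_of (h2 e e.2)
        (fun h => h1 (Subtype.ext h))) (hp e e.2))).2
  rw [Finset.sum_congr rfl fun e _ => hf e, Finset.sum_add_distrib, Finset.sum_ite_eq',
    Finset.sum_const, Finset.card_univ, if_pos (Finset.mem_univ _), smul_eq_mul] at hB
  rw [Nat.card_eq_fintype_card]
  refine (Nat.dvd_add_right (Dvd.intro 8 rfl)).1 ?_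
  rw [hB]
  exact Dvd.intro_left _ rfl

variable {G : Type*} [Group G] [Finite G] {z : G} {V V' : Subgroup G} {π : N[V] →* M24}
  {κ : M24 →* N[V]} {T : Finset GolayPt → G} {π' : N[V'] →* M24} {κ' : M24 →* N[V']}
  {T' : Finset GolayPt → G}

/-- elements of `N(V)` fixing the point `p` -/
def fixP (π : N[V] →* M24) (p : GolayPt) : Subgroup G :=
  ((stabilizer M24 p).comap π).map N[V].subtype

theorem mem_fixP {p : GolayPt} {x : G} : x ∈ fixP π p ↔ ∃ hx : x ∈ N[V], π ⟨x, hx⟩ • p = p := by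
  constructor
  · rintro ⟨y, hy, rfl⟩
    exact ⟨y.2, hy⟩
  · rintro ⟨hx, e⟩
    exact ⟨⟨x, hx⟩, e, rfl⟩

theorem card_le_two_mul_fixP {B : Subgroup G} (hB : B ≤ N[V]) {Y : Finset GolayPt} (hY : Y.card = 2)
    {p : GolayPt} (hp : p ∈ Y) (hs : ∀ n : N[V], (n : G) ∈ B → π n • Y = Y) :
    Nat.card B ≤ 2 * Nat.card ↥(B ⊓ fixP π p) := by
  let _ : MulAction N[V] GolayPt := MulAction.compHom _ π
  have h1 := card_inf_stab (B.subgroupOf N[V]) p
  have h2 : (orbit (B.subgroupOf N[V]) p).ncard ≤ 2 := by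
    rw [← hY, ← Set.ncard_coe_finset]
    refine Set.ncard_le_ncard ?_ (Set.toFinite _)
    rintro _ ⟨b, rfl⟩
    have := hs b.1 b.2
    rw [Finset.mem_coe, ← this]
    exact mem_smul24.2 hp
  have h3 : Nat.card (B.subgroupOf N[V]) = Nat.card B :=
    Nat.card_congr (subgroupOfEquivOfLe hB).toEquiv
  have h4 : Nat.card ↥(B.subgroupOf N[V] ⊓ stabilizer N[V] p) = Nat.card ↥(B ⊓ fixP π p) := by
    rw [← card_map_inj N[V].subtype_injective, map_inf_inj N[V].subtype_injective,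
      subgroupOf_map_subtype, inf_eq_left.2 hB]
    rfl
  rw [← h3, ← h1, h4, mul_comm 2]
  exact Nat.mul_le_mul_left _ h2

namespace MS

variable (h : MS z V π κ T)
include h

theorem card_map_π {W : Subgroup G} (hW : W ≤ N[V]) :
    Nat.card ((W.subgroupOf N[V]).map π) * Nat.card ↥(W ⊓ V) = Nat.card W := by
  have h1 := card_map_mul_card_inf_ker π (W.subgroupOf N[V])
  have h3 : Nat.card (W.subgroupOf N[V]) = Nat.card W :=
    Nat.card_congr (subgroupOfEquivOfLe hW).toEquiv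
  have h4 : Nat.card ↥(π.ker ⊓ W.subgroupOf N[V]) = Nat.card ↥(W ⊓ V) := by
    rw [← card_map_inj N[V].subtype_injective]
    congr 2
    ext x
    simp only [mem_map, mem_inf, MonoidHom.mem_ker, h.ker, mem_subgroupOf, coe_subtype]
    constructor
    · rintro ⟨y, ⟨h1, h2⟩, rfl⟩
      exact ⟨h2, h1⟩
    · rintro ⟨h1, h2⟩
      exact ⟨⟨x, hW h1⟩, ⟨h2, h1⟩, rfl⟩
  rw [← h3, ← h1, h4]

theorem rank {W : Subgroup G} (hW : ∀ w ∈ W, w * w = 1) {p : GolayPt} (hp : W ≤ fixP π p) :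
    Nat.card W ≤ 16 * Nat.card ↥(W ⊓ V) := by
  have hN : W ≤ N[V] := fun w hw => (mem_fixP.1 (hp hw)).1
  rw [← h.card_map_π hN]
  refine Nat.mul_le_mul_right _ (Nat.le_of_dvd (by norm_num) (card_dvd_sixteen ?_ (p := p) ?_))
  · rintro _ ⟨w, hw, rfl⟩
    rw [← map_mul, show w * w = 1 from Subtype.ext (hW _ hw), map_one]
  · rintro _ ⟨w, hw, rfl⟩
    exact (mem_fixP.1 (hp hw)).2

/-- an element inducing an involution with fixed points centralises at least `2⁷` elements -/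
theorem card_cent_2A (n : N[V]) (hn : orderOf (π n) = 2) {p : GolayPt} (hp : π n • p = p) :
    128 ≤ Nat.card ↥(V ⊓ C1[(n : G)]) := by
  classical
  have ho := fixs_octad hn hp
  set o := fixs ((π n : M24) : Equiv.Perm GolayPt) with hod
  have hmem : ∀ a, a ∈ o ↔ π n • a = a := fun a => mem_fixs
  have ho8 := (mem_octads.1 ho).2
  have hs : p ∈ o := (hmem p).2 hp
  obtain ⟨r, hr⟩ : ∃ r, r ∉ o := by
    by_contra hc
    push Not at hc
    rw [Finset.eq_univ_of_forall hc, Finset.card_univ, card_golayPt] at ho8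
    omega
  have hrr : π n • π n • r = r := by rw [← mul_smul, BS.mul_self_of_orderOf hn, one_smul]
  have hne : r ≠ π n • r := fun e => hr ((hmem r).2 e.symm)
  have hr' : π n • r ∉ o := fun e => hne (hrr.symm.trans ((hmem _).1 e))
  set R : Finset GolayPt := {r, π n • r} with hR
  have hRc : R.card = 2 := Finset.card_pair hne
  have hRs : π n • R = R := by
    rw [hR, Finset.smul_finset_insert, Finset.smul_finset_singleton, hrr, Finset.pair_comm]
  have hsub : ∀ Z ⊆ o, π n • Z = Z := fun Z hZ => by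
    rw [M24_smul_def, smul_eq_of_agree (σ := 1) fun a ha => (hmem a).1 (hZ ha), one_smul]
  let X : Finset GolayPt → Finset GolayPt := fun Z => if Even Z.card then Z else (Z ∆ {p}) ∆ R
  have hXe : ∀ Z, Even (X Z).card := fun Z => by
    simp only [X]
    split_ifs with hZ
    · exact hZ
    · exact even_symmDiff (odd_symmDiff_odd hZ (by simp)) (by simp [hRc])
  have hXs : ∀ Z ⊆ o, π n • X Z = X Z := fun Z hZ => by
    simp only [X]
    split_ifs with hZ'
    · exact hsub Z hZ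
    · rw [smul_symmDiff24, smul_symmDiff24, hsub Z hZ, hsub {p} (by simpa using hs), hRs]
  have small : ∀ Z₁ ⊆ o.erase p, ∀ Z₂ ⊆ o.erase p, IsCw (Z₁ ∆ Z₂) → Z₁ = Z₂ := by
    intro Z₁ h₁ Z₂ h₂ hc
    have : (Z₁ ∆ Z₂).card ≤ (o.erase p).card :=
      Finset.card_le_card (symmDiff_le_sup.trans (sup_le h₁ h₂))
    rw [Finset.card_erase_of_mem hs] at this
    have := hc.eq_empty (by omega)
    rwa [← Finset.bot_eq_empty, symmDiff_eq_bot] at this
  have mixed : ∀ Z₁ ⊆ o, ∀ Z₂ ⊆ o, ¬ IsCw (Z₁ ∆ ((Z₂ ∆ {p}) ∆ R)) := by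
    intro Z₁ h₁ Z₂ h₂ hc
    have hle : (Z₁ ∆ ((Z₂ ∆ {p}) ∆ R)) \ o ⊆ R := by
      intro a ha
      have h1 : a ∉ Z₁ := fun h => (Finset.mem_sdiff.1 ha).2 (h₁ h)
      have h2 : a ∉ Z₂ := fun h => (Finset.mem_sdiff.1 ha).2 (h₂ h)
      have h3 : a ≠ p := fun h => (Finset.mem_sdiff.1 ha).2 (h ▸ hs)
      have := (Finset.mem_sdiff.1 ha).1
      simp only [Finset.mem_symmDiff, Finset.mem_singleton] at this
      tauto
    have := cw_subset_oct hc ho ((Finset.card_le_card hle).trans_lt (by omega))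
    refine hr (this ?_)
    have h1 : r ∉ Z₁ := fun h => hr (h₁ h)
    have h2 : r ∉ Z₂ := fun h => hr (h₂ h)
    have h3 : r ≠ p := fun h => hr (h ▸ hs)
    have h4 : r ∈ R := by simp [hR]
    simp only [Finset.mem_symmDiff, Finset.mem_singleton]
    tauto
  have hc : ((o.erase p).powerset).card = 128 := by
    rw [Finset.card_powerset, Finset.card_erase_of_mem hs, ho8]; rfl
  rw [← hc, ← Set.ncard_coe_finset]
  refine Set.ncard_le_ncard_of_injOn (t := ((V ⊓ C1[(n : G)] : Subgroup G) : Set G))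
    (fun Z => T (X Z)) (fun Z hZ => ?_) (fun Z₁ h₁ Z₂ h₂ e => ?_) (Set.toFinite _)
  · rw [Finset.mem_coe, Finset.mem_powerset] at hZ
    exact ⟨h.T_mem _, mem_cent1_comm.1
      (h.mem_cent1_of_smul (hXe Z) n (hXs Z (hZ.trans (Finset.erase_subset _ _))))⟩
  · rw [Finset.mem_coe, Finset.mem_powerset] at h₁ h₂
    have hcw := (h.T_eq_iff (hXe Z₁) (hXe Z₂)).1 e
    have k₁ := h₁.trans (Finset.erase_subset _ _)
    have k₂ := h₂.trans (Finset.erase_subset _ _)
    simp only [X] at hcw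
    split_ifs at hcw with e₁ e₂ e₂
    · exact small _ h₁ _ h₂ hcw
    · exact absurd hcw (mixed _ k₁ _ k₂)
    · rw [symmDiff_comm] at hcw
      exact absurd hcw (mixed _ k₂ _ k₁)
    · refine small _ h₁ _ h₂ ?_
      rwa [symmDiff_assoc Z₁, symmDiff_assoc Z₂, symmDiff_cancel_both] at hcw

theorem inter_duads {K : Subgroup G} (hz : ∀ a ∈ K, ¬ IsConj z a) {D E : Finset GolayPt}
    (hD : D.card = 2) (hE : E.card = 2) (h1 : T D ∈ K) (h2 : T E ∈ K) : ∃ x, x ∈ D ∧ x ∈ E := by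
  by_contra hc
  push Not at hc
  have h0 : D ∩ E = ∅ := by
    ext a; simpa using hc a
  have := card_symmDiff_add D E
  rw [h0, Finset.card_empty] at this
  refine hz _ (mul_mem h1 h2) ?_
  rw [← h.T_mul]
  exact h.sext _ (by omega)

theorem card_inter_duads {K : Subgroup G} (hz : ∀ a ∈ K, ¬ IsConj z a) {D E : Finset GolayPt}
    (hD : D.card = 2) (hE : E.card = 2) (h1 : T D ∈ K) (h2 : T E ∈ K) (hne : D ≠ E) :
    (D ∩ E).card = 1 := by
  obtain ⟨x, hx1, hx2⟩ := h.inter_duads hz hD hE h1 h2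
  have a1 : 0 < (D ∩ E).card := Finset.card_pos.2 ⟨x, Finset.mem_inter.2 ⟨hx1, hx2⟩⟩
  have a2 : (D ∩ E).card ≤ 2 := hD ▸ Finset.card_le_card Finset.inter_subset_left
  have a3 : (D ∩ E).card ≠ 2 := fun e => hne
    ((Finset.eq_of_subset_of_card_le Finset.inter_subset_left (by omega)).symm.trans
      (Finset.eq_of_subset_of_card_le Finset.inter_subset_right (by omega)))
  omega

/-- a subgroup of `V` without conjugates of `z` lives on three points -/
theorem duad_sub {K : Subgroup G} (hK : K ≤ V) (hz : ∀ a ∈ K, ¬ IsConj z a) {Y : Finset GolayPt}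
    (hY : Y.card = 2) (ht : T Y ∈ K) :
    ∃ S : Finset GolayPt, S.card = 3 ∧ Y ⊆ S ∧ ∀ c ∈ K, c ≠ 1 → ∃ D ⊆ S, D.card = 2 ∧ T D = c := by
  by_cases hc : ∃ D : Finset GolayPt, D.card = 2 ∧ T D ∈ K ∧ Y ≠ D
  · obtain ⟨D₀, hD₀, hk, hne⟩ := hc
    have h1 := h.card_inter_duads hz hY hD₀ ht hk hne
    have h2 := Finset.card_union_add_card_inter Y D₀
    have h3 := card_symmDiff_add Y D₀
    refine ⟨Y ∪ D₀, by omega, Finset.subset_union_left, fun c hc c1 => ?_⟩
    obtain ⟨D, hD, rfl⟩ := h.duad_of_not_conj (hK hc) c1 (hz c hc)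
    refine ⟨D, fun d hd => ?_, hD, rfl⟩
    by_contra hd'
    rw [Finset.mem_union, not_or] at hd'
    obtain ⟨x, x1, x2⟩ := h.inter_duads hz hD hY hc ht
    obtain ⟨y, y1, y2⟩ := h.inter_duads hz hD hD₀ hc hk
    obtain ⟨w, w1, w2⟩ := h.inter_duads hz hD (E := Y ∆ D₀) (by omega) hc
      (by rw [h.T_mul]; exact mul_mem ht hk)
    have he : (D.erase d).card ≤ 1 := by rw [Finset.card_erase_of_mem hd, hD]
    rw [Finset.card_le_one] at he
    have ex : x ∈ D.erase d := Finset.mem_erase.2 ⟨fun e => hd'.1 (e ▸ x2), x1⟩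
    have ey : y ∈ D.erase d := Finset.mem_erase.2 ⟨fun e => hd'.2 (e ▸ y2), y1⟩
    have ew : w ∈ D.erase d := Finset.mem_erase.2 ⟨fun e => by
      rw [e, Finset.mem_symmDiff] at w2; tauto, w1⟩
    rw [he x ex w ew] at x2
    rw [he y ey w ew] at y2
    rw [Finset.mem_symmDiff] at w2
    tauto
  · push Not at hc
    obtain ⟨S, h1, -, h2⟩ := Finset.exists_subsuperset_card_eq (n := 3) (Finset.subset_univ Y)
      (by omega) (by rw [Finset.card_univ, card_golayPt]; omega)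
    refine ⟨S, h2, h1, fun c hc' c1 => ?_⟩
    obtain ⟨D, hD, rfl⟩ := h.duad_of_not_conj (hK hc') c1 (hz c hc')
    exact ⟨D, hc D hD hc' ▸ h1, hD, rfl⟩

theorem card_le_four {K : Subgroup G} (hK : K ≤ V) (hz : ∀ a ∈ K, ¬ IsConj z a)
    {Y : Finset GolayPt} (hY : Y.card = 2) (ht : T Y ∈ K) : Nat.card K ≤ 4 := by
  classical
  obtain ⟨S, hS, -, hc⟩ := h.duad_sub hK hz hY ht
  have : (K : Set G) ⊆ ↑(insert 1 ((S.powersetCard 2).image T)) := by
    intro c hc'
    by_cases c1 : c = 1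
    · simp [c1]
    · obtain ⟨D, h1, h2, rfl⟩ := hc c hc' c1
      exact Finset.mem_coe.2 (Finset.mem_insert_of_mem
        (Finset.mem_image_of_mem _ (Finset.mem_powersetCard.2 ⟨h1, h2⟩)))
  have h1 := Set.ncard_le_ncard this (Set.toFinite _)
  rw [Set.ncard_coe_finset] at h1
  have h2 := Finset.card_insert_le (1 : G) ((S.powersetCard 2).image T)
  have h3 := Finset.card_image_le (s := S.powersetCard 2) (f := T)
  rw [Finset.card_powersetCard, hS] at h3
  have h4 : Nat.card K = (K : Set G).ncard := rfl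
  have h5 : Nat.choose 3 2 = 3 := rfl
  omega

theorem eq_of_mem_inf (h' : MS z V' π' κ' T') {Y : Finset GolayPt} (hY : Y.card = 2)
    (ht : T Y ∈ V') {a : G} (ha : a ∈ V) (ha' : a ∈ V') (hz : IsConj z a) : V' = V :=
  h.uniq V' ((le_inf (h'.le_cent1 ha') (h'.le_cent1 ht)).trans (h.cent2' ha hz hY)) h'.elemAb
    h'.card

theorem eq_of_mem_norm (h' : MS z V' π' κ' T') {Y Y' : Finset GolayPt} (hY : Y.card = 2)
    (hY' : Y'.card = 2) (e : T Y = T' Y') {y : G} (hy : y ∈ V') (hyN : y ∈ N[V])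
    (hz : IsConj z y) : V' = V := by
  by_contra hne
  have ht' : T Y ∈ V' := e ▸ h'.T_mem Y'
  have noz : ∀ a ∈ V, a ∈ V' → ¬ IsConj z a := fun a ha ha' hz =>
    hne (h.eq_of_mem_inf h' hY ht' ha ha' hz)
  -- the subgroup `B`
  have hB := Cls.card_le_sq_cent1 h.elemAb hyN (by rw [pow_two, h'.sq hy])
  rw [h.card] at hB
  have hBt : V ⊓ C1[y] ≤ C1[T' Y'] := inf_le_left.trans (e ▸ h.le_cent1 (h.T_mem Y))
  have hBN : V ⊓ C1[y] ≤ N[V'] := (le_inf inf_le_right hBt).trans (h'.cent2' hy hz hY')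
  obtain ⟨p', hp'⟩ : Y'.Nonempty := Finset.card_pos.1 (by omega)
  have hB0 := card_le_two_mul_fixP (π := π') hBN hY' hp' fun n hn => h'.smul_duad hY' n (hBt hn)
  obtain ⟨a, ha, haz⟩ : ∃ a ∈ V ⊓ C1[y] ⊓ fixP π' p', IsConj z a := by
    by_contra hc
    push Not at hc
    have := h.card_le_four (inf_le_left.trans inf_le_left) hc hY
      ⟨⟨h.T_mem Y, h'.le_cent1 hy ht'⟩, mem_fixP.2 ⟨le_normalizer ht', by
        rw [(h'.ker ⟨_, le_normalizer ht'⟩).2 ht', one_smul]⟩⟩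
    have h8 : Nat.card ↥(V ⊓ C1[y]) ≤ 8 := by omega
    have := Nat.mul_le_mul h8 h8
    omega
  obtain ⟨haN, hap⟩ := mem_fixP.1 ha.2
  have haV : a ∈ V := ha.1.1
  have ho : orderOf (π' ⟨a, haN⟩) = 2 := by
    refine BS.orderOf_eq_two_of ?_ fun h1 => noz a haV ((h'.ker _).1 h1) haz
    rw [← map_mul, show (⟨a, haN⟩ : N[V']) * ⟨a, haN⟩ = 1 from Subtype.ext (h.sq haV), map_one]
  have hW := h'.card_cent_2A ⟨a, haN⟩ ho hap
  set W := V' ⊓ C1[a] with hWd
  have hWt : W ≤ C1[T Y] := inf_le_left.trans (h'.le_cent1 ht')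
  have hWN : W ≤ N[V] := (le_inf inf_le_right hWt).trans (h.cent2' haV haz hY)
  have hW2 : ∀ w ∈ W, w * w = 1 := fun w hw => h'.sq hw.1
  have hWz : ∀ c ∈ W ⊓ V, ¬ IsConj z c := fun c hc => noz c hc.2 hc.1.1
  have htW : T Y ∈ W ⊓ V := ⟨⟨ht', h.le_cent1 haV (h.T_mem Y)⟩, h.T_mem Y⟩
  have hW' : 128 ≤ Nat.card W := hW
  by_cases hc : ∃ D : Finset GolayPt, D.card = 2 ∧ T D ∈ W ⊓ V ∧ Y ≠ D
  · obtain ⟨D, hD, hDW, hne'⟩ := hc
    obtain ⟨p, hp⟩ := Finset.card_eq_one.1 (h.card_inter_duads hWz hY hD htW hDW hne')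
    have hfix : W ≤ fixP π p := fun w hw => mem_fixP.2 ⟨hWN hw, by
      have e1 := h.smul_duad hY ⟨w, hWN hw⟩ (hWt hw)
      have e2 := h.smul_duad hD ⟨w, hWN hw⟩ (h'.le_cent1 hDW.1.1 hw.1)
      have hp' : p ∈ Y ∩ D := by simp [hp]
      rw [Finset.mem_inter] at hp'
      have k1 := (mem_smul24 (g := π ⟨w, hWN hw⟩)).2 hp'.1
      have k2 := (mem_smul24 (g := π ⟨w, hWN hw⟩)).2 hp'.2
      rw [e1] at k1
      rw [e2] at k2
      rw [← Finset.mem_singleton, ← hp]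
      exact Finset.mem_inter.2 ⟨k1, k2⟩⟩
    have h1 := h.rank hW2 hfix
    have h2 := h.card_le_four inf_le_right hWz hY htW
    omega
  · push Not at hc
    obtain ⟨p, hp⟩ : Y.Nonempty := Finset.card_pos.1 (by omega)
    have h0 := card_le_two_mul_fixP (π := π) hWN hY hp fun n hn => h.smul_duad hY n (hWt hn)
    have h1 := h.rank (W := W ⊓ fixP π p) (fun w hw => hW2 w hw.1) inf_le_right
    have h2 : Nat.card ↥(W ⊓ fixP π p ⊓ V) ≤ 2 := by
      have : ((W ⊓ fixP π p ⊓ V : Subgroup G) : Set G) ⊆ {1, T Y} := by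
        intro c hc'
        by_cases c1 : c = 1
        · simp [c1]
        · obtain ⟨D, hD, rfl⟩ := h.duad_of_not_conj hc'.2 c1 (hWz c ⟨hc'.1.1, hc'.2⟩)
          simp [hc D hD ⟨hc'.1.1, hc'.2⟩]
      exact (Set.ncard_le_ncard this (Set.toFinite _)).trans
        ((Set.ncard_insert_le _ _).trans (by simp))
    omega

end MS

/-- `U` carries the structure with `t` a duad element -/
def Fam (z t : G) (U : Subgroup G) : Prop :=
  ∃ (π : N[U] →* M24) (κ : M24 →* N[U]) (T : Finset GolayPt → G) (Y : Finset GolayPt),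
    MS z U π κ T ∧ Y.card = 2 ∧ T Y = t

theorem Fam.conj {t x : G} {U : Subgroup G} (h : Fam z t U) (hx : x ∈ C1[t]) :
    Fam z t (cj[x] U) := by
  obtain ⟨π, κ, T, Y, h, hY, rfl⟩ := h
  obtain ⟨π', κ', T', h', e⟩ := h.conj_ x
  exact ⟨π', κ', T', Y, h', hY, by rw [e, mem_cent1.1 hx, mul_inv_cancel_right]⟩

theorem Fam.mem_of_norm {t y : G} {U U' : Subgroup G} (h : Fam z t U) (h' : Fam z t U')
    (hy : y ∈ U') (hN : y ∈ N[U]) (hz : IsConj z y) : y ∈ U := by
  obtain ⟨π, κ, T, Y, h, hY, e⟩ := h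
  obtain ⟨π', κ', T', Y', h', hY', e'⟩ := h'
  rwa [← h.eq_of_mem_norm h' hY hY' (e.trans e'.symm) hy hN hz]

theorem Fam.dih {t a b : G} {U U' : Subgroup G} (h : Fam z t U) (h' : Fam z t U') (ha : a ∈ U)
    (hb : b ∈ U') (haz : IsConj z a) (hbz : IsConj z b) {k : ℕ}
    (hk : (a * b) ^ k * a = a * (a * b) ^ k) : (a * b) ^ k ∈ U ∧ IsConj z (a * (a * b) ^ k) := by
  obtain ⟨π, κ, T, Y, m, hY, e⟩ := id h
  obtain ⟨π', κ', T', Y', m', hY', e'⟩ := id h'
  have hat : a ∈ C1[t] := m.le_cent1 (e ▸ m.T_mem Y) ha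
  have hbt : b ∈ C1[t] := m'.le_cent1 (e' ▸ m'.T_mem Y') hb
  have hw : ∀ j : ℕ, (a * b) ^ j ∈ C1[t] := fun j => pow_mem (mul_mem hat hbt) j
  have hN : a * (a * b) ^ k ∈ N[U] :=
    mul_mem (le_normalizer ha) (m.cent2' ha haz hY ⟨mem_cent1.2 hk, e ▸ hw k⟩)
  have key : ∃ (W : Subgroup G) (u : G) (j : ℕ), Fam z t W ∧ u ∈ W ∧ IsConj z u ∧
      a * (a * b) ^ k = ((a * b) ^ j)⁻¹ * u * (a * b) ^ j := by
    obtain ⟨j, rfl | rfl⟩ := Nat.even_or_odd' k
    · exact ⟨U, a, j, h, ha, haz, BS.invol_mul_pow_even (m.sq ha) (m'.sq hb) j⟩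
    · exact ⟨U', b, j, h', hb, hbz, BS.invol_mul_pow_odd (m.sq ha) (m'.sq hb) j⟩
  obtain ⟨W, u, j, hW, hu, huz, e1⟩ := key
  have hz : IsConj z (a * (a * b) ^ k) :=
    huz.trans (isConj_iff.2 ⟨((a * b) ^ j)⁻¹, by rw [e1, inv_inv]⟩)
  have := h.mem_of_norm (hW.conj (inv_mem (hw j))) (y := a * (a * b) ^ k)
    (by rw [e1, mem_conj]; simpa [mul_assoc] using hu) hN hz
  exact ⟨(mul_mem_cancel_left ha).1 this, hz⟩

theorem Fam.eq {t : G} {U U' : Subgroup G} (h : Fam z t U) (h' : Fam z t U') : U' = U := by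
  obtain ⟨π, κ, T, Y, m, hY, e⟩ := id h
  obtain ⟨π', κ', T', Y', m', hY', e'⟩ := id h'
  by_contra hne
  have ht : T Y ∈ U' := by rw [e, ← e']; exact m'.T_mem Y'
  have noz : ∀ a ∈ U ⊓ U', ¬ IsConj z a := fun a ha hz =>
    hne (m.eq_of_mem_inf m' hY ht ha.1 ha.2 hz)
  obtain ⟨S, hS, hYS, hc⟩ := m.duad_sub inf_le_left noz hY ⟨m.T_mem Y, ht⟩
  obtain ⟨A, hSA, -, hA⟩ := Finset.exists_subsuperset_card_eq (n := 4) (Finset.subset_univ S)
    (by omega) (by rw [Finset.card_univ, card_golayPt]; omega)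
  have hAc : ∀ D ⊆ S, D.card = 2 → ¬ IsConj z (T A * T D) := by
    intro D hD hD2
    rw [← m.T_mul]
    have := card_symmDiff_add A D
    rw [Finset.inter_eq_right.2 (hD.trans hSA)] at this
    exact m.duad _ (by omega)
  obtain ⟨p, hp⟩ : Y'.Nonempty := Finset.card_pos.1 (by omega)
  obtain ⟨Z, hZ, hZ3⟩ := Finset.exists_subset_card_eq (s := Finset.univ \ Y') (n := 3)
    (by rw [Finset.card_univ_sdiff, card_golayPt]; omega)
  have hZY : ∀ x ∈ Z, x ∉ Y' := fun x hx => (Finset.mem_sdiff.1 (hZ hx)).2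
  have hB : (insert p Z).card = 4 := by
    rw [Finset.card_insert_of_notMem fun h => hZY p h hp, hZ3]
  have hBt : IsConj z (T' (insert p Z) * t) := by
    rw [← e', ← m'.T_mul]
    have := card_symmDiff_add (insert p Z) Y'
    have h1 : insert p Z ∩ Y' = {p} := by
      ext x
      simp only [Finset.mem_inter, Finset.mem_insert, Finset.mem_singleton]
      constructor
      · rintro ⟨rfl | hx, hx'⟩
        · rfl
        · exact absurd hx' (hZY x hx)
      · rintro rfl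
        exact ⟨Or.inl rfl, hp⟩
    rw [h1, Finset.card_singleton] at this
    exact m'.sext _ (by omega)
  set a := T A with ha
  set b := T' (insert p Z) with hb
  have ha2 : a * a = 1 := m.T_sq _
  have hb2 : b * b = 1 := m'.T_sq _
  have haz : IsConj z a := m.sext A hA
  have hbz : IsConj z b := m'.sext _ hB
  have hat : a ∈ C1[t] := m.le_cent1 (e ▸ m.T_mem Y) (m.T_mem A)
  have hbt : b ∈ C1[t] := m'.le_cent1 (e' ▸ m'.T_mem Y') (m'.T_mem _)
  rcases Nat.even_or_odd (orderOf (a * b)) with hev | hod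
  · obtain ⟨k, -, h2, h3, h4⟩ := BS.central_of_even ha2 hb2 hev
    have hi : (b * a) ^ k = (a * b) ^ k := by
      have : b * a = (a * b)⁻¹ := by
        rw [mul_inv_rev, inv_eq_of_mul_eq_one_right ha2, inv_eq_of_mul_eq_one_right hb2]
      rw [this, inv_pow, inv_eq_of_mul_eq_one_right (BS.mul_self_of_orderOf h2)]
    obtain ⟨c1, c2⟩ := h.dih h' (m.T_mem A) (m'.T_mem _) haz hbz h3
    obtain ⟨c3, -⟩ := h'.dih h (m'.T_mem _) (m.T_mem A) hbz haz (k := k) (by rw [hi]; exact h4)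
    rw [hi] at c3
    obtain ⟨D, hD, hD2, e1⟩ := hc _ ⟨c1, c3⟩ (BS.ne_one_of_orderOf_two h2)
    exact hAc D hD hD2 (e1 ▸ c2)
  · obtain ⟨k, hk⟩ := BS.conj_of_odd ha2 hb2 hod
    have hw : (a * b) ^ k * t = t * (a * b) ^ k := mem_cent1.1 (pow_mem (mul_mem hat hbt) k)
    refine hAc Y hYS hY (hBt.trans (isConj_iff.2 ⟨((a * b) ^ k)⁻¹, ?_⟩))
    rw [e, inv_inv]
    conv_rhs => rw [hk]
    simp only [mul_assoc, hw]

/-- the centraliser of a duad element normalises `V` -/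
theorem MS.cent_duad (h : MS z V π κ T) {Y : Finset GolayPt} (hY : Y.card = 2) :
    centralizer {T Y} ≤ normalizer (V : Set G) := fun x hx =>
  conj_eq_self_iff.1 (Fam.eq ⟨π, κ, T, Y, h, hY, rfl⟩ (Fam.conj ⟨π, κ, T, Y, h, hY, rfl⟩ hx))

end Cfsg.Agent.J4
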