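import Cfsg.Agent.J4.MSb

/-!
# The conclusions about `2¹¹ : M₂₄` and the second class of involutions
-/

set_option autoImplicit false
set_option linter.unusedSectionVars false
set_option linter.unusedVariables false

namespace Cfsg.Agent.J4

open Cfsg.Agent.M24 Cfsg.Agent.GT Subgroup MulAction
open scoped Pointwise symmDiff

variable {G : Type*} [Group G] [Finite G] {z : G} {V : Subgroup G} {π : N[V] →* M24}
  {κ : M24 →* N[V]} {T : Finset GolayPt → G}

/-- the image in `G` of a subgroup of `M₂₄` under the section -/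
def lift (κ : M24 →* N[V]) (H : Subgroup M24) : Subgroup G := H.map (N[V].subtype.comp κ)

theorem mem_lift {H : Subgroup M24} {x : G} : x ∈ lift κ H ↔ ∃ g ∈ H, (κ g : G) = x := Iff.rfl

theorem lift_le (H : Subgroup M24) : lift κ H ≤ N[V] := by
  rintro _ ⟨g, -, rfl⟩
  exact (κ g).2

namespace MS

variable (h : MS z V π κ T)
include h

theorem κ_inj' : Function.Injective (N[V].subtype.comp κ) :=
  N[V].subtype_injective.comp h.κ_inj

theorem lift_equiv (H : Subgroup M24) : Nonempty (lift κ H ≃* H) :=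
  ⟨(equivMapOfInjective H _ h.κ_inj').symm⟩

theorem card_lift (H : Subgroup M24) : Nat.card (lift κ H) = Nat.card H := card_map_inj h.κ_inj'

theorem lift_inf (H : Subgroup M24) : lift κ H ⊓ V = ⊥ := by
  rw [eq_bot_iff]
  rintro _ ⟨⟨g, -, rfl⟩, hg⟩
  have := (h.ker (κ g)).2 hg
  rw [h.sec] at this
  simp [this]

theorem mul_inv_κ_mem (n : N[V]) : (n : G) * (κ (π n) : G)⁻¹ ∈ V := by
  have := (h.ker (n * (κ (π n))⁻¹)).1 (by rw [map_mul, map_inv, h.sec, mul_inv_cancel])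
  simpa using this

theorem mem_lift_sup {H : Subgroup M24} (n : N[V]) (hn : π n ∈ H) : (n : G) ∈ lift κ H ⊔ V := by
  have := mul_mem (mem_sup_right (S := lift κ H) (h.mul_inv_κ_mem n))
    (mem_sup_left (T := V) (mem_lift.2 ⟨π n, hn, rfl⟩))
  rwa [inv_mul_cancel_right] at this

theorem conj_κ (g : M24) {X : Finset GolayPt} (hX : Even X.card) :
    (κ g : G) * T X * (κ g : G)⁻¹ = T (g • X) := by
  rw [h.conj _ X hX, h.sec]

/-- the conclusion of S5567 -/
theorem split : Subgroup.centralizer (V : Set G) ≤ V ∧ ∃ K : Subgroup G,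
    K ≤ Subgroup.normalizer (V : Set G) ∧ K ⊓ V = ⊥ ∧ K ⊔ V = Subgroup.normalizer (V : Set G) ∧
    Cfsg.Spor.IsoM24 ↥K := by
  refine ⟨h.cent_le, lift κ ⊤, lift_le _, h.lift_inf _, le_antisymm
    (sup_le (lift_le _) le_normalizer) fun n hn => h.mem_lift_sup ⟨n, hn⟩ (mem_top _), ?_⟩
  obtain ⟨e⟩ := h.lift_equiv ⊤
  exact ⟨e.trans topEquiv⟩

theorem orbit_small {X : Finset GolayPt} (hX : Even X.card) (h5 : X.card ≤ 5) :
    {v : G | ∃ n ∈ Subgroup.normalizer (V : Set G), n * T X * n⁻¹ = v} =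
      T '' {Y | Y.card = X.card} := by
  ext v
  constructor
  · rintro ⟨n, hn, rfl⟩
    exact ⟨π ⟨n, hn⟩ • X, card_smul24 _ _, (h.conj ⟨n, hn⟩ X hX).symm⟩
  · rintro ⟨Y, hY, rfl⟩
    obtain ⟨g, hg, rfl⟩ := trans_sets (s := X) (t := Y) hY.symm h5
    exact ⟨κ ⟨g, hg⟩, (κ _).2, h.conj_κ ⟨g, hg⟩ hX⟩

theorem ncard_duads : (T '' {Y | Y.card = 2}).ncard = 276 := by
  rw [Set.InjOn.ncard_image (s := {Y : Finset GolayPt | Y.card = 2})
    fun X hX Y hY e => h.T_inj_duad hX hY e]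
  have : {Y : Finset GolayPt | Y.card = 2} =
      ((Finset.univ.powersetCard 2 : Finset (Finset GolayPt)) : Set (Finset GolayPt)) := by
    ext Y; simp [Finset.mem_powersetCard]
  rw [this, Set.ncard_coe_finset, Finset.card_powersetCard, Finset.card_univ, card_golayPt]
  rfl

theorem ncard_tetrads : (T '' {Y | Y.card = 4}).ncard = 1771 := by
  have e : (V : Set G) = insert 1 (T '' {Y | Y.card = 2} ∪ T '' {Y | Y.card = 4}) := by
    ext v
    constructor
    · intro hv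
      rcases h.cases hv with e | ⟨Y, hY, e⟩ | ⟨Y, hY, e⟩
      · exact Or.inl e
      · exact Or.inr (Or.inl ⟨Y, hY, e⟩)
      · exact Or.inr (Or.inr ⟨Y, hY, e⟩)
    · rintro (rfl | ⟨Y, -, rfl⟩ | ⟨Y, -, rfl⟩)
      · exact one_mem V
      · exact h.T_mem Y
      · exact h.T_mem Y
  have h1 : (V : Set G).ncard = 2 ^ 11 := h.card
  rw [e, Set.ncard_insert_of_notMem, Set.ncard_union_eq, h.ncard_duads] at h1
  · omega
  · rw [Set.disjoint_left]
    rintro _ ⟨X, hX, rfl⟩ ⟨Y, hY, e⟩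
    exact h.duad X hX (e ▸ h.sext Y hY)
  · rintro (⟨X, hX, e⟩ | ⟨X, hX, e⟩)
    · have hX : X.card = 2 := hX
      exact h.T_ne_one (by simp [hX]) (by omega) (by omega) e
    · have hX : X.card = 4 := hX
      exact h.T_ne_one (by rw [hX]; decide) (by omega) (by omega) e

/-- the conclusion of S5568 -/
theorem orbits : ∃ z' t : G, z' ∈ V ∧ t ∈ V ∧ t ≠ 1 ∧ IsConj z z' ∧ ¬ IsConj z t ∧
    Set.ncard {v : G | ∃ n ∈ Subgroup.normalizer (V : Set G), n * z' * n⁻¹ = v} = 1771 ∧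
    Set.ncard {v : G | ∃ n ∈ Subgroup.normalizer (V : Set G), n * t * n⁻¹ = v} = 276 ∧
    Subgroup.centralizer ({t} : Set G) ≤ Subgroup.normalizer (V : Set G) := by
  obtain ⟨X, -, hX⟩ := Finset.exists_subset_card_eq (s := (Finset.univ : Finset GolayPt)) (n := 4)
    (by rw [Finset.card_univ, card_golayPt]; omega)
  obtain ⟨Y, -, hY⟩ := Finset.exists_subset_card_eq (s := (Finset.univ : Finset GolayPt)) (n := 2)
    (by rw [Finset.card_univ, card_golayPt]; omega)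
  refine ⟨T X, T Y, h.T_mem X, h.T_mem Y, h.T_ne_one (by simp [hY]) (by omega) (by omega),
    h.sext X hX, h.duad Y hY, ?_, ?_, h.cent_duad hY⟩
  · rw [h.orbit_small (by rw [hX]; decide) (by omega), hX, h.ncard_tetrads]
  · rw [h.orbit_small (by simp [hY]) (by omega), hY, h.ncard_duads]

theorem cent_duad_eq {Y : Finset GolayPt} (hY : Y.card = 2) :
    lift κ (stabilizer M24 Y) ⊔ V = C1[T Y] := by
  refine le_antisymm (sup_le ?_ (h.le_cent1 (h.T_mem Y))) fun c hc =>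
    h.mem_lift_sup ⟨c, h.cent_duad hY hc⟩ (h.smul_duad hY _ hc)
  rintro _ ⟨g, hg, rfl⟩
  exact h.mem_cent1_of_smul (by simp [hY]) (κ g) (by rw [h.sec]; exact hg)

theorem second_duad {Y : Finset GolayPt} (hY : Y.card = 2) :
    ∃ V K : Subgroup G, V ≤ Subgroup.centralizer ({T Y} : Set G) ∧
    K ≤ Subgroup.centralizer ({T Y} : Set G) ∧
    Subgroup.centralizer ({T Y} : Set G) ≤ Subgroup.normalizer (V : Set G) ∧
    Cfsg.IsElementaryAbelian 2 V ∧ Nat.card ↥V = 2 ^ 11 ∧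
    K ⊓ V = ⊥ ∧ K ⊔ V = Subgroup.centralizer ({T Y} : Set G) ∧
    Nonempty (↥K ≃* MulAut ↥Cfsg.Spor.M22) := by
  refine ⟨V, lift κ (stabilizer M24 Y), h.le_cent1 (h.T_mem Y),
    le_sup_left.trans (h.cent_duad_eq hY).le, h.cent_duad hY, h.elemAb, h.card, h.lift_inf _,
    h.cent_duad_eq hY, ?_⟩
  obtain ⟨e⟩ := h.lift_equiv (stabilizer M24 Y)
  obtain ⟨f⟩ := autM22
  obtain ⟨g, hg, e1⟩ := trans_sets (s := Y) (t := {none, some 0})
    (by rw [hY, Finset.card_pair (by simp)]) (by omega)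
  exact ⟨e.trans ((equivOfConj (K := Dd) ⟨g, hg⟩ fun x => by
    rw [conj_mem_stabilizer ⟨g, hg⟩, M24_smul_def, e1]; rfl).trans f.symm)⟩

/-- the conclusion of S5569 -/
theorem second (hcl : ∀ i, orderOf i = 2 → IsConj z i ∨ ∃ Y, Y.card = 2 ∧ IsConj (T Y) i)
    (t : G) (ht : orderOf t = 2) (hnc : ¬ IsConj z t) :
    ∃ V K : Subgroup G, V ≤ Subgroup.centralizer ({t} : Set G) ∧
    K ≤ Subgroup.centralizer ({t} : Set G) ∧
    Subgroup.centralizer ({t} : Set G) ≤ Subgroup.normalizer (V : Set G) ∧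
    Cfsg.IsElementaryAbelian 2 V ∧ Nat.card ↥V = 2 ^ 11 ∧
    K ⊓ V = ⊥ ∧ K ⊔ V = Subgroup.centralizer ({t} : Set G) ∧
    Nonempty (↥K ≃* MulAut ↥Cfsg.Spor.M22) := by
  obtain ⟨Y, hY, hc⟩ := (hcl t ht).resolve_left hnc
  obtain ⟨g, rfl⟩ := isConj_iff.1 hc
  obtain ⟨π', κ', T', h', e⟩ := h.conj_ g
  rw [← e]
  exact h'.second_duad hY

end MS

end Cfsg.Agent.J4
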