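import Cfsg.Agent.J4.MSc
import Cfsg.Agent.J4.Chow
import Cfsg.Agent.M24.OctOrb

/-!
# Coordinates on the self-centralising `2¹⁰` inside `2¹¹ : M₂₄`
-/

set_option autoImplicit false
set_option linter.unusedSectionVars false
set_option linter.unusedVariables false

namespace Cfsg.Agent.J4

open Cfsg.Agent.M24 Cfsg.Agent.GT Subgroup MulAction
open scoped Pointwise symmDiff

/-- Codes of the pointwise stabiliser of the standard octad. -/
def tL : List ℕ := [nat_lit 0xbdab49ca307b9ac5a928398a418820, nat_lit 0xb99b28523343aaa4b16f258a718820, nat_lit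
  0xbcc8cb2a265b8f47c9096c0b518820, nat_lit 0xbc0ea332364b892451ebaccad18820, nat_lit
  0xbd6cb22627638cfa224a834b318820, nat_lit 0xbb4c93ae2453ac893e8c9d4b018820, nat_lit
  0xb926faa22da3a0b6255231cb618820, nat_lit 0xb9e086be3593a6952d94b10a618820, nat_lit
  0xba1474922b3398d85676a3cb218820, nat_lit 0xbbd8459e29b39559b606920b418820, nat_lit
  0xba64d4562f83a87312d362caa18820, nat_lit 0xbae957b6289ba44b1cd0524ac18820, nat_lit
  0xba91094e346b9e63d8955b0a918820, nat_lit 0xbb1f3a4232ab916218ed4a8ab18820, nat_lit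
  0xbc92655a2c3b9706cea47d0a818820, nat_lit 0xbd17661a2a23933ac1a7448af18820]
/-- Code of an element fixing the standard octad pointwise. -/
noncomputable def tC (y : ℕ) : ℕ := lget tL (nat_lit 0) y
/-- An element fixing the standard octad pointwise. -/
noncomputable def tau (y : ℕ) : M24 := elt (tC y)
/-- Coordinates on the even cocode. -/
def vm (k : ℕ) : ℕ :=
  Nat.xor (lin (nat_lit 0x1101001001009002702c00e02a003025) k) (Nat.shiftLeft (lin (nat_lit 0x40080200000000020004004024004) k) (nat_lit 12))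
/-- `c` fixes the class of `m`. -/
noncomputable def fxm (c m : ℕ) : Bool :=
  force (act c m) fun a => force (Nat.xor a m) fun b => Nat.beq (syn b) (nat_lit 0)

theorem vm_xor (a b : ℕ) : vm (a ^^^ b) = vm a ^^^ vm b := by
  have e : ∀ k, vm k = lin 0x1101001001009002702c00e02a003025 k ^^^ (lin 0x40080200000000020004004024004 k <<< 12) := fun k => rfl
  rw [e, e, e, lin_xor, lin_xor, Nat.shiftLeft_xor_distrib]
  simp only [Nat.xor_assoc, Nat.xor_comm, Nat.xor_left_comm]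

theorem vm_lt (k : ℕ) : vm k < 2 ^ 24 := by
  have e : vm k = lin 0x1101001001009002702c00e02a003025 k ^^^ (lin 0x40080200000000020004004024004 k <<< 12) := rfl
  rw [e]
  have h1 := lin_lt 0x1101001001009002702c00e02a003025 k
  have h2 := lin_lt 0x40080200000000020004004024004 k
  refine Nat.xor_lt_two_pow (by omega) ?_
  rw [Nat.shiftLeft_eq]
  omega

theorem tau_chk : nall 16 (fun y => force (tC y) fun c => band (band (isM24 c) (fixesAll 8536111 c))
    (band (bor (!Nat.beq c one) (Nat.beq y 0)) (nall 16 fun w => force (tC w) fun d =>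
      Nat.beq (mul c d) (tC (Nat.xor y w))))) = true := by
  decide +kernel

theorem vm_chk : ball (fun k => force (vm k) fun m => band (Nat.beq (Nat.mod (pc m) 2) 0)
    (band (bor (!Nat.beq (syn m) 0) (Nat.beq k 0))
      (bor (!fxm (nat_lit 0xb99b28523343aaa4b16f258a718820) m) (Nat.blt k 128)))) 11 0 = true := by
  decide +kernel

theorem vm_chk2 : nall 16 (fun y => bor (Nat.blt y 2) (force (tC y) fun c =>
    ball (fun k => bor (Nat.blt k 64) (force (vm k) fun m => !fxm c m)) 7 0)) = true := by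
  decide +kernel

theorem vm_chk3 : nall 64 (fun x => force (vm x) fun m => band (Nat.beq (Nat.land m 8536111) m)
    (bif' (dec x) (bor (Nat.beq x 0) (Nat.beq (pc m) 4))
      (bor (Nat.beq (pc m) 2) (Nat.beq (pc m) 6)))) = true := by
  decide +kernel

theorem vm_chk4 : nall 24 (fun q => bor (tbt 8536111 q) (force (Nat.xor 16 (Nat.shiftLeft 1 q)) fun D =>
    nall 16 fun y => force (tC y) fun c => force (act c D) fun E => force (Nat.xor D E) fun W =>
      band (fxm (nat_lit 0xb99b28523343aaa4b16f258a718820) W) (fxm (nat_lit 0xbcc8cb2a265b8f47c9096c0b518820) W))) = true := by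
  decide +kernel

theorem tC_one : tC 1 = 0xb99b28523343aaa4b16f258a718820 := by decide +kernel
theorem tC_two : tC 2 = 0xbcc8cb2a265b8f47c9096c0b518820 := by decide +kernel

theorem tau_facts {y : ℕ} (hy : y < 16) : mcode (tau y) = tC y ∧ tau y ∈ pstab O0 ∧
    (tau y = 1 → y = 0) ∧ ∀ w < 16, mul (tC y) (tC w) = tC (y ^^^ w) := by
  have h := (nall_iff _ _).1 tau_chk y hy
  simp only [force_eq, band_eq, bor_eq, Bool.and_eq_true, Bool.or_eq_true, Nat.beq_eq,
    nall_iff, Bool.not_eq_true', ← Bool.not_eq_true] at h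
  obtain ⟨⟨h1, h2⟩, h3, h4⟩ := h
  have e : mcode (tau y) = tC y := mcode_elt h1
  refine ⟨e, ?_, fun k => h3.resolve_left (not_not.2 ?_), h4⟩
  · rw [← e, ← mask_O0] at h2
    exact fixesAll_iff.1 h2
  · rw [← e, k, gcM.code_one]

theorem mcode_tau {y : ℕ} (hy : y < 16) : mcode (tau y) = tC y := (tau_facts hy).1

theorem tau_mem {y : ℕ} (hy : y < 16) : tau y ∈ pstab O0 := (tau_facts hy).2.1

theorem xor_lt4 {a b : ℕ} (ha : a < 16) (hb : b < 16) : a ^^^ b < 16 :=
  Nat.xor_lt_two_pow (n := 4) ha hb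

theorem tau_mul {y w : ℕ} (hy : y < 16) (hw : w < 16) : tau y * tau w = tau (y ^^^ w) :=
  gcM.inj (by rw [gcM.code_mul, mcode_tau hy, mcode_tau hw, mcode_tau (xor_lt4 hy hw),
    (tau_facts hy).2.2.2 w hw])

theorem tau_zero : tau 0 = 1 := by
  have := tau_mul (y := 0) (w := 0) (by norm_num) (by norm_num)
  rwa [Nat.xor_self, mul_eq_left] at this

theorem tau_comm {y w : ℕ} (hy : y < 16) (hw : w < 16) : tau y * tau w = tau w * tau y := by
  rw [tau_mul hy hw, tau_mul hw hy, Nat.xor_comm]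

theorem tau_inj {y w : ℕ} (hy : y < 16) (hw : w < 16) (e : tau y = tau w) : y = w := by
  refine Nat.eq_of_xor_eq_zero ((tau_facts (xor_lt4 hy hw)).2.2.1 ?_)
  rw [← tau_mul hy hw, e, tau_mul hw hw, Nat.xor_self, tau_zero]

theorem fxm_iff (g : M24) (X : Finset GolayPt) :
    fxm (mcode g) (mask X) = true ↔ IsCw ((g • X) ∆ X) := by
  rw [fxm, force_eq, force_eq, Nat.beq_eq, isCw_iff, mask_symmDiff, acSM.ap_code g trivial]

theorem vm_facts {k : ℕ} (hk : k < 2048) : Even (unmask (vm k)).card ∧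
    (IsCw (unmask (vm k)) → k = 0) ∧
    (IsCw ((tau 1 • unmask (vm k)) ∆ unmask (vm k)) → k < 128) := by
  have h := ball_zero vm_chk k hk
  simp only [force_eq, band_eq, bor_eq, Bool.and_eq_true, Bool.or_eq_true, Nat.beq_eq,
    Nat.blt_eq, Bool.not_eq_true', ← Bool.not_eq_true] at h
  obtain ⟨h1, h2, h3⟩ := h
  refine ⟨?_, fun e => h2.resolve_left (not_not.2 ((isCw_unmask (vm_lt k)).1 e)),
    fun e => h3.resolve_left (not_not.2 ?_)⟩
  · rw [card_unmask (vm_lt k), Nat.even_iff]; exact h1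
  · rw [← fxm_iff, mcode_tau (by norm_num), tC_one, mask_unmask (vm_lt k)] at e
    exact e

theorem vm_facts2 {y k : ℕ} (hy : y < 16) (h2 : 2 ≤ y) (hk : k < 128)
    (e : IsCw ((tau y • unmask (vm k)) ∆ unmask (vm k))) : k < 64 := by
  have h := (nall_iff _ _).1 vm_chk2 y hy
  rw [bor_eq, Bool.or_eq_true, Nat.blt_eq, force_eq] at h
  have h := ball_zero (h.resolve_left (by omega)) k hk
  rw [bor_eq, Bool.or_eq_true, Nat.blt_eq, force_eq] at h
  refine h.resolve_right ?_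
  rw [← fxm_iff, mcode_tau hy, mask_unmask (vm_lt k)] at e
  simp [e]

theorem vm_facts3 {x : ℕ} (hx : x < 64) : unmask (vm x) ⊆ O0 ∧
    (dec x = true → x = 0 ∨ (unmask (vm x)).card = 4) ∧
    (dec x = false → (unmask (vm x)).card = 2 ∨ (unmask (vm x)).card = 6) := by
  have h := (nall_iff _ _).1 vm_chk3 x hx
  rw [force_eq, band_eq, Bool.and_eq_true, Nat.beq_eq, bif'_eq] at h
  rw [card_unmask (vm_lt x), subset_iff_mask, mask_unmask (vm_lt x), mask_O0]
  refine ⟨h.1, fun e => ?_, fun e => ?_⟩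
  · simpa [e] using h.2
  · simpa [e] using h.2

theorem vm_facts4 {q : GolayPt} (hq : q ∉ O0) {y : ℕ} (hy : y < 16) {W : Finset GolayPt}
    (hW : W = (({pt 4} : Finset GolayPt) ∆ {q}) ∆ (tau y • (({pt 4} : Finset GolayPt) ∆ {q}))) :
    IsCw ((tau 1 • W) ∆ W) ∧ IsCw ((tau 2 • W) ∆ W) := by
  have h := (nall_iff _ _).1 vm_chk4 _ (idx_lt q)
  rw [bor_eq, Bool.or_eq_true, tb_eq, ← mask_O0, testBit_mask, force_eq] at h
  have h := (nall_iff _ _).1 (h.resolve_left hq) y hy
  have e : Nat.xor 16 (Nat.shiftLeft 1 (idx q)) = mask (({pt 4} : Finset GolayPt) ∆ {q}) := by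
    rw [mask_symmDiff, mask_singleton, mask_singleton, idx_pt (by norm_num)]
    exact congrArg _ (Nat.one_shiftLeft _)
  simp only [force_eq, band_eq, Bool.and_eq_true] at h
  rw [e, ← mcode_tau hy, acSM.ap_code _ trivial, ← mask_symmDiff, ← hW] at h
  rw [← fxm_iff, ← fxm_iff, mcode_tau (by norm_num), mcode_tau (by norm_num), tC_one, tC_two]
  exact h

theorem pt4_not_mem : pt 4 ∉ O0 := by
  rw [← testBit_mask, mask_O0, idx_pt (by norm_num)]; decide

theorem vm_1024 : tau 1 • unmask (vm 1024) = unmask (vm 64) ∆ unmask (vm 1024) := by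
  apply mask_inj
  rw [← acSM.ap_code _ trivial, mcode_tau (by norm_num), tC_one, mask_symmDiff,
    mask_unmask (vm_lt _), mask_unmask (vm_lt _)]
  decide +kernel

theorem card_pstab_O0 : Nat.card (pstab O0) ≤ 16 := by
  obtain ⟨F, hF, h6⟩ := Finset.exists_subset_card_eq (s := O0) (n := 6)
    (by rw [(mem_octads.1 O0_mem).2]; omega)
  rw [← card_pstab_six_in h6 O0_mem hF]
  exact card_le_of_le fun g hg a ha => hg a (hF ha)

theorem smul_of_pstab {o X : Finset GolayPt} {g : M24} (hg : g ∈ pstab o) (hX : X ⊆ o) :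
    g • X = X := by
  rw [M24_smul_def, smul_eq_of_agree (σ := 1) fun a ha => hg a (hX ha), one_smul]

variable {G : Type*} [Group G] [Finite G] {z : G} {V A : Subgroup G} {π : N[V] →* M24}
  {κ : M24 →* N[V]} {T : Finset GolayPt → G}

/-- Coordinates on `V`. -/
noncomputable def chi (T : Finset GolayPt → G) (k : ℕ) : G := T (unmask (vm k))

/-- Coordinates on `A`. -/
noncomputable def psi (κ : M24 →* N[V]) (T : Finset GolayPt → G) (x : ℕ) : G :=
  chi T (x &&& 63) * κ (tau (x >>> 6))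

/-- The complement `M₂₄` twisted by the point `4`. -/
noncomputable def theta (κ : M24 →* N[V]) (T : Finset GolayPt → G) (g : M24) : G :=
  T (({pt 4} : Finset GolayPt) ∆ {g • pt 4}) * κ g

/-- The hypotheses on the subgroup `A`. -/
structure AS (π : N[V] →* M24) (A : Subgroup G) (o : Finset GolayPt) : Prop where
  elem : IsElementaryAbelian 2 A
  card : Nat.card A = 2 ^ 10
  le : A ≤ N[V]
  fix : ∀ n : N[V], (n : G) ∈ A → π n ∈ pstab o
  card6 : Nat.card ↥(A ⊓ V) = 64

theorem AS.comm {o : Finset GolayPt} (a : AS π A o) {x y : G} (hx : x ∈ A) (hy : y ∈ A) :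
    x * y = y * x := congrArg Subtype.val (a.elem.1.1.1 ⟨x, hx⟩ ⟨y, hy⟩)

theorem and63_lt6 (x : ℕ) : x &&& 63 < 64 := Nat.and_lt_two_pow (n := 6) _ (by norm_num)

theorem shr6_lt {x : ℕ} (hx : x < 1024) : x >>> 6 < 16 := by
  rw [Nat.shiftRight_eq_div_pow]; omega

theorem and63_eq (x : ℕ) : x &&& 63 = x % 64 := Nat.and_two_pow_sub_one_eq_mod x 6

theorem even_pair (a b : GolayPt) : Even (({a} : Finset GolayPt) ∆ {b}).card :=
  odd_symmDiff_odd (by simp) (by simp)

namespace MS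

variable (h : MS z V π κ T)
include h

theorem chi_mem (k : ℕ) : chi T k ∈ V := h.T_mem _

theorem chi_xor (a b : ℕ) : chi T (a ^^^ b) = chi T a * chi T b := by
  rw [chi, vm_xor, unmask_xor (vm_lt a) (vm_lt b), h.T_mul]; rfl

theorem chi_inj {a b : ℕ} (ha : a < 2048) (hb : b < 2048) (e : chi T a = chi T b) : a = b := by
  have hab : a ^^^ b < 2048 := Nat.xor_lt_two_pow (n := 11) ha hb
  refine Nat.eq_of_xor_eq_zero ((vm_facts hab).2.1 ((h.T_one _ (vm_facts hab).1).1 ?_))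
  have := h.chi_xor a b
  rw [e] at this
  exact this.trans (h.T_sq _)

theorem chi_surj {v : G} (hv : v ∈ V) : ∃ k < 2048, chi T k = v := by
  have e : chi T '' ↑(Finset.range 2048) = (V : Set G) := by
    refine Set.eq_of_subset_of_ncard_le ?_ ?_ (Set.toFinite _)
    · rintro _ ⟨k, -, rfl⟩
      exact h.chi_mem k
    · rw [Set.InjOn.ncard_image fun a ha b hb => h.chi_inj (by simpa using ha) (by simpa using hb),
        Set.ncard_coe_finset, Finset.card_range]
      exact h.card.le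
  obtain ⟨k, hk, e'⟩ : v ∈ chi T '' ↑(Finset.range 2048) := e ▸ hv
  exact ⟨k, by simpa using hk, e'⟩

theorem comm_κ_iff (g : M24) {X : Finset GolayPt} (hX : Even X.card) :
    (κ g : G) * T X = T X * κ g ↔ IsCw ((g • X) ∆ X) := by
  rw [← h.T_eq_iff (by rwa [card_smul24]) hX, ← h.conj_κ g hX, mul_inv_eq_iff_eq_mul]

theorem π_eq {v : G} (hv : v ∈ V) {g : M24} {n : N[V]} (e : (n : G) = v * κ g) : π n = g := by
  have : n = ⟨v, le_normalizer hv⟩ * κ g := Subtype.ext e
  rw [this, map_mul, (h.ker _).2 hv, one_mul, h.sec]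

theorem comm_of_mul {v w x : G} (hv : v ∈ V) (hw : w ∈ V) (e : v * x * w = w * (v * x)) :
    x * w = w * x := by
  rw [← mul_assoc, h.comm hw hv, mul_assoc, mul_assoc] at e
  exact mul_left_cancel e

theorem twist {v : G} (hv : v ∈ V) : ∃ κ' : M24 →* N[V], MS z V π κ' T ∧
    ∀ g, (κ' g : G) = v * κ g * v⁻¹ := by
  refine ⟨(MulAut.conj (⟨v, le_normalizer hv⟩ : N[V])).toMonoidHom.comp κ,
    ⟨h.T_mul, h.T_mem, h.T_surj, h.T_one, h.card, h.conj, h.ker, fun g => ?_, h.sext, h.duad,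
      h.cent2, h.uniq⟩, fun g => rfl⟩
  show π (⟨v, le_normalizer hv⟩ * κ g * ⟨v, le_normalizer hv⟩⁻¹) = g
  rw [map_mul, map_mul, map_inv, (h.ker _).2 hv, h.sec]
  simp

theorem theta_mul (g k : M24) : theta κ T (g * k) = theta κ T g * theta κ T k := by
  have e := h.conj_κ g (even_pair (pt 4) (k • pt 4))
  rw [mul_inv_eq_iff_eq_mul, smul_symmDiff24, Finset.smul_finset_singleton,
    Finset.smul_finset_singleton, ← mul_smul] at e
  rw [theta, theta, theta, mul_assoc, ← mul_assoc (κ g : G), e, ← mul_assoc, ← mul_assoc,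
    ← h.T_mul, symmDiff_assoc, symmDiff_symmDiff_cancel_left, map_mul, coe_mul, mul_assoc]

variable (a : AS π A O0)
include a

theorem exists_π {g : M24} (hg : g ∈ pstab O0) : ∃ n : N[V], (n : G) ∈ A ∧ π n = g := by
  have h1 := h.card_map_π a.le
  rw [a.card, a.card6] at h1
  have h2 : (A.subgroupOf N[V]).map π = pstab O0 := by
    refine eq_of_le_of_card_ge ?_ (card_pstab_O0.trans (by omega))
    rintro _ ⟨n, hn, rfl⟩
    exact a.fix n hn
  rw [← h2] at hg
  obtain ⟨n, hn, e⟩ := hg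
  exact ⟨n, hn, e⟩

theorem exists_lift {y : ℕ} (hy : y < 16) : ∃ k < 2048, chi T k * κ (tau y) ∈ A := by
  obtain ⟨n, hn, e⟩ := h.exists_π a (tau_mem hy)
  obtain ⟨k, hk, e'⟩ := h.chi_surj (h.mul_inv_κ_mem n)
  exact ⟨k, hk, by rw [e', ← e, inv_mul_cancel_right]; exact hn⟩

theorem comm_tau {v : G} (hv : v ∈ V) (hA : v ∈ A) {y : ℕ} (hy : y < 16) :
    (κ (tau y) : G) * v = v * κ (tau y) := by
  obtain ⟨k, hk, e⟩ := h.exists_lift a hy
  exact h.comm_of_mul (h.chi_mem k) hv (a.comm e hA)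

theorem chi_mem_A {x : ℕ} (hx : x < 64) : chi T x ∈ A := by
  have e : ((A ⊓ V : Subgroup G) : Set G) = chi T '' ↑(Finset.range 64) := by
    refine Set.eq_of_subset_of_ncard_le ?_ ?_ (Set.toFinite _)
    · intro v hv
      obtain ⟨k, hk, rfl⟩ := h.chi_surj hv.2
      have f := vm_facts hk
      have h1 := f.2.2 ((h.comm_κ_iff _ f.1).1 (h.comm_tau a hv.2 hv.1 (by norm_num)))
      have h2 := vm_facts2 (y := 2) (by norm_num) le_rfl h1
        ((h.comm_κ_iff _ f.1).1 (h.comm_tau a hv.2 hv.1 (by norm_num)))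
      exact ⟨k, by simpa using h2, rfl⟩
    · refine (Set.ncard_image_le (Set.toFinite _)).trans ?_
      rw [Set.ncard_coe_finset, Finset.card_range]
      exact a.card6.ge
  have : chi T x ∈ ((A ⊓ V : Subgroup G) : Set G) := e ▸ ⟨x, by simpa using hx, rfl⟩
  exact this.1

theorem T_mem_A {X : Finset GolayPt} (hX : Even X.card) (h1 : IsCw ((tau 1 • X) ∆ X))
    (h2 : IsCw ((tau 2 • X) ∆ X)) : T X ∈ A := by
  obtain ⟨k, hk, e⟩ := h.chi_surj (h.T_mem X)
  have f := vm_facts hk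
  rw [← h.comm_κ_iff _ hX, ← e] at h1 h2
  rw [← e]
  exact h.chi_mem_A a (vm_facts2 (y := 2) (by norm_num) le_rfl (f.2.2 ((h.comm_κ_iff _ f.1).1 h1))
    ((h.comm_κ_iff _ f.1).1 h2))

theorem T_mem_A' {X : Finset GolayPt} (hX : Even X.card) (hO : X ⊆ O0) : T X ∈ A := by
  refine h.T_mem_A a hX ?_ ?_ <;>
  · rw [smul_of_pstab (tau_mem (by norm_num)) hO, symmDiff_self]
    exact isCw_empty

theorem sq_comm {k y : ℕ} (e : chi T k * κ (tau y) ∈ A) (hy : y < 16) :
    (κ (tau y) : G) * chi T k = chi T k * κ (tau y) := by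
  have h1 := a.elem.2 _ e
  have h2 : (κ (tau y) : G) * κ (tau y) = 1 := by
    rw [← coe_mul, ← map_mul, tau_mul hy hy, Nat.xor_self, tau_zero, map_one, coe_one]
  have h3 : chi T k * chi T k = 1 := h.T_sq _
  rw [pow_two, ← eq_inv_iff_mul_eq_one, mul_inv_rev, inv_eq_of_mul_eq_one_right h2,
    inv_eq_of_mul_eq_one_right h3] at h1
  exact h1.symm

theorem normal_form : ∃ κ' : M24 →* N[V], MS z V π κ' T ∧ (κ' (tau 1) : G) ∈ A := by
  obtain ⟨k, hk, e⟩ := h.exists_lift a (y := 1) (by norm_num)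
  have f := vm_facts hk
  have h1 := f.2.2 ((h.comm_κ_iff _ f.1).1 (h.sq_comm a e (by norm_num)))
  by_cases h2 : k < 64
  · exact ⟨κ, h, (mul_mem_cancel_left (h.chi_mem_A a h2)).1 e⟩
  · obtain ⟨κ', h', e'⟩ := h.twist (h.chi_mem 1024)
    refine ⟨κ', h', ?_⟩
    have h3 : k ^^^ 64 < 64 := by
      have : ∀ k < 128, ¬ k < 64 → k ^^^ 64 < 64 := by decide +kernel
      exact this k h1 h2
    have h4 := h.conj_κ (tau 1) (vm_facts (k := 1024) (by norm_num)).1
    rw [vm_1024, h.T_mul, mul_inv_eq_iff_eq_mul] at h4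
    have h5 : (κ' (tau 1) : G) = chi T 64 * κ (tau 1) := by
      rw [e', chi, h.T_inv, mul_assoc, h4, ← mul_assoc, ← mul_assoc, h.T_comm _ (unmask (vm 64)),
        mul_assoc (T _), h.T_sq, mul_one, chi]
    have h6 := mul_mem (h.chi_mem_A a h3) e
    rw [← mul_assoc, ← h.chi_xor, Nat.xor_comm k, Nat.xor_assoc, Nat.xor_self, Nat.xor_zero] at h6
    rwa [h5]

variable (h1 : (κ (tau 1) : G) ∈ A)
include h1

theorem κ_tau_mem {y : ℕ} (hy : y < 16) : (κ (tau y) : G) ∈ A := by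
  rcases (by omega : y = 0 ∨ y = 1 ∨ 2 ≤ y) with rfl | rfl | h2
  · rw [tau_zero, map_one]; exact one_mem A
  · exact h1
  obtain ⟨k, hk, e⟩ := h.exists_lift a hy
  have f := vm_facts hk
  have c1 : (κ (tau 1) : G) * chi T k = chi T k * κ (tau 1) := by
    have c := a.comm h1 e
    have c' : (κ (tau y) : G) * κ (tau 1) = κ (tau 1) * κ (tau y) := by
      rw [← coe_mul, ← coe_mul, ← map_mul, ← map_mul, tau_comm hy (by norm_num)]
    rw [mul_assoc, c', ← mul_assoc, ← mul_assoc] at c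
    exact mul_right_cancel c
  have h3 := vm_facts2 hy h2 (f.2.2 ((h.comm_κ_iff _ f.1).1 c1))
    ((h.comm_κ_iff _ f.1).1 (h.sq_comm a e hy))
  exact (mul_mem_cancel_left (h.chi_mem_A a h3)).1 e

theorem psi_mem {x : ℕ} (hx : x < 1024) : psi κ T x ∈ A :=
  mul_mem (h.chi_mem_A a (and63_lt6 x)) (h.κ_tau_mem a h1 (shr6_lt hx))

theorem psi_xor {x y : ℕ} (hx : x < 1024) (hy : y < 1024) :
    psi κ T (x ^^^ y) = psi κ T x * psi κ T y := by
  have c := a.comm (h.κ_tau_mem a h1 (shr6_lt hx)) (h.chi_mem_A a (and63_lt6 y))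
  rw [psi, psi, psi, Nat.and_xor_distrib_right, Nat.shiftRight_xor_distrib, h.chi_xor,
    ← tau_mul (shr6_lt hx) (shr6_lt hy), map_mul, coe_mul, mul_assoc, mul_assoc,
    ← mul_assoc (κ _ : G), c, mul_assoc]

theorem psi_inj {x y : ℕ} (hx : x < 1024) (hy : y < 1024) (e : psi κ T x = psi κ T y) : x = y := by
  have e1 := h.π_eq (h.chi_mem _) (n := ⟨_, a.le (h.psi_mem a h1 hx)⟩) rfl
  have e2 := h.π_eq (h.chi_mem _) (n := ⟨_, a.le (h.psi_mem a h1 hx)⟩) e
  have e3 := tau_inj (shr6_lt hx) (shr6_lt hy) (e1.symm.trans e2)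
  rw [psi, psi, e3, mul_left_inj] at e
  have e4 := h.chi_inj ((and63_lt6 x).trans (by norm_num)) ((and63_lt6 y).trans (by norm_num)) e
  rw [and63_eq, and63_eq] at e4
  rw [Nat.shiftRight_eq_div_pow, Nat.shiftRight_eq_div_pow] at e3
  omega

theorem mem_A_iff (b : G) : b ∈ A ↔ ∃ x < 1024, psi κ T x = b := by
  have e : psi κ T '' ↑(Finset.range 1024) = (A : Set G) := by
    refine Set.eq_of_subset_of_ncard_le ?_ ?_ (Set.toFinite _)
    · rintro _ ⟨k, hk, rfl⟩
      exact h.psi_mem a h1 (by simpa using hk)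
    · rw [Set.InjOn.ncard_image fun x hx y hy =>
        h.psi_inj a h1 (by simpa using hx) (by simpa using hy),
        Set.ncard_coe_finset, Finset.card_range]
      exact a.card.le
  constructor
  · intro hb
    obtain ⟨k, hk, e'⟩ : b ∈ psi κ T '' ↑(Finset.range 1024) := e ▸ hb
    exact ⟨k, by simpa using hk, e'⟩
  · rintro ⟨x, hx, rfl⟩
    exact h.psi_mem a h1 hx

theorem κ_mem_A {g : M24} (hg : g ∈ pstab O0) : (κ g : G) ∈ A := by
  obtain ⟨n, hn, rfl⟩ := h.exists_π a hg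
  obtain ⟨x, hx, e⟩ := (h.mem_A_iff a h1 _).1 hn
  rw [h.π_eq (h.chi_mem _) e.symm]
  exact h.κ_tau_mem a h1 (shr6_lt hx)

theorem κ_mem_norm {g : M24} (hg : g • O0 = O0) : (κ g : G) ∈ N[A] := by
  refine mem_normalizer_of_conj fun b hb => ?_
  obtain ⟨x, hx, rfl⟩ := (h.mem_A_iff a h1 _).1 hb
  have e : (κ g : G) * psi κ T x * (κ g : G)⁻¹ = ((κ g : G) * chi T (x &&& 63) * (κ g : G)⁻¹) *
      (κ (g * tau (x >>> 6) * g⁻¹) : G) := by
    rw [psi, map_mul, map_mul, map_inv, coe_mul, coe_mul, coe_inv]; group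
  have ev := (vm_facts (k := x &&& 63) ((and63_lt6 x).trans (by norm_num))).1
  rw [e, chi, h.conj_κ g ev]
  refine mul_mem (h.T_mem_A' a (by rwa [card_smul24]) ?_) (h.κ_mem_A a h1 ?_)
  · rw [← hg]
    exact Finset.smul_finset_subset_smul_finset (vm_facts3 (and63_lt6 x)).1
  · rw [← hg, ← conj_mem_pstab]
    exact tau_mem (shr6_lt hx)

theorem conj_T {D : Finset GolayPt} (hD : Even D.card) (v : G) (hv : v ∈ V) (g : M24) :
    T D * (v * κ g) * (T D)⁻¹ = v * T (D ∆ (g • D)) * κ g := by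
  rw [h.T_mul, ← h.conj_κ g hD, h.T_inv, ← mul_assoc (T D), h.comm (h.T_mem D) hv]; group

theorem T_mem_norm {q : GolayPt} (hq : q ∉ O0) : T (({pt 4} : Finset GolayPt) ∆ {q}) ∈ N[A] := by
  refine mem_normalizer_of_conj fun b hb => ?_
  obtain ⟨x, hx, rfl⟩ := (h.mem_A_iff a h1 _).1 hb
  rw [psi, h.conj_T a h1 (even_pair _ _) _ (h.chi_mem _)]
  have f := vm_facts4 hq (shr6_lt hx) rfl
  exact mul_mem (mul_mem (h.chi_mem_A a (and63_lt6 x)) (h.T_mem_A a (even_symmDiff (even_pair _ _)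
    (by rw [card_smul24]; exact even_pair _ _)) f.1 f.2)) (h.κ_tau_mem a h1 (shr6_lt hx))

theorem theta_mem_norm {g : M24} (hg : g • O0 = O0) : theta κ T g ∈ N[A] :=
  mul_mem (h.T_mem_norm a h1 (by rw [← hg, mem_smul24]; exact pt4_not_mem)) (h.κ_mem_norm a h1 hg)

end MS

end Cfsg.Agent.J4
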