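import Cfsg.Agent.J4.MSd

/-!
# The classes of involutions in the self-centralising `2¹⁰`
-/

set_option autoImplicit false
set_option linter.unusedSectionVars false
set_option linter.unusedVariables false

namespace Cfsg.Agent.J4

open Cfsg.Agent.M24 Cfsg.Agent.GT Subgroup MulAction
open scoped Pointwise symmDiff

theorem ncard_modEq_fix {G : Type*} [Group G] [Finite G] {p : ℕ} [Fact p.Prime] {g : G}
    (hg : g ^ p = 1) {S : Set G} (hS : ∀ s ∈ S, g * s * g⁻¹ ∈ S) :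
    S.ncard ≡ {s | s ∈ S ∧ g * s = s * g}.ncard [MOD p] := by
  classical
  have := Fintype.ofFinite S
  let f : Function.End S := fun s => ⟨g * s * g⁻¹, hS s s.2⟩
  have h1 : ∀ (n : ℕ) (s : S), ((f ^ n) s : G) = g ^ n * s * (g ^ n)⁻¹ := by
    intro n
    induction n with
    | zero => intro s; simp; rfl
    | succ n ih =>
      intro s
      rw [pow_succ' f]
      show g * ((f ^ n) s : G) * g⁻¹ = _
      rw [ih, pow_succ']; group
  have h2 := Equiv.Perm.card_fixedPoints_modEq (f := f) (p := p) (n := 1) (by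
    funext s
    apply Subtype.ext
    rw [h1, pow_one, hg]
    simp; rfl)
  rw [← Nat.card_eq_fintype_card, ← Nat.card_eq_fintype_card] at h2
  have h3 : Nat.card (Function.fixedPoints f) = {s | s ∈ S ∧ g * s = s * g}.ncard := by
    rw [← Nat.card_coe_set_eq]
    refine Nat.card_congr ⟨fun x => ⟨x.1.1, x.1.2, mul_inv_eq_iff_eq_mul.1
      (congrArg Subtype.val x.2)⟩, fun x => ⟨⟨x.1, x.2.1⟩, Subtype.ext
        (mul_inv_eq_iff_eq_mul.2 x.2.2)⟩, fun x => rfl, fun x => rfl⟩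
  rwa [h3] at h2

theorem ncard_conj_orbit {G : Type*} [Group G] (H : Subgroup G) (a : G) :
    Nat.card ↥(H ⊓ C1[a]) * {v : G | ∃ n ∈ H, n * a * n⁻¹ = v}.ncard = Nat.card H := by
  have h := card_inf_stab H (toCj a)
  rw [stabilizer_toCj] at h
  rw [← h]
  congr 2
  ext v
  constructor
  · rintro ⟨n, hn, rfl⟩
    exact ⟨⟨n, hn⟩, rfl⟩
  · rintro ⟨n, rfl⟩
    exact ⟨n.1, n.2, rfl⟩

/-- Points reached from the set `m` along the certificate `l`. -/
noncomputable def reach (f : ℕ → ℕ) (l : List ℕ) : ℕ → ℕ :=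
  List.rec (motive := fun _ => ℕ → ℕ) (fun m => m) (fun c _ ih m => force
    (bif' (tbt m (Nat.shiftRight c 1)) (force (f c) fun y => Nat.lor m (Nat.shiftLeft 1 y)) m) ih) l

theorem reach_sound {f : ℕ → ℕ} {P : ℕ → Prop} (hf : ∀ c, P (c >>> 1) → P (f c)) (l : List ℕ) :
    ∀ m, (∀ y, tbt m y = true → P y) → ∀ y, tbt (reach f l m) y = true → P y := by
  induction l with
  | nil => exact fun m h => h
  | cons c l ih =>
    intro m hm
    have : reach f (c :: l) m = force (bif' (tbt m (Nat.shiftRight c 1))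
      (force (f c) fun y => Nat.lor m (Nat.shiftLeft 1 y)) m) (reach f l) := rfl
    rw [this, force_eq, force_eq, bif'_eq]
    refine ih _ ?_
    split_ifs with e
    · intro y hy
      have e1 : Nat.lor m (Nat.shiftLeft 1 (f c)) = m ||| 2 ^ f c :=
        congrArg (m ||| ·) (Nat.one_shiftLeft _)
      rw [e1, tb_eq, Nat.testBit_or, Bool.or_eq_true, Nat.testBit_two_pow, decide_eq_true_iff,
        ← tb_eq] at hy
      rcases hy with hy | rfl
      · exact hm y hy
      · exact hf c (hm _ e)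
    · exact hm

theorem bif'_blt {β : Type} (x n : ℕ) (a b : β) :
    bif' (Nat.blt x n) a b = if x < n then a else b := by
  simp only [bif'_eq, Nat.blt_eq]

theorem tb_pow {r y : ℕ} (h : tbt (2 ^ r) y = true) : r = y := by
  rwa [tb_eq, Nat.testBit_two_pow, decide_eq_true_iff] at h

/-- One conjugation step in coordinates. -/
noncomputable def stepOk (c x x' : ℕ) : Bool :=
  force (tC (Nat.shiftRight x 6)) fun s => force (tC (Nat.shiftRight x' 6)) fun t =>
    force (Nat.xor 16 (Nat.shiftLeft 1 (ap c 4))) fun K => force (vm (Nat.land x 63)) fun m =>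
      band (Nat.blt x' 1024) (band (Nat.beq (cjap mul inv c s) t)
        (force (Nat.xor (Nat.xor (act c m) (Nat.xor K (act t K))) (vm (Nat.land x' 63))) fun w =>
          Nat.beq (syn w) 0))

/-- A generator of the octad stabiliser with its matrix. -/
noncomputable def genOk (c M : ℕ) : Bool :=
  band (band (isM24 c) (Nat.beq (act c 8536111) 8536111))
    (nall 10 fun j => force (Nat.shiftLeft 1 j) fun x => force (lin M x) (stepOk c x))

theorem gen0_ok : genOk 0x1d4c892809385b3611f0a5aeb289d1 0x1fd1642bd12200903d02d00a002028 = true := by decide +kernel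
theorem gen1_ok : genOk 0x15a0c2180940e8b91e757aaed895c1 0x10a0c018b31e00a00800b02001e038 = true := by decide +kernel

/-- Step function of the orbit certificates. -/
noncomputable def stp (c : ℕ) : ℕ :=
  lin (bif' (tbt c 0) (nat_lit 0x10a0c018b31e00a00800b02001e038) (nat_lit 0x1fd1642bd12200903d02d00a002028)) (Nat.shiftRight c 1)

/-- Orbit certificate. -/
def c28 : List ℕ := [nat_lit 24, nat_lit 25, nat_lit 78, nat_lit 86, nat_lit 83, nat_lit 28, nat_lit 29, nat_lit 114, nat_lit 75,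
  nat_lit 106, nat_lit 107, nat_lit 98, nat_lit 99, nat_lit 36, nat_lit 45, nat_lit 53, nat_lit 57, nat_lit
  116, nat_lit 117, nat_lit 127, nat_lit 108, nat_lit 58, nat_lit 71, nat_lit 30, nat_lit 120, nat_lit 88,
  nat_lit 89]
/-- Orbit certificate. -/
def c120 : List ℕ := [nat_lit 128, nat_lit 129, nat_lit 580, nat_lit 581, nat_lit 1596, nat_lit 1597, nat_lit 734, nat_lit 735,
  nat_lit 424, nat_lit 425, nat_lit 258, nat_lit 259, nat_lit 1006, nat_lit 1007, nat_lit 132, nat_lit 133,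
  nat_lit 1970, nat_lit 1971, nat_lit 1872, nat_lit 1402, nat_lit 1403, nat_lit 1322, nat_lit 1323, nat_lit
  870, nat_lit 1502, nat_lit 1503, nat_lit 1186, nat_lit 1187, nat_lit 576, nat_lit 1536, nat_lit 1537,
  nat_lit 1660, nat_lit 1661, nat_lit 1736, nat_lit 1737, nat_lit 1025, nat_lit 1782, nat_lit 1783, nat_lit
  288, nat_lit 289, nat_lit 1726, nat_lit 1727, nat_lit 290, nat_lit 291, nat_lit 1934, nat_lit 1935, nat_lit
  1228, nat_lit 1229, nat_lit 1840, nat_lit 404, nat_lit 1096, nat_lit 306, nat_lit 307, nat_lit 916, nat_lit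
  917, nat_lit 272, nat_lit 273, nat_lit 1018, nat_lit 1019, nat_lit 880, nat_lit 881, nat_lit 1532, nat_lit
  532, nat_lit 533, nat_lit 784, nat_lit 785, nat_lit 1280, nat_lit 774, nat_lit 790, nat_lit 791, nat_lit
  1442, nat_lit 1443, nat_lit 1361, nat_lit 886, nat_lit 887, nat_lit 1612, nat_lit 444, nat_lit 1088, nat_lit
  1089, nat_lit 1128, nat_lit 1129, nat_lit 1888, nat_lit 1889, nat_lit 1020, nat_lit 1021, nat_lit 1290,
  nat_lit 864, nat_lit 865, nat_lit 1448, nat_lit 1449, nat_lit 1152, nat_lit 1153, nat_lit 1312, nat_lit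
  1313, nat_lit 1409, nat_lit 1920, nat_lit 644, nat_lit 1254, nat_lit 1255, nat_lit 662, nat_lit 426, nat_lit
  2024, nat_lit 640, nat_lit 2022, nat_lit 716, nat_lit 1262, nat_lit 2004, nat_lit 712, nat_lit 304, nat_lit
  1806, nat_lit 1000, nat_lit 513, nat_lit 1056, nat_lit 1057, nat_lit 134, nat_lit 2011, nat_lit 274, nat_lit
  1120, nat_lit 140]
/-- Orbit certificate. -/
def c840 : List ℕ := [nat_lit 144, nat_lit 145, nat_lit 542, nat_lit 543, nat_lit 1578, nat_lit 1579, nat_lit 722, nat_lit 723,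
  nat_lit 410, nat_lit 411, nat_lit 268, nat_lit 269, nat_lit 948, nat_lit 949, nat_lit 148, nat_lit 149,
  nat_lit 1998, nat_lit 1999, nat_lit 1824, nat_lit 1825, nat_lit 1292, nat_lit 1293, nat_lit 1386, nat_lit
  1387, nat_lit 874, nat_lit 875, nat_lit 1490, nat_lit 1491, nat_lit 1168, nat_lit 1169, nat_lit 538, nat_lit
  539, nat_lit 1558, nat_lit 1559, nat_lit 1630, nat_lit 1631, nat_lit 1702, nat_lit 1703, nat_lit 1074,
  nat_lit 1075, nat_lit 146, nat_lit 147, nat_lit 1680, nat_lit 1681, nat_lit 382, nat_lit 383, nat_lit 1708,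
  nat_lit 1709, nat_lit 310, nat_lit 311, nat_lit 1951, nat_lit 674, nat_lit 675, nat_lit 1244, nat_lit 1245,
  nat_lit 1868, nat_lit 1869, nat_lit 484, nat_lit 485, nat_lit 727, nat_lit 422, nat_lit 423, nat_lit 316,
  nat_lit 317, nat_lit 974, nat_lit 975, nat_lit 314, nat_lit 315, nat_lit 922, nat_lit 923, nat_lit 856,
  nat_lit 857, nat_lit 1524, nat_lit 906, nat_lit 907, nat_lit 610, nat_lit 611, nat_lit 590, nat_lit 591,
  nat_lit 1626, nat_lit 1627, nat_lit 812, nat_lit 813, nat_lit 1470, nat_lit 1471, nat_lit 1288, nat_lit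
  1289, nat_lit 776, nat_lit 796, nat_lit 797, nat_lit 1476, nat_lit 1477, nat_lit 1294, nat_lit 1295, nat_lit
  860, nat_lit 861, nat_lit 1701, nat_lit 166, nat_lit 167, nat_lit 2012, nat_lit 486, nat_lit 487, nat_lit
  1110, nat_lit 1111, nat_lit 1098, nat_lit 1099, nat_lit 234, nat_lit 235, nat_lit 1874, nat_lit 1875,
  nat_lit 1298, nat_lit 1299, nat_lit 2034, nat_lit 2035, nat_lit 1808, nat_lit 1398, nat_lit 1399, nat_lit
  1354, nat_lit 1355, nat_lit 876, nat_lit 877, nat_lit 1444, nat_lit 1445, nat_lit 1202, nat_lit 1203,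
  nat_lit 1310, nat_lit 1311, nat_lit 800, nat_lit 801, nat_lit 1512, nat_lit 1513, nat_lit 1164, nat_lit
  1165, nat_lit 2030, nat_lit 2031, nat_lit 724, nat_lit 725, nat_lit 1266, nat_lit 1458, nat_lit 1459,
  nat_lit 1178, nat_lit 1179, nat_lit 752, nat_lit 753, nat_lit 500, nat_lit 501, nat_lit 667, nat_lit 408,
  nat_lit 409, nat_lit 318, nat_lit 934, nat_lit 935, nat_lit 2008, nat_lit 2009, nat_lit 762, nat_lit 1188,
  nat_lit 1189, nat_lit 1844, nat_lit 1845, nat_lit 1684, nat_lit 1685, nat_lit 322, nat_lit 323, nat_lit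
  1958, nat_lit 1959, nat_lit 2041, nat_lit 764, nat_lit 765, nat_lit 1235, nat_lit 1814, nat_lit 1815,
  nat_lit 1728, nat_lit 1729, nat_lit 270, nat_lit 271, nat_lit 2026, nat_lit 1412, nat_lit 618, nat_lit 619,
  nat_lit 1632, nat_lit 1633, nat_lit 1621, nat_lit 1794, nat_lit 1795, nat_lit 1378, nat_lit 1379, nat_lit
  998, nat_lit 999, nat_lit 602, nat_lit 603, nat_lit 940, nat_lit 941, nat_lit 561, nat_lit 616, nat_lit 617,
  nat_lit 1545, nat_lit 1104, nat_lit 1105, nat_lit 240, nat_lit 241, nat_lit 1674, nat_lit 1675, nat_lit 356,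
  nat_lit 357, nat_lit 1646, nat_lit 1647, nat_lit 1757, nat_lit 1042, nat_lit 1043, nat_lit 1766, nat_lit
  1767, nat_lit 348, nat_lit 349, nat_lit 1751, nat_lit 294, nat_lit 750, nat_lit 751, nat_lit 1210, nat_lit
  1211, nat_lit 1810, nat_lit 1811, nat_lit 462, nat_lit 463, nat_lit 1118, nat_lit 1691, nat_lit 280, nat_lit
  281, nat_lit 1992, nat_lit 1993, nat_lit 647, nat_lit 1208, nat_lit 1209, nat_lit 1915, nat_lit 430, nat_lit
  431, nat_lit 1108, nat_lit 1109, nat_lit 1572, nat_lit 1573, nat_lit 1718, nat_lit 1719, nat_lit 192,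
  nat_lit 193, nat_lit 1922, nat_lit 1923, nat_lit 476, nat_lit 1864, nat_lit 1865, nat_lit 416, nat_lit 1038,
  nat_lit 1039, nat_lit 190, nat_lit 191, nat_lit 1967, nat_lit 1800, nat_lit 1801, nat_lit 1284, nat_lit
  1946, nat_lit 1947, nat_lit 1904, nat_lit 1405, nat_lit 1306, nat_lit 1307, nat_lit 1496, nat_lit 1497,
  nat_lit 1270, nat_lit 1271, nat_lit 1616, nat_lit 1617, nat_lit 1788, nat_lit 1789, nat_lit 250, nat_lit
  251, nat_lit 448, nat_lit 449, nat_lit 1028, nat_lit 1029, nat_lit 1132, nat_lit 1133, nat_lit 184, nat_lit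
  185, nat_lit 809, nat_lit 1410, nat_lit 1411, nat_lit 1336, nat_lit 1337, nat_lit 882, nat_lit 883, nat_lit
  1571, nat_lit 1762, nat_lit 1763, nat_lit 1772, nat_lit 1773, nat_lit 174, nat_lit 2002, nat_lit 2003,
  nat_lit 1114, nat_lit 1115, nat_lit 1094, nat_lit 1095, nat_lit 217, nat_lit 868, nat_lit 869, nat_lit 1468,
  nat_lit 1338, nat_lit 1339, nat_lit 794, nat_lit 795, nat_lit 1568, nat_lit 1569, nat_lit 1216, nat_lit
  1217, nat_lit 740, nat_lit 741, nat_lit 436, nat_lit 437, nat_lit 347, nat_lit 912, nat_lit 913, nat_lit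
  938, nat_lit 939, nat_lit 1049, nat_lit 1720, nat_lit 1721, nat_lit 374, nat_lit 375, nat_lit 1482, nat_lit
  708, nat_lit 709, nat_lit 435, nat_lit 1436, nat_lit 1437, nat_lit 1222, nat_lit 1223, nat_lit 390, nat_lit
  391, nat_lit 692, nat_lit 693, nat_lit 452, nat_lit 453, nat_lit 980, nat_lit 946, nat_lit 631, nat_lit
  1582, nat_lit 1583, nat_lit 818, nat_lit 819, nat_lit 1433, nat_lit 1302, nat_lit 1303, nat_lit 814, nat_lit
  815, nat_lit 282, nat_lit 283, nat_lit 1494, nat_lit 626, nat_lit 627, nat_lit 842, nat_lit 843, nat_lit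
  1504, nat_lit 1505, nat_lit 1314, nat_lit 1315, nat_lit 1510, nat_lit 1511, nat_lit 164, nat_lit 165,
  nat_lit 474, nat_lit 475, nat_lit 1054, nat_lit 1055, nat_lit 229, nat_lit 1900, nat_lit 1330, nat_lit 1331,
  nat_lit 1010, nat_lit 1011, nat_lit 1422, nat_lit 1333, nat_lit 832, nat_lit 833, nat_lit 1547, nat_lit
  1770, nat_lit 2032, nat_lit 1134, nat_lit 1135, nat_lit 160, nat_lit 161, nat_lit 1796, nat_lit 1334,
  nat_lit 951, nat_lit 554, nat_lit 332, nat_lit 333, nat_lit 952, nat_lit 953, nat_lit 770, nat_lit 771,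
  nat_lit 1506, nat_lit 1507, nat_lit 1577, nat_lit 1628, nat_lit 1629, nat_lit 1743, nat_lit 1894, nat_lit
  1895, nat_lit 1102, nat_lit 1103, nat_lit 214, nat_lit 215, nat_lit 1861, nat_lit 954, nat_lit 955, nat_lit
  537, nat_lit 548, nat_lit 1590, nat_lit 1591, nat_lit 1116, nat_lit 194, nat_lit 195, nat_lit 1688, nat_lit
  1689, nat_lit 1146, nat_lit 1147, nat_lit 365, nat_lit 293, nat_lit 1176, nat_lit 1177, nat_lit 1916,
  nat_lit 1917, nat_lit 472, nat_lit 473, nat_lit 1143, nat_lit 379, nat_lit 918, nat_lit 919, nat_lit 852,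
  nat_lit 853, nat_lit 1478, nat_lit 562, nat_lit 563, nat_lit 1566, nat_lit 1567, nat_lit 1836, nat_lit 1837,
  nat_lit 1342, nat_lit 552, nat_lit 553, nat_lit 898, nat_lit 899, nat_lit 625, nat_lit 1172, nat_lit 1173,
  nat_lit 1870, nat_lit 1716, nat_lit 324, nat_lit 325, nat_lit 2000, nat_lit 2001, nat_lit 756, nat_lit 757,
  nat_lit 1012, nat_lit 846, nat_lit 847, nat_lit 1501, nat_lit 1489, nat_lit 638, nat_lit 639, nat_lit 1557,
  nat_lit 1740, nat_lit 1014, nat_lit 957, nat_lit 588, nat_lit 589, nat_lit 1662, nat_lit 2015, nat_lit 686,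
  nat_lit 1268, nat_lit 1269, nat_lit 308, nat_lit 1964, nat_lit 1965, nat_lit 688, nat_lit 689, nat_lit 900,
  nat_lit 901, nat_lit 429, nat_lit 1084, nat_lit 1085, nat_lit 224, nat_lit 225, nat_lit 1925, nat_lit 1296,
  nat_lit 1297, nat_lit 804, nat_lit 1452, nat_lit 1212, nat_lit 1213, nat_lit 1480, nat_lit 1162, nat_lit
  835, nat_lit 1519, nat_lit 1308, nat_lit 1309, nat_lit 841, nat_lit 155, nat_lit 1940, nat_lit 1372, nat_lit
  1373, nat_lit 1166, nat_lit 1167, nat_lit 1877, nat_lit 504, nat_lit 1136, nat_lit 1898, nat_lit 1383,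
  nat_lit 169, nat_lit 1927, nat_lit 1832, nat_lit 1833, nat_lit 1282, nat_lit 1283, nat_lit 1466, nat_lit
  1415, nat_lit 479, nat_lit 264, nat_lit 265, nat_lit 905, nat_lit 1986, nat_lit 737, nat_lit 1896, nat_lit
  1897, nat_lit 1678, nat_lit 344, nat_lit 1928, nat_lit 1929, nat_lit 650, nat_lit 651, nat_lit 817, nat_lit
  682, nat_lit 683, nat_lit 482, nat_lit 2021, nat_lit 690, nat_lit 1196, nat_lit 1197, nat_lit 1850, nat_lit
  1851, nat_lit 1707, nat_lit 354, nat_lit 355, nat_lit 1910, nat_lit 1911, nat_lit 570, nat_lit 571, nat_lit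
  1842, nat_lit 1843, nat_lit 1305, nat_lit 992, nat_lit 526, nat_lit 527, nat_lit 1072, nat_lit 1073, nat_lit
  1776, nat_lit 372, nat_lit 1429, nat_lit 1224, nat_lit 1225, nat_lit 1156, nat_lit 1157, nat_lit 312,
  nat_lit 313, nat_lit 1952, nat_lit 1953, nat_lit 933, nat_lit 858, nat_lit 859, nat_lit 1598, nat_lit 1599,
  nat_lit 541, nat_lit 1581, nat_lit 1101, nat_lit 1401, nat_lit 894, nat_lit 1475, nat_lit 1260, nat_lit
  2018, nat_lit 742, nat_lit 743, nat_lit 1276, nat_lit 362, nat_lit 363, nat_lit 1002, nat_lit 1003, nat_lit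
  1456, nat_lit 1457, nat_lit 1140, nat_lit 937, nat_lit 524, nat_lit 525, nat_lit 600, nat_lit 601, nat_lit
  170, nat_lit 171, nat_lit 1426, nat_lit 1427, nat_lit 470, nat_lit 694, nat_lit 695, nat_lit 326, nat_lit
  931, nat_lit 518, nat_lit 519, nat_lit 1624, nat_lit 1625, nat_lit 825, nat_lit 1534, nat_lit 909, nat_lit
  566, nat_lit 567, nat_lit 879, nat_lit 826, nat_lit 827, nat_lit 496, nat_lit 1151, nat_lit 1131, nat_lit
  236, nat_lit 1891, nat_lit 587, nat_lit 820, nat_lit 1265, nat_lit 2047, nat_lit 680, nat_lit 681, nat_lit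
  1154, nat_lit 1155, nat_lit 697, nat_lit 503, nat_lit 296, nat_lit 297, nat_lit 910, nat_lit 911, nat_lit
  1058, nat_lit 1059, nat_lit 1760, nat_lit 678, nat_lit 465, nat_lit 480, nat_lit 481, nat_lit 1027, nat_lit
  1050, nat_lit 850, nat_lit 1388, nat_lit 1938, nat_lit 1473, nat_lit 2016, nat_lit 2017, nat_lit 654,
  nat_lit 655, nat_lit 1857, nat_lit 1852, nat_lit 698, nat_lit 699, nat_lit 414, nat_lit 415, nat_lit 958,
  nat_lit 1233, nat_lit 714, nat_lit 715, nat_lit 488, nat_lit 1713, nat_lit 1030, nat_lit 1374, nat_lit 1639,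
  nat_lit 172, nat_lit 1978, nat_lit 1523, nat_lit 1174, nat_lit 1175, nat_lit 1350, nat_lit 970, nat_lit 557,
  nat_lit 1592, nat_lit 1666, nat_lit 1754, nat_lit 1755, nat_lit 277, nat_lit 1996, nat_lit 1198, nat_lit
  398, nat_lit 1106, nat_lit 1107, nat_lit 1739, nat_lit 360, nat_lit 706, nat_lit 1562, nat_lit 1618, nat_lit
  1752, nat_lit 1753, nat_lit 380, nat_lit 381, nat_lit 1061, nat_lit 189, nat_lit 1817, nat_lit 968, nat_lit
  969, nat_lit 330, nat_lit 1645, nat_lit 1778, nat_lit 1063, nat_lit 210, nat_lit 1745, nat_lit 1317, nat_lit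
  1390, nat_lit 1391, nat_lit 1259, nat_lit 1614, nat_lit 198, nat_lit 822, nat_lit 823, nat_lit 1319, nat_lit
  1561, nat_lit 1790, nat_lit 1933, nat_lit 178, nat_lit 179, nat_lit 1949, nat_lit 1671, nat_lit 1069,
  nat_lit 180, nat_lit 1347, nat_lit 867, nat_lit 1070, nat_lit 1071, nat_lit 221, nat_lit 684, nat_lit 439,
  nat_lit 1081, nat_lit 1438, nat_lit 648, nat_lit 649, nat_lit 396, nat_lit 986, nat_lit 836, nat_lit 837,
  nat_lit 1812, nat_lit 440, nat_lit 1148, nat_lit 1710, nat_lit 1711, nat_lit 677, nat_lit 926, nat_lit 927,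
  nat_lit 636, nat_lit 454, nat_lit 455, nat_lit 1588, nat_lit 177, nat_lit 412, nat_lit 413, nat_lit 1366,
  nat_lit 1252, nat_lit 1253, nat_lit 1849, nat_lit 1274, nat_lit 1275, nat_lit 728, nat_lit 508, nat_lit 509,
  nat_lit 635, nat_lit 1564, nat_lit 1826, nat_lit 2038, nat_lit 1227, nat_lit 366, nat_lit 1239, nat_lit
  1805, nat_lit 522, nat_lit 545, nat_lit 572, nat_lit 246, nat_lit 247, nat_lit 1942, nat_lit 1696, nat_lit
  1697, nat_lit 227, nat_lit 2028, nat_lit 1300, nat_lit 839, nat_lit 977, nat_lit 628, nat_lit 798, nat_lit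
  1320, nat_lit 1327, nat_lit 1962, nat_lit 1722, nat_lit 204, nat_lit 233, nat_lit 1828, nat_lit 1329,
  nat_lit 1431, nat_lit 1945, nat_lit 942, nat_lit 989, nat_lit 1640, nat_lit 432, nat_lit 1138, nat_lit 1440,
  nat_lit 492, nat_lit 890, nat_lit 829, nat_lit 1919, nat_lit 994, nat_lit 1514, nat_lit 303, nat_lit 1704,
  nat_lit 1052, nat_lit 514, nat_lit 772, nat_lit 359, nat_lit 1602, nat_lit 595, nat_lit 1839, nat_lit 1957,
  nat_lit 1936, nat_lit 1594, nat_lit 466, nat_lit 1040, nat_lit 457, nat_lit 1348, nat_lit 1126, nat_lit 780,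
  nat_lit 718, nat_lit 1079, nat_lit 793, nat_lit 368, nat_lit 159, nat_lit 1682, nat_lit 1407]

theorem orb_chk : force (reach stp c28 (2 ^ 12)) (fun a => force (reach stp c120 (2 ^ 64)) fun b =>
    force (reach stp c840 (2 ^ 72)) fun c => ball (fun x => bif' (Nat.blt x 64)
      (bor (dec x) (tbt a x)) (bif' (dec x) (tbt b x) (tbt c x))) 10 0) = true := by
  decide +kernel

variable {G : Type*} [Group G] [Finite G] {z : G} {V A : Subgroup G} {π : N[V] →* M24}
  {κ : M24 →* N[V]} {T : Finset GolayPt → G}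

/-- conjugacy in `N(A)` in coordinates -/
def Cn (κ : M24 →* N[V]) (T : Finset GolayPt → G) (A : Subgroup G) (x y : ℕ) : Prop :=
  ∃ n ∈ N[A], n * psi κ T x * n⁻¹ = psi κ T y

theorem Cn.isConj {x y : ℕ} (c : Cn κ T A x y) : IsConj (psi κ T x) (psi κ T y) := by
  obtain ⟨n, -, e⟩ := c
  exact isConj_iff.2 ⟨n, e⟩

theorem Cn.symm {x y : ℕ} (c : Cn κ T A x y) : Cn κ T A y x := by
  obtain ⟨n, hn, e⟩ := c
  exact ⟨n⁻¹, inv_mem hn, by rw [← e]; group⟩

theorem Cn.trans {x y w : ℕ} (c : Cn κ T A x y) (d : Cn κ T A y w) : Cn κ T A x w := by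
  obtain ⟨n, hn, e⟩ := c
  obtain ⟨m, hm, e'⟩ := d
  exact ⟨m * n, mul_mem hm hn, by rw [← e', ← e]; group⟩

theorem psi_lt {x : ℕ} (hx : x < 64) : psi κ T x = chi T x := by
  rw [psi, and63_eq, Nat.mod_eq_of_lt hx, Nat.shiftRight_eq_div_pow, Nat.div_eq_of_lt hx, tau_zero,
    map_one, coe_one, mul_one]

namespace MS

variable (h : MS z V π κ T)
include h

theorem psi_zero : psi κ T 0 = 1 := by
  have := h.chi_xor 0 0
  rw [Nat.xor_self, left_eq_mul] at this
  rw [psi_lt (by norm_num), this]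

theorem psi_not_mem {x : ℕ} (hx : x < 1024) (h6 : ¬ x < 64) : psi κ T x ∉ V := by
  intro hv
  have e1 := h.π_eq (h.chi_mem _) (n := ⟨_, le_normalizer hv⟩) rfl
  rw [(h.ker _).2 hv] at e1
  have := (tau_facts (shr6_lt hx)).2.2.1 e1.symm
  rw [Nat.shiftRight_eq_div_pow] at this
  omega

theorem psi_tetrad {x : ℕ} (hx : x < 64) (hd : dec x = true) (h0 : x ≠ 0) :
    IsConj z (psi κ T x) := by
  rw [psi_lt hx]
  exact h.sext _ (((vm_facts3 hx).2.1 hd).resolve_left h0)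

theorem psi_duad {x : ℕ} (hx : x < 64) (hd : dec x = false) :
    ∃ Y, Y.card = 2 ∧ T Y = psi κ T x := by
  rw [psi_lt hx]
  rcases (vm_facts3 hx).2.2 hd with e | e
  · exact ⟨_, e, rfl⟩
  · refine ⟨unmask (vm x) ∆ O0, ?_, by rw [h.T_mul, h.T_cw (mem_octads.1 O0_mem).1, mul_one, chi]⟩
    have := card_symmDiff_add (unmask (vm x)) O0
    rw [Finset.inter_eq_left.2 (vm_facts3 hx).1, (mem_octads.1 O0_mem).2] at this
    omega

variable (a : AS π A O0) (h1 : (κ (tau 1) : G) ∈ A)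
include a h1

theorem step (g : M24) {x x' : ℕ} (hx : x < 1024) (e : stepOk (mcode g) x x' = true) :
    x' < 1024 ∧ theta κ T g * psi κ T x * (theta κ T g)⁻¹ = psi κ T x' := by
  simp only [stepOk, force_eq, band_eq, Bool.and_eq_true, Nat.blt_eq, Nat.beq_eq] at e
  obtain ⟨hx', e1, e2⟩ := e
  refine ⟨hx', ?_⟩
  have s1 : ∀ x, Nat.shiftRight x 6 = x >>> 6 := fun _ => rfl
  have s2 : ∀ x, Nat.land x 63 = x &&& 63 := fun _ => rfl
  have e3 : Nat.xor 16 (Nat.shiftLeft 1 (ap (mcode g) 4)) =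
      mask (({pt 4} : Finset GolayPt) ∆ {g • pt 4}) := by
    rw [mask_symmDiff, mask_singleton, mask_singleton, ← acM.ap_code g trivial,
      idx_pt (by norm_num)]
    exact congrArg _ (Nat.one_shiftLeft _)
  rw [s1, s1, ← mcode_tau (shr6_lt hx), ← mcode_tau (shr6_lt hx'), gcM.cjap_code] at e1
  replace e1 := gcM.inj e1
  rw [e3, s1, s2, s2, ← mcode_tau (shr6_lt hx'), ← mask_unmask (vm_lt (x &&& 63)),
    ← mask_unmask (vm_lt (x' &&& 63)), acSM.ap_code _ trivial, acSM.ap_code _ trivial,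
    ← mask_symmDiff, ← mask_symmDiff, ← mask_symmDiff, ← isCw_iff] at e2
  have ev := (vm_facts (k := x &&& 63) ((and63_lt6 x).trans (by norm_num))).1
  have ev' := (vm_facts (k := x' &&& 63) ((and63_lt6 x').trans (by norm_num))).1
  have ep := even_pair (pt 4) (g • pt 4)
  rw [← h.T_eq_iff (even_symmDiff (by rwa [card_smul24])
    (even_symmDiff ep (by rwa [card_smul24]))) ev', h.T_mul] at e2
  have e4 : theta κ T g * psi κ T x * (theta κ T g)⁻¹ =
      T (({pt 4} : Finset GolayPt) ∆ {g • pt 4}) * (((κ g : G) * chi T (x &&& 63) * (κ g : G)⁻¹) *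
      (κ (g * tau (x >>> 6) * g⁻¹) : G)) * (T (({pt 4} : Finset GolayPt) ∆ {g • pt 4}))⁻¹ := by
    rw [psi, theta, map_mul, map_mul, map_inv, coe_mul, coe_mul, coe_inv]; group
  rw [e4, e1, chi, h.conj_κ g ev, h.conj_T a h1 ep _ (h.T_mem _), e2, psi, chi]

theorem gen_step {c M : ℕ} (e : genOk c M = true) {x : ℕ} (hx : x < 1024) :
    lin M x < 1024 ∧ Cn κ T A x (lin M x) := by
  simp only [genOk, force_eq, band_eq, Bool.and_eq_true, Nat.beq_eq, nall_iff] at e
  obtain ⟨⟨e1, e2⟩, e3⟩ := e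
  obtain ⟨g, rfl⟩ := exists_mcode e1
  rw [← mask_O0, acSM.ap_code _ trivial] at e2
  have := bits_induction (n := 10) (P := fun x => lin M x < 1024 ∧
      theta κ T g * psi κ T x * (theta κ T g)⁻¹ = psi κ T (lin M x))
    (by rw [lin_zero, h.psi_zero]; simp) (fun j hj => by
      have := e3 j hj
      rw [show Nat.shiftLeft 1 j = 2 ^ j from Nat.one_shiftLeft _] at this
      exact h.step a h1 g (Nat.pow_lt_pow_right (a := 2) (by norm_num) hj) this)
    (fun x hx y hy k1 k2 => by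
      rw [lin_xor, h.psi_xor a h1 hx hy, h.psi_xor a h1 k1.1 k2.1, ← k1.2, ← k2.2]
      exact ⟨xor_lt10 k1.1 k2.1, by group⟩) x hx
  exact ⟨this.1, _, h.theta_mem_norm a h1 (mask_inj e2), this.2⟩

theorem reach_Cn {r : ℕ} (hr : r < 1024) (l : List ℕ) {y : ℕ}
    (e : tbt (reach stp l (2 ^ r)) y = true) : Cn κ T A r y := by
  refine (reach_sound (P := fun y => y < 1024 ∧ Cn κ T A r y) (fun c k => ?_) l _
    (fun y hy => tb_pow hy ▸ ⟨hr, 1, one_mem _, by simp⟩) y e).2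
  rw [stp, bif'_eq]
  split_ifs
  · exact ⟨(h.gen_step a h1 gen1_ok k.1).1, k.2.trans (h.gen_step a h1 gen1_ok k.1).2⟩
  · exact ⟨(h.gen_step a h1 gen0_ok k.1).1, k.2.trans (h.gen_step a h1 gen0_ok k.1).2⟩

theorem orbs {x : ℕ} (hx : x < 1024) : (x < 64 → dec x = false → Cn κ T A 12 x) ∧
    (¬ x < 64 → dec x = true → Cn κ T A 64 x) ∧ (¬ x < 64 → dec x = false → Cn κ T A 72 x) := by
  have k := orb_chk
  rw [force_eq, force_eq, force_eq] at k
  have k := ball_zero k x hx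
  rw [bif'_blt, bif'_eq, bor_eq] at k
  refine ⟨fun e1 e2 => ?_, fun e1 e2 => ?_, fun e1 e2 => ?_⟩
  · rw [if_pos e1, e2, Bool.false_or] at k
    exact h.reach_Cn a h1 (by norm_num) _ k
  · rw [if_neg e1, if_pos e2] at k
    exact h.reach_Cn a h1 (by norm_num) _ k
  · rw [if_neg e1, if_neg (by simp [e2])] at k
    exact h.reach_Cn a h1 (by norm_num) _ k

theorem ncard_A {P : G → Prop} {F : ℕ → Bool} (hF : ∀ x < 1024, P (psi κ T x) ↔ F x = true) :
    {b | b ∈ A ∧ P b}.ncard = bsum (fun x => b2n (F x)) 10 0 := by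
  have : {b | b ∈ A ∧ P b} = psi κ T '' ↑((Finset.range (2 ^ 10)).filter fun x => F x = true) := by
    ext b
    simp only [Set.mem_ofPred_eq, Set.mem_image, Finset.coe_filter, Finset.mem_range]
    constructor
    · rintro ⟨hb, hP⟩
      obtain ⟨x, hx, rfl⟩ := (h.mem_A_iff a h1 b).1 hb
      exact ⟨x, ⟨hx, (hF x hx).1 hP⟩, rfl⟩
    · rintro ⟨x, ⟨hx, e⟩, rfl⟩
      exact ⟨h.psi_mem a h1 hx, (hF x hx).2 e⟩
  rw [this, bsum_count, Set.InjOn.ncard_image, Set.ncard_coe_finset]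
  intro x hx y hy
  simp only [Finset.coe_filter, Finset.mem_range, Set.mem_ofPred_eq] at hx hy
  exact h.psi_inj a h1 hx.1 hy.1

theorem conj_iff_aux {b c : Bool} (hb : IsConj z (psi κ T 64) ↔ b = true)
    (hc : IsConj z (psi κ T 72) ↔ c = true) {x : ℕ} (hx : x < 1024) :
    IsConj z (psi κ T x) ↔
      bif' (Nat.blt x 64) (band (dec x) (!Nat.beq x 0)) (bif' (dec x) b c) = true := by
  obtain ⟨o1, o2, o3⟩ := h.orbs a h1 hx
  rw [bif'_blt, bif'_eq, band_eq]
  by_cases e1 : x < 64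
  · rw [if_pos e1]
    cases e2 : dec x
    · obtain ⟨Y, hY, e⟩ := h.psi_duad e1 e2
      simpa [← e] using h.duad Y hY
    · by_cases e3 : x = 0
      · simpa [e3, h.psi_zero] using h.z_ne_one
      · have : Nat.beq x 0 = false := by rw [← Bool.not_eq_true, Nat.beq_eq]; exact e3
        simpa [this] using h.psi_tetrad e1 e2 e3
  · rw [if_neg e1]
    cases e2 : dec x
    · have := (o3 e1 e2).isConj
      rw [if_neg (by simp), ← hc]
      exact ⟨fun k => k.trans this.symm, fun k => k.trans this⟩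
    · have := (o2 e1 e2).isConj
      rw [if_pos rfl, ← hb]
      exact ⟨fun k => k.trans this.symm, fun k => k.trans this⟩

theorem conj_64 (h7 : ∃ g ∈ N[A], g ^ 7 = 1 ∧ ∀ b ∈ A, g * b = b * g → b = 1 ∨ b = z) :
    IsConj z (psi κ T 64) := by
  by_contra hn
  obtain ⟨g, hg, g7, hfix⟩ := h7
  have : Fact (Nat.Prime 7) := ⟨by norm_num⟩
  have hm := ncard_modEq_fix g7 (S := {b | b ∈ A ∧ ¬ IsConj z b}) fun s hs =>
    ⟨conj_mem_of_mem_norm hg hs.1, fun k => hs.2 (k.trans (isConj_iff.2 ⟨g⁻¹, by group⟩))⟩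
  have e : {s | s ∈ {b | b ∈ A ∧ ¬ IsConj z b} ∧ g * s = s * g} = {1} := by
    ext s
    constructor
    · rintro ⟨⟨k1, k2⟩, k3⟩
      exact (hfix s k1 k3).resolve_right fun k => k2 (k ▸ IsConj.refl z)
    · rintro rfl
      exact ⟨⟨one_mem A, fun k => h.ne_one_of_conj k rfl⟩, by simp⟩
  rw [e, Set.ncard_singleton] at hm
  have key : ∀ c : Bool, (IsConj z (psi κ T 72) ↔ c = true) → False := by
    intro c hc
    rw [h.ncard_A a h1 (F := fun x => !bif' (Nat.blt x 64) (band (dec x) (!Nat.beq x 0))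
      (bif' (dec x) false c)) fun x hx => by
        rw [h.conj_iff_aux a h1 (b := false) (by simpa using hn) hc hx,
          Bool.not_eq_true, Bool.not_eq_true']] at hm
    revert hm
    cases c <;> decide +kernel
  by_cases k : IsConj z (psi κ T 72)
  · exact key true (by simpa using k)
  · exact key false (by simpa using k)

variable (h7 : ∃ g ∈ N[A], g ^ 7 = 1 ∧ ∀ b ∈ A, g * b = b * g → b = 1 ∨ b = z)
  (ht : ∃ b ∈ A, b ∉ V ∧ ∃ Y, Y.card = 2 ∧ IsConj (T Y) b)
include h7 ht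

theorem duad_72 : ∃ Y, Y.card = 2 ∧ IsConj (T Y) (psi κ T 72) := by
  obtain ⟨b, hb, hV, Y, hY, e⟩ := ht
  obtain ⟨x, hx, rfl⟩ := (h.mem_A_iff a h1 b).1 hb
  have e1 : ¬ x < 64 := fun k => hV (psi_lt (κ := κ) (T := T) k ▸ h.chi_mem x)
  obtain ⟨o1, o2, o3⟩ := h.orbs a h1 hx
  cases e2 : dec x
  · exact ⟨Y, hY, e.trans (o3 e1 e2).isConj.symm⟩
  · exact absurd (((h.conj_64 a h1 h7).trans (o2 e1 e2).isConj).trans e.symm) (h.duad Y hY)

theorem conj_iff {x : ℕ} (hx : x < 1024) : IsConj z (psi κ T x) ↔ dec x = true ∧ x ≠ 0 := by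
  obtain ⟨Y, hY, e⟩ := h.duad_72 a h1 h7 ht
  rw [h.conj_iff_aux a h1 (b := true) (c := false) (by simpa using h.conj_64 a h1 h7)
    (by simpa using fun k : IsConj z _ => h.duad Y hY (k.trans e.symm)) hx, bif'_blt,
    bif'_eq, band_eq]
  by_cases e1 : x < 64
  · rw [if_pos e1, Bool.and_eq_true, Bool.not_eq_true', ← Bool.not_eq_true, Nat.beq_eq]
  · rw [if_neg e1]
    cases dec x <;> simp
    omega

theorem duad_of_not_dec {x : ℕ} (hx : x < 1024) (hd : dec x = false) :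
    ∃ Y, Y.card = 2 ∧ IsConj (T Y) (psi κ T x) := by
  by_cases e1 : x < 64
  · obtain ⟨Y, hY, e⟩ := h.psi_duad e1 hd
    exact ⟨Y, hY, e ▸ IsConj.refl _⟩
  · obtain ⟨Y, hY, e⟩ := h.duad_72 a h1 h7 ht
    exact ⟨Y, hY, e.trans ((h.orbs a h1 hx).2.2 e1 hd).isConj⟩

theorem classes_std {b : G} (hb : b ∈ A) (b1 : b ≠ 1) :
    IsConj z b ∨ ∃ Y, Y.card = 2 ∧ IsConj (T Y) b := by
  obtain ⟨x, hx, rfl⟩ := (h.mem_A_iff a h1 b).1 hb
  cases e : dec x
  · exact Or.inr (h.duad_of_not_dec a h1 h7 ht hx e)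
  · exact Or.inl ((h.conj_iff a h1 h7 ht hx).2 ⟨e, fun k => b1 (k ▸ h.psi_zero)⟩)

end MS

/-- change of coordinates in `M₂₄` -/
theorem MS.recoord (h : MS z V π κ T) (g : M24) :
    MS z V ((MulAut.conj g⁻¹).toMonoidHom.comp π) (κ.comp (MulAut.conj g).toMonoidHom)
      (fun X => T (g • X)) := by
  refine ⟨fun X Y => by rw [smul_symmDiff24, h.T_mul], fun X => h.T_mem _, fun v hv => ?_,
    fun X hX => ?_, h.card, fun n X hX => ?_, fun n => ?_, fun x => ?_,
    fun X hX => h.sext _ (by rwa [card_smul24]), fun X hX => h.duad _ (by rwa [card_smul24]),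
    fun X Y hX hY => h.cent2 _ _ (by rwa [card_smul24]) (by rwa [card_smul24]), h.uniq⟩
  · obtain ⟨X, hX, rfl⟩ := h.T_surj v hv
    exact ⟨g⁻¹ • X, by rwa [card_smul24], by rw [smul_inv_smul]⟩
  · rw [h.T_one _ (by rwa [card_smul24]), M24_smul_def, isCw_smul_iff g.2]
  · rw [h.conj n _ (by rwa [card_smul24])]
    show _ = T (g • (g⁻¹ * π n * g⁻¹⁻¹) • X)
    rw [← mul_smul, ← mul_smul, inv_inv, mul_assoc, mul_inv_cancel_left]
  · rw [← h.ker]
    show g⁻¹ * π n * g⁻¹⁻¹ = 1 ↔ _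
    rw [mul_inv_eq_one, mul_eq_left]
  · show g⁻¹ * π (κ (g * x * g⁻¹)) * g⁻¹⁻¹ = x
    rw [h.sec]; group

/-- reduction to the standard situation -/
theorem MS.std (h : MS z V π κ T) {o : Finset GolayPt} (ho : o ∈ octads) (a : AS π A o) :
    ∃ (π' : N[V] →* M24) (κ' : M24 →* N[V]) (g : M24), MS z V π' κ' (fun X => T (g • X)) ∧
      AS π' A O0 ∧ (κ' (tau 1) : G) ∈ A := by
  obtain ⟨g, rfl⟩ := exists_smul_O0 ho
  have a' : AS ((MulAut.conj g⁻¹).toMonoidHom.comp π) A O0 :=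
    ⟨a.elem, a.card, a.le, fun n hn => by
      have := (conj_mem_pstab g⁻¹ _ _).1 (a.fix n hn)
      rwa [inv_smul_smul] at this, a.card6⟩
  obtain ⟨κ', h', e⟩ := (h.recoord g).normal_form a'
  exact ⟨_, κ', g, h', a', e⟩

theorem ht_recoord (g : M24) (ht : ∃ b ∈ A, b ∉ V ∧ ∃ Y, Y.card = 2 ∧ IsConj (T Y) b) :
    ∃ b ∈ A, b ∉ V ∧ ∃ Y : Finset GolayPt, Y.card = 2 ∧ IsConj (T (g • Y)) b := by
  obtain ⟨b, hb, hV, Y, hY, e⟩ := ht
  exact ⟨b, hb, hV, g⁻¹ • Y, by rwa [card_smul24], by rwa [smul_inv_smul]⟩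

/-- every involution of `A` is conjugate to `z` or to a duad element -/
theorem MS.classes_A (h : MS z V π κ T) {o : Finset GolayPt} (ho : o ∈ octads)
    (hA : IsElementaryAbelian 2 A) (hc : Nat.card A = 2 ^ 10) (hle : A ≤ normalizer (V : Set G))
    (hπ : ∀ n : normalizer (V : Set G), (n : G) ∈ A → π n ∈ pstab o) (h6 : Nat.card ↥(A ⊓ V) = 64)
    (h7 : ∃ g ∈ normalizer (A : Set G), g ^ 7 = 1 ∧ ∀ b ∈ A, g * b = b * g → b = 1 ∨ b = z)
    (ht : ∃ b ∈ A, b ∉ V ∧ ∃ Y, Y.card = 2 ∧ IsConj (T Y) b) :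
    ∀ b ∈ A, b ≠ 1 → IsConj z b ∨ ∃ Y, Y.card = 2 ∧ IsConj (T Y) b := by
  obtain ⟨π', κ', g, h', a', e⟩ := h.std ho ⟨hA, hc, hle, hπ, h6⟩
  intro b hb b1
  refine (h'.classes_std a' e h7 (ht_recoord g ht) hb b1).imp_right ?_
  rintro ⟨Y, hY, k⟩
  exact ⟨g • Y, by rwa [card_smul24], k⟩

end Cfsg.Agent.J4
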