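import Cfsg.Agent.J4.VC

/-!
# A complement to `2¹¹` in a Sylow 2-subgroup
-/

set_option autoImplicit false

namespace Cfsg.Agent.J4

open Cfsg.Agent.M24 Cfsg.Agent.TT Cfsg.Agent.GT Subgroup MulAction

/-- Code of an element of `S₆`. -/
def kC1 : ℕ := nat_lit 0xbac7430a2944df00a98d3bab2292c0b00600a8054090070001b0360020010390274c0c80880440e409c002a015039027008004
/-- Code of an element of `S₆`. -/
def kR1 : ℕ := nat_lit 0x54770a4c6ad28b160fa4ea41c4d74c0840440880f0050003f01502b03d00800cb00d00bc0d40a00f0001602b002003024038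
/-- Code of an element of `S₆`. -/
def kD1 : ℕ := nat_lit 0xbae83b445044de9229ac2caae384c0b00600b8064090070001a0350020010380244c0c80880440a0050002a01503d02b008004
/-- Code of an element of `S₆`. -/
def kR : ℕ := nat_lit 0xbd8b4988907858d30d093aeb1549c08004005c0f80740ec002501f00700e00d00b8004005c0f80740ec002501f00700e00d00b
/-- Code of an element of `S₆`. -/
def kS5 : ℕ := nat_lit 0x4ea7b4a2f8058d32909a2ca4189d7140280100200500a0000100201502a010020140280100200500a0000100201502a010020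
def chS_t0 : T := (.node (.node (.node (.node (.node .nil (nat_lit 4097) (nat_lit 0) (nat_lit
  0xbdab49ca307b9ac5a928398a418820800400200100080040020010008004002001800400200100080040020010008004002001)
  .nil) (nat_lit 4098) (nat_lit 7) (nat_lit
  0xb91ca1acf07d5ac95128894d69844080940e23411809106202001000800400200180940e234118091062020010008004002001)
  .nil) (nat_lit 4099) (nat_lit 68) (nat_lit
  0xbca622d1707a98d19909a90ee0da208044085e5fba77aedf02501f00700e00d00b80e4075d7fa9747ec902501f00700e00d00b)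
  (.node .nil (nat_lit 4100) (nat_lit 4) (nat_lit
  0xb8a72ad0d078dac52d282c4e17588080440821712908804c02001000800400200180440821712908804c020010008004002001)
  .nil)) (nat_lit 4101) (nat_lit 38) (nat_lit
  0x168393acd62a0facd092082659e3726d39b10120370090000100203601b01002026039013022071493c00100203601b010020)
  (.node (.node .nil (nat_lit 4102) (nat_lit 69) (nat_lit
  0xbd2b63c9507ad8d74509984a3208c080a40f5f2f9377ded602501f00700e00d00b80a40f5f2f9377ded602501f00700e00d00b)
  .nil) (nat_lit 4103) (nat_lit 199) (nat_lit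
  0xb994e58c507d1ac9d5280d885944e080840c23711908804c02001000800400200180840c23711908804c020010008004002001)
  (.node .nil (nat_lit 4106) (nat_lit 70) (nat_lit
  0xbd68514dd078d8d50509946cb31c808014025f4f9876eef702501f00700e00d00b80b40d5c6f8b753ee102501f00700e00d00b)
  .nil))) (nat_lit 4107) (nat_lit 5) (nat_lit
  0xbd0b638870799ac091289baaa8c96080a40f2371190b805c02001000800400200180a40f2371190b805c020010008004002001)
  (.node (.node (.node .nil (nat_lit 4110) (nat_lit 2) (nat_lit
  0xbd8b4988907858d30d093aeb1549c08004005c0f80740ec002501f00700e00d00b8004005c0f80740ec002501f00700e00d00b)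
  .nil) (nat_lit 4113) (nat_lit 6) (nat_lit
  0xb969594c307a9ac1b928112c659e2080140220310109906e02001000800400200180140220310109906e020010008004002001)
  (.node .nil (nat_lit 4114) (nat_lit 167) (nat_lit
  0xba8c488670795ac159281d5d43ae408034012031010a907e0200100080040020018034012031010a907e020010008004002001)
  .nil)) (nat_lit 4115) (nat_lit 35) (nat_lit
  0xbb8670ca2c6d9f032928a2ca2a9260b00600200100180340020010039027002001b00600200100180340020010039027002001)
  (.node (.node .nil (nat_lit 4116) (nat_lit 37) (nat_lit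
  0x50a1392ad61a0fb090974c6a8c97726b39611923772191300100203601b01002026639d12821473592f00100203601b010020)
  .nil) (nat_lit 4117) (nat_lit 71) (nat_lit
  0xbc423518f07958d15109255769ba4080940e5e5fba740ec002501f00700e00d00b80c4045f4f98754ee802501f00700e00d00b)
  (.node .nil (nat_lit 4118) (nat_lit 1) (nat_lit
  0x47474a2d64e0f5a909398a2a92d724038010020070090000100203601b01002024038010020070090000100203601b010020)
  .nil))))
def chS_l0 : Lvl := ⟨nat_lit 4097, [nat_lit
  0x47474a2d64e0f5a909398a2a92d724038010020070090000100203601b01002024038010020070090000100203601b010020,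
  nat_lit
  0xbd8b4988907858d30d093aeb1549c08004005c0f80740ec002501f00700e00d00b8004005c0f80740ec002501f00700e00d00b,
  nat_lit
  0x4ea7b4a2f8058d32909a2ca4189d7140280100200500a0000100201502a010020140280100200500a0000100201502a010020,
  nat_lit
  0xb8a72ad0d078dac52d282c4e17588080440821712908804c02001000800400200180440821712908804c020010008004002001,
  nat_lit
  0xbd0b638870799ac091289baaa8c96080a40f2371190b805c02001000800400200180a40f2371190b805c020010008004002001,
  nat_lit
  0xb969594c307a9ac1b928112c659e2080140220310109906e02001000800400200180140220310109906e020010008004002001,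
  nat_lit
  0xb91ca1acf07d5ac95128894d69844080940e23411809106202001000800400200180940e234118091062020010008004002001],
  [nat_lit 0, nat_lit 0, nat_lit 0, nat_lit 0, nat_lit 0, nat_lit 0, nat_lit 0], chS_t0⟩
def chS_t1 : T := (.node (.node (.node (.node .nil (nat_lit 4098) (nat_lit 0) (nat_lit
  0xbdab49ca307b9ac5a928398a418820800400200100080040020010008004002001800400200100080040020010008004002001)
  .nil) (nat_lit 4099) (nat_lit 1121) (nat_lit
  0x58869ca2c6b9f03a9095d0b510c37b02d011002000e0050030010024038002003b02d011002000e0050030010024038002003)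
  .nil) (nat_lit 4100) (nat_lit 1122) (nat_lit
  0xbd8669954d63a0f3c5285d242a902024d1c6223131f19a2e00300202b01601003024d1c6223131f19a2e00300202b016010030)
  (.node .nil (nat_lit 4101) (nat_lit 2) (nat_lit
  0xbce47b54707b98d59109a184a8942080f4055e3fb1769efe02501f00700e00d00b80f4055e3fb1769efe02501f00700e00d00b)
  .nil)) (nat_lit 4106) (nat_lit 35) (nat_lit
  0xbccabb0ead639f0389093509154820b1f6255c0f8064bdcd00600d02401c01f03a2501e05e3fb18e24b302501f03602d00d00b)
  (.node (.node .nil (nat_lit 4113) (nat_lit 67) (nat_lit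
  0x4e4bb104c6ba0f3d5283506a894372503b0fb15e39b2ee103a01f02b03d00d006b1fd3af805c0e4678d00b00d03901e01f025)
  .nil) (nat_lit 4114) (nat_lit 1) (nat_lit
  0x4ca7b088f839ac58d28a1ab154837140280f805c0b80dc000b00d01a02f01f025140280f805c0b80dc000b00d01a02f01f025)
  (.node .nil (nat_lit 4117) (nat_lit 34) (nat_lit
  0x58549954f8398d5c50939a432543714f28a131223534a2c00100201502a01002014f28a131223534a2c00100201502a010020)
  .nil)))
def chS_l1 : Lvl := ⟨nat_lit 4098, [nat_lit
  0x4ca7b088f839ac58d28a1ab154837140280f805c0b80dc000b00d01a02f01f025140280f805c0b80dc000b00d01a02f01f025,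
  nat_lit
  0xbce47b54707b98d59109a184a8942080f4055e3fb1769efe02501f00700e00d00b80f4055e3fb1769efe02501f00700e00d00b,
  nat_lit
  0x5aab9a8ad63a0fa490931e241883724d38b13122371493c00100203601b01002024d38b13122371493c00100203601b010020],
  [nat_lit 0x10d489073, nat_lit 4181, nat_lit 1174], chS_t1⟩
def chS_t2 : T := (.node (.node .nil (nat_lit 4096) (nat_lit 0) (nat_lit
  0xbdab49ca307b9ac5a928398a418820800400200100080040020010008004002001800400200100080040020010008004002001)
  .nil) (nat_lit 4119) (nat_lit 1) (nat_lit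
  0x5aab9a8ad63a0fa490931e241883724d38b13122371493c00100203601b01002024d38b13122371493c00100203601b010020)
  .nil)
def chS_l2 : Lvl := ⟨nat_lit 4096, [nat_lit
  0x5aab9a8ad63a0fa490931e241883724d38b13122371493c00100203601b01002024d38b13122371493c00100203601b010020],
  [nat_lit 3], chS_t2⟩
def chS : List Lvl := [chS_l0, chS_l1, chS_l2]

def t18 : T := (.node (.node (.node (.node (.node .nil (nat_lit 17) (nat_lit 146) (nat_lit 24) .nil) (nat_lit
  19) (nat_lit 242) (nat_lit 23) .nil) (nat_lit 20) (nat_lit 0) (nat_lit 20) (.node .nil (nat_lit 23) (nat_lit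
  194) (nat_lit 17) .nil)) (nat_lit 24) (nat_lit 98) (nat_lit 25) (.node (.node (.node .nil (nat_lit 25)
  (nat_lit 35) (nat_lit 20) .nil) (nat_lit 33) (nat_lit 274) (nat_lit 41) .nil) (nat_lit 34) (nat_lit 178)
  (nat_lit 44) (.node .nil (nat_lit 40) (nat_lit 16) (nat_lit 20) .nil))) (nat_lit 41) (nat_lit 226) (nat_lit
  34) (.node (.node (.node (.node .nil (nat_lit 44) (nat_lit 130) (nat_lit 46) .nil) (nat_lit 46) (nat_lit 80)
  (nat_lit 25) .nil) (nat_lit 50) (nat_lit 258) (nat_lit 62) (.node .nil (nat_lit 51) (nat_lit 162) (nat_lit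
  52) .nil)) (nat_lit 52) (nat_lit 114) (nat_lit 55) (.node (.node .nil (nat_lit 55) (nat_lit 67) (nat_lit 40)
  .nil) (nat_lit 60) (nat_lit 48) (nat_lit 40) (.node .nil (nat_lit 62) (nat_lit 210) (nat_lit 51) .nil))))

theorem chS_chk : chkR chS = true := by decide +kernel

theorem mem_NV_of_fix20 {r : R} (hr : r ∈ Lm) (h : lin (rc r) 20 = 20) : r ∈ NV := by
  have h1 := card_inf_stab Lm (⟨20, by norm_num⟩ : Fin 4096)
  have h2 := card_inf_stab NV (⟨20, by norm_num⟩ : Fin 4096)
  have h3 := tv2_chk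
  rw [band_eq, Bool.and_eq_true, Nat.beq_eq] at h3
  rw [card_Lm, Lm, (acV.orb_sound valid_gL (x₀ := ⟨20, by norm_num⟩) trivial h3.1).2.1, h3.2] at h1
  rw [card_NV, NV, (acV.orb_sound (chkR_sound chN_chk).1 (x₀ := ⟨20, by norm_num⟩) (t := t18) (hi := 4096) trivial
    (by decide +kernel)).2.1, show t18.size = 18 by decide +kernel] at h2
  have h4 := eq_of_le_of_card_ge (inf_le_inf_right (stabilizer R (⟨20, by norm_num⟩ : Fin 4096)) NV_le)
    (by unfold Lm NV; omega)
  exact (h4.ge ⟨hr, Fin.ext ((smulV_val r _).trans h)⟩).1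

theorem card_zp_sup {G : Type*} [Group G] [Finite G] {x : G} {K : Subgroup G} (hx : x * x = 1) (hn : x ∈ N[K]) :
    Nat.card ↥(zpowers x ⊔ K) ≤ 2 * Nat.card K := by
  refine (Nat.le_of_dvd (Nat.mul_pos Nat.card_pos Nat.card_pos) (card_sup_dvd (.inl (zpowers_le.2 hn)))).trans
    (Nat.mul_le_mul_right _ ?_)
  rw [Nat.card_zpowers]; exact orderOf_le_of_pow_eq_one two_pos (by rw [pow_two, hx])

theorem comm_of_three {G : Type*} [Group G] {a b : G} (ha : a * a = 1) (hb : b * b = 1) (h : a * b * (a * b) = 1) :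
    a * b = b * a := by
  rw [← inv_eq_of_mul_eq_one_right h, mul_inv_rev, inv_eq_of_mul_eq_one_right ha, inv_eq_of_mul_eq_one_right hb]

namespace HM

variable {H : Type*} [Group H] {z ω : H} {s : ℕ → H} {Λ : H →* R} (M : HM z ω s Λ)
include M

/-- The elements `s (64 m)`. -/
def Sst : Subgroup H where
  carrier := {h | ∃ m < 64, h = s (64 * m)}
  one_mem' := ⟨0, by norm_num, M.s0.symm⟩
  mul_mem' := by
    rintro _ _ ⟨a, ha, rfl⟩ ⟨b, hb, rfl⟩
    have : ∀ a < 64, ∀ b < 64, be (64 * a) (64 * b) = 0 ∧ 64 * a ^^^ 64 * b = 64 * (a ^^^ b) := by decide +kernel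
    exact ⟨a ^^^ b, Nat.xor_lt_two_pow (n := 6) ha hb, by
      rw [M.s_mul _ (by omega) _ (by omega), (this a ha b hb).1, (this a ha b hb).2, pow_zero, mul_one]⟩
  inv_mem' := by
    rintro _ ⟨a, ha, rfl⟩
    have : ∀ a < 64, Qf (64 * a) = 0 := by decide +kernel
    exact ⟨a, ha, by rw [M.s_inv (by omega), this a ha, pow_zero, mul_one]⟩

theorem card_Sst : Nat.card M.Sst ≤ 64 := by
  simpa using Nat.card_le_card_of_surjective (fun m : Fin 64 => (⟨s (64 * m), m, m.2, rfl⟩ : M.Sst))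
    (by rintro ⟨_, m, hm, rfl⟩; exact ⟨⟨m, hm⟩, rfl⟩)

theorem mem_norm_Sst [Finite H] {l : H} (hl : l ∈ N[zpowers ω]) {k : ℕ} (e : rc (Λ l) = k)
    (h : ∀ m < 64, lin k (64 * m) % 64 = 0) : l ∈ N[M.Sst] :=
  mem_normalizer_of_conj (by
    rintro _ ⟨m, hm, rfl⟩
    have : ∀ a < 64, Qf (64 * a) = 0 := by decide +kernel
    have h1 := lin_lt k (64 * m)
    have h2 := h m hm
    exact ⟨lin k (64 * m) / 64, by omega, by
      rw [M.conj l hl _ (by omega), this m hm, e, mul_zero, pow_zero, mul_one]; congr 1; omega⟩)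

theorem ker_le {K : Subgroup H} (h1 : M.VH ≤ K) (h2 : M.Sst ≤ K) : Λ.ker ≤ K := fun h hh => by
  have hb := M.cb_lt h
  have h3 : M.cb h = M.cb h % 64 ^^^ 64 * (M.cb h / 64) := Nat.eq_of_beq_eq_true (ball_zero
    (show ball (fun b => Nat.beq b (b % 64 ^^^ 64 * (b / 64))) 12 0 = true by decide +kernel) _ hb)
  have h4 : s (M.cb h % 64) * s (64 * (M.cb h / 64)) ∈ K :=
    mul_mem (h1 (M.s_mem_EA prV (Finset.mem_range.2 (Nat.mod_lt _ (by norm_num))))) (h2 ⟨_, by omega, rfl⟩)
  have hz : z ∈ K := h1 (M.z_mem_EA _)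
  rw [M.s_mul _ (by omega) _ (by omega), ← h3, mul_mem_cancel_right (pow_mem hz _)] at h4
  rcases M.eq_s hh with e | e <;> rw [e]
  exacts [h4, mul_mem h4 hz]

theorem lift_code {k : ℕ} (h : inL k = true) : ∃ l ∈ N[zpowers ω], rc (Λ l) = k :=
  let ⟨l, hl, e⟩ := M.lift _ (relt_mem h).1; ⟨l, hl, e ▸ (relt_mem h).2⟩

theorem conj_zp {c x : H} (hc : c ∈ N[zpowers ω]) (hx : x ∈ N[zpowers ω]) (h : Λ c * Λ x = Λ x * Λ c) :
    ∃ n, c * x = x * c * z ^ n := by
  rcases M.eq_of_crd (h := c * x) (k := x * c) (by rw [M.cb_norm (mul_mem hc hx), M.cb_norm (mul_mem hx hc)])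
    (by rw [map_mul, map_mul, h]) with e | e
  exacts [⟨0, by simpa using e⟩, ⟨1, by simpa using e⟩]

theorem exists_compl [Finite H] {g : H} (hg : g ∈ N[zpowers ω]) (e : rc (Λ g) = kG) (h2 : g * g = 1) :
    ∃ A : Subgroup H, A ≤ NV.comap Λ ∧ A ⊓ M.VH = ⊥ ∧ Nat.card ↥(A ⊔ M.VH) = 2 ^ 21 := by
  obtain ⟨c, hc, c1⟩ := M.lift_code (k := kC1) (by decide +kernel)
  obtain ⟨r', hr', r1⟩ := M.lift_code (k := kR1) (by decide +kernel)
  obtain ⟨d, hd, d1⟩ := M.lift_code (k := kD1) (by decide +kernel)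
  obtain ⟨b, hb⟩ : ∃ b, b = d * g * d⁻¹ := ⟨_, rfl⟩
  obtain ⟨r, hr⟩ : ∃ r, r = c * r' * c⁻¹ * r'⁻¹ := ⟨_, rfl⟩
  obtain ⟨a, ha⟩ : ∃ a, a = r * g * r⁻¹ := ⟨_, rfl⟩
  have b1 : b ∈ N[zpowers ω] := hb ▸ mul_mem (mul_mem hd hg) (inv_mem hd)
  have r2 : r ∈ N[zpowers ω] := hr ▸ mul_mem (mul_mem (mul_mem hc hr') (inv_mem hc)) (inv_mem hr')
  have a1 : a ∈ N[zpowers ω] := ha ▸ mul_mem (mul_mem r2 hg) (inv_mem r2)
  have b2 : rc (Λ b) = kS5 := by rw [hb, map_mul, map_mul, map_inv, ← gcR.cjap_code, d1, e]; decide +kernel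
  have r3 : rc (Λ r) = kR := by
    simp only [hr, map_mul, map_inv, gcR.code_mul, gcR.code_inv, c1, r1]; decide +kernel
  have a2 : rc (Λ a) = cjap rmul rinv kR kG := by rw [ha, map_mul, map_mul, map_inv, ← gcR.cjap_code, r3, e]
  have b3 : b * b = 1 := by rw [hb, conj_mul, h2]; simp
  have a3 : a * a = 1 := by rw [ha, conj_mul, h2]; simp
  have sq : ∀ l ∈ N[zpowers ω], ∀ k, rc (Λ l) = k → band (Nat.beq (rmul k k) rone) (Nat.beq (ou k) 0) = true → l * l = 1 :=
    fun l hl k e h => by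
      rw [band_eq, Bool.and_eq_true, Nat.beq_eq, Nat.beq_eq, ← e, ← gcR.code_mul, ← gcR.code_one] at h
      exact M.sq_inner hl (gcR.inj h.1) h.2
  have r4 : r * r = 1 := sq r r2 _ r3 (by decide +kernel)
  have ag : a * g = g * a := comm_of_three a3 h2 (sq _ (mul_mem a1 hg) _ (by rw [map_mul, gcR.code_mul, a2, e])
    (by decide +kernel))
  have bg : b * g = g * b := comm_of_three b3 h2 (sq _ (mul_mem b1 hg) _ (by rw [map_mul, gcR.code_mul, b2, e])
    (by decide +kernel))
  have ba : b * a = a * b := comm_of_three b3 a3 (sq _ (mul_mem b1 a1) _ (by rw [map_mul, gcR.code_mul, b2, a2])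
    (by decide +kernel))
  have rb : r * b = b * r := by
    obtain ⟨m, e1⟩ := M.conj_zp hc b1 (gcR.inj (by simp only [gcR.code_mul, c1, b2]; decide +kernel))
    obtain ⟨n, e2⟩ := M.conj_zp hr' b1 (gcR.inj (by simp only [gcR.code_mul, r1, b2]; decide +kernel))
    have e3 : c * r' * b = b * (c * r') * (z ^ m * z ^ n) := by
      rw [mul_assoc, e2, ← mul_assoc, ← mul_assoc, e1, mul_assoc _ (z ^ m), ← M.zpc, ← mul_assoc]; group
    have e4 : r' * c * b = b * (r' * c) * (z ^ m * z ^ n) := by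
      rw [mul_assoc, e1, ← mul_assoc, ← mul_assoc, e2, mul_assoc _ (z ^ n), ← M.zpc, ← mul_assoc, mul_assoc _ (z ^ n),
        ← M.zpc m]; group
    calc r * b = c * r' * ((r' * c)⁻¹ * (b * (r' * c) * (z ^ m * z ^ n))) * (z ^ m * z ^ n)⁻¹ * (r' * c)⁻¹ := by
          rw [hr]; group
      _ = _ := by rw [← e4, inv_mul_cancel_left, e3, hr]; group
  have nz : ∀ x y : H, x * y = y * x → zpowers x ≤ N[zpowers y] := fun x y h =>
    (zpowers_le.2 (by rw [cent_zpowers]; exact mem_cent1.2 h)).trans (cent_le_norm _)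
  have n1 := M.mem_norm_Sst hg e (by decide +kernel)
  have n2 : a ∈ N[zpowers g ⊔ M.Sst] :=
    zpowers_le.1 (le_norm_sup (nz _ _ ag) (zpowers_le.2 (M.mem_norm_Sst a1 a2 (by decide +kernel))))
  have n3 : b ∈ N[zpowers a ⊔ (zpowers g ⊔ M.Sst)] := zpowers_le.1 (le_norm_sup (nz _ _ ba)
    (le_norm_sup (nz _ _ bg) (zpowers_le.2 (M.mem_norm_Sst b1 b2 (by decide +kernel)))))
  have n4 : r ∈ N[zpowers b ⊔ (zpowers a ⊔ (zpowers g ⊔ M.Sst))] := by
    rw [← conj_eq_self_iff, conj_sup, conj_sup, conj_sup, conj_zpowers, conj_zpowers, conj_zpowers, ← ha, rb,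
      mul_inv_cancel_right, conj_eq_self (M.mem_norm_Sst r2 r3 (by decide +kernel)), sup_left_comm (zpowers a), ha,
      ← mul_assoc, ← mul_assoc, r4, one_mul, mul_assoc, ← mul_inv_rev, r4, inv_one, mul_one]
  have k1 := card_zp_sup h2 n1
  have k2 := card_zp_sup a3 n2
  have k3 := card_zp_sup b3 n3
  have k4 := card_zp_sup r4 n4
  have k0 := M.card_Sst
  obtain ⟨A, hA⟩ : ∃ A, A = zpowers r ⊔ (zpowers b ⊔ (zpowers a ⊔ (zpowers g ⊔ M.Sst))) := ⟨_, rfl⟩
  have mN : ∀ l k, rc (Λ l) = k → sift rmul rone rap chN k = true → zpowers l ≤ NV.comap Λ := fun l k e h =>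
    zpowers_le.2 ((mem_genR chN_chk).2 (e ▸ h))
  have hN : A ≤ NV.comap Λ := hA ▸ sup_le (mN _ _ r3 (by decide +kernel)) (sup_le (mN _ _ b2 (by decide +kernel))
    (sup_le (mN _ _ a2 (by decide +kernel)) (sup_le (mN _ _ e (by decide +kernel)) (by
      rintro _ ⟨m, hm, rfl⟩; rw [mem_comap, M.Λs (by omega)]; exact one_mem _))))
  have k5 := card_sup_mul_card_inf (H := A) (K := M.VH) fun h hh => M.mem_norm_VH.2 (hN hh)
  have l1 : (gen rc (gensOf chS)).comap Λ ≤ A ⊔ M.VH := by
    have l2 : gen rc (gensOf chS) ≤ (A ⊔ M.VH).map Λ := gen_le fun x hx => by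
      have : ∀ k ∈ gensOf chS, k = kG ∨ k = kR ∨ k = kS5 ∨ k ∈ lW := by decide +kernel
      rcases this _ hx with h | h | h | h
      · exact ⟨g, mem_sup_left (hA ▸ mem_sup_right (mem_sup_right (mem_sup_right (mem_sup_left (mem_zpowers g))))),
          gcR.inj (e.trans h.symm)⟩
      · exact ⟨r, mem_sup_left (hA ▸ mem_sup_left (mem_zpowers r)), gcR.inj (r3.trans h.symm)⟩
      · exact ⟨b, mem_sup_left (hA ▸ mem_sup_right (mem_sup_left (mem_zpowers b))), gcR.inj (b2.trans h.symm)⟩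
      · exact map_mono le_sup_right ((M.map_EA prV).ge (mem_Wb.2 h))
    refine (comap_mono l2).trans (comap_map_eq_self (M.ker_le le_sup_right (le_sup_of_le_left ?_))).le
    exact hA ▸ le_sup_of_le_right (le_sup_of_le_right (le_sup_of_le_right le_sup_right))
  have k6 := card_le_of_le l1
  rw [M.card_comap (Lm_eq ▸ genR_le chL_chk (by decide +kernel)), card_genR (n := 256) chS_chk (by decide +kernel)] at k6
  rw [M.card_VH] at k5
  rw [← hA] at k4
  have k7 := card_pos' (A ⊓ M.VH)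
  have k8 : Nat.card ↥(A ⊓ M.VH) = 1 := by nlinarith
  exact ⟨A, hN, eq_bot_of_card_eq _ k8, by rw [k8] at k5; omega⟩

end HM

end Cfsg.Agent.J4
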