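import Cfsg.Agent.J4.FU
import Cfsg.Agent.J4.SP
import Cfsg.Agent.J4.MSc

/-!
# Groups of type `J₄`: the subgroup `2¹¹ : M₂₄`
-/

set_option autoImplicit false

namespace Cfsg.Agent.J4

open Cfsg.Agent.M24 Cfsg.Agent.TT Cfsg.Agent.GT Subgroup MulAction
open scoped Pointwise symmDiff

/-- From syndromes to coordinates. -/
def TM : ℕ := nat_lit 0x36877001465f2a842854a6fb6bf55b646000
/-- From coordinates to syndromes. -/
def TI : ℕ := nat_lit 0x95c6cc1b3f5066383b47a12667bf8b45e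
/-- The coordinate of a cocode element. -/
def tv (m : ℕ) : ℕ := lin TM (syn m)
def tDu_0 : T := (.node (.node (.node (.node (.node (.node (.node (.node .nil (nat_lit 17) (nat_lit 147456)
  (nat_lit 0) .nil) (nat_lit 19) (nat_lit 257) (nat_lit 0) .nil) (nat_lit 20) (nat_lit 0x201000) (nat_lit 0)
  (.node .nil (nat_lit 23) (nat_lit 6) (nat_lit 0) .nil)) (nat_lit 24) (nat_lit 2080) (nat_lit 0) (.node
  (.node .nil (nat_lit 25) (nat_lit 0x102000) (nat_lit 0) .nil) (nat_lit 33) (nat_lit 65537) (nat_lit 0)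
  (.node .nil (nat_lit 34) (nat_lit 16896) (nat_lit 0) .nil))) (nat_lit 40) (nat_lit 0x200400) (nat_lit 0)
  (.node (.node (.node (.node .nil (nat_lit 41) (nat_lit 32772) (nat_lit 0) .nil) (nat_lit 44) (nat_lit
  0x400020) (nat_lit 0) .nil) (nat_lit 46) (nat_lit 0x100080) (nat_lit 0) (.node .nil (nat_lit 50) (nat_lit
  65792) (nat_lit 0) .nil)) (nat_lit 51) (nat_lit 131584) (nat_lit 0) (.node (.node .nil (nat_lit 52) (nat_lit
  0x400800) (nat_lit 0) .nil) (nat_lit 55) (nat_lit 8320) (nat_lit 0) (.node .nil (nat_lit 60) (nat_lit 5120)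
  (nat_lit 0) .nil)))) (nat_lit 62) (nat_lit 32770) (nat_lit 0) (.node (.node (.node (.node (.node .nil
  (nat_lit 64) (nat_lit 524296) (nat_lit 0) .nil) (nat_lit 68) (nat_lit 98304) (nat_lit 0) .nil) (nat_lit 72)
  (nat_lit 258) (nat_lit 0) (.node .nil (nat_lit 76) (nat_lit 5) (nat_lit 0) .nil)) (nat_lit 91) (nat_lit 3)
  (nat_lit 0) (.node (.node .nil (nat_lit 95) (nat_lit 260) (nat_lit 0) .nil) (nat_lit 101) (nat_lit 32769)
  (nat_lit 0) (.node .nil (nat_lit 109) (nat_lit 65540) (nat_lit 0) .nil))) (nat_lit 118) (nat_lit 33024)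
  (nat_lit 0) (.node (.node (.node .nil (nat_lit 122) (nat_lit 65538) (nat_lit 0) .nil) (nat_lit 128) (nat_lit
  24) (nat_lit 0) (.node .nil (nat_lit 133) (nat_lit 0x100001) (nat_lit 0) .nil)) (nat_lit 138) (nat_lit
  65664) (nat_lit 0) (.node (.node .nil (nat_lit 143) (nat_lit 8448) (nat_lit 0) .nil) (nat_lit 150) (nat_lit
  0x100100) (nat_lit 0) (.node .nil (nat_lit 156) (nat_lit 8193) (nat_lit 0) .nil))))) (nat_lit 164) (nat_lit
  0x110000) (nat_lit 0) (.node (.node (.node (.node (.node (.node .nil (nat_lit 171) (nat_lit 129) (nat_lit 0)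
  .nil) (nat_lit 184) (nat_lit 384) (nat_lit 0) .nil) (nat_lit 189) (nat_lit 73728) (nat_lit 0) (.node .nil
  (nat_lit 192) (nat_lit 524304) (nat_lit 0) .nil)) (nat_lit 199) (nat_lit 8194) (nat_lit 0) (.node (.node
  .nil (nat_lit 201) (nat_lit 0x100004) (nat_lit 0) .nil) (nat_lit 206) (nat_lit 32896) (nat_lit 0) (.node
  .nil (nat_lit 208) (nat_lit 8196) (nat_lit 0) .nil))) (nat_lit 222) (nat_lit 0x100002) (nat_lit 0) (.node
  (.node (.node (.node .nil (nat_lit 224) (nat_lit 0x108000) (nat_lit 0) .nil) (nat_lit 231) (nat_lit 132)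
  (nat_lit 0) .nil) (nat_lit 240) (nat_lit 130) (nat_lit 0) (.node .nil (nat_lit 249) (nat_lit 40960) (nat_lit
  0) .nil)) (nat_lit 256) (nat_lit 0x800010) (nat_lit 0) (.node (.node .nil (nat_lit 257) (nat_lit 0x400080)
  (nat_lit 0) .nil) (nat_lit 258) (nat_lit 10240) (nat_lit 0) (.node .nil (nat_lit 259) (nat_lit 0x100020)
  (nat_lit 0) .nil)))) (nat_lit 282) (nat_lit 8224) (nat_lit 0) (.node (.node (.node (.node (.node .nil
  (nat_lit 283) (nat_lit 0x100800) (nat_lit 0) .nil) (nat_lit 301) (nat_lit 160) (nat_lit 0) .nil) (nat_lit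
  303) (nat_lit 0x500000) (nat_lit 0) (.node .nil (nat_lit 309) (nat_lit 2176) (nat_lit 0) .nil)) (nat_lit
  310) (nat_lit 0x402000) (nat_lit 0) (.node (.node .nil (nat_lit 337) (nat_lit 262656) (nat_lit 0) .nil)
  (nat_lit 340) (nat_lit 1088) (nat_lit 0) (.node .nil (nat_lit 354) (nat_lit 393216) (nat_lit 0) .nil)))
  (nat_lit 360) (nat_lit 4160) (nat_lit 0) (.node (.node (.node .nil (nat_lit 371) (nat_lit 278528) (nat_lit
  0) .nil) (nat_lit 380) (nat_lit 0x200040) (nat_lit 0) (.node .nil (nat_lit 384) (nat_lit 0x800008) (nat_lit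
  0) .nil)) (nat_lit 390) (nat_lit 33) (nat_lit 0) (.node (.node .nil (nat_lit 395) (nat_lit 0x410000)
  (nat_lit 0) .nil) (nat_lit 397) (nat_lit 2304) (nat_lit 0) (.node .nil (nat_lit 405) (nat_lit 288) (nat_lit
  0) .nil)))))) (nat_lit 414) (nat_lit 2049) (nat_lit 0) (.node (.node (.node (.node (.node (.node (.node .nil
  (nat_lit 423) (nat_lit 65568) (nat_lit 0) .nil) (nat_lit 426) (nat_lit 0x400001) (nat_lit 0) .nil) (nat_lit
  441) (nat_lit 0x400100) (nat_lit 0) (.node .nil (nat_lit 447) (nat_lit 67584) (nat_lit 0) .nil)) (nat_lit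
  448) (nat_lit 0x880000) (nat_lit 0) (.node (.node .nil (nat_lit 453) (nat_lit 2050) (nat_lit 0) .nil)
  (nat_lit 458) (nat_lit 36) (nat_lit 0) (.node .nil (nat_lit 463) (nat_lit 0x408000) (nat_lit 0) .nil)))
  (nat_lit 466) (nat_lit 2052) (nat_lit 0) (.node (.node (.node (.node .nil (nat_lit 477) (nat_lit 34)
  (nat_lit 0) .nil) (nat_lit 483) (nat_lit 32800) (nat_lit 0) .nil) (nat_lit 486) (nat_lit 0x400004) (nat_lit
  0) (.node .nil (nat_lit 497) (nat_lit 0x400002) (nat_lit 0) .nil)) (nat_lit 507) (nat_lit 34816) (nat_lit 0)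
  (.node (.node .nil (nat_lit 512) (nat_lit 0x800040) (nat_lit 0) .nil) (nat_lit 519) (nat_lit 16416) (nat_lit
  0) (.node .nil (nat_lit 521) (nat_lit 0x400200) (nat_lit 0) .nil)))) (nat_lit 526) (nat_lit 133120) (nat_lit
  0) (.node (.node (.node (.node (.node .nil (nat_lit 534) (nat_lit 131104) (nat_lit 0) .nil) (nat_lit 543)
  (nat_lit 18432) (nat_lit 0) .nil) (nat_lit 549) (nat_lit 544) (nat_lit 0) (.node .nil (nat_lit 555) (nat_lit
  0x404000) (nat_lit 0) .nil)) (nat_lit 570) (nat_lit 0x420000) (nat_lit 0) (.node (.node .nil (nat_lit 573)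
  (nat_lit 2560) (nat_lit 0) .nil) (nat_lit 596) (nat_lit 1040) (nat_lit 0) (.node .nil (nat_lit 601) (nat_lit
  262272) (nat_lit 0) .nil))) (nat_lit 616) (nat_lit 4112) (nat_lit 0) (.node (.node (.node .nil (nat_lit 622)
  (nat_lit 270336) (nat_lit 0) .nil) (nat_lit 631) (nat_lit 0x140000) (nat_lit 0) (.node .nil (nat_lit 636)
  (nat_lit 0x200010) (nat_lit 0) .nil)) (nat_lit 660) (nat_lit 525312) (nat_lit 0) (.node (.node .nil (nat_lit
  663) (nat_lit 294912) (nat_lit 0) .nil) (nat_lit 680) (nat_lit 528384) (nat_lit 0) (.node .nil (nat_lit 681)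
  (nat_lit 262146) (nat_lit 0) .nil))))) (nat_lit 700) (nat_lit 0x280000) (nat_lit 0) (.node (.node (.node
  (.node (.node (.node .nil (nat_lit 702) (nat_lit 262148) (nat_lit 0) .nil) (nat_lit 723) (nat_lit 327680)
  (nat_lit 0) .nil) (nat_lit 724) (nat_lit 1032) (nat_lit 0) (.node .nil (nat_lit 737) (nat_lit 262400)
  (nat_lit 0) .nil)) (nat_lit 744) (nat_lit 4104) (nat_lit 0) (.node (.node .nil (nat_lit 754) (nat_lit
  262145) (nat_lit 0) .nil) (nat_lit 764) (nat_lit 0x200008) (nat_lit 0) (.node .nil (nat_lit 768) (nat_lit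
  80) (nat_lit 0) .nil))) (nat_lit 772) (nat_lit 0x104000) (nat_lit 0) (.node (.node (.node .nil (nat_lit 776)
  (nat_lit 640) (nat_lit 0) .nil) (nat_lit 780) (nat_lit 139264) (nat_lit 0) (.node .nil (nat_lit 789)
  (nat_lit 0x120000) (nat_lit 0) .nil)) (nat_lit 797) (nat_lit 24576) (nat_lit 0) (.node (.node .nil (nat_lit
  806) (nat_lit 0x100200) (nat_lit 0) .nil) (nat_lit 810) (nat_lit 16512) (nat_lit 0) (.node .nil (nat_lit
  827) (nat_lit 131200) (nat_lit 0) .nil)))) (nat_lit 831) (nat_lit 8704) (nat_lit 0) (.node (.node (.node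
  (.node (.node .nil (nat_lit 852) (nat_lit 0x800400) (nat_lit 0) .nil) (nat_lit 856) (nat_lit 0x440000)
  (nat_lit 0) .nil) (nat_lit 872) (nat_lit 0x801000) (nat_lit 0) (.node .nil (nat_lit 876) (nat_lit 264192)
  (nat_lit 0) .nil)) (nat_lit 884) (nat_lit 262176) (nat_lit 0) (.node (.node .nil (nat_lit 892) (nat_lit
  0xa00000) (nat_lit 0) .nil) (nat_lit 896) (nat_lit 72) (nat_lit 0) (.node .nil (nat_lit 897) (nat_lit 16385)
  (nat_lit 0) .nil))) (nat_lit 898) (nat_lit 66048) (nat_lit 0) (.node (.node (.node .nil (nat_lit 899)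
  (nat_lit 131328) (nat_lit 0) .nil) (nat_lit 912) (nat_lit 131073) (nat_lit 0) (.node .nil (nat_lit 914)
  (nat_lit 16640) (nat_lit 0) .nil)) (nat_lit 928) (nat_lit 81920) (nat_lit 0) (.node (.node .nil (nat_lit
  931) (nat_lit 513) (nat_lit 0) .nil) (nat_lit 944) (nat_lit 768) (nat_lit 0) (.node .nil (nat_lit 945)
  (nat_lit 196608) (nat_lit 0) .nil)))))))
def tDu_1 : T := (.node (.node (.node (.node (.node (.node (.node (.node .nil (nat_lit 966) (nat_lit 33280)
  (nat_lit 0) .nil) (nat_lit 971) (nat_lit 131074) (nat_lit 0) .nil) (nat_lit 973) (nat_lit 16388) (nat_lit 0)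
  (.node .nil (nat_lit 986) (nat_lit 16386) (nat_lit 0) .nil)) (nat_lit 988) (nat_lit 131076) (nat_lit 0)
  (.node (.node .nil (nat_lit 996) (nat_lit 49152) (nat_lit 0) .nil) (nat_lit 1007) (nat_lit 516) (nat_lit 0)
  (.node .nil (nat_lit 1013) (nat_lit 163840) (nat_lit 0) .nil))) (nat_lit 1016) (nat_lit 514) (nat_lit 0)
  (.node (.node (.node (.node .nil (nat_lit 1041) (nat_lit 576) (nat_lit 0) .nil) (nat_lit 1043) (nat_lit
  65544) (nat_lit 0) .nil) (nat_lit 1044) (nat_lit 263168) (nat_lit 0) (.node .nil (nat_lit 1047) (nat_lit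
  557056) (nat_lit 0) .nil)) (nat_lit 1048) (nat_lit 0xc00000) (nat_lit 0) (.node (.node .nil (nat_lit 1049)
  (nat_lit 144) (nat_lit 0) .nil) (nat_lit 1057) (nat_lit 264) (nat_lit 0) (.node .nil (nat_lit 1058) (nat_lit
  131136) (nat_lit 0) .nil)))) (nat_lit 1064) (nat_lit 266240) (nat_lit 0) (.node (.node (.node (.node (.node
  .nil (nat_lit 1065) (nat_lit 524290) (nat_lit 0) .nil) (nat_lit 1068) (nat_lit 0x800800) (nat_lit 0) .nil)
  (nat_lit 1070) (nat_lit 8208) (nat_lit 0) (.node .nil (nat_lit 1074) (nat_lit 9) (nat_lit 0) .nil)) (nat_lit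
  1075) (nat_lit 16448) (nat_lit 0) (.node (.node .nil (nat_lit 1076) (nat_lit 0x800020) (nat_lit 0) .nil)
  (nat_lit 1079) (nat_lit 0x100010) (nat_lit 0) (.node .nil (nat_lit 1084) (nat_lit 0x240000) (nat_lit 0)
  .nil))) (nat_lit 1086) (nat_lit 524292) (nat_lit 0) (.node (.node (.node .nil (nat_lit 1107) (nat_lit
  589824) (nat_lit 0) .nil) (nat_lit 1111) (nat_lit 32776) (nat_lit 0) (.node .nil (nat_lit 1121) (nat_lit
  524544) (nat_lit 0) .nil)) (nat_lit 1129) (nat_lit 10) (nat_lit 0) (.node (.node .nil (nat_lit 1138)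
  (nat_lit 524289) (nat_lit 0) .nil) (nat_lit 1150) (nat_lit 12) (nat_lit 0) (.node .nil (nat_lit 1171)
  (nat_lit 65552) (nat_lit 0) .nil))))) (nat_lit 1177) (nat_lit 136) (nat_lit 0) (.node (.node (.node (.node
  (.node (.node .nil (nat_lit 1185) (nat_lit 272) (nat_lit 0) .nil) (nat_lit 1198) (nat_lit 8200) (nat_lit 0)
  .nil) (nat_lit 1202) (nat_lit 17) (nat_lit 0) (.node .nil (nat_lit 1207) (nat_lit 0x100008) (nat_lit 0)
  .nil)) (nat_lit 1239) (nat_lit 32784) (nat_lit 0) (.node (.node .nil (nat_lit 1241) (nat_lit 524416)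
  (nat_lit 0) .nil) (nat_lit 1257) (nat_lit 18) (nat_lit 0) (.node .nil (nat_lit 1262) (nat_lit 532480)
  (nat_lit 0) .nil))) (nat_lit 1271) (nat_lit 0x180000) (nat_lit 0) (.node (.node (.node .nil (nat_lit 1278)
  (nat_lit 20) (nat_lit 0) .nil) (nat_lit 1304) (nat_lit 0x400010) (nat_lit 0) (.node .nil (nat_lit 1305)
  (nat_lit 0x800080) (nat_lit 0) .nil)) (nat_lit 1324) (nat_lit 2064) (nat_lit 0) (.node (.node .nil (nat_lit
  1326) (nat_lit 0x802000) (nat_lit 0) .nil) (nat_lit 1332) (nat_lit 48) (nat_lit 0) (.node .nil (nat_lit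
  1335) (nat_lit 0x900000) (nat_lit 0) .nil)))) (nat_lit 1344) (nat_lit 262208) (nat_lit 0) (.node (.node
  (.node (.node (.node .nil (nat_lit 1349) (nat_lit 1536) (nat_lit 0) .nil) (nat_lit 1354) (nat_lit 135168)
  (nat_lit 0) .nil) (nat_lit 1359) (nat_lit 0x204000) (nat_lit 0) (.node .nil (nat_lit 1371) (nat_lit 20480)
  (nat_lit 0) .nil)) (nat_lit 1374) (nat_lit 0x220000) (nat_lit 0) (.node (.node .nil (nat_lit 1383) (nat_lit
  17408) (nat_lit 0) .nil) (nat_lit 1389) (nat_lit 0x200200) (nat_lit 0) (.node .nil (nat_lit 1398) (nat_lit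
  132096) (nat_lit 0) .nil))) (nat_lit 1401) (nat_lit 4608) (nat_lit 0) (.node (.node (.node .nil (nat_lit
  1427) (nat_lit 0x810000) (nat_lit 0) .nil) (nat_lit 1432) (nat_lit 0x400008) (nat_lit 0) (.node .nil
  (nat_lit 1441) (nat_lit 0x800100) (nat_lit 0) .nil)) (nat_lit 1452) (nat_lit 2056) (nat_lit 0) (.node (.node
  .nil (nat_lit 1458) (nat_lit 0x800001) (nat_lit 0) .nil) (nat_lit 1460) (nat_lit 40) (nat_lit 0) (.node .nil
  (nat_lit 1495) (nat_lit 0x808000) (nat_lit 0) .nil)))))) (nat_lit 1496) (nat_lit 0x480000) (nat_lit 0)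
  (.node (.node (.node (.node (.node (.node (.node .nil (nat_lit 1513) (nat_lit 0x800002) (nat_lit 0) .nil)
  (nat_lit 1516) (nat_lit 526336) (nat_lit 0) .nil) (nat_lit 1524) (nat_lit 524320) (nat_lit 0) (.node .nil
  (nat_lit 1534) (nat_lit 0x800004) (nat_lit 0) .nil)) (nat_lit 1553) (nat_lit 0x800200) (nat_lit 0) (.node
  (.node .nil (nat_lit 1560) (nat_lit 0x400040) (nat_lit 0) .nil) (nat_lit 1570) (nat_lit 0x820000) (nat_lit
  0) (.node .nil (nat_lit 1580) (nat_lit 2112) (nat_lit 0) .nil))) (nat_lit 1587) (nat_lit 0x804000) (nat_lit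
  0) (.node (.node (.node (.node .nil (nat_lit 1588) (nat_lit 96) (nat_lit 0) .nil) (nat_lit 1600) (nat_lit
  262160) (nat_lit 0) .nil) (nat_lit 1606) (nat_lit 12288) (nat_lit 0) (.node .nil (nat_lit 1611) (nat_lit
  0x300000) (nat_lit 0) .nil)) (nat_lit 1613) (nat_lit 1152) (nat_lit 0) (.node (.node .nil (nat_lit 1618)
  (nat_lit 0x202000) (nat_lit 0) .nil) (nat_lit 1631) (nat_lit 0x101000) (nat_lit 0) (.node .nil (nat_lit
  1635) (nat_lit 0x100400) (nat_lit 0) .nil)))) (nat_lit 1637) (nat_lit 0x200080) (nat_lit 0) (.node (.node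
  (.node (.node (.node .nil (nat_lit 1649) (nat_lit 4224) (nat_lit 0) .nil) (nat_lit 1658) (nat_lit 9216)
  (nat_lit 0) .nil) (nat_lit 1664) (nat_lit 786432) (nat_lit 0) (.node .nil (nat_lit 1665) (nat_lit 4098)
  (nat_lit 0) .nil)) (nat_lit 1666) (nat_lit 0x200004) (nat_lit 0) (.node (.node .nil (nat_lit 1667) (nat_lit
  33792) (nat_lit 0) .nil) (nat_lit 1685) (nat_lit 0x200002) (nat_lit 0) (.node .nil (nat_lit 1686) (nat_lit
  4100) (nat_lit 0) .nil))) (nat_lit 1706) (nat_lit 1028) (nat_lit 0) (.node (.node (.node .nil (nat_lit 1707)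
  (nat_lit 0x208000) (nat_lit 0) .nil) (nat_lit 1725) (nat_lit 1026) (nat_lit 0) (.node .nil (nat_lit 1727)
  (nat_lit 36864) (nat_lit 0) .nil)) (nat_lit 1728) (nat_lit 262152) (nat_lit 0) (.node (.node .nil (nat_lit
  1735) (nat_lit 66560) (nat_lit 0) .nil) (nat_lit 1737) (nat_lit 4352) (nat_lit 0) (.node .nil (nat_lit 1742)
  (nat_lit 0x200001) (nat_lit 0) .nil))))) (nat_lit 1754) (nat_lit 4097) (nat_lit 0) (.node (.node (.node
  (.node (.node (.node .nil (nat_lit 1757) (nat_lit 0x200100) (nat_lit 0) .nil) (nat_lit 1766) (nat_lit 1025)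
  (nat_lit 0) .nil) (nat_lit 1775) (nat_lit 0x210000) (nat_lit 0) (.node .nil (nat_lit 1781) (nat_lit 1280)
  (nat_lit 0) .nil)) (nat_lit 1787) (nat_lit 69632) (nat_lit 0) (.node (.node .nil (nat_lit 1809) (nat_lit
  528) (nat_lit 0) .nil) (nat_lit 1817) (nat_lit 192) (nat_lit 0) (.node .nil (nat_lit 1826) (nat_lit 131088)
  (nat_lit 0) .nil))) (nat_lit 1838) (nat_lit 8256) (nat_lit 0) (.node (.node (.node .nil (nat_lit 1843)
  (nat_lit 16400) (nat_lit 0) .nil) (nat_lit 1847) (nat_lit 0x100040) (nat_lit 0) (.node .nil (nat_lit 1856)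
  (nat_lit 0x840000) (nat_lit 0) .nil)) (nat_lit 1860) (nat_lit 6144) (nat_lit 0) (.node (.node .nil (nat_lit
  1864) (nat_lit 0x200020) (nat_lit 0) .nil) (nat_lit 1868) (nat_lit 0x400400) (nat_lit 0) (.node .nil
  (nat_lit 1872) (nat_lit 0x200800) (nat_lit 0) .nil)))) (nat_lit 1884) (nat_lit 4128) (nat_lit 0) (.node
  (.node (.node (.node (.node .nil (nat_lit 1888) (nat_lit 1056) (nat_lit 0) .nil) (nat_lit 1892) (nat_lit
  0x600000) (nat_lit 0) .nil) (nat_lit 1904) (nat_lit 0x401000) (nat_lit 0) (.node .nil (nat_lit 1912)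
  (nat_lit 3072) (nat_lit 0) .nil)) (nat_lit 1937) (nat_lit 520) (nat_lit 0) (.node (.node .nil (nat_lit 1939)
  (nat_lit 65600) (nat_lit 0) .nil) (nat_lit 1953) (nat_lit 320) (nat_lit 0) (.node .nil (nat_lit 1954)
  (nat_lit 131080) (nat_lit 0) .nil))) (nat_lit 1970) (nat_lit 65) (nat_lit 0) (.node (.node (.node .nil
  (nat_lit 1971) (nat_lit 16392) (nat_lit 0) .nil) (nat_lit 2001) (nat_lit 524800) (nat_lit 0) (.node .nil
  (nat_lit 2007) (nat_lit 32832) (nat_lit 0) .nil)) (nat_lit 2018) (nat_lit 655360) (nat_lit 0) (.node (.node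
  .nil (nat_lit 2025) (nat_lit 66) (nat_lit 0) .nil) (nat_lit 2035) (nat_lit 540672) (nat_lit 0) (.node .nil
  (nat_lit 2046) (nat_lit 68) (nat_lit 0) .nil)))))))
def tDu : T := (.node tDu_0 (nat_lit 960) (nat_lit 524352) (nat_lit 0) tDu_1)

/-- Permutations induced by six elements of the extraspecial group. -/
def pE : List ℕ := [nat_lit 0xbdaa7148c80a48c5a9d0a44ad04de3, nat_lit 0xbdaad0c9c01468c5a8c3224a743e70, nat_lit
  0xb5d4d0b23013a922d528219671be60, nat_lit 0x2ad847aa309b8f5b492869af418440, nat_lit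
  0x595470b0c012492bd5c3a46cd43e70, nat_lit 0xb5d8d7a9c39c6952c8c02256780448]
/-- Permutation induced by `ω`. -/
def pW : ℕ := nat_lit 0xbad479c9c80a6952b22069ac41bc50
/-- Permutation induced by the element of order five. -/
def pY : ℕ := nat_lit 0x326a51c8278096c8a9edb4dd720114
/-- Permutation induced by the outer involution. -/
def pG : ℕ := nat_lit 0xb95ac991200bab459e2851ad2189f0
/-- The matrix `k` and the permutation `c` correspond. -/
noncomputable def chkP (k c : ℕ) : Bool :=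
  band (isM24 c) (nall 23 fun j => Nat.beq (lin k (tv (2 ^ 23 ^^^ 2 ^ j))) (tv (act c (2 ^ 23 ^^^ 2 ^ j))))

theorem tv_lt (m : ℕ) : tv m < 2048 :=
  ind12 (P := fun x => lin TM x < 2048) (by simp [lin_zero]) (by decide +kernel)
    (fun x _ y _ h1 h2 => by rw [lin_xor]; exact Nat.xor_lt_two_pow (n := 11) h1 h2) _ (and4095_lt' (syn m)) |>
    (lin_and TM (syn m)).symm.trans_lt

theorem tv_xor (a b : ℕ) : tv (a ^^^ b) = tv a ^^^ tv b := by rw [tv, syn_xor, lin_xor]; rfl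

theorem mask_pair {a b : GolayPt} (h : a ≠ b) : mask {a, b} = 2 ^ idx a ^^^ 2 ^ idx b := by
  rw [← mask_singleton, ← mask_singleton]
  refine Eq.trans (congrArg mask ?_) (mask_symmDiff _ _)
  ext x; simp only [Finset.mem_symmDiff, Finset.mem_insert, Finset.mem_singleton]; grind

theorem TI_tv : ∀ X : Finset GolayPt, Even X.card → lin TI (tv (mask X)) = syn (mask X) :=
  even_induction (by rw [mask_empty]; decide +kernel) (fun a b h => by
      have : ∀ i < 24, ∀ j < 24, lin TI (tv (2 ^ i ^^^ 2 ^ j)) = syn (2 ^ i ^^^ 2 ^ j) := by decide +kernel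
      rw [mask_pair h]; exact this _ (idx_lt a) _ (idx_lt b))
    fun X Y _ _ h1 h2 => by
      rw [mask_symmDiff]; change lin TI (tv (_ ^^^ _)) = syn (_ ^^^ _)
      rw [tv_xor, lin_xor, syn_xor, h1, h2]

theorem exists_tv {c : ℕ} (hc : c < 2048) : ∃ X : Finset GolayPt, Even X.card ∧ tv (mask X) = c := by
  have h := ball_zero (show ball (fun c => force (lin TI c <<< 12) fun m => band (band (Nat.ble m 16777215)
    (Nat.beq (pc m % 2) 0)) (Nat.beq (tv m) c)) 11 0 = true by decide +kernel) c hc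
  simp only [force_eq, band_eq, Bool.and_eq_true, Nat.ble_eq, Nat.beq_eq] at h
  have h1 := mask_unmask (m := lin TI c <<< 12) (by omega)
  exact ⟨unmask (lin TI c <<< 12), by rw [card_eq_pc, h1]; exact Nat.even_iff.2 h.1.2, by rw [h1, h.2]⟩

theorem tv_duad {Y : Finset GolayPt} (hY : Y.card = 2) : tv (mask Y) ≠ 0 ∧ tbq 102 (cl clT6 (tv (mask Y))) = false ∧
    (cl clT6 (tv (mask Y)) = 3 ∨ cl clT6 (tv (mask Y)) = 4) := by
  obtain ⟨a, b, h, rfl⟩ := Finset.card_eq_two.1 hY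
  have : ∀ i < 24, ∀ j < 24, i = j ∨ (tv (2 ^ i ^^^ 2 ^ j) ≠ 0 ∧ tbq 102 (cl clT6 (tv (2 ^ i ^^^ 2 ^ j))) = false ∧
    (cl clT6 (tv (2 ^ i ^^^ 2 ^ j)) = 3 ∨ cl clT6 (tv (2 ^ i ^^^ 2 ^ j)) = 4)) := by decide +kernel
  rw [mask_pair h]; exact (this _ (idx_lt a) _ (idx_lt b)).resolve_left fun e => h (idx_inj e)

theorem exists_duad {c : ℕ} (hc : c < 2048) (h0 : c ≠ 0) (h : tbq 102 (cl clT6 c) = false) :
    ∃ Y : Finset GolayPt, Y.card = 2 ∧ tv (mask Y) = c := by
  have h1 := ball_zero (show ball (fun c => bor (bor (Nat.beq c 0) (tbq 102 (cl clT6 c))) (tDu.find c fun m _ =>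
    band (band (Nat.ble m 16777215) (Nat.beq (pc m) 2)) (Nat.beq (tv m) c))) 11 0 = true by decide +kernel) c hc
  simp only [bor_eq, Bool.or_eq_true, Nat.beq_eq, h0, h, false_or, Bool.false_eq_true] at h1
  obtain ⟨m, -, -, h2⟩ := T.find_sound h1
  simp only [band_eq, Bool.and_eq_true, Nat.ble_eq, Nat.beq_eq] at h2
  have h3 := mask_unmask (m := m) (by omega)
  exact ⟨unmask m, by rw [card_eq_pc, h3, h2.1.2], by rw [h3, h2.2]⟩

theorem eq_of_smul_duads {g h : M24} (e : ∀ j : GolayPt, j ≠ none → g • ({none, j} : Finset GolayPt) = h • {none, j}) :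
    g = h := by
  have key : ∀ j : GolayPt, j ≠ none → (g • (none : GolayPt) = h • (none : GolayPt) ∧ g • j = h • j) ∨
      (g • (none : GolayPt) = h • j ∧ g • j = h • (none : GolayPt)) := fun j hj => by
    have := e j hj
    simp only [Finset.smul_finset_insert, Finset.smul_finset_singleton] at this
    exact Set.pair_eq_pair_iff.1 (by simpa using congrArg (fun s : Finset GolayPt => (s : Set GolayPt)) this)
  have h0 : g • (none : GolayPt) = h • (none : GolayPt) := by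
    rcases key (some 0) (by simp) with a | a
    · exact a.1
    rcases key (some 1) (by simp) with b | b
    · exact b.1
    · exact absurd (MulAction.injective h (a.1.symm.trans b.1)) (by decide)
  refine Subtype.ext (Equiv.ext fun j => ?_)
  by_cases hj : j = none
  · rw [hj]; exact h0
  · rcases key j hj with a | a
    · exact a.2
    · exact absurd (MulAction.injective h (a.1.symm.trans h0)) hj

/-- The tetrad of the central involution. -/
def X0 : Finset GolayPt := unmask 65801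
theorem mask_X0 : mask X0 = 65801 := mask_unmask (by norm_num)
theorem card_X0 : X0.card = 4 := by rw [card_eq_pc, mask_X0]; decide +kernel
theorem tv_X0 : tv (mask X0) = 1024 := by rw [mask_X0]; decide +kernel

/-- The projection to `M₂₄`. -/
structure PX {G : Type*} [Group G] (V : Subgroup G) (T : ℕ → G) (π : N[V] →* M24) : Prop where
  co : Co V 11 T
  conj : ∀ (n : N[V]) (X : Finset GolayPt), Even X.card → (n : G) * T (tv (mask X)) * (n : G)⁻¹ = T (tv (mask (π n • X)))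

namespace Co
variable {G : Type*} [Group G] {V : Subgroup G} {T : ℕ → G} (C : Co V 11 T)
include C

theorem tv_mul (X Y : Finset GolayPt) : T (tv (mask (X ∆ Y))) = T (tv (mask X)) * T (tv (mask Y)) := by
  rw [mask_symmDiff, ← C.mul, ← tv_xor]; rfl

theorem tv_one (X : Finset GolayPt) (hX : Even X.card) : T (tv (mask X)) = 1 ↔ IsCw X := by
  rw [isCw_iff]
  exact ⟨fun h => by rw [← TI_tv X hX, C.inj _ (tv_lt _) h, lin_zero], fun h => by rw [tv, h, lin_zero, C.zero]⟩

theorem duad_inj {X Y : Finset GolayPt} (hX : X.card = 2) (hY : Y.card = 2) (h : T (tv (mask X)) = T (tv (mask Y))) :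
    X = Y := by
  have := card_symmDiff_le X Y
  exact symmDiff_eq_bot.1 (((C.tv_one _ (even_symmDiff (by rw [hX]; decide) (by rw [hY]; decide))).1
    (by rw [C.tv_mul, h, C.sq])).eq_empty (by omega))

theorem exists_px {z : G} (hz : ∀ a < 2048, IsConj z (T a) ↔ tbq 102 (cl clT6 a) = true) : ∃ π, PX V T π := by
  have key : ∀ n : N[V], ∃ p : M24, ∀ X : Finset GolayPt, Even X.card →
      (n : G) * T (tv (mask X)) * (n : G)⁻¹ = T (tv (mask (p • X))) := fun n =>
    exists_M24_of_duads (T := fun X => T (tv (mask X))) C.tv_mul C.tv_one (MulAut.conj (n : G)) fun Y hY => by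
      obtain ⟨k, hk⟩ := C.exists_act n.2
      obtain ⟨a1, a2⟩ := hk _ (tv_lt (mask Y))
      obtain ⟨b1, b2, -⟩ := tv_duad hY
      obtain ⟨Y', c1, c2⟩ := exists_duad a2 (fun e => b1 (C.act_inj hk (tv_lt _) (by norm_num) (by rw [e, lin_zero])))
        (by
          rw [Bool.eq_false_iff, Ne, ← hz _ a2, ← a1]
          exact fun h => by simpa [b2] using (hz _ (tv_lt _)).1 (h.trans (isConj_iff.2 ⟨_, rfl⟩ : IsConj _ _).symm))
      exact ⟨Y', c1, by rw [c2, ← a1]; rfl⟩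
  choose p hp using key
  have uq : ∀ a b : M24, (∀ X : Finset GolayPt, Even X.card → T (tv (mask (a • X))) = T (tv (mask (b • X)))) → a = b :=
    fun a b h => eq_of_smul_duads fun j hj => by
      have e : ({none, j} : Finset GolayPt).card = 2 := Finset.card_pair hj.symm
      exact C.duad_inj (by rw [card_smul24, e]) (by rw [card_smul24, e]) (h _ (by rw [e]; decide))
  refine ⟨MonoidHom.mk' p fun a b => uq _ _ fun X hX => ?_, C, hp⟩
  rw [mul_smul, ← hp _ X hX, ← hp a _ (by rwa [card_smul24]), ← hp b X hX]; simp [mul_assoc]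

end Co

namespace PX
variable {G : Type*} [Group G] {V : Subgroup G} {T : ℕ → G} {π : N[V] →* M24} (P : PX V T π)
include P

theorem code_eq {n : N[V]} {k c : ℕ} (h : Act 11 T n k) (hc : chkP k c = true) : mcode (π n) = c := by
  simp only [chkP, band_eq, Bool.and_eq_true, nall_iff, Nat.beq_eq] at hc
  rw [← mcode_elt hc.1]
  refine congrArg mcode (eq_of_smul_duads fun j hj => ?_)
  have e : ({none, j} : Finset GolayPt).card = 2 := Finset.card_pair hj.symm
  refine P.co.duad_inj (by rw [card_smul24, e]) (by rw [card_smul24, e]) ?_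
  rw [← P.conj n _ (by rw [e]; decide), (h _ (tv_lt _)).1, ← acSM.ap_code (elt c) trivial, mcode_elt hc.1,
    mask_pair hj.symm]
  obtain ⟨x, rfl⟩ := Option.ne_none_iff_exists'.1 hj
  exact congrArg T (hc.2 _ x.val_lt)

theorem ker_iff (hV : C[V] = V) (n : N[V]) : π n = 1 ↔ (n : G) ∈ V := by
  refine ⟨fun h => hV.le fun v hv => ?_, fun h => eq_of_smul_duads fun j hj => ?_⟩
  · obtain ⟨a, ha, rfl⟩ := P.co.surj v hv
    obtain ⟨X, hX, rfl⟩ := exists_tv ha
    have := P.conj n X hX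
    rw [h, one_smul, mul_inv_eq_iff_eq_mul] at this
    exact this.symm
  · have e : ({none, j} : Finset GolayPt).card = 2 := Finset.card_pair hj.symm
    refine P.co.duad_inj (by rw [card_smul24, e]) (by rw [card_smul24, e]) ?_
    rw [← P.conj n _ (by rw [e]; decide), one_smul, ← hV.ge h _ (P.co.mem _), mul_inv_cancel_right]

end PX

namespace GM

variable {G H : Type*} [Group G] [Group H] {ι : H →* G} {z ω : H} {s : ℕ → H} {Λ : H →* R} (M : GM ι z ω s Λ)
  {y g : H} {T : ℕ → H} (D : VC M.toHM y g T 6)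
include M D

theorem card_norm_V [Finite G] (hz : ∀ a < 2048, IsConj (ι z) (ι (T a)) ↔ tbq 102 (cl clT6 a) = true) :
    Nat.card N[M.V] = 2 ^ 11 * 244823040 := by
  classical
  have C := M.coV D
  have h1 := card_inf_stab N[M.V] (toCj (ι z))
  rw [stabilizer_toCj, M.card_norm_V_inf] at h1
  have h2 : orbit N[M.V] (toCj (ι z)) = (fun a => toCj (ι (T a))) ''
      ((Finset.range (2 ^ 11)).filter fun a => tbq 102 (cl clT6 a) = true : Finset ℕ) := by
    ext x
    simp only [Finset.coe_filter, Finset.mem_range, Set.mem_image, Set.mem_ofPred_eq]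
    constructor
    · rintro ⟨n, rfl⟩
      obtain ⟨a, ha, e⟩ := C.surj _ (conj_mem_of_mem_norm n.2 M.z_mem_V)
      exact ⟨a, ⟨ha, (hz a ha).1 (isConj_iff.2 ⟨n, e.symm⟩)⟩, congrArg toCj e⟩
    · rintro ⟨a, ⟨ha, h⟩, rfl⟩
      obtain ⟨n, k, a1, a2⟩ := M.exists_act D ha ((hz a ha).2 h)
      have : n * ι (T 1024) * n⁻¹ = ι (T (lin k 1024)) := (a1 1024 (by norm_num)).1
      exact ⟨⟨n, C.act_norm a1⟩, (smul_toCj n (ι z)).trans (congrArg toCj (by rw [← a2, ← this, D.Tz]))⟩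
  rw [h2, Set.InjOn.ncard_image (f := fun a => toCj (ι (T a))) (fun a ha b hb e => C.eq (Finset.mem_range.1 (Finset.mem_filter.1 ha).1)
    (Finset.mem_range.1 (Finset.mem_filter.1 hb).1) e), Set.ncard_coe_finset, ← bsum_count,
    show bsum _ 11 0 = 1771 by decide +kernel] at h1
  omega

theorem pi_surj [Finite G] (hz : ∀ a < 2048, IsConj (ι z) (ι (T a)) ↔ tbq 102 (cl clT6 a) = true)
    {π : N[M.V] →* M24} (P : PX M.V (fun a => ι (T a)) π) : Function.Surjective π := by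
  have h1 := π.ker.card_mul_index
  rw [index_ker, M.card_norm_V D hz, show π.ker = M.V.subgroupOf _ from ext fun n => P.ker_iff M.cent_V n,
    card_subgroupOf le_normalizer, M.card_V] at h1
  exact MonoidHom.range_eq_top.1 (eq_top_of_card_eq _ (by rw [card_M24]; omega))

theorem g_sq [Finite G] {π : N[M.V] →* M24} (P : PX M.V (fun a => ι (T a)) π) (hs : Function.Surjective π) :
    g * g = 1 := by
  have a1 := D.actG.map ι
  have a2 := (D.actE 0 (by norm_num)).map ι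
  have b1 := P.code_eq (n := ⟨_, P.co.act_norm a1⟩) a1 (c := pG) (by decide +kernel)
  have b2 := P.code_eq (n := ⟨_, P.co.act_norm a2⟩) a2 (c := lget pE 0 0) (by decide +kernel)
  obtain ⟨k, hk⟩ := class2A (gcM.orderOf_prime (p := 2) b1 (by decide +kernel)) fun h =>
    h (pt 2) (apply_of_code b1 _ _ (by decide +kernel))
  obtain ⟨l, hl⟩ := class2A (gcM.orderOf_prime (p := 2) b2 (by decide +kernel)) fun h =>
    h (pt 5) (apply_of_code b2 _ _ (by decide +kernel))
  obtain ⟨n, hn⟩ := hs (k * l⁻¹)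
  have h1 := (P.ker_iff M.cent_V ((⟨_, P.co.act_norm a1⟩ : N[M.V])⁻¹ * (n * ⟨_, P.co.act_norm a2⟩ * n⁻¹))).1 (by
    rw [map_mul, map_mul, map_mul, map_inv, map_inv, hn, conj_of_two hl hk, inv_mul_cancel])
  obtain ⟨v, hv, e⟩ := P.co.surj _ h1
  have h2 : g * T v * (g * T v) = 1 := M.inj (by
    have e' : ι (T v) = (ι g)⁻¹ * (n * ι (s (2 ^ (6 + 0))) * (n : G)⁻¹) := e
    rw [map_mul, map_mul, e', mul_inv_cancel_left, conj_mul, ← map_mul, M.s_sq (by norm_num),
      show Qf (2 ^ (6 + 0)) = 0 by decide +kernel]; simp)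
  refine (M.ker_norm (mul_mem D.g_mem D.g_mem) (gcR.inj (by
    rw [map_mul, gcR.code_mul, D.Λg, gcR.code_one]; decide +kernel))).resolve_right fun h => ?_
  have h3 := D.actG v hv
  have h4 : T (lin (lget lG 0 6) v ^^^ v) = T 1024 := by
    rw [D.co.mul, ← h3.1, D.Tz, ← M.zinv, ← h]
    calc _ = g * T v * (g * T v) * ((T v)⁻¹ * (g * g)⁻¹ * T v) := by group
      _ = _ := by rw [h2, h, M.zinv, M.zc]; simp
  have h5 := ball_zero (show ball (fun v => !Nat.beq (lin (lget lG 0 6) v ^^^ v) 1024) 11 0 = true by decide +kernel) v hv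
  rw [D.co.eq (Nat.xor_lt_two_pow h3.2 hv) (by norm_num) h4] at h5
  simp at h5

theorem exists_sec [Finite G] (hz : ∀ a < 2048, IsConj (ι z) (ι (T a)) ↔ tbq 102 (cl clT6 a) = true)
    {π : N[M.V] →* M24} (P : PX M.V (fun a => ι (T a)) π) : ∃ κ : M24 →* N[M.V], ∀ p, π (κ p) = p := by
  have := M.finH
  have hs := M.pi_surj D hz P
  obtain ⟨A, a1, a2, a3⟩ := M.exists_compl D.g_mem D.Λg (M.g_sq D P hs)
  have hA : A.map ι ≤ N[M.V] := (map_mono a1).trans (M.norm_V_inf ▸ inf_le_left)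
  have hU : (A ⊔ M.VH).map ι ≤ N[M.V] := by rw [Subgroup.map_sup]; exact sup_le hA le_normalizer
  have : IsMulCommutative (M.V.subgroupOf N[M.V]) :=
    (isMulCommutative_subgroupOf_iff le_normalizer).2 (elem_of_sq M.V_sq).1
  obtain ⟨K, hK⟩ := gaschutz (M.V.subgroupOf N[M.V]) (((A ⊔ M.VH).map ι).subgroupOf N[M.V])
    (comap_mono (map_mono le_sup_right)) (by
      have h1 := (((A ⊔ M.VH).map ι).subgroupOf N[M.V]).card_mul_index
      rw [card_subgroupOf hU, card_map_inj M.inj, a3, M.card_norm_V D hz] at h1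
      rw [card_subgroupOf le_normalizer, M.card_V, show (((A ⊔ M.VH).map ι).subgroupOf N[M.V]).index = 239085 by omega]
      norm_num) ((A.map ι).subgroupOf N[M.V]) (comap_mono (map_mono le_sup_left)) (by
      rw [← inf_subgroupOf_distrib, V, ← map_inf_inj M.inj, a2, Subgroup.map_bot, bot_subgroupOf]) (by
      rw [← subgroupOf_sup le_normalizer hA, Subgroup.map_sup, sup_comm]; rfl)
  have hb : Function.Bijective (π.comp K.subtype) := by
    refine ⟨(injective_iff_map_eq_one _).2 fun k hk => Subtype.ext ?_, fun p => ?_⟩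
    · exact disjoint_def.1 hK.disjoint ((P.ker_iff M.cent_V _).1 hk) k.2
    · obtain ⟨n, rfl⟩ := hs p
      obtain ⟨⟨v, k⟩, e⟩ := hK.2 n
      exact ⟨k, by rw [← e, map_mul, (P.ker_iff M.cent_V _).2 v.2, one_mul]; rfl⟩
  exact ⟨K.subtype.comp (MulEquiv.ofBijective _ hb).symm.toMonoidHom, fun p =>
    (MulEquiv.ofBijective _ hb).apply_symm_apply p⟩

theorem ms_of [Finite G] (hz : ∀ a < 2048, IsConj (ι z) (ι (T a)) ↔ tbq 102 (cl clT6 a) = true)
    {π : N[M.V] →* M24} (P : PX M.V (fun a => ι (T a)) π) {κ : M24 →* N[M.V]} (hκ : ∀ p, π (κ p) = p) :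
    MS (ι z) M.V π κ fun X => ι (T (tv (mask X))) := by
  have tet : ∀ X : Finset GolayPt, X.card = 4 → ∃ n : N[M.V], (n : G) * ι z * (n : G)⁻¹ = ι (T (tv (mask X))) :=
    fun X hX => by
      obtain ⟨p, hp, e⟩ := trans_sets (card_X0.trans hX.symm) (by rw [card_X0]; norm_num)
      have := P.conj (κ ⟨p, hp⟩) X0 (by rw [card_X0]; decide)
      rw [hκ, tv_X0, M24_smul_def, e, D.Tz] at this
      exact ⟨_, this⟩
  refine ⟨P.co.tv_mul, fun X => P.co.mem _, fun v hv => ?_, P.co.tv_one, M.card_V, P.conj, P.ker_iff M.cent_V, hκ,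
    fun X hX => ?_, fun X hX => ?_, fun X Y hX hY x hx => ?_,
    fun F h1 h2 h3 => M.eq_V_of_norm (sq_of_elem h2) h3.ge h1⟩
  · obtain ⟨a, ha, rfl⟩ := P.co.surj v hv
    obtain ⟨X, hX, rfl⟩ := exists_tv ha
    exact ⟨X, hX, rfl⟩
  · obtain ⟨n, e⟩ := tet X hX
    exact isConj_iff.2 ⟨n, e⟩
  · rw [hz _ (tv_lt _), (tv_duad hX).2.1]; simp
  · obtain ⟨n, e⟩ := tet X hX
    have h1 := P.conj n⁻¹ Y (by rw [hY]; decide)
    have h2 := tv_duad (Y := π n⁻¹ • Y) (by rwa [card_smul24])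
    obtain ⟨-, b2, h, k, b3, b4⟩ := D.orb orbC6 (tv_lt (mask (π n⁻¹ • Y)))
    obtain ⟨w, hw⟩ := M.surj ((n : G)⁻¹ * x * n) (by
      have := mem_cent1.1 hx.1
      rw [← e] at this
      calc _ = (n : G)⁻¹ * (x * (n * ι z * (n : G)⁻¹)) * n := by group
        _ = _ := by rw [this]; group)
    have h3 : h⁻¹ * w * h * T (rep (cl clT6 (tv (mask (π n⁻¹ • Y))))) =
        T (rep (cl clT6 (tv (mask (π n⁻¹ • Y))))) * (h⁻¹ * w * h) := by
      have h4 : w * T (tv (mask (π n⁻¹ • Y))) = T (tv (mask (π n⁻¹ • Y))) * w := M.inj (by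
        have := mem_cent1.1 hx.2
        rw [map_mul, map_mul, hw, ← h1]
        calc _ = (n : G)⁻¹ * (x * ι (T (tv (mask Y)))) * n := by simp [mul_assoc]
          _ = _ := by rw [this]; simp [mul_assoc])
      have h5 := (b3 _ b2).1
      rw [b4] at h5
      rw [← h5] at h4
      generalize T (rep (cl clT6 (tv (mask (π n⁻¹ • Y))))) = t at h4 ⊢
      calc _ = h⁻¹ * (w * (h * t * h⁻¹)) * h := by group
        _ = _ := by rw [h4]; group
    have h6 : Λ (h⁻¹ * w * h) ∈ NV := by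
      rcases h2.2.2 with e | e <;> rw [e] at h3
      · rw [show rep 3 = 20 from rfl, D.Ts 20 (by norm_num)] at h3
        exact mem_NV_of_fix20 (M.mem _) (M.comm_s (by norm_num) h3).1
      · have h7 : Λ (T 64) = w0 := gcR.inj (by rw [D.ΛT 64 (by norm_num), rc_w0]; decide +kernel)
        refine mem_NV_of_comm (M.mem _) w0_mem w0_ne (congrArg Prod.snd (?_ : _ * w0 = w0 * _))
        rw [← h7, ← map_mul, ← map_mul]; exact congrArg Λ h3
    have h7 := P.co.act_norm (b3.map ι)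
    have h8 := mul_mem (mul_mem n.2 (mul_mem (mul_mem h7 (M.mem_norm_V.2 h6)) (inv_mem h7))) (inv_mem n.2)
    simp only [map_mul, map_inv, hw] at h8
    simpa [mul_assoc] using h8

end GM

/-- All the data on a group of type `J₄`. -/
structure JD {G H : Type*} [Group G] [Group H] {ι : H →* G} {z ω : H} {s : ℕ → H} {Λ : H →* R} (M : GM ι z ω s Λ)
    (y g : H) (T : ℕ → H) (π : N[M.V] →* M24) (κ : M24 →* N[M.V]) : Prop where
  vc : VC M.toHM y g T 6
  cls : ∀ a < 2048, IsConj (ι z) (ι (T a)) ↔ tbq 102 (cl clT6 a) = true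
  px : PX M.V (fun a => ι (T a)) π
  ms : MS (ι z) M.V π κ fun X => ι (T (tv (mask X)))
  gg : g * g = 1

theorem GM.exists_jd {G H : Type*} [Group G] [Group H] {ι : H →* G} {z ω : H} {s : ℕ → H} {Λ : H →* R}
    (M : GM ι z ω s Λ) [Finite G] [IsSimpleGroup G] (hG : ¬ IsMulCommutative G) : ∃ y g T π κ, JD M y g T π κ := by
  have := M.finH
  obtain ⟨y, g, T, f, D⟩ := M.exists_vc
  obtain ⟨rfl, hz⟩ := M.fusion D hG
  obtain ⟨π, P⟩ := (M.coV D).exists_px hz
  obtain ⟨κ, hκ⟩ := M.exists_sec D hz P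
  exact ⟨y, g, T, π, κ, D, hz, P, M.ms_of D hz P hκ, M.g_sq D P (M.pi_surj D hz P)⟩

theorem exists_ms {G : Type*} [Group G] [Finite G] [IsSimpleGroup G] (hG : ¬ IsMulCommutative G) {z : G}
    (hJ : IsOfJankoFourTypeAt z) {V : Subgroup G} (hV : IsElementaryAbelian 2 V) (hc : Nat.card V = 2 ^ 11) :
    ∃ π κ T, MS z V π κ T := by
  obtain ⟨P, hJ⟩ := hJ
  obtain ⟨ω, s, Λ, M, -⟩ := GM.of_type hJ
  obtain ⟨y, g, T, π, κ, J⟩ := M.exists_jd hG
  obtain ⟨x, hx⟩ := M.conj_eq_V (sq_of_elem hV) hc.ge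
  obtain rfl := conj_eq_iff.1 hx
  obtain ⟨π', κ', T', h, -⟩ := J.ms.conj_ x⁻¹
  exact ⟨_, _, _, h⟩

end Cfsg.Agent.J4
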