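import Cfsg.Agent.J4.Rep2
import Cfsg.Agent.J4.AutM22
import Cfsg.Agent.M24.Stabs

/-!
# The model group and the duad stabiliser
-/

set_option autoImplicit false

namespace Cfsg.Agent.J4

open Cfsg.Agent.M24
open scoped Pointwise

def chD_t0 : T := (.node (.node .nil (nat_lit 0) (nat_lit 4) (nat_lit 0x5883388a1c8f5140b46cd317aed7) .nil)
  (nat_lit 23) (nat_lit 0) (nat_lit 0xbdab49ca307b9ac5a928398a418820) .nil)
def chD_l0 : Lvl := ⟨nat_lit 23, [nat_lit 0xbd6717b56939461b52507314831040, nat_lit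
  0xbba8ab116d7c52899d90286a219a40, nat_lit 0xbd990592651c695724ea409a67c820, nat_lit
  0x5883388a1c8f5140b46cd317aed7], [nat_lit 0, nat_lit 0, nat_lit 0, nat_lit 0], chD_t0⟩
def chD_t1 : T := (.node .nil (nat_lit 0) (nat_lit 0) (nat_lit 0xbdab49ca307b9ac5a928398a418820) .nil)
def chD_l1 : Lvl := ⟨nat_lit 0, [nat_lit 0xbd429b21ea32e332c9d48106c3b440, nat_lit
  0xbbac961e0a5a0829b4a61be32a06a0], [nat_lit 97, nat_lit 132707], chD_t1⟩
def chD_t2 : T := (.node (.node (.node (.node (.node .nil (nat_lit 1) (nat_lit 0) (nat_lit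
  0xbdab49ca307b9ac5a928398a418820) .nil) (nat_lit 2) (nat_lit 16) (nat_lit 0xbbac961e0a5a0829b4a61be32a06a0)
  .nil) (nat_lit 3) (nat_lit 50690) (nat_lit 0xb96b01b9565bd8d946664128708920) (.node (.node .nil (nat_lit 4)
  (nat_lit 65) (nat_lit 0xbcecb4bdc28b0e468e548290129aa0) .nil) (nat_lit 5) (nat_lit 16464) (nat_lit
  0xba4467c6832b576955109902a3b980) .nil)) (nat_lit 6) (nat_lit 2128) (nat_lit
  0xbc8ca8b96541db37da82486a383080) (.node (.node (.node .nil (nat_lit 7) (nat_lit 2577) (nat_lit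
  0xbceca621a5809349448e0d56638de0) .nil) (nat_lit 8) (nat_lit 2562) (nat_lit
  0xbd4c581ed27a26d72e2110d4923280) .nil) (nat_lit 9) (nat_lit 50705) (nat_lit
  0xbb15413db01a0e9b4c323163571160) (.node (.node .nil (nat_lit 10) (nat_lit 80) (nat_lit
  0xbd188314674a9f5205d15b45095a60) .nil) (nat_lit 11) (nat_lit 1584) (nat_lit
  0xba44fac08e3d16509a538b503b2980) .nil))) (nat_lit 12) (nat_lit 528) (nat_lit
  0xba1c510d4d99a416122fa2e074d6c0) (.node (.node (.node (.node .nil (nat_lit 13) (nat_lit 2) (nat_lit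
  0xbb272240436d02649d0a2c5cf5d6c0) .nil) (nat_lit 14) (nat_lit 545) (nat_lit
  0xb89b01cce660515249c5a256f55a20) .nil) (nat_lit 15) (nat_lit 66) (nat_lit 0xb989078eab0cad14154770a8d4cd80)
  (.node (.node .nil (nat_lit 16) (nat_lit 2576) (nat_lit 0xbaa8eaace12461633c4d9246544d80) .nil) (nat_lit 17)
  (nat_lit 514) (nat_lit 0xb898792834226af28ccd8c10b9d9c0) .nil)) (nat_lit 18) (nat_lit 2081) (nat_lit
  0xbdaa56850e54c698896c7d247810c0) (.node (.node (.node .nil (nat_lit 19) (nat_lit 49) (nat_lit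
  0xb899608d046a4d53b9f484e4b89540) .nil) (nat_lit 20) (nat_lit 17457) (nat_lit
  0xbc6c16c1337ad825148e9568331d00) .nil) (nat_lit 21) (nat_lit 1) (nat_lit 0xbd423590b1359537c28e9212d3b040)
  (.node .nil (nat_lit 22) (nat_lit 17) (nat_lit 0xb844ead0d2215f61a169530f3845a0) .nil))))
def chD_l2 : Lvl := ⟨nat_lit 1, [nat_lit 0xbbac961e0a5a0829b4a61be32a06a0, nat_lit
  0xb844ead0d2215f61a169530f3845a0], [nat_lit 2, nat_lit 33], chD_t2⟩
def chD_t3 : T := (.node (.node (.node (.node (.node .nil (nat_lit 2) (nat_lit 0) (nat_lit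
  0xbdab49ca307b9ac5a928398a418820) .nil) (nat_lit 3) (nat_lit 65) (nat_lit 0xb8e353bd142c88e335305599312c20)
  .nil) (nat_lit 4) (nat_lit 2) (nat_lit 0xba86c916cf33a8d5c4953c26242420) (.node (.node .nil (nat_lit 5)
  (nat_lit 80) (nat_lit 0xb9d5371a055b5f148e8c95448b1020) .nil) (nat_lit 6) (nat_lit 16913) (nat_lit
  0xba0b21b2d47aaa44cda6709703c420) .nil)) (nat_lit 7) (nat_lit 82480) (nat_lit
  0xbca066956e4cea74322f15a8a19020) (.node (.node (.node .nil (nat_lit 8) (nat_lit 2097) (nat_lit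
  0xba20461db6a49d530d62515e98cc20) .nil) (nat_lit 9) (nat_lit 1) (nat_lit 0xbd5483c06d94d2e7b046b468522c20)
  .nil) (nat_lit 10) (nat_lit 33857) (nat_lit 0xb948cac226436871896972a767c820) (.node .nil (nat_lit 11)
  (nat_lit 16) (nat_lit 0xb9ec573cd25b20a155b49a0838a420) .nil))) (nat_lit 12) (nat_lit 1058) (nat_lit
  0xbb8b36a15019cc29128caa6cf8ac20) (.node (.node (.node (.node .nil (nat_lit 13) (nat_lit 33) (nat_lit
  0xba986b348981c5393971a8d142bc20) .nil) (nat_lit 14) (nat_lit 33872) (nat_lit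
  0xbd5d638d2890a04594d36b1f155020) .nil) (nat_lit 15) (nat_lit 528) (nat_lit
  0xbcce462d0f12a554da057507133420) (.node (.node .nil (nat_lit 16) (nat_lit 1057) (nat_lit
  0xbb1d1aa4a26d96784de3510c8a4820) .nil) (nat_lit 17) (nat_lit 2081) (nat_lit
  0xbc5b05504479d322b9761a2ac99820) .nil)) (nat_lit 18) (nat_lit 2562) (nat_lit
  0xb8ed1308ebab66f4c10a915c465020) (.node (.node (.node .nil (nat_lit 19) (nat_lit 2577) (nat_lit
  0xbc18f138752b63349c9692cd452020) .nil) (nat_lit 20) (nat_lit 1073) (nat_lit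
  0xb9222459c349e66929e5ac1ab65020) .nil) (nat_lit 21) (nat_lit 2082) (nat_lit
  0xbb44e7b065b4aa432271550eb82420) (.node .nil (nat_lit 22) (nat_lit 66609) (nat_lit
  0xb8ac9aa9c821e502c4d31be8b6b020) .nil))))
def chD_l3 : Lvl := ⟨nat_lit 2, [nat_lit 0xb9ec573cd25b20a155b49a0838a420, nat_lit
  0xbc50d2cd46839945d8433be49a9020], [nat_lit 0x42021082108831, nat_lit 0x8210882280821], chD_t3⟩
def chD_t4 : T := (.node (.node (.node (.node (.node .nil (nat_lit 3) (nat_lit 0) (nat_lit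
  0xbdab49ca307b9ac5a928398a418820) .nil) (nat_lit 4) (nat_lit 2) (nat_lit 0xbc6c86d52e5bca7332532428350820)
  .nil) (nat_lit 5) (nat_lit 34) (nat_lit 0xbb646628b69ba0f4d4f45a06488820) (.node (.node .nil (nat_lit 6)
  (nat_lit 1584) (nat_lit 0xba2267288cada5479e6928dab80820) .nil) (nat_lit 7) (nat_lit 66) (nat_lit
  0xba6332da4f32e8481ead1b90a60820) .nil)) (nat_lit 8) (nat_lit 49) (nat_lit 0xba8f031649b2291711a3acd8f58820)
  (.node (.node (.node .nil (nat_lit 9) (nat_lit 1089) (nat_lit 0xbaab132e14735f26146899ec920820) .nil)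
  (nat_lit 10) (nat_lit 17) (nat_lit 0xbd645426c67426a78e3462da720820) .nil) (nat_lit 11) (nat_lit 80)
  (nat_lit 0xbbced3459422d251da0eace4a40820) (.node .nil (nat_lit 12) (nat_lit 561) (nat_lit
  0xbc92da46ab81903712c553e6c38820) .nil))) (nat_lit 13) (nat_lit 1073) (nat_lit
  0xbc5e84c0e59186db2d84552ae98820) (.node (.node (.node (.node .nil (nat_lit 14) (nat_lit 35345) (nat_lit
  0xbbda7b21d498d3259aac810aa88820) .nil) (nat_lit 15) (nat_lit 2128) (nat_lit
  0xbac85824e819a54545cfb36ac98820) .nil) (nat_lit 16) (nat_lit 1104) (nat_lit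
  0xbb9ec4b6a35ccb024916550f130820) (.node .nil (nat_lit 17) (nat_lit 560) (nat_lit
  0xbc1487d46d63ad33c9664d22428820) .nil)) (nat_lit 18) (nat_lit 2113) (nat_lit
  0xbd8ec98e8d5a4912c90e355f050820) (.node (.node (.node .nil (nat_lit 19) (nat_lit 33) (nat_lit
  0xb9e241bd86b4aaaa36097151358820) .nil) (nat_lit 20) (nat_lit 1) (nat_lit 0xbc943a1da8759959c4a67a60b20820)
  .nil) (nat_lit 21) (nat_lit 545) (nat_lit 0xba4642b27485552459ab744cf38820) (.node .nil (nat_lit 22)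
  (nat_lit 17457) (nat_lit 0xb8d865b531ad0b681e649214e78820) .nil))))
def chD_l4 : Lvl := ⟨nat_lit 3, [nat_lit 0xbb9935d9453be2d254d092123a0820, nat_lit
  0xbd645426c67426a78e3462da720820], [nat_lit 0x1404108422, nat_lit 0x1080a10842110882284610], chD_t4⟩
def chD_t5 : T := (.node (.node (.node (.node (.node .nil (nat_lit 4) (nat_lit 0) (nat_lit
  0xbdab49ca307b9ac5a928398a418820) .nil) (nat_lit 6) (nat_lit 34) (nat_lit 0xb9e086be3593a6952d94b10a618820)
  .nil) (nat_lit 7) (nat_lit 49) (nat_lit 0xbbec66acb4ac52c41e72241ca18820) (.node .nil (nat_lit 8) (nat_lit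
  16) (nat_lit 0xb990f640a75466db512492dd518820) .nil)) (nat_lit 9) (nat_lit 98) (nat_lit
  0xb9d367add3814d263488a2a3518820) (.node (.node .nil (nat_lit 10) (nat_lit 50) (nat_lit
  0xba0d6aa4b26c56a792143cdcc18820) .nil) (nat_lit 11) (nat_lit 17) (nat_lit 0xba8cb9d9cf4152d24990a9e3418820)
  (.node .nil (nat_lit 12) (nat_lit 82) (nat_lit 0xbae957b6289ba44b1cd0524ac18820) .nil))) (nat_lit 13)
  (nat_lit 3) (nat_lit 0xbb54c79cb044486aae534d1d618820) (.node (.node (.node .nil (nat_lit 15) (nat_lit 65)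
  (nat_lit 0xbd17661a2a23933ac1a7448af18820) .nil) (nat_lit 16) (nat_lit 514) (nat_lit
  0xbc255651c4395a979a6a5a23618820) (.node .nil (nat_lit 18) (nat_lit 593) (nat_lit
  0xbd58a410b37c4f66a6905c9c618820) .nil)) (nat_lit 19) (nat_lit 97) (nat_lit
  0xbd6cb22627638cfa224a834b318820) (.node (.node .nil (nat_lit 20) (nat_lit 2) (nat_lit
  0xbc8e49a8a884589a59af355cb18820) .nil) (nat_lit 21) (nat_lit 1) (nat_lit 0xbac8a69dd2a159333d3585a2818820)
  (.node .nil (nat_lit 22) (nat_lit 18) (nat_lit 0xb9166425d0996d4554ef9322d18820) .nil))))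
def chD_l5 : Lvl := ⟨nat_lit 4, [nat_lit 0xb990f640a75466db512492dd518820, nat_lit
  0xba8cb9d9cf4152d24990a9e3418820, nat_lit 0xb9166425d0996d4554ef9322d18820], [nat_lit 0x45010450, nat_lit
  0x431084421042280841, nat_lit 0x2188422], chD_t5⟩
def chD_t6 : T := (.node (.node .nil (nat_lit 5) (nat_lit 0) (nat_lit 0xbdab49ca307b9ac5a928398a418820) .nil)
  (nat_lit 14) (nat_lit 1) (nat_lit 0xbb5135bdd63160aa1ea964a2418820) (.node .nil (nat_lit 17) (nat_lit 16)
  (nat_lit 0xbc12ba18ad946c79b11553dc418820) .nil))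
def chD_l6 : Lvl := ⟨nat_lit 5, [nat_lit 0xbc12ba18ad946c79b11553dc418820], [nat_lit 0x88638c84388443],
  chD_t6⟩
def chD : List Lvl := [chD_l0, chD_l1, chD_l2, chD_l3, chD_l4, chD_l5, chD_l6]

theorem chD_chk : chkM chD = true := by decide +kernel

theorem mask_duad : mask ({none, some 0} : Finset GolayPt) = 8388609 := by decide +kernel

theorem gens_chD : gensOf chD = [rp kX, rp kY, rp kU, rp kV] := by decide +kernel

theorem Dd_eq' : Dd = gen mcode (gensOf chD) :=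
  stab_of_chk acSM trivial chD_chk mask_duad (n := 276)
    (by rw [ncard_orbit_small (by decide)]; decide +kernel) (by decide +kernel)

theorem Dd_eq : Dd = gen mcode [rp kX, rp kY, rp kU, rp kV] := gens_chD ▸ Dd_eq'

theorem card_Dd : Nat.card Dd = 887040 := by
  rw [Dd_eq']; exact card_of_chk chD_chk (by decide +kernel)

theorem lo_rc (r : R) : lo (rc r) = r.1.val.c := by
  have e : rc r = 2 ^ 144 * (2 ^ 144 * mcode r.2 + (r.1⁻¹ : Mtˣ).val.c) + r.1.val.c := by
    unfold rc ucode; rw [show 288 = 144 + 144 from rfl, pow_add]; ring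
  rw [e]; exact and_add r.1.val.lt _

theorem eq_of_parts {r : R} {k : ℕ} (hk : ∃ s, rc s = k) (h1 : r.1.val.c = lo k) (h2 : mcode r.2 = rp k) :
    rc r = k := by
  obtain ⟨s, rfl⟩ := hk
  rw [lo_rc] at h1
  rw [rp_rc] at h2
  exact congrArg rc (Prod.ext (Units.ext (Mt.ext h1)) (gcM.inj h2))

theorem mcode_relt {k : ℕ} (hk : isR k = true) : mcode (relt k).2 = rp k := by
  rw [← rp_rc, rc_relt hk]

theorem mem_Lm_of {k : ℕ} (hk : k ∈ gL) : relt k ∈ Lm :=
  mem_gen_of_mem (by rw [rc_relt' (valid_gL k hk)]; exact hk)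

/-- The central element of order three. -/
noncomputable def rW : R := relt kW
theorem rc_rW : rc rW = kW := rc_relt (by decide +kernel)
theorem rW_mem : rW ∈ Lm := mem_Lm_of (by simp [gL])
theorem rc_rW2 : rc (rW * rW) = kW2 := by rw [gcR.code_mul, rc_rW]; decide +kernel
theorem rW3 : rW * rW * rW = 1 := gcR.inj (by rw [gcR.code_mul, rc_rW2, rc_rW, gcR.code_one]; decide +kernel)
theorem rW_ne : rW ≠ rW * rW := fun h => absurd (congrArg rc h) (by rw [rc_rW2, rc_rW]; decide +kernel)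
theorem rW_snd : rW.2 = 1 := gcM.inj (by rw [← rp_rc, rc_rW, gcM.code_one]; decide +kernel)

theorem ou_rc (r : R) : ou (rc r) = if r.2 • (some 0 : GolayPt) = some 0 then 0 else 1 := by
  have := acM.ap_code r.2 (Set.mem_univ (some 0 : GolayPt))
  change ap _ 0 = _ at this
  rw [ou, rp_rc, bif'_eq]
  change (if Nat.beq (ap _ 0) 0 = true then 0 else 1) = _
  simp only [this, Nat.beq_eq]
  exact if_congr (idx_inj.eq_iff (b := some 0)) rfl rfl

theorem Lm_cases {r : R} (hr : r ∈ Lm) :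
    (r.2 • (some 0 : GolayPt) = some 0 ∧ r.2 • (none : GolayPt) = none ∧ r * rW = rW * r) ∨
    (r.2 • (some 0 : GolayPt) = none ∧ r.2 • (none : GolayPt) = some 0 ∧ r * rW = rW * rW * r) := by
  induction hr using Subgroup.closure_induction with
  | mem x hx =>
    have h : lall gL (fun k => bor
        (band (band (Nat.beq (ap (rp k) 0) 0) (Nat.beq (ap (rp k) 23) 23)) (Nat.beq (rmul k kW) (rmul kW k)))
        (band (band (Nat.beq (ap (rp k) 0) 23) (Nat.beq (ap (rp k) 23) 0))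
          (Nat.beq (rmul k kW) (rmul kW2 k)))) = true := by decide +kernel
    have h1 := (lall_iff _ _).1 h _ hx
    have a1 := acM.ap_code x.2 (Set.mem_univ (some 0 : GolayPt))
    have a2 := acM.ap_code x.2 (Set.mem_univ (none : GolayPt))
    change ap _ 0 = _ at a1
    change ap _ 23 = _ at a2
    rw [← rc_rW, ← rc_rW2, ← gcR.code_mul, ← gcR.code_mul, ← gcR.code_mul, rp_rc, a1, a2] at h1
    simp only [bor_eq, band_eq, Bool.or_eq_true, Bool.and_eq_true, Nat.beq_eq, gcR.inj.eq_iff] at h1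
    exact h1.imp (fun h => ⟨idx_inj h.1.1, idx_inj h.1.2, h.2⟩) fun h => ⟨idx_inj h.1.1, idx_inj h.1.2, h.2⟩
  | one => simp
  | mul x y _ _ h1 h2 =>
    simp only [Prod.snd_mul, mul_smul, mul_assoc]
    rcases h1 with ⟨a, b, c⟩ | ⟨a, b, c⟩ <;> rcases h2 with ⟨d, e, f⟩ | ⟨d, e, f⟩
    · left; rw [d, e, a, b, f, ← mul_assoc, c, mul_assoc]; simp
    · right; rw [d, e, a, b, f, ← mul_assoc, ← mul_assoc, c, mul_assoc rW, c]; simp [mul_assoc]
    · right; rw [d, e, a, b, f, ← mul_assoc, c]; simp [mul_assoc]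
    · left; rw [d, e, a, b, f, ← mul_assoc, ← mul_assoc, c, mul_assoc _ x, c, ← mul_assoc, ← mul_assoc,
        ← mul_assoc, rW3]; simp [mul_assoc]
  | inv x _ h1 =>
    simp only [Prod.snd_inv, inv_smul_eq_iff]
    rcases h1 with ⟨a, b, c⟩ | ⟨a, b, c⟩
    · left; exact ⟨a.symm, b.symm, by rw [inv_mul_eq_iff_eq_mul, ← mul_assoc, c, mul_inv_cancel_right]⟩
    · right
      refine ⟨b.symm, a.symm, ?_⟩
      rw [inv_mul_eq_iff_eq_mul, ← mul_assoc, ← mul_assoc, c, mul_assoc _ x, c, ← mul_assoc, ← mul_assoc,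
        rW3]; simp

theorem snd_mem_Dd {r : R} (hr : r ∈ Lm) : r.2 ∈ Dd := by
  change r.2 • ({none, some 0} : Finset GolayPt) = _
  rw [Finset.smul_finset_insert, Finset.smul_finset_singleton]
  rcases Lm_cases hr with ⟨a, b, -⟩ | ⟨a, b, -⟩ <;> rw [a, b]
  exact Finset.pair_comm _ _

theorem ou_cases {r : R} (hr : r ∈ Lm) :
    (ou (rc r) = 0 ∧ r * rW = rW * r) ∨ (ou (rc r) = 1 ∧ r * rW = rW * rW * r) := by
  rw [ou_rc]
  rcases Lm_cases hr with ⟨a, -, c⟩ | ⟨a, -, c⟩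
  · exact Or.inl ⟨if_pos a, c⟩
  · exact Or.inr ⟨if_neg (by rw [a]; simp), c⟩

theorem ou_mul {r s : R} (hr : r ∈ Lm) (hs : s ∈ Lm) : ou (rc (r * s)) = ou (rc r) ^^^ ou (rc s) := by
  simp only [ou_rc, Prod.snd_mul, mul_smul]
  rcases Lm_cases hr with ⟨a, b, -⟩ | ⟨a, b, -⟩ <;> rcases Lm_cases hs with ⟨d, e, -⟩ | ⟨d, e, -⟩ <;>
    simp [a, b, d]

theorem lin_WW (a : ℕ) : lin kW (lin kW a) = lin kW2 a := by rw [← rc_rW2, lin_rc_mul, rc_rW]

theorem xor_W {a : ℕ} (ha : a < 4096) : a ^^^ lin kW a ^^^ lin kW2 a = 0 := by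
  have h : idm ^^^ lo kW ^^^ lo kW2 = 0 := by decide +kernel
  have := congrArg (lin · a) h
  simp only [xor_lin, lin_lo, lin_idm ha] at this
  rw [this]; simpa using xor_lin 0 0 a

theorem Qf_W {a : ℕ} (ha : a < 4096) : Qf (lin kW a) = Qf a := by rw [← rc_rW, Qf_lin rW_mem ha]
theorem Bf_W {a b : ℕ} (ha : a < 4096) (hb : b < 4096) : Bf (lin kW a) (lin kW b) = Bf a b := by
  rw [← rc_rW, Bf_lin rW_mem ha hb]

theorem Bf_W_self {a : ℕ} (ha : a < 4096) : Bf (lin kW a) a = Qf a := by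
  have e : lin kW a ^^^ a = lin kW2 a := by
    have := xor_W ha
    rw [Nat.xor_eq_zero_iff] at this
    rw [← this, Nat.xor_comm]
  rw [Bf_eq, e, ← lin_WW, Qf_W (lin_lt _ _), Qf_W ha]; simp

theorem be_self {a : ℕ} (ha : a < 4096) : be a a = Qf a := by
  have e : lin kW2 a = lin kW a ^^^ a := by
    have := xor_W ha
    rw [Nat.xor_eq_zero_iff] at this
    rw [← this, Nat.xor_comm]
  rw [be, e, Bf_xor_left, Bf_self, Bf_W_self ha]; simp

/-- Lifting the generators and relations of the duad stabiliser through a normal subgroup of order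
dividing three. -/
theorem exists_gens {Q : Type*} [Group Q] {w : Q} {θ : Q →* M24} (hw : w ^ 3 = 1)
    (hk : ∀ g, θ g = 1 ↔ g = 1 ∨ g = w ∨ g = w * w) (hr : θ.range = Dd) (hl : ∃ l, l * w ≠ w * l) :
    ∃ x y u v : Q, mcode (θ x) = rp kX ∧ mcode (θ y) = rp kY ∧ mcode (θ u) = rp kU ∧
      mcode (θ v) = rp kV ∧ x ^ 11 = 1 ∧ x ≠ 1 ∧ y ^ 5 = 1 ∧ w * x = x * w ∧ w * y = y * w ∧
      y * x = x ^ 3 * y ∧ u * w = w * u ∧ u * y = y * y * u ∧ u * u * (u * u) = 1 ∧
      ((x ^ 4 * u) ^ 5 = 1 ∨ (x ^ 4 * u) ^ 5 = w ∨ (x ^ 4 * u) ^ 5 = w * w) ∧ v * w = w * w * v ∧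
      x * v * x = v ∧ v * y = y * v ∧ v * u = u * v ∧ v * v = 1 := by
  have hθw : θ w = 1 := (hk w).2 (by simp)
  have k3 : ∀ g, θ g = 1 → g ^ 3 = 1 ∧ Commute g w := fun g hg => by
    rcases (hk g).1 hg with rfl | rfl | rfl
    · simp
    · exact ⟨hw, Commute.refl _⟩
    · exact ⟨by rw [← pow_two, ← pow_mul, mul_comm, pow_mul, hw, one_pow], (Commute.refl w).mul_left (Commute.refl w)⟩
  have cw : ∀ g, g * w = w * g ∨ g * w = w * w * g := fun g => by
    rcases (hk (g * w * g⁻¹)).1 (by simp [hθw]) with h | h | h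
    · left; have : w = 1 := by simpa using h
      simp [this]
    · left; rw [← h]; simpa using h
    · right; rw [← h]; simp
  have odd : ∀ g k, θ g ^ (2 * k + 1) = 1 → Commute g w := fun g k h => by
    have h1 := (k3 (g ^ (2 * k + 1)) (by rw [map_pow, h])).2
    have h2 : Commute (g ^ 2) w := by
      rcases cw g with h | h
      · exact Commute.pow_left h 2
      · change g ^ 2 * w = w * g ^ 2
        rw [pow_two, mul_assoc, h, ← mul_assoc, ← mul_assoc, h, mul_assoc _ g, h, ← mul_assoc, ← mul_assoc,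
          show w * w * w = 1 by rw [← hw, pow_succ, pow_two]]; simp [mul_assoc]
    rw [pow_succ, pow_mul] at h1
    have := (h2.pow_left k).inv_left.mul_left h1
    rwa [inv_mul_cancel_left] at this
  have lift : ∀ c ∈ [rp kX, rp kY, rp kU, rp kV], ∃ g, mcode (θ g) = c := fun c hc => by
    obtain ⟨d, hd⟩ := (chkM_sound chD_chk).1 c (gens_chD ▸ hc)
    obtain ⟨g, rfl⟩ : d ∈ θ.range := by rw [hr, Dd_eq]; exact mem_gen_of_mem (hd ▸ hc)
    exact ⟨g, hd⟩
  have pw : ∀ g n m, cpow mul one (mcode (θ g)) n = one → (g ^ (3 * m)) ^ n = 1 := fun g n m h => by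
    rw [gcM.cpow_code, ← gcM.code_one, ← map_pow] at h
    rw [← pow_mul, mul_comm, ← mul_assoc, pow_mul, pow_mul, (k3 _ (gcM.inj h)).1, one_pow]
  have eq : ∀ a b n, mcode (θ a) = mcode (θ b) → Commute b w → a ^ n = 1 → b ^ n = 1 → Nat.gcd n 3 = 1 →
      a = b := fun a b n h hb h1 h2 h3 => by
    have h4 : θ (b⁻¹ * a) = 1 := by rw [map_mul, map_inv, gcM.inj h, inv_mul_cancel]
    have h5 : Commute b (b⁻¹ * a) := by
      rcases (hk _).1 h4 with e | e | e <;> rw [e]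
      exacts [Commute.one_right _, hb, hb.mul_right hb]
    have h6 := h5.mul_pow n
    rw [mul_inv_cancel_left, h1, h2, one_mul] at h6
    have := pow_gcd_eq_one.2 ⟨h6.symm, (k3 _ h4).1⟩
    rw [h3, pow_one, inv_mul_eq_one] at this
    exact this.symm
  obtain ⟨x0, hx0⟩ := lift (rp kX) (by simp)
  obtain ⟨y0, hy0⟩ := lift (rp kY) (by simp)
  obtain ⟨u0, hu0⟩ := lift (rp kU) (by simp)
  obtain ⟨v, hv⟩ := lift (rp kV) (by simp)
  have x11 := pw x0 11 4 (by rw [hx0]; decide +kernel)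
  have y5 := pw y0 5 2 (by rw [hy0]; decide +kernel)
  have u4 := pw u0 4 3 (by rw [hu0]; decide +kernel)
  have hx : mcode (θ (x0 ^ (3 * 4))) = rp kX := by rw [map_pow, ← gcM.cpow_code, hx0]; decide +kernel
  have hy : mcode (θ (y0 ^ (3 * 2))) = rp kY := by rw [map_pow, ← gcM.cpow_code, hy0]; decide +kernel
  have hu : mcode (θ (u0 ^ (3 * 3))) = rp kU := by rw [map_pow, ← gcM.cpow_code, hu0]; decide +kernel
  generalize x0 ^ (3 * 4) = x at *
  generalize y0 ^ (3 * 2) = y at *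
  generalize u0 ^ (3 * 3) = u at *
  have cx : Commute x w := odd x 5 (by rw [← map_pow, x11, map_one])
  have cy : Commute y w := odd y 2 (by rw [← map_pow, y5, map_one])
  have hxu : θ ((x ^ 4 * u) ^ 5) = 1 := gcM.inj (by
    rw [map_pow, map_mul, map_pow, ← gcM.cpow_code, gcM.code_mul, ← gcM.cpow_code, hx, hu, gcM.code_one]
    decide +kernel)
  have cu : Commute u w := by
    have := (cx.pow_left 4).inv_left.mul_left (odd (x ^ 4 * u) 2 (by rw [← map_pow, hxu]))
    rwa [inv_mul_cancel_left] at this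
  have nv : ¬ Commute v w := fun cv => by
    obtain ⟨l, hl⟩ := hl
    have h1 : Dd ≤ (Subgroup.centralizer {w}).map θ := by
      rw [Dd_eq]
      refine gen_le fun g hg => ?_
      simp only [List.mem_cons, List.not_mem_nil, or_false] at hg
      rcases hg with e | e | e | e
      · exact ⟨x, Subgroup.mem_centralizer_singleton_iff.2 cx, gcM.inj (hx.trans e.symm)⟩
      · exact ⟨y, Subgroup.mem_centralizer_singleton_iff.2 cy, gcM.inj (hy.trans e.symm)⟩
      · exact ⟨u, Subgroup.mem_centralizer_singleton_iff.2 cu, gcM.inj (hu.trans e.symm)⟩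
      · exact ⟨v, Subgroup.mem_centralizer_singleton_iff.2 cv, gcM.inj (hv.trans e.symm)⟩
    obtain ⟨g, hg, e⟩ := h1 (hr ▸ ⟨l, rfl⟩ : θ l ∈ Dd)
    have h2 := (k3 (g⁻¹ * l) (by rw [map_mul, map_inv, e, inv_mul_cancel])).2
    have := Commute.mul_left (Subgroup.mem_centralizer_singleton_iff.1 hg) h2
    rw [mul_inv_cancel_left] at this
    exact hl this
  have vw := (cw v).resolve_left nv
  have cj : ∀ g a : Q, ∀ n, a ^ n = 1 → (g * a * g⁻¹) ^ n = 1 := fun g a n h => by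
    rw [conj_pow, h]; simp
  refine ⟨x, y, u, v, hx, hy, hu, hv, x11, fun h => ?_, y5, cx.eq.symm, cy.eq.symm, ?_, cu, ?_, ?_,
    (hk _).1 hxu, vw, ?_, ?_, ?_, ?_⟩
  · rw [h, map_one, gcM.code_one] at hx; revert hx; decide +kernel
  · rw [← eq (y * x * y⁻¹) (x ^ 3) 11 (by
      simp only [map_mul, map_inv, map_pow, ← gcM.cpow_code, gcM.code_mul, gcM.code_inv, hx, hy]
      decide +kernel) (cx.pow_left 3) (cj _ _ _ x11) (by rw [← pow_mul, mul_comm, pow_mul, x11, one_pow]) rfl]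
    simp
  · rw [← eq (u * y * u⁻¹) (y * y) 5 (by
      simp only [map_mul, map_inv, gcM.code_mul, gcM.code_inv, hu, hy]
      decide +kernel) (cy.mul_left cy) (cj _ _ _ y5)
        (by rw [← pow_two, ← pow_mul, mul_comm, pow_mul, y5, one_pow]) rfl]
    simp
  · rw [← u4]; simp [pow_succ, mul_assoc]
  · have := eq (v * x * v⁻¹) x⁻¹ 11 (by
      simp only [map_mul, map_inv, gcM.code_mul, gcM.code_inv, hx, hv]
      decide +kernel) cx.inv_left (cj _ _ _ x11) (by rw [inv_pow, x11, inv_one]) rfl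
    rw [mul_inv_eq_iff_eq_mul] at this
    rw [mul_assoc, this]; simp
  · exact mul_inv_eq_iff_eq_mul.1 (eq (v * y * v⁻¹) y 5 (by
      simp only [map_mul, map_inv, gcM.code_mul, gcM.code_inv, hv, hy]
      decide +kernel) cy (cj _ _ _ y5) y5 rfl)
  · exact mul_inv_eq_iff_eq_mul.1 (eq (v * u * v⁻¹) u 4 (by
      simp only [map_mul, map_inv, gcM.code_mul, gcM.code_inv, hv, hu]
      decide +kernel) cu (cj _ _ _ u4) u4 rfl)
  · have h1 : θ (v * v) = 1 := gcM.inj (by rw [map_mul, gcM.code_mul, hv, gcM.code_one]; decide +kernel)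
    have h2 : Commute v (v * v) := (Commute.refl v).mul_right (Commute.refl v)
    rcases (hk _).1 h1 with e | e | e
    · exact e
    · exact absurd (e ▸ h2) nv
    · rw [e] at h2
      have := h2.mul_right h2
      rw [show w * w * (w * w) = w * (w * w * w) by simp [mul_assoc],
        show w * w * w = 1 by rw [← hw, pow_succ, pow_two], mul_one] at this
      exact absurd this nv

end Cfsg.Agent.J4
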