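import Cfsg.Agent.J4.MSe

/-!
# Counting tools: restricted sums, Thompson's order formula, spans of bit vectors, norms
-/

set_option autoImplicit false
set_option linter.unusedSectionVars false
set_option linter.unusedVariables false

namespace Cfsg.Agent.J4

open Cfsg.Agent.M24 Cfsg.Agent.GT Subgroup

section sm

variable {α β : Type*} [Finite α] [Finite β]

open Classical in
/-- The sum of `ψ` over the elements satisfying `P`. -/
noncomputable def sm (P : α → Prop) (ψ : α → ℕ) : ℕ :=
  ∑ a ∈ @Finset.univ α (Fintype.ofFinite α), if P a then ψ a else 0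

open Classical in
/-- Indicator of a proposition. -/
noncomputable def ind1 (p : Prop) : ℕ := if p then 1 else 0

theorem ind1_pos {p : Prop} (h : p) : ind1 p = 1 := if_pos h
theorem ind1_neg {p : Prop} (h : ¬ p) : ind1 p = 0 := if_neg h
theorem ind1_congr {p q : Prop} (h : p ↔ q) : ind1 p = ind1 q := by rw [propext h]
theorem ind1_le (p : Prop) : ind1 p ≤ 1 := by unfold ind1; split_ifs <;> simp

theorem sm_congr {P Q : α → Prop} {ψ φ : α → ℕ} (h : ∀ a, P a ↔ Q a)
    (h' : ∀ a, Q a → ψ a = φ a) : sm P ψ = sm Q φ := by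
  classical
  refine Finset.sum_congr rfl fun a _ => ?_
  by_cases e : Q a
  · rw [if_pos e, if_pos ((h a).2 e), h' a e]
  · rw [if_neg e, if_neg (mt (h a).1 e)]

theorem sm_split (P Q : α → Prop) (ψ : α → ℕ) :
    sm P ψ = sm (fun a => P a ∧ Q a) ψ + sm (fun a => P a ∧ ¬ Q a) ψ := by
  classical
  rw [sm, sm, sm, ← Finset.sum_add_distrib]
  refine Finset.sum_congr rfl fun a _ => ?_
  by_cases e : P a <;> by_cases e' : Q a <;> simp [e, e']

theorem sm_and (P Q : α → Prop) (ψ : α → ℕ) :
    sm (fun a => P a ∧ Q a) ψ = sm P (fun a => ind1 (Q a) * ψ a) := by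
  classical
  refine Finset.sum_congr rfl fun a _ => ?_
  by_cases e : P a <;> by_cases e' : Q a <;> simp [e, e', ind1]

theorem sm_zero {P : α → Prop} {ψ : α → ℕ} (h : ∀ a, P a → ψ a = 0) : sm P ψ = 0 := by
  classical
  refine Finset.sum_eq_zero fun a _ => ?_
  split_ifs with e
  · exact h a e
  · rfl

theorem sm_image {γ : Type*} {P : α → Prop} {ψ : α → ℕ} (S : Finset γ) (f : γ → α)
    (hf : Set.InjOn f S) (h : ∀ a, P a ↔ ∃ c ∈ S, f c = a) : sm P ψ = ∑ c ∈ S, ψ (f c) := by
  classical
  rw [sm, ← Finset.sum_filter, ← Finset.sum_image hf]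
  congr 1
  ext a
  simp [h a]

theorem sm_single (b : α) (ψ : α → ℕ) : sm (fun a => a = b) ψ = ψ b := by
  rw [sm_image (P := fun a => a = b) {b} id (fun _ _ _ _ e => e) (by simp [eq_comm])]
  simp

theorem sm_fiber {γ : Type*} {P : α → Prop} (ψ : α → ℕ) (f : α → γ) (S : Finset γ)
    (h : ∀ a, P a → f a ∈ S) : sm P ψ = ∑ c ∈ S, sm (fun a => P a ∧ f a = c) ψ := by
  classical
  simp only [sm]
  rw [Finset.sum_comm]
  refine Finset.sum_congr rfl fun a _ => ?_
  by_cases e : P a
  · simp [e, h a e]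
  · simp [e]

theorem sm_inj {P : α → Prop} (ψ : α → ℕ) (f : β → α) (hf : Function.Injective f)
    (h : ∀ a, P a → ∃ b, f b = a) : sm P ψ = sm (fun b => P (f b)) fun b => ψ (f b) := by
  classical
  rw [sm_image (Finset.filter (fun b => P (f b)) (@Finset.univ β (Fintype.ofFinite β))) f
    hf.injOn, Finset.sum_filter]
  · rfl
  · intro a
    constructor
    · intro e
      obtain ⟨b, rfl⟩ := h a e
      exact ⟨b, by simpa using e, rfl⟩
    · rintro ⟨b, hb, rfl⟩
      simpa using hb

theorem sm_equiv {P : α → Prop} (ψ : α → ℕ) (e : β ≃ α) :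
    sm P ψ = sm (fun b => P (e b)) fun b => ψ (e b) :=
  sm_inj ψ e e.injective fun a _ => e.surjective a

theorem sm_comm {P : α → Prop} {Q : α → β → Prop} {R : β → Prop} {S : β → α → Prop}
    (ψ : α → β → ℕ) (h : ∀ a b, P a ∧ Q a b ↔ R b ∧ S b a) :
    sm P (fun a => sm (Q a) (ψ a)) = sm R fun b => sm (S b) fun a => ψ a b := by
  classical
  have e : ∀ {γ : Type _} [Finite γ] (p : Prop) (q : γ → Prop) (φ : γ → ℕ),
      (if p then sm q φ else 0) = sm (fun c => p ∧ q c) φ := by
    intro γ _ p q φ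
    split_ifs with e
    · exact sm_congr (fun c => by simp [e]) fun _ _ => rfl
    · exact (sm_zero fun c k => absurd k.1 e).symm
  have e' : ∀ {γ : Type _} [Finite γ] (p : Prop) (q : γ → Prop) (φ : γ → ℕ),
      (if p then sm q φ else 0) = sm (fun c => p ∧ q c) φ := by
    intro γ _ p q φ
    split_ifs with e
    · exact sm_congr (fun c => by simp [e]) fun _ _ => rfl
    · exact (sm_zero fun c k => absurd k.1 e).symm
  rw [sm, sm, Finset.sum_congr rfl fun a _ => e (P a) (Q a) (ψ a),
    Finset.sum_congr rfl fun b _ => e' (R b) (S b) fun a => ψ a b]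
  simp only [sm]
  rw [Finset.sum_comm]
  exact Finset.sum_congr rfl fun b _ => Finset.sum_congr rfl fun a _ => by simp only [h a b]

theorem sm_add (P : α → Prop) (ψ φ : α → ℕ) :
    sm P (fun a => ψ a + φ a) = sm P ψ + sm P φ := by
  classical
  rw [sm, sm, sm, ← Finset.sum_add_distrib]
  refine Finset.sum_congr rfl fun a _ => ?_
  split_ifs <;> simp

theorem sm_mul (P : α → Prop) (c : ℕ) (ψ : α → ℕ) : sm P (fun a => c * ψ a) = c * sm P ψ := by
  classical
  rw [sm, sm, Finset.mul_sum]
  refine Finset.sum_congr rfl fun a _ => ?_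
  split_ifs <;> simp

theorem sm_const {P : α → Prop} {ψ : α → ℕ} {c : ℕ} (h : ∀ a, P a → ψ a = c) :
    sm P ψ = c * sm P fun _ => 1 := by
  rw [← sm_mul]
  exact sm_congr (fun _ => Iff.rfl) fun a e => by rw [h a e, mul_one]

theorem sm_one (P : α → Prop) : sm P (fun _ => 1) = {a | P a}.ncard := by
  classical
  rw [sm, ← Finset.card_filter, ← Set.ncard_coe_finset]
  congr 1
  ext a
  simp

theorem sm_list {γ : Type*} (P : α → Prop) (l : List γ) (ψ : γ → α → ℕ) :
    sm P (fun a => (l.map fun c => ψ c a).sum) = (l.map fun c => sm P (ψ c)).sum := by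
  induction l with
  | nil => exact sm_zero fun _ _ => rfl
  | cons c l ih => simp only [List.map_cons, List.sum_cons, sm_add, ih]

end sm

section thompson

variable {G : Type*} [Group G] [Finite G]

theorem isConj_conj {x y : G} (g : G) : IsConj x (g * y * g⁻¹) ↔ IsConj x y :=
  ⟨fun k => k.trans (isConj_iff.2 ⟨g⁻¹, by group⟩), fun k => k.trans (isConj_iff.2 ⟨g, rfl⟩)⟩

theorem sm_conj (P : G → Prop) (ψ : G → ℕ) (g : G) :
    sm P ψ = sm (fun b => P (g * b * g⁻¹)) fun b => ψ (g * b * g⁻¹) :=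
  sm_equiv ψ (MulAut.conj g).toEquiv

theorem cls_mul (x : G) : sm (IsConj x) (fun _ => 1) * Nat.card C1[x] = Nat.card G := by
  have := ncard_conj_orbit (⊤ : Subgroup G) x
  rw [top_inf_eq, card_top, mul_comm] at this
  rw [sm_one, ← this]
  congr 2
  ext v
  simp [isConj_iff]

theorem sm_class (x : G) {ψ : G → ℕ} (hψ : ∀ g y, ψ (g * y * g⁻¹) = ψ y) :
    sm (IsConj x) ψ = ψ x * sm (IsConj x) fun _ => 1 :=
  sm_const fun a e => by
    obtain ⟨g, rfl⟩ := isConj_iff.1 e
    exact hψ g x

theorem mem_zpowers_conj {g i x : G} : g * i * g⁻¹ ∈ zpowers (g * x * g⁻¹) ↔ i ∈ zpowers x := by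
  rw [← conj_zpowers, conj_mem_conj]

/-- The number of pairs `(u, v)` in the classes of `z` and `t` with `i ∈ ⟨u v⟩`. -/
noncomputable def tn (z t i : G) : ℕ :=
  sm (IsConj t) fun v => sm (fun u => IsConj z u ∧ i ∈ zpowers (u * v)) fun _ => 1

theorem tn_conj (z t g i : G) : tn z t (g * i * g⁻¹) = tn z t i := by
  rw [tn, sm_conj _ _ g]
  refine sm_congr (fun a => isConj_conj g) fun v _ => ?_
  rw [sm_conj _ _ g]
  refine sm_congr (fun u => and_congr (isConj_conj g) ?_) fun _ _ => rfl
  rw [show g * u * g⁻¹ * (g * v * g⁻¹) = g * (u * v) * g⁻¹ by group, mem_zpowers_conj]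

theorem sq_of_isConj {z u : G} (hz : z * z = 1) (h : IsConj z u) : u * u = 1 := by
  obtain ⟨g, rfl⟩ := isConj_iff.1 h
  calc g * z * g⁻¹ * (g * z * g⁻¹) = g * (z * z) * g⁻¹ := by group
    _ = 1 := by rw [hz]; group

theorem invol_unique {x i j : G} (hi : orderOf i = 2) (hj : orderOf j = 2) (h1 : i ∈ zpowers x)
    (h2 : j ∈ zpowers x) : i = j := by
  classical
  have := Fintype.ofFinite (zpowers x)
  have h := IsCyclic.card_pow_eq_one_le (α := zpowers x) (n := 2) (by norm_num)
  by_contra hne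
  have i1 : (⟨i, h1⟩ : zpowers x) ≠ 1 := fun e => BS.ne_one_of_orderOf_two hi (congrArg Subtype.val e)
  have j1 : (⟨j, h2⟩ : zpowers x) ≠ 1 := fun e => BS.ne_one_of_orderOf_two hj (congrArg Subtype.val e)
  have ij : (⟨i, h1⟩ : zpowers x) ≠ ⟨j, h2⟩ := fun e => hne (congrArg Subtype.val e)
  have : ({1, ⟨i, h1⟩, ⟨j, h2⟩} : Finset (zpowers x)) ⊆ Finset.univ.filter fun a => a ^ 2 = 1 := by
    intro a ha
    simp only [Finset.mem_insert, Finset.mem_singleton] at ha
    rw [Finset.mem_filter]
    refine ⟨Finset.mem_univ _, ?_⟩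
    rcases ha with rfl | rfl | rfl
    · simp
    · exact Subtype.ext (hi ▸ pow_orderOf_eq_one i)
    · exact Subtype.ext (hj ▸ pow_orderOf_eq_one j)
  have := (Finset.card_le_card this).trans h
  rw [Finset.card_eq_three.2 ⟨_, _, _, i1.symm, j1.symm, ij, rfl⟩] at this
  omega

theorem even_orderOf_mul {z t u v : G} (hz : z * z = 1) (ht : t * t = 1) (hnc : ¬ IsConj z t)
    (hu : IsConj z u) (hv : IsConj t v) : Even (orderOf (u * v)) := by
  by_contra h
  obtain ⟨k, hk⟩ := BS.conj_of_odd (sq_of_isConj hz hu) (sq_of_isConj ht hv)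
    (Nat.not_even_iff_odd.1 h)
  generalize (u * v) ^ k = w at hk
  exact hnc (hu.trans ((isConj_iff.2 ⟨w, by rw [hk]; group⟩).trans hv.symm))

theorem orderOf_isConj {x y : G} (h : IsConj x y) : orderOf y = orderOf x := by
  obtain ⟨g, rfl⟩ := isConj_iff.1 h
  exact (MulAut.conj g).orderOf_eq x

/-- Thompson's order formula -/
theorem thompson {z t : G} (hz : orderOf z = 2) (ht : orderOf t = 2) (hnc : ¬ IsConj z t)
    (hcl : ∀ i, orderOf i = 2 → IsConj z i ∨ IsConj t i) :
    Nat.card G = tn z t z * Nat.card C1[t] + tn z t t * Nat.card C1[z] := by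
  have z2 := BS.mul_self_of_orderOf hz
  have t2 := BS.mul_self_of_orderOf ht
  have h1 : sm (fun i => orderOf i = 2) (tn z t) =
      sm (IsConj z) (fun _ => 1) * sm (IsConj t) fun _ => 1 := by
    unfold tn
    rw [sm_comm (R := IsConj t) (S := fun _ i => orderOf i = 2) _ fun a b => and_comm]
    refine sm_const fun v hv => ?_
    rw [sm_comm (R := IsConj z) (S := fun u i => orderOf i = 2 ∧ i ∈ zpowers (u * v)) _
      fun a b => by tauto]
    refine sm_congr (fun _ => Iff.rfl) fun u hu => ?_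
    obtain ⟨k, -, h2, -⟩ := BS.central_of_even (sq_of_isConj z2 hu) (sq_of_isConj t2 hv)
      (even_orderOf_mul z2 t2 hnc hu hv)
    refine (sm_congr (fun i => ⟨fun e => invol_unique e.1 h2 e.2 (npow_mem_zpowers _ _), ?_⟩)
      fun _ _ => rfl).trans (sm_single ((u * v) ^ k) fun _ => 1)
    rintro rfl
    exact ⟨h2, npow_mem_zpowers _ _⟩
  rw [sm_split _ (IsConj z), sm_congr (Q := IsConj z) (φ := tn z t)
    (fun a => ⟨fun e => e.2, fun e => ⟨(orderOf_isConj e).trans hz, e⟩⟩) fun _ _ => rfl,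
    sm_congr (P := fun a => orderOf a = 2 ∧ ¬ IsConj z a) (Q := IsConj t) (φ := tn z t)
    (fun a => ⟨fun e => (hcl a e.1).resolve_left e.2, fun e =>
      ⟨(orderOf_isConj e).trans ht, fun k => hnc (k.trans e.symm)⟩⟩) fun _ _ => rfl,
    sm_class z (tn_conj z t), sm_class t (tn_conj z t)] at h1
  have h2 := cls_mul z
  have h3 := cls_mul t
  refine Nat.eq_of_mul_eq_mul_left (Nat.card_pos (α := G)) ?_
  calc Nat.card G * Nat.card G = (sm (IsConj z) (fun _ => 1) * Nat.card C1[z]) *
        (sm (IsConj t) (fun _ => 1) * Nat.card C1[t]) := by rw [h2, h3]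
    _ = (sm (IsConj z) (fun _ => 1) * sm (IsConj t) fun _ => 1) *
        (Nat.card C1[z] * Nat.card C1[t]) := by ring
    _ = tn z t z * Nat.card C1[t] * (sm (IsConj z) (fun _ => 1) * Nat.card C1[z]) +
        tn z t t * Nat.card C1[z] * (sm (IsConj t) (fun _ => 1) * Nat.card C1[t]) := by
        rw [← h1]; ring
    _ = _ := by rw [h2, h3]; ring

/-- double counting of commuting pairs -/
theorem double_count (z t : G) :
    sm (fun v => IsConj t v ∧ v * z = z * v) (fun _ => 1) * Nat.card C1[t] =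
      sm (fun u => IsConj z u ∧ u * t = t * u) (fun _ => 1) * Nat.card C1[z] := by
  have inv : ∀ x g y : G, sm (fun v => IsConj x v ∧ v * (g * y * g⁻¹) = g * y * g⁻¹ * v)
      (fun _ => 1) = sm (fun v => IsConj x v ∧ v * y = y * v) fun _ => 1 := by
    intro x g y
    rw [sm_conj _ _ g]
    refine sm_congr (fun v => and_congr (isConj_conj g) ?_) fun _ _ => rfl
    simp only [mul_assoc, inv_mul_cancel_left, mul_right_inj]
    simp only [← mul_assoc, mul_left_inj]
  have h := sm_comm (P := IsConj z) (Q := fun u v => IsConj t v ∧ v * u = u * v) (R := IsConj t)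
    (S := fun v u => IsConj z u ∧ u * v = v * u) (fun _ _ => 1) fun a b => by
      rw [eq_comm]; tauto
  rw [sm_class z (inv t), sm_class t (inv z)] at h
  have h2 := cls_mul z
  have h3 := cls_mul t
  refine Nat.eq_of_mul_eq_mul_left (Nat.card_pos (α := G)) ?_
  calc _ = (sm (fun v => IsConj t v ∧ v * z = z * v) (fun _ => 1) * sm (IsConj z) fun _ => 1) *
        (Nat.card C1[z] * Nat.card C1[t]) := by rw [← h2]; ring
    _ = _ := by rw [h, ← h3]; ring

theorem comm_of_mem_zpowers {u v i : G} (hu : u * u = 1) (hv : v * v = 1) (hi : i * i = 1)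
    (h : i ∈ zpowers (u * v)) : u * i = i * u ∧ v * i = i * v := by
  obtain ⟨k, rfl⟩ := (mem_powers_iff_mem_zpowers.2 h)
  have e : ((u * v) ^ k)⁻¹ = (u * v) ^ k := inv_eq_of_mul_eq_one_right hi
  exact ⟨by rw [BS.invol_mul_pow hu hv, e], by rw [BS.invol_mul_pow' hu hv, e]⟩

end thompson

/-- Sum of `φ` over the coset of the span of `l`. -/
noncomputable def ssum (φ : ℕ → ℕ) (l : List ℕ) : ℕ → ℕ :=
  List.rec (motive := fun _ => ℕ → ℕ) φ
    (fun b _ ih a => Nat.add (ih a) (force (Nat.xor a b) ih)) l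

/-- All combinations of the vectors in a list. -/
def combs : List ℕ → List ℕ
  | [] => [0]
  | b :: l => combs l ++ (combs l).map (· ^^^ b)

theorem ssum_cons (φ : ℕ → ℕ) (b : ℕ) (l : List ℕ) (a : ℕ) :
    ssum φ (b :: l) a = ssum φ l a + ssum φ l (a ^^^ b) := by
  have : ssum φ (b :: l) a = Nat.add (ssum φ l a) (force (Nat.xor a b) (ssum φ l)) := rfl
  rw [this, force_eq]; rfl

theorem ssum_eq (φ : ℕ → ℕ) (l : List ℕ) :
    ∀ a, ssum φ l a = ((combs l).map fun x => φ (a ^^^ x)).sum := by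
  induction l with
  | nil => intro a; simp [combs]; rfl
  | cons b l ih =>
    intro a
    rw [ssum_cons, ih, ih, combs, List.map_append, List.sum_append, List.map_map]
    congr 3
    funext x
    simp only [Function.comp, Nat.xor_assoc, Nat.xor_comm b]

theorem zero_mem_combs (l : List ℕ) : 0 ∈ combs l := by
  induction l with
  | nil => simp [combs]
  | cons b l ih => simp [combs, ih]

theorem mem_combs_cons {b x : ℕ} {l : List ℕ} :
    x ∈ combs (b :: l) ↔ x ∈ combs l ∨ x ^^^ b ∈ combs l := by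
  simp only [combs, List.mem_append, List.mem_map]
  refine or_congr_right ⟨?_, fun h => ⟨_, h, by simp [Nat.xor_assoc]⟩⟩
  rintro ⟨y, hy, rfl⟩
  simpa [Nat.xor_assoc] using hy

theorem xor_mem_combs {l : List ℕ} : ∀ {x y : ℕ}, x ∈ combs l → y ∈ combs l → x ^^^ y ∈ combs l := by
  induction l with
  | nil => intro x y hx hy; simp_all [combs]
  | cons b l ih =>
    intro x y hx hy
    rw [mem_combs_cons] at hx hy ⊢
    rcases hx with hx | hx <;> rcases hy with hy | hy
    · exact Or.inl (ih hx hy)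
    · exact Or.inr (by simpa [Nat.xor_assoc] using ih hx hy)
    · exact Or.inr (by simpa [Nat.xor_assoc, Nat.xor_comm b] using ih hx hy)
    · have := ih hx hy
      rw [Nat.xor_assoc, Nat.xor_comm y, ← Nat.xor_assoc b, Nat.xor_self, Nat.zero_xor] at this
      exact Or.inl this

theorem mem_combs_of_mem {l : List ℕ} {b : ℕ} (h : b ∈ l) : b ∈ combs l := by
  induction l with
  | nil => simp at h
  | cons c l ih =>
    rw [mem_combs_cons]
    rcases List.mem_cons.1 h with rfl | h
    · exact Or.inr (by simpa using zero_mem_combs l)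
    · exact Or.inl (ih h)

theorem combs_ind {P : ℕ → Prop} (h0 : P 0) (hx : ∀ x y, P x → P y → P (x ^^^ y)) {l : List ℕ}
    (hl : ∀ b ∈ l, P b) : ∀ x ∈ combs l, P x := by
  induction l with
  | nil => intro x h; simp only [combs, List.mem_singleton] at h; exact h ▸ h0
  | cons b l ih =>
    intro x h
    have ih := ih fun c hc => hl c (List.mem_cons_of_mem _ hc)
    rcases mem_combs_cons.1 h with h | h
    · exact ih x h
    · simpa [Nat.xor_assoc] using hx _ _ (ih _ h) (hl b List.mem_cons_self)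

/-- The vectors in `l` are independent. -/
noncomputable def indep (l : List ℕ) : Bool :=
  Nat.beq (ssum (fun x => b2n (Nat.beq x (nat_lit 0))) l (nat_lit 0)) (nat_lit 1)

theorem ssum_beq (l : List ℕ) (a : ℕ) :
    ssum (fun x => b2n (Nat.beq x (nat_lit 0))) l a = (combs l).count a := by
  rw [ssum_eq, List.count_eq_countP, List.countP_eq_length_filter]
  induction combs l with
  | nil => rfl
  | cons c m ih =>
    rw [List.map_cons, List.sum_cons, ih, List.filter_cons]
    by_cases e : c = a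
    · simp [e, add_comm]
    · have : ¬ (a ^^^ c).beq (nat_lit 0) = true := by
        rw [Nat.beq_eq]; exact fun k => e (Nat.eq_of_xor_eq_zero k).symm
      simp [e, this]

theorem nodup_combs {l : List ℕ} (h : indep l = true) : (combs l).Nodup := by
  rw [indep, Nat.beq_eq, ssum_beq] at h
  replace h : (combs l).count 0 = 1 := h
  induction l with
  | nil => simp [combs]
  | cons b l ih =>
    have h0 := List.count_pos_iff.2 (zero_mem_combs l)
    rw [combs, List.count_append] at h
    have hb : b ∉ combs l := fun k => by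
      have : 0 ∈ (combs l).map (· ^^^ b) := List.mem_map.2 ⟨b, k, Nat.xor_self b⟩
      have := List.count_pos_iff.2 this
      omega
    have ih := ih (by omega)
    rw [combs, List.nodup_append]
    refine ⟨ih, ih.map fun x y e => by simpa using e, fun x hx y hy e => ?_⟩
    obtain ⟨w, hw, rfl⟩ := List.mem_map.1 hy
    have := xor_mem_combs hw hx
    rw [e, ← Nat.xor_assoc, Nat.xor_self, Nat.zero_xor] at this
    exact hb this

theorem sum_span {l : List ℕ} (h : indep l = true) {n : ℕ} {P : ℕ → Prop}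
    (hP : ∀ x, x ∈ combs l ↔ x < n ∧ P x) (φ : ℕ → ℕ) :
    ∑ x ∈ Finset.range n, ind1 (P x) * φ x = ssum φ l 0 := by
  classical
  rw [ssum_eq, ← List.sum_toFinset _ (nodup_combs h)]
  simp only [ind1, ite_mul, one_mul, zero_mul, Nat.zero_xor]
  rw [← Finset.sum_filter]
  congr 1
  ext x
  simp [hP]

theorem ssum_congr {φ ψ : ℕ → ℕ} {l : List ℕ} {a : ℕ} (h : ∀ x ∈ combs l, φ (a ^^^ x) = ψ (a ^^^ x)) :
    ssum φ l a = ssum ψ l a := by
  rw [ssum_eq, ssum_eq, List.map_congr_left h]

theorem ssum_map {P : ℕ → ℕ} (hP : ∀ a b, P (a ^^^ b) = P a ^^^ P b) (φ : ℕ → ℕ) (l : List ℕ) :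
    ∀ a, ssum φ (l.map P) (P a) = ssum (fun x => φ (P x)) l a := by
  induction l with
  | nil => intro a; rfl
  | cons b l ih => intro a; rw [List.map_cons, ssum_cons, ssum_cons, ← hP, ih, ih]

theorem ssum_shift (φ : ℕ → ℕ) (l : List ℕ) (a : ℕ) :
    ssum φ l a = ssum (fun x => φ (x ^^^ a)) l 0 := by
  rw [ssum_eq, ssum_eq]
  simp only [Nat.zero_xor, Nat.xor_comm a]

theorem ssum_append (φ : ℕ → ℕ) (l m : List ℕ) : ∀ a, ssum φ (l ++ m) a = ssum (ssum φ m) l a := by
  induction l with
  | nil => intro a; rfl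
  | cons b l ih => intro a; rw [List.cons_append, ssum_cons, ssum_cons, ih, ih]

theorem ssum_inv {φ : ℕ → ℕ} {l : List ℕ} {a : ℕ} (h : ∀ x ∈ combs l, φ (a ^^^ x) = φ a) :
    ssum φ l a = 2 ^ l.length * φ a := by
  rw [ssum_eq, List.map_congr_left h, List.map_const', List.sum_replicate, smul_eq_mul]
  congr 1
  clear h
  induction l with
  | nil => rfl
  | cons b l ih => rw [combs, List.length_append, List.length_map, ih, List.length_cons]; ring

/-- Evaluate the mapped list, then continue. -/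
noncomputable def lmk (l : List ℕ) (f : ℕ → ℕ) : (List ℕ → ℕ) → ℕ :=
  List.rec (motive := fun _ => (List ℕ → ℕ) → ℕ) (fun k => k [])
    (fun x _ ih k => force (f x) fun y => ih fun m => k (y :: m)) l

theorem lmk_eq (l : List ℕ) (f : ℕ → ℕ) : ∀ k, lmk l f k = k (l.map f) := by
  induction l with
  | nil => intro k; rfl
  | cons x l ih =>
    intro k
    have : lmk (x :: l) f k = force (f x) fun y => lmk l f fun m => k (y :: m) := rfl
    rw [this, force_eq, ih]; rfl

/-- Sum over a list. -/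
noncomputable def lsum (l : List ℕ) (f : ℕ → ℕ) : ℕ :=
  List.rec (motive := fun _ => ℕ) (nat_lit 0) (fun x _ ih => Nat.add (f x) ih) l

theorem lsum_eq (l : List ℕ) (f : ℕ → ℕ) : lsum l f = (l.map f).sum := by
  induction l with
  | nil => rfl
  | cons x l ih =>
    have : lsum (x :: l) f = f x + lsum l f := rfl
    rw [this, ih]; rfl

/-- Reduce `c` by the vectors in `l`, last one first. -/
noncomputable def red (l : List ℕ) (c : ℕ) : ℕ :=
  List.rec (motive := fun _ => ℕ) c (fun b _ ih => force ih fun d => force (Nat.xor d b) fun e =>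
    bif' (Nat.ble d e) d e) l

theorem red_xor (l : List ℕ) (c : ℕ) : red l c ^^^ c ∈ combs l := by
  induction l with
  | nil => have : red [] c = c := rfl
           rw [this, Nat.xor_self]; exact zero_mem_combs _
  | cons b l ih =>
    have : red (b :: l) c = force (red l c) fun d => force (Nat.xor d b) fun e =>
      bif' (Nat.ble d e) d e := rfl
    rw [this, force_eq, force_eq, bif'_eq, mem_combs_cons]
    split_ifs
    · exact Or.inl ih
    · right
      have e : Nat.xor (red l c) b = red l c ^^^ b := rfl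
      rwa [e, Nat.xor_assoc, Nat.xor_assoc, Nat.xor_comm c, ← Nat.xor_assoc b, Nat.xor_self,
        Nat.zero_xor]

/-- A basis of the span of `f 0, …, f (n - 1)`, passed to a continuation. -/
noncomputable def gbk (f : ℕ → ℕ) (n : ℕ) : (List ℕ → ℕ) → ℕ :=
  Nat.rec (motive := fun _ => (List ℕ → ℕ) → ℕ) (fun k => k [])
    (fun i ih k => ih fun l => force (f i) fun c => force (red l c) fun d =>
      bif' (Nat.beq d (nat_lit 0)) (k l) (k (d :: l))) n

theorem gbk_spec (f : ℕ → ℕ) (n : ℕ) : ∃ l : List ℕ, (∀ k, gbk f n k = k l) ∧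
    (∀ i < n, f i ∈ combs l) ∧ ∀ P : ℕ → Prop, P 0 → (∀ x y, P x → P y → P (x ^^^ y)) →
      (∀ i < n, P (f i)) → ∀ x ∈ combs l, P x := by
  induction n with
  | zero => exact ⟨[], fun k => rfl, by simp, fun P h0 hx _ => combs_ind h0 hx (by simp)⟩
  | succ n ih =>
    obtain ⟨l, h1, h2, h3⟩ := ih
    have e : ∀ k, gbk f (n + 1) k = bif' (Nat.beq (red l (f n)) (nat_lit 0)) (k l)
        (k (red l (f n) :: l)) := fun k => by
      have : gbk f (n + 1) k = gbk f n fun l => force (f n) fun c => force (red l c) fun d =>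
        bif' (Nat.beq d (nat_lit 0)) (k l) (k (d :: l)) := rfl
      rw [this, h1, force_eq, force_eq]
    have r := red_xor l (f n)
    by_cases h0 : red l (f n) = 0
    · refine ⟨l, fun k => by rw [e, h0]; rfl, fun i hi => ?_, fun P p0 px p =>
        h3 P p0 px fun i hi => p i (by omega)⟩
      rcases Nat.lt_succ_iff_lt_or_eq.1 hi with hi | rfl
      · exact h2 i hi
      · rwa [h0, Nat.zero_xor] at r
    · refine ⟨red l (f n) :: l, fun k => by
        rw [e, bif'_eq, if_neg (by rw [Nat.beq_eq]; exact h0)], fun i hi => ?_, fun P p0 px p => ?_⟩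
      · rw [mem_combs_cons]
        rcases Nat.lt_succ_iff_lt_or_eq.1 hi with hi | rfl
        · exact Or.inl (h2 i hi)
        · exact Or.inr (by rwa [Nat.xor_comm])
      · have h4 := h3 P p0 px fun i hi => p i (by omega)
        have h5 : P (red l (f n)) := by
          simpa [Nat.xor_assoc] using px _ _ (h4 _ r) (p n (by omega))
        intro x hx
        rcases mem_combs_cons.1 hx with hx | hx
        · exact h4 x hx
        · simpa [Nat.xor_assoc] using px _ _ (h4 _ hx) h5

/-- Order of the matrix `r` (zero if the fuel runs out). -/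
noncomputable def ordL (e r fuel : ℕ) : ℕ → ℕ → ℕ :=
  Nat.rec (motive := fun _ => ℕ → ℕ → ℕ) (fun _ _ => nat_lit 0)
    (fun _ ih p i => bif' (Nat.beq p e) i (force (mm p r) fun q => force (Nat.succ i) (ih q))) fuel

/-- Sum of consecutive powers of `r`. -/
noncomputable def nrm (r k : ℕ) : ℕ → ℕ → ℕ :=
  Nat.rec (motive := fun _ => ℕ → ℕ → ℕ) (fun _ N => N)
    (fun _ ih p N => force (Nat.xor N p) fun N' => force (mm p r) fun q => ih q N') k

/-- Affine coordinates on a group. -/
structure Aff {X Y : Type*} [Group X] [Group Y] (f : X →* Y) (co mt : X → ℕ) (e : ℕ) : Prop where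
  co_mul : ∀ a b, co (a * b) = co a ^^^ lin (mt a) (co b)
  mt_mul : ∀ a b, mt (a * b) = mm (mt a) (mt b)
  mt_eq : ∀ a, mt a = e ↔ f a = 1
  co_one : co 1 = 0

theorem lin_zero_mat (a : ℕ) : lin 0 a = 0 := by
  have := xor_lin 0 0 a
  rwa [Nat.xor_self, Nat.xor_self] at this

namespace Aff

variable {X Y : Type*} [Group X] [Group Y] {f : X →* Y} {co mt : X → ℕ} {e : ℕ}
  (A : Aff f co mt e)
include A

theorem ord_aux (x : X) (fuel : ℕ) : ∀ i, 0 < i → (∀ j < i, 0 < j → f x ^ j ≠ 1) →
    ordL e (mt x) fuel (mt (x ^ i)) i ≠ 0 → orderOf (f x) = ordL e (mt x) fuel (mt (x ^ i)) i := by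
  induction fuel with
  | zero => intro i _ _ h; exact absurd rfl h
  | succ n ih =>
    intro i hi hj
    have : ordL e (mt x) (n + 1) (mt (x ^ i)) i = bif' (Nat.beq (mt (x ^ i)) e) i
      (force (mm (mt (x ^ i)) (mt x)) fun q => force (Nat.succ i) (ordL e (mt x) n q)) := rfl
    rw [this, bif'_eq, force_eq, force_eq, ← A.mt_mul, ← pow_succ]
    split_ifs with h
    · rw [Nat.beq_eq, A.mt_eq, map_pow] at h
      exact fun _ => (orderOf_eq_iff hi).2 ⟨h, hj⟩
    · rw [Nat.beq_eq, A.mt_eq, map_pow] at h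
      refine ih (i + 1) (by omega) fun j h1 h2 => ?_
      rcases Nat.lt_succ_iff_lt_or_eq.1 h1 with h1 | rfl
      · exact hj j h1 h2
      · exact h

theorem ord (x : X) (fuel : ℕ) (h : ordL e (mt x) fuel (mt x) 1 ≠ 0) :
    orderOf (f x) = ordL e (mt x) fuel (mt x) 1 := by
  have := A.ord_aux x fuel 1 (by norm_num) (fun j h1 h2 => by omega)
  rw [pow_one] at this
  exact this h

theorem nrm_aux (x : X) (k : ℕ) : ∀ i N, lin N (co x) = co (x ^ i) →
    lin (nrm (mt x) k (mt (x ^ i)) N) (co x) = co (x ^ (i + k)) := by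
  induction k with
  | zero => intro i N h; exact h
  | succ k ih =>
    intro i N h
    have : nrm (mt x) (k + 1) (mt (x ^ i)) N = force (Nat.xor N (mt (x ^ i))) fun N' =>
      force (mm (mt (x ^ i)) (mt x)) fun q => nrm (mt x) k q N' := rfl
    rw [this, force_eq, force_eq, ← A.mt_mul, ← pow_succ, ← add_assoc, add_right_comm]
    refine ih (i + 1) _ ?_
    have e' : Nat.xor N (mt (x ^ i)) = N ^^^ mt (x ^ i) := rfl
    rw [e', xor_lin, h, pow_succ, A.co_mul]

theorem co_pow (x : X) (k : ℕ) : co (x ^ k) = lin (nrm (mt x) k e 0) (co x) := by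
  have := A.nrm_aux x k 0 0 (by rw [lin_zero_mat, pow_zero, A.co_one])
  rw [pow_zero, (A.mt_eq 1).2 (map_one f), zero_add] at this
  exact this.symm

end Aff

theorem mem_zpowers_pow {X Y : Type*} [Group X] [Group Y] (f : X →* Y) {x i : X} (hi : f i = 1) :
    i ∈ zpowers x ↔ i ∈ zpowers (x ^ orderOf (f x)) := by
  constructor
  · rintro ⟨k, rfl⟩
    simp only [map_zpow] at hi
    obtain ⟨m, rfl⟩ := orderOf_dvd_iff_zpow_eq_one.2 hi
    exact ⟨m, by simp only [zpow_mul, zpow_natCast]⟩
  · exact fun h => zpowers_le.2 (npow_mem_zpowers x _) h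

theorem mem_zpowers_sq {X : Type*} [Group X] {y i : X} (hy : y * y = 1) :
    i ∈ zpowers y ↔ i = 1 ∨ i = y := by
  constructor
  · rintro ⟨k, rfl⟩
    obtain ⟨m, rfl | rfl⟩ := Int.even_or_odd' k
    · left; simp only [zpow_mul]; rw [zpow_two, hy, one_zpow]
    · right; simp only [zpow_add, zpow_mul]; rw [zpow_two, hy, one_zpow, one_mul, zpow_one]
  · rintro (rfl | rfl)
    · exact one_mem _
    · exact mem_zpowers _

/-- Points reached from the set `m` along the certificate `l`. -/
noncomputable def reachG (pa f : ℕ → ℕ) (l : List ℕ) : ℕ → ℕ :=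
  List.rec (motive := fun _ => ℕ → ℕ) (fun m => m) (fun c _ ih m => force
    (bif' (tbt m (pa c)) (force (f c) fun y => Nat.lor m (Nat.shiftLeft 1 y)) m) ih) l

theorem reachG_sound {pa f : ℕ → ℕ} {P : ℕ → Prop} (hf : ∀ c, P (pa c) → P (f c)) (l : List ℕ) :
    ∀ m, (∀ y, tbt m y = true → P y) → ∀ y, tbt (reachG pa f l m) y = true → P y := by
  induction l with
  | nil => exact fun m h => h
  | cons c l ih =>
    intro m hm
    have : reachG pa f (c :: l) m = force (bif' (tbt m (pa c))
      (force (f c) fun y => Nat.lor m (Nat.shiftLeft 1 y)) m) (reachG pa f l) := rfl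
    rw [this, force_eq, force_eq, bif'_eq]
    refine ih _ ?_
    split_ifs with e
    · intro y hy
      have e1 : Nat.lor m (Nat.shiftLeft 1 (f c)) = m ||| 2 ^ f c :=
        congrArg (m ||| ·) (Nat.one_shiftLeft _)
      rw [e1, tb_eq, Nat.testBit_or, Bool.or_eq_true, Nat.testBit_two_pow, decide_eq_true_iff,
        ← tb_eq] at hy
      rcases hy with hy | rfl
      · exact hm y hy
      · exact hf c (hm _ e)
    · exact hm

theorem lt_of_sum_lt {l : List ℕ} {f : ℕ → ℕ} {B : ℕ} (h : (l.map f).sum < B) :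
    ∀ x ∈ l, f x < B := fun x hx =>
  (List.single_le_sum (by simp) _ (List.mem_map_of_mem hx)).trans_lt h

theorem T_sum_keys (t : T) (f : ℕ → ℕ) : t.sum (fun k _ _ => f k) = (t.keys.map f).sum := by
  rw [T.sum_eq, T.keys, List.map_map]; rfl

end Cfsg.Agent.J4
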