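import Cfsg.Agent.J4.OF0

/-!
# More counting tools
-/

set_option autoImplicit false
set_option linter.unusedSectionVars false
set_option linter.unusedVariables false

namespace Cfsg.Agent.J4

open Cfsg.Agent.M24 Cfsg.Agent.GT Subgroup

section sm

variable {α β : Type*} [Finite α] [Finite β]

theorem sm_restrict {P Q : α → Prop} {ψ : α → ℕ} (h : ∀ a, P a → ¬ Q a → ψ a = 0) :
    sm P ψ = sm (fun a => P a ∧ Q a) ψ := by
  rw [sm_split P Q, sm_zero (P := fun a => P a ∧ ¬ Q a) fun a e => h a e.1 e.2, add_zero]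

theorem sm_fib {P : α → Prop} {Q : β → Prop} (ψ : α → ℕ) (f : α → β) (h : ∀ a, P a → Q (f a)) :
    sm P ψ = sm Q fun c => sm (fun a => P a ∧ f a = c) ψ := by
  rw [sm_comm (P := Q) (Q := fun c a => P a ∧ f a = c) (R := P) (S := fun a c => c = f a)
    (fun _ a => ψ a) fun c a => ⟨fun e => ⟨e.2.1, e.2.2.symm⟩, fun e => ⟨e.2 ▸ h a e.1, e.1, e.2.symm⟩⟩]
  exact sm_congr (fun _ => Iff.rfl) fun a _ => (sm_single (f a) fun _ => ψ a).symm

theorem sm_lst {γ : Type*} {P : α → Prop} {ψ : α → ℕ} {L : List γ} (hL : L.Nodup) (f : γ → α)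
    (hf : ∀ a ∈ L, ∀ b ∈ L, f a = f b → a = b) (h : ∀ a, P a ↔ ∃ c ∈ L, f c = a) :
    sm P ψ = (L.map fun c => ψ (f c)).sum := by
  classical
  rw [sm_image L.toFinset f (fun a ha b hb e => hf a (by simpa using ha) b (by simpa using hb) e)
    (by simpa using h), List.sum_toFinset _ hL]

theorem sm_ind (P Q : α → Prop) (ψ : α → ℕ) :
    sm (fun a => P a ∧ Q a) ψ = sm P (fun a => ind1 (Q a) * ψ a) := sm_and P Q ψ

theorem sm_range {P : α → Prop} {ψ : α → ℕ} (n : ℕ) (f : ℕ → α)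
    (hf : ∀ a < n, ∀ b < n, f a = f b → a = b) (h : ∀ a, P a ↔ ∃ c < n, f c = a) :
    sm P ψ = ∑ c ∈ Finset.range n, ψ (f c) :=
  sm_image _ f (fun a ha b hb e => hf a (by simpa using ha) b (by simpa using hb) e)
    (by simpa using h)

end sm

theorem ind1_b2n {p : Prop} {b : Bool} (h : p ↔ b = true) : ind1 p = b2n b := by
  rw [b2n_eq]; split_ifs with e
  · exact ind1_pos (h.2 e)
  · exact ind1_neg (mt h.1 e)

theorem sum_const_of {l : List ℕ} {f : ℕ → ℕ} {c : ℕ} (h : ∀ x ∈ l, f x = c) :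
    (l.map f).sum = l.length * c := by
  rw [List.map_congr_left h, List.map_const', List.sum_replicate, smul_eq_mul]

theorem tn_transfer {G X : Type*} [Group G] [Finite G] [Group X] [Finite X] (f : X →* G)
    (hf : Function.Injective f) {z t : G} (hz : z * z = 1) (ht : t * t = 1) {i : X}
    (hi : i * i = 1) (hC : C1[f i] ≤ f.range) :
    tn z t (f i) = sm (fun v : X => IsConj t (f v)) fun v =>
      sm (fun u : X => IsConj z (f u) ∧ i ∈ zpowers (u * v)) fun _ => 1 := by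
  have hi' : f i * f i = 1 := by rw [← map_mul, hi, map_one]
  have key : ∀ u v, IsConj z u → IsConj t v → f i ∈ zpowers (u * v) → u ∈ f.range ∧ v ∈ f.range :=
    fun u v hu hv h => by
      have := comm_of_mem_zpowers (sq_of_isConj hz hu) (sq_of_isConj ht hv) hi' h
      exact ⟨hC (mem_cent1.2 this.1), hC (mem_cent1.2 this.2)⟩
  rw [tn, sm_restrict (Q := fun v => v ∈ f.range) fun v hv h =>
    sm_zero fun u hu => absurd (key u v hu.1 hv hu.2).2 h,
    sm_inj _ f hf fun a h => h.2]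
  refine sm_congr (fun v => ⟨fun h => h.1, fun h => ⟨h, v, rfl⟩⟩) fun v hv => ?_
  rw [sm_inj _ f hf fun u h => (key u _ h.1 hv h.2).1]
  refine sm_congr (fun u => and_congr_right fun _ => ?_) fun _ _ => rfl
  rw [← map_mul, ← MonoidHom.map_zpowers, mem_map_iff_mem hf]

theorem ssum_add (φ ψ : ℕ → ℕ) (l : List ℕ) (a : ℕ) :
    ssum (fun x => φ x + ψ x) l a = ssum φ l a + ssum ψ l a := by
  rw [ssum_eq, ssum_eq, ssum_eq, List.sum_map_add]

theorem ssum_mul (c : ℕ) (φ : ℕ → ℕ) (l : List ℕ) (a : ℕ) :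
    ssum (fun x => c * φ x) l a = c * ssum φ l a := by
  rw [ssum_eq, ssum_eq, List.sum_map_mul_left]

theorem ssum_xor_mem (φ : ℕ → ℕ) {l : List ℕ} :
    ∀ {x : ℕ}, x ∈ combs l → ∀ a, ssum φ l (a ^^^ x) = ssum φ l a := by
  induction l with
  | nil => intro x hx a; simp only [combs, List.mem_singleton] at hx; rw [hx, Nat.xor_zero]
  | cons b l ih =>
    intro x hx a
    rw [ssum_cons, ssum_cons]
    rcases mem_combs_cons.1 hx with h | h
    · rw [ih h, Nat.xor_assoc, Nat.xor_comm x, ← Nat.xor_assoc, ih h]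
    · rw [Nat.xor_assoc a, ih h, add_comm, ← ih h (a ^^^ b), Nat.xor_assoc, Nat.xor_comm x,
        ← Nat.xor_assoc b, Nat.xor_self, Nat.zero_xor]

/-- Gaussian elimination with multiplicity. -/
noncomputable def rb (L : List ℕ) (c : ℕ) (l : List ℕ) : (ℕ → List ℕ → ℕ) → ℕ :=
  List.rec (motive := fun _ => (ℕ → List ℕ → ℕ) → ℕ) (fun k => k c l)
    (fun x _ ih k => ih fun c' l' => force (red l' x) fun d =>
      bif' (Nat.beq d (nat_lit 0)) (force (Nat.mul (nat_lit 2) c') fun e => k e l') (k c' (d :: l'))) L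

theorem rb_spec (L : List ℕ) (c : ℕ) (l : List ℕ) : ∃ c' l', (∀ k, rb L c l k = k c' l') ∧
    ∀ φ a, c * ssum φ (L ++ l) a = c' * ssum φ l' a := by
  induction L with
  | nil => exact ⟨c, l, fun k => rfl, fun φ a => rfl⟩
  | cons x L ih =>
    obtain ⟨c', l', h1, h2⟩ := ih
    have e : ∀ k, rb (x :: L) c l k = bif' (Nat.beq (red l' x) (nat_lit 0)) (k (2 * c') l')
        (k c' (red l' x :: l')) := fun k => by
      have : rb (x :: L) c l k = rb L c l fun c' l' => force (red l' x) fun d =>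
        bif' (Nat.beq d (nat_lit 0)) (force (Nat.mul (nat_lit 2) c') fun e => k e l')
          (k c' (d :: l')) := rfl
      rw [this, h1, force_eq, force_eq]; rfl
    have r := fun φ a => ssum_xor_mem φ (red_xor l' x) (a ^^^ red l' x)
    simp only [Nat.xor_assoc, ← Nat.xor_assoc (red l' x), Nat.xor_self, Nat.zero_xor] at r
    by_cases h0 : red l' x = 0
    · refine ⟨2 * c', l', fun k => by rw [e, h0]; rfl, fun φ a => ?_⟩
      rw [List.cons_append, ssum_cons, mul_add, h2, h2, r, h0, Nat.xor_zero]; ring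
    · refine ⟨c', red l' x :: l', fun k => by
        rw [e, bif'_eq, if_neg (by rw [Nat.beq_eq]; exact h0)], fun φ a => ?_⟩
      rw [List.cons_append, ssum_cons, mul_add, h2, h2, r, ssum_cons, mul_add]

/-- Columns of `1 + m`. -/
def imf (m j : ℕ) : ℕ := Nat.xor (Nat.shiftLeft (nat_lit 1) j) (fld m j)

/-- `x` lies in the image of `1 + m`. -/
def InIm (n m x : ℕ) : Prop := ∃ y < 2 ^ n, x = y ^^^ lin m y

theorem InIm.xor {n m x y : ℕ} (h : InIm n m x) (h' : InIm n m y) : InIm n m (x ^^^ y) := by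
  obtain ⟨a, ha, rfl⟩ := h
  obtain ⟨b, hb, rfl⟩ := h'
  exact ⟨a ^^^ b, Nat.xor_lt_two_pow ha hb, by
    rw [lin_xor]; simp only [Nat.xor_assoc, Nat.xor_left_comm]⟩

theorem InIm.zero (n m : ℕ) : InIm n m 0 := ⟨0, by positivity, by rw [lin_zero]; rfl⟩

theorem im_span {n m : ℕ} (hn : n ≤ 12) (hm : ∀ a < 2 ^ n, lin m a < 2 ^ n) :
    ∃ l, (∀ k, gbk (imf m) n k = k l) ∧ ∀ x, x ∈ combs l ↔ x < 2 ^ n ∧ InIm n m x := by
  obtain ⟨l, h1, h2, h3⟩ := gbk_spec (imf m) n
  have e : ∀ i < n, imf m i = 2 ^ i ^^^ lin m (2 ^ i) := fun i hi => by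
    rw [lin_pow _ (by omega), ← Nat.one_shiftLeft]; rfl
  refine ⟨l, h1, fun x => ⟨h3 (fun x => x < 2 ^ n ∧ InIm n m x) ⟨by positivity, .zero n m⟩
    (fun x y hx hy => ⟨Nat.xor_lt_two_pow hx.1 hy.1, hx.2.xor hy.2⟩) (fun i hi => ?_) x, ?_⟩⟩
  · have := Nat.pow_lt_pow_right (a := 2) (by norm_num) hi
    rw [e i hi]
    exact ⟨Nat.xor_lt_two_pow this (hm _ this), _, this, rfl⟩
  · rintro ⟨-, y, hy, rfl⟩
    refine bits_induction (n := n) (P := fun y => y ^^^ lin m y ∈ combs l) ?_ ?_ ?_ y hy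
    · rw [lin_zero]; exact zero_mem_combs l
    · intro i hi; rw [← e i hi]; exact h2 i hi
    · intro x _ y _ hx hy
      have := xor_mem_combs hx hy
      rw [lin_xor]
      simpa only [Nat.xor_assoc, Nat.xor_left_comm] using this

/-- The list `F` spans the fixed space of `m`. -/
noncomputable def fixChk (n m : ℕ) (F : List ℕ) : Bool :=
  band (band (indep F) (lall F fun x => band (Nat.blt x (2 ^ n)) (Nat.beq (lin m x) x)))
    (ball (fun x => bor (!Nat.beq (lin m x) x) (Nat.beq (red F x) 0)) n 0)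

theorem fix_span {n m : ℕ} {F : List ℕ} (h : fixChk n m F = true) :
    indep F = true ∧ ∀ x, x ∈ combs F ↔ x < 2 ^ n ∧ lin m x = x := by
  simp only [fixChk, band_eq, Bool.and_eq_true, lall_iff, Nat.blt_eq, Nat.beq_eq] at h
  refine ⟨h.1.1, fun x => ⟨combs_ind (P := fun x => x < 2 ^ n ∧ lin m x = x)
    ⟨by positivity, lin_zero m⟩ (fun x y hx hy => ⟨Nat.xor_lt_two_pow hx.1 hy.1, by
      rw [lin_xor, hx.2, hy.2]⟩) h.1.2 x, fun hx => ?_⟩⟩
  have := ball_zero h.2 x hx.1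
  simp only [bor_eq, Bool.or_eq_true, Bool.not_eq_true', Nat.beq_eq, hx.2, Nat.beq_refl,
    Bool.true_eq_false, false_or] at this
  have r := red_xor F x
  rwa [this, Nat.zero_xor] at r

end Cfsg.Agent.J4
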