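import Cfsg.Agent.J4.OFN0

/-!
# The Thompson number of the second class
-/

set_option autoImplicit false
set_option linter.unusedSectionVars false
set_option linter.unusedVariables false
set_option exponentiation.threshold 600

namespace Cfsg.Agent.J4

open Cfsg.Agent.M24 Cfsg.Agent.GT Subgroup MulAction
open scoped Pointwise symmDiff

theorem ssum_lin (φ : ℕ → ℕ) (N : ℕ) (l : List ℕ) (y : ℕ) :
    ssum (fun k => φ (y ^^^ lin N k)) l 0 = ssum φ (l.map (lin N)) y := by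
  rw [ssum_shift φ, ← ssum_map (lin_xor N) (fun x => φ (y ^^^ x)), lin_zero]
  simp only [Nat.xor_comm y]

theorem ssum_comm (φ : ℕ → ℕ) (l m : List ℕ) : ∀ a, ssum φ (l ++ m) a = ssum φ (m ++ l) a := by
  simp only [ssum_append]
  induction l with
  | nil => intro a; rfl
  | cons b l ih =>
    intro a
    rw [ssum_cons, ih, ih, funext (ssum_cons φ b l), ssum_add, ssum_eq _ m (a ^^^ b),
      ssum_eq (fun x => ssum φ l (x ^^^ b))]
    simp only [Nat.xor_assoc, Nat.xor_comm b]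

theorem b2n_mul (b : Bool) (x : ℕ) : b2n b * x = bif' b x 0 := by cases b <;> simp [b2n_eq, bif'_eq]

namespace MC

variable {G : Type*} [Group G] [Finite G] {z : G} {V : Subgroup G} {T : ℕ → G} {π : N[V] →* M24}
  {κ : M24 →* N[V]} (M : MC z V T π κ)
include M

theorem fib (Q : N[V] → Prop) (ψ : N[V] → ℕ) (g : M24) : sm (fun n => Q n ∧ π n = g) ψ =
    ∑ k ∈ Finset.range 2048, ind1 (Q (M.el k g)) * ψ (M.el k g) := by
  rw [sm_congr (Q := fun n => π n = g ∧ Q n) (fun n => and_comm) fun _ _ => rfl, sm_and,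
    sm_range 2048 (fun k => M.el k g) (fun a ha b hb => M.el_inj ha hb) fun n =>
      ⟨fun e : π n = g => ⟨_, M.co_lt n, e ▸ M.el_co n⟩, by rintro ⟨k, -, rfl⟩; exact M.π_el k g⟩]

theorem tcond {x : N[V]} {n : ℕ} (h : orderOf (π x) = n) :
    M.tn 1458 ∈ zpowers x ↔ lin (nrm (mat (mcode (π x))) n idm 0) (M.co x) = 1458 := by
  have h1 : π (x ^ n) = 1 := by rw [map_pow, ← h, pow_orderOf_eq_one]
  have h2 := M.el_co (x ^ n)
  rw [h1, M.el_one] at h2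
  rw [mem_zpowers_pow π (M.π_tn _), h, ← M.aff.co_pow, ← h2, mem_zpowers_sq (M.tn_sq _), h2]
  refine ⟨fun e => ?_, fun e => Or.inr (by rw [← e, h2])⟩
  rw [← e.resolve_left fun k => M.t_ne (congrArg Subtype.val k), ← M.el_one, M.co_el (by norm_num)]

/-- The number of pairs over `g₁`, `g₂`. -/
noncomputable def P (g₁ g₂ : M24) : ℕ :=
  sm (fun v : N[V] => IsConj (T 1458) v ∧ π v = g₂) fun v =>
    sm (fun u : N[V] => (IsConj z u ∧ M.tn 1458 ∈ zpowers (u * v)) ∧ π u = g₁) fun _ => 1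

theorem P_eq {g₁ g₂ : M24} {n N : ℕ} (h : orderOf (g₁ * g₂) = n)
    (hN : nrm (mat (mcode (g₁ * g₂))) n idm 0 = N) : M.P g₁ g₂ =
    ∑ k₂ ∈ Finset.range 2048, ind1 (IsConj (T 1458) (M.el k₂ g₂)) * ∑ k₁ ∈ Finset.range 2048,
      ind1 (IsConj z (M.el k₁ g₁)) * eqt (lin N k₁ ^^^ lin (mm N (mat (mcode g₁))) k₂) := by
  rw [P, M.fib]
  refine Finset.sum_congr rfl fun b hb => ?_
  rw [M.fib]
  refine congrArg _ (Finset.sum_congr rfl fun a ha => ?_)
  rw [Finset.mem_range] at ha hb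
  have := M.tcond (x := M.el a g₁ * M.el b g₂) (n := n) (by rw [map_mul, M.π_el, M.π_el, h])
  rw [map_mul, M.π_el, M.π_el, hN, M.aff.co_mul, M.co_el ha, M.co_el hb, M.π_el, lin_xor, ← lin_mm] at this
  rw [this, mul_one, eqt, ← ind1_b2n Nat.beq_eq.symm.to_iff]
  by_cases e : IsConj z (M.el a g₁)
  · rw [ind1_pos e, one_mul]; exact ind1_congr (and_iff_right e)
  · rw [ind1_neg e, zero_mul]; exact ind1_neg fun k => e k.1

theorem ord_eq {g : M24} (h : ordL idm (mat (mcode g)) 30 (mat (mcode g)) 1 ≠ 0) :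
    orderOf g = ordL idm (mat (mcode g)) 30 (mat (mcode g)) 1 := by
  have := M.aff.ord (κ g) 30
  simp only [M.ms.sec] at this
  exact this h

theorem pv_eq {g₁ g₂ : M24} {Z : (ℕ → ℕ) → ℕ} {B X I : List ℕ}
    (hZ : ∀ φ : ℕ → ℕ, ∑ k ∈ Finset.range 2048, ind1 (IsConj z (M.el k g₁)) * φ k = Z (ssum φ B))
    (hT : ∀ φ : ℕ → ℕ, ∑ k ∈ Finset.range 2048, ind1 (IsConj (T 1458) (M.el k g₂)) * φ k +
      ssum φ I 0 = ssum φ (X ++ I) 0)
    (h : pv Z (mat (mcode g₁)) B (mat (mcode g₂)) X I < BIG) :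
    M.P g₁ g₂ = pv Z (mat (mcode g₁)) B (mat (mcode g₂)) X I := by
  simp only [pv, force_eq, bif'_eq, lmk_eq, Nat.beq_eq, ← M.mat_mul] at h ⊢
  split_ifs at h ⊢ with e
  · exact absurd h (lt_irrefl _)
  rw [M.P_eq (M.ord_eq e) rfl]
  generalize nrm _ _ idm 0 = N
  generalize mm N _ = N1
  obtain ⟨c, l, h1, h2⟩ := rb_spec (B.map (lin N)) 1 []
  obtain ⟨c', l', h3, h4⟩ := rb_spec (I.map (lin N1)) c l
  obtain ⟨c'', l'', h5, h6⟩ := rb_spec (X.map (lin N1)) c' l'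
  simp only [one_mul, List.append_nil] at h2
  rw [h1, h3, h5]
  simp only [Finset.mul_sum, mul_left_comm (ind1 (IsConj (T 1458) _))]
  rw [Finset.sum_comm]
  simp only [← Finset.mul_sum]
  rw [hZ]
  refine congrArg Z (funext fun a => ?_)
  have e1 : ∀ φ y, ssum φ (B.map (lin N) ++ I.map (lin N1)) y = c' * ssum φ l' y := fun φ y => by
    rw [ssum_comm, ssum_append, funext (h2 φ), ssum_mul, ← ssum_append, h4]
  have e2 : ∀ y, ssum eqt (B.map (lin N) ++ (X.map (lin N1) ++ I.map (lin N1))) y = c'' * ssum eqt l'' y :=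
    fun y => by
      rw [ssum_comm, List.append_assoc, ssum_append, funext (ssum_comm eqt _ _), funext (e1 eqt), ssum_mul,
        ← ssum_append, h6]
  refine (Nat.sub_eq_of_eq_add ?_).symm
  rw [Nat.mul_eq, Nat.mul_eq, ← e1, ← e2, ssum_append _ (B.map _), ssum_append _ (B.map _),
    ssum_map (lin_xor N), ssum_map (lin_xor N), ← ssum_add]
  refine congrFun (congrFun (congrArg ssum (funext fun k => ?_)) B) a
  rw [← List.map_append, ← ssum_lin, ← ssum_lin, hT]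

theorem ZS_one (φ : ℕ → ℕ) : ∑ k ∈ Finset.range 2048, ind1 (IsConj z (M.el k 1)) * φ k =
    bsum (fun k => bif' (tbq 102 (cl clT6 k)) (φ k) 0) 11 0 := by
  rw [bsum_zero]
  refine Finset.sum_congr rfl fun k hk => ?_
  rw [M.el_one, ← b2n_mul]
  exact congrArg (· * φ k) (ind1_b2n (M.cls k (Finset.mem_range.1 hk)))

theorem TS_one (φ : ℕ → ℕ) : ∑ k ∈ Finset.range 2048, ind1 (IsConj (T 1458) (M.el k 1)) * φ k =
    bsum (fun k => bif' (du k) (φ k) 0) 11 0 := by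
  rw [bsum_zero]
  refine Finset.sum_congr rfl fun k hk => ?_
  rw [M.el_one, ← b2n_mul]
  exact congrArg (· * φ k) (ind1_b2n (M.tc_T (Finset.mem_range.1 hk)))

theorem P_one : M.P 1 1 = 231 := by
  rw [M.P_eq (n := 1) (N := idm) (by simp) (by rw [mul_one, gcM.code_one]; decide +kernel), M.TS_one,
    gcM.code_one, show mm idm (mat one) = idm by decide +kernel, ← pv_11, ← M.TS_one, ← M.TS_one]
  refine Finset.sum_congr rfl fun b hb => ?_
  rw [← M.ZS_one]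
  refine congrArg _ (Finset.sum_congr rfl fun a ha => ?_)
  rw [Finset.mem_range] at ha hb
  rw [lin_idm (by omega), lin_idm (by omega)]; rfl

theorem mem_Dd_iff (n : N[V]) : π n ∈ Dd ↔ (n : G) * T 1458 = T 1458 * n := by
  have e : ({none, some 0} : Finset GolayPt).card = 2 := by decide
  rw [← M.tv_duad0, ← mem_cent1]
  exact ⟨M.ms.mem_cent1_of_smul (by rw [e]; decide) n, M.ms.smul_duad e n⟩

theorem cent_t : C1[T 1458] ≤ (N[V]).subtype.range := by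
  rw [range_subtype, ← M.tv_duad0]
  exact M.ms.cent_duad (by decide)

theorem P_conj {d : M24} (hd : d ∈ Dd) (g₁ g₂ : M24) :
    M.P (d * g₁ * d⁻¹) (d * g₂ * d⁻¹) = M.P g₁ g₂ := by
  have e : κ d * M.tn 1458 * (κ d)⁻¹ = M.tn 1458 :=
    mul_inv_eq_iff_eq_mul.2 (Subtype.ext ((M.mem_Dd_iff _).1 (by rwa [M.ms.sec])))
  rw [P, sm_conj _ _ (κ d)]
  refine sm_congr (fun v => and_congr (isConj_conj _) (by simp [M.ms.sec])) fun v _ => ?_
  rw [sm_conj _ _ (κ d)]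
  refine sm_congr (fun u => and_congr (and_congr (isConj_conj _) ?_) (by simp [M.ms.sec]))
    fun _ _ => rfl
  rw [show κ d * u * (κ d)⁻¹ * (κ d * v * (κ d)⁻¹) = κ d * (u * v) * (κ d)⁻¹ by group]
  conv_lhs => rw [← e]
  exact mem_zpowers_conj

theorem π_sq {i : G} (hi : i * i = 1) {n : N[V]} (h : IsConj i n) : π n * π n = 1 := by
  rw [← map_mul, show n * n = 1 from Subtype.ext (sq_of_isConj hi h), map_one]

theorem tn_eq : J4.tn z (T 1458) (T 1458) = sm (· ∈ Dd) fun g₂ => sm (· ∈ Dd) fun g₁ => M.P g₁ g₂ := by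
  have t2 := M.px.co.sq 1458
  have key : ∀ u v : N[V], IsConj z u → IsConj (T 1458) v → M.tn 1458 ∈ zpowers (u * v) →
      π u ∈ Dd ∧ π v ∈ Dd := fun u v hu hv h => by
    have := comm_of_mem_zpowers (Subtype.ext (sq_of_isConj M.z_sq hu)) (Subtype.ext (sq_of_isConj t2 hv))
      (M.tn_sq _) h
    exact ⟨(M.mem_Dd_iff u).2 (congrArg Subtype.val this.1), (M.mem_Dd_iff v).2 (congrArg Subtype.val this.2)⟩
  refine (tn_transfer (N[V]).subtype Subtype.val_injective M.z_sq t2 (M.tn_sq 1458) M.cent_t).trans ?_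
  simp only [coe_subtype]
  rw [sm_restrict (Q := fun v => π v ∈ Dd) fun v hv h =>
    sm_zero fun u hu => absurd (key u v hu.1 hv hu.2).2 h, sm_fib (Q := (· ∈ Dd)) _ π fun v h => h.2]
  refine sm_congr (fun _ => Iff.rfl) fun g hg => ?_
  unfold P
  rw [sm_comm (R := fun v : N[V] => IsConj (T 1458) v ∧ π v = g) (S := fun _ g₁ => g₁ ∈ Dd) _
    fun a b => and_comm]
  exact sm_congr (fun v => ⟨fun h => ⟨h.1.1, h.2⟩, fun h => ⟨⟨h.1, h.2 ▸ hg⟩, h.2⟩⟩) fun v hv =>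
    sm_fib _ π fun u hu => (key u v hu.1 hv.1 hu.2).1

theorem P_zero₁ {g₁ : M24} (h : ¬ g₁ * g₁ = 1) (g₂ : M24) : M.P g₁ g₂ = 0 :=
  sm_zero fun v _ => sm_zero fun u hu => absurd (hu.2 ▸ M.π_sq M.z_sq hu.1.1) h

theorem P_zero₂ (g₁ : M24) {g₂ : M24} (h : ¬ g₂ * g₂ = 1) : M.P g₁ g₂ = 0 :=
  sm_zero fun v hv => absurd (hv.2 ▸ M.π_sq (M.px.co.sq _) hv.1) h

variable (hG : ∀ g : M24, g * g = 1 → g ≠ 1 → M.Good g)
include hG

theorem zc_el {g : M24} (h2 : g * g = 1) (h1 : g ≠ 1) {k : ℕ} (hk : k < 2048) :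
    IsConj z (M.el k g) ↔ InIm 11 (mat (mcode g)) k := by
  rw [← M.imc_el hk]
  refine ⟨fun e => by_contra fun a => M.hnc (e.trans ((hG g h2 h1 _ (M.π_el k g)
    (Subtype.ext (sq_of_isConj M.z_sq e))).2 a).symm), fun e => (hG g h2 h1 _ (M.π_el k g) ?_).1 e⟩
  obtain ⟨y, -, e⟩ := e
  exact CjU.sq ⟨_, mem_top _, e.symm⟩ (by rw [← map_mul, M.π_el, h2, map_one])

theorem tc_el {g : M24} (h2 : g * g = 1) (h1 : g ≠ 1) {k : ℕ} (hk : k < 2048) :
    IsConj (T 1458) (M.el k g) ↔ lin (mat (mcode g)) k = k ∧ ¬ InIm 11 (mat (mcode g)) k :=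
  ⟨fun e => ⟨(M.fix_of_conj (M.px.co.sq _) hk e).2, fun a =>
    M.hnc (((M.zc_el hG h2 h1 hk).2 a).trans e.symm)⟩, fun e =>
      (hG g h2 h1 _ (M.π_el k g) ((M.el_sq hk g).2 ⟨h2, e.1⟩)).2 (by rw [M.imc_el hk]; exact e.2)⟩

theorem ZS_inv {g : M24} (h2 : g * g = 1) (h1 : g ≠ 1) {B : List ℕ} (hB : indep B = true)
    (h : ∀ x, x ∈ combs B ↔ x < 2 ^ 11 ∧ InIm 11 (mat (mcode g)) x) (φ : ℕ → ℕ) :
    ∑ k ∈ Finset.range 2048, ind1 (IsConj z (M.el k g)) * φ k = ssum φ B 0 := by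
  rw [← sum_span hB h]
  exact Finset.sum_congr rfl fun k hk => by rw [M.zc_el hG h2 h1 (Finset.mem_range.1 hk)]

theorem rep_facts {g : M24} (h2 : g * g = 1) (h1 : g ≠ 1) {m : ℕ} (hm : mat (mcode g) = m) {X I : List ℕ}
    (h : gbk (imf m) 11 (fun l => if l = I then 1 else 0) = 1 ∧ indep I = true ∧ fixChk 11 m (X ++ I) = true)
    (φ : ℕ → ℕ) : ∑ k ∈ Finset.range 2048, ind1 (IsConj z (M.el k g)) * φ k = ssum φ I 0 ∧
    ∑ k ∈ Finset.range 2048, ind1 (IsConj (T 1458) (M.el k g)) * φ k + ssum φ I 0 = ssum φ (X ++ I) 0 := by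
  subst hm
  have := M.ZS_inv hG h2 h1 h.2.1 (inIm_of_red (M.mat_lt11 g) h.1) φ
  refine ⟨this, ?_⟩
  rw [← this, ← sum_span (fix_span h.2.2).1 (fix_span h.2.2).2, ← Finset.sum_add_distrib]
  refine Finset.sum_congr rfl fun k hk => ?_
  rw [Finset.mem_range] at hk
  rw [← add_mul, M.tc_el hG h2 h1 hk]
  by_cases a : IsConj z (M.el k g)
  · rw [ind1_pos a, ind1_pos (M.fix_of_conj M.z_sq hk a).2,
      ind1_neg fun e => e.2 ((M.zc_el hG h2 h1 hk).1 a)]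
  · rw [ind1_neg a, add_zero, ind1_congr (and_iff_left (mt (M.zc_el hG h2 h1 hk).2 a))]

omit M hG in
theorem snd_ne {r : R} {k : ℕ} (h : rc r = k) (h1 : rp k ≠ one) : r.2 ≠ 1 := fun e => h1 (by
  rw [← h, rp_rc, e, gcM.code_one])

omit M hG in
theorem reps : mat (mcode w0.2) = mA ∧ mat (mcode rB.2) = mB ∧ mat (mcode rC.2) = mC := by
  rw [← rp_rc, ← rp_rc, ← rp_rc, rc_w0, rc_rB, rc_rC]; decide +kernel

theorem repA (φ : ℕ → ℕ) :
    ∑ k ∈ Finset.range 2048, ind1 (IsConj z (M.el k w0.2)) * φ k = ssum φ [203, 301, 913, 1058] 0 ∧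
    ∑ k ∈ Finset.range 2048, ind1 (IsConj (T 1458) (M.el k w0.2)) * φ k + ssum φ [203, 301, 913, 1058] 0 =
      ssum φ ([68, 33, 19] ++ [203, 301, 913, 1058]) 0 :=
  M.rep_facts hG (snd_sq w0_sq) (snd_ne rc_w0 (by decide +kernel)) reps.1 (by decide +kernel) φ
theorem repB (φ : ℕ → ℕ) :
    ∑ k ∈ Finset.range 2048, ind1 (IsConj z (M.el k rB.2)) * φ k = ssum φ [1091, 577, 332, 189] 0 ∧
    ∑ k ∈ Finset.range 2048, ind1 (IsConj (T 1458) (M.el k rB.2)) * φ k + ssum φ [1091, 577, 332, 189] 0 =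
      ssum φ ([79, 46, 24] ++ [1091, 577, 332, 189]) 0 :=
  M.rep_facts hG (snd_sq rB_sq) (snd_ne rc_rB (by decide +kernel)) reps.2.1 (by decide +kernel) φ
theorem repC (φ : ℕ → ℕ) :
    ∑ k ∈ Finset.range 2048, ind1 (IsConj z (M.el k rC.2)) * φ k = ssum φ [170, 87, 365, 1008, 1183] 0 ∧
    ∑ k ∈ Finset.range 2048, ind1 (IsConj (T 1458) (M.el k rC.2)) * φ k +
      ssum φ [170, 87, 365, 1008, 1183] 0 = ssum φ ([23] ++ [170, 87, 365, 1008, 1183]) 0 :=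
  M.rep_facts hG (snd_sq rC_sq) (snd_ne rc_rC (by decide +kernel)) reps.2.2 (by decide +kernel) φ

theorem wv_eq {g : M24} {Z : (ℕ → ℕ) → ℕ} {B : List ℕ}
    (hZ : ∀ φ : ℕ → ℕ, ∑ k ∈ Finset.range 2048, ind1 (IsConj z (M.el k g)) * φ k = Z (ssum φ B))
    (h : wv Z (mat (mcode g)) B < BIG) :
    1155 * M.P g w0.2 + (330 * M.P g rB.2 + 1386 * M.P g rC.2) = wv Z (mat (mcode g)) B := by
  simp only [wv, Nat.add_eq, Nat.mul_eq, ← reps.1, ← reps.2.1, ← reps.2.2] at h ⊢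
  rw [M.pv_eq hZ (fun φ => (M.repA hG φ).2) (by omega), M.pv_eq hZ (fun φ => (M.repB hG φ).2) (by omega),
    M.pv_eq hZ (fun φ => (M.repC hG φ).2) (by omega)]

theorem wk_eq {t : M24.T} {n : ℕ} (ht : t.sum (fun k _ _ => wk k) = n) (hn : n < BIG)
    (h : ∀ k ∈ t.keys, mcode (elt k) = k ∧ elt k * elt k = 1 ∧ k ≠ one) :
    (t.keys.map fun k => 1155 * M.P (elt k) w0.2 + (330 * M.P (elt k) rB.2 + 1386 * M.P (elt k) rC.2)).sum
      = n := by
  rw [T_sum_keys] at ht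
  rw [← ht]
  refine congrArg List.sum (List.map_congr_left fun k hk => ?_)
  have h1 := lt_of_sum_lt (ht ▸ hn) k hk
  obtain ⟨h2, h3, h4⟩ := h k hk
  obtain ⟨l, h5, h6⟩ := im_span (n := 11) (by norm_num) (M.mat_lt11 (elt k))
  rw [wk, force_eq, ← h2, h5, bif'_eq] at h1 ⊢
  split_ifs at h1 ⊢ with e
  · rw [← M.wv_eq hG (Z := fun f => f 0) (M.ZS_inv hG h3 (fun e => h4 (by rw [← h2, e, gcM.code_one])) e h6)
      h1, h2]
  · exact absurd h1 (lt_irrefl _)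

theorem pw_eq {g : M24} (h2 : g * g = 1) (h1 : g ≠ 1) {B : List ℕ}
    (hZ : ∀ φ : ℕ → ℕ, ∑ k ∈ Finset.range 2048, ind1 (IsConj z (M.el k g)) * φ k = ssum φ B 0) :
    M.P g 1 = pw (mat (mcode g)) B := by
  rw [M.P_eq (n := 2) (by rw [mul_one]; exact orderOf_eq_prime (by rw [pow_two, h2]) h1) rfl, M.TS_one,
    mul_one]
  simp only [pw, force_eq, lmk_eq, hZ, ← ssum_lin, Nat.xor_comm]

theorem tn_t : J4.tn z (T 1458) (T 1458) = 1544188503 := by
  have hc : ∀ d ∈ Dd, ∀ g, d * g * d⁻¹ ∈ Dd ↔ g ∈ Dd := fun d hd g =>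
    ⟨fun e => by simpa [mul_assoc] using CjU.mem ⟨d⁻¹, inv_mem hd, rfl⟩ e, CjU.mem ⟨d, hd, rfl⟩⟩
  rw [M.tn_eq, sum_Dd_inv (fun g _ h => sm_zero fun a _ => M.P_zero₂ a h) fun d hd g => by
      rw [sm_conj _ _ d]; exact sm_congr (hc d hd) fun a _ => M.P_conj hd a g,
    sum_Dd_inv (fun g _ h => M.P_zero₁ h 1) fun d hd g => by simpa using M.P_conj hd g 1,
    ← sm_mul, ← sm_mul, ← sm_mul, ← sm_add, ← sm_add,
    sum_Dd fun g _ h => by simp only [M.P_zero₁ h],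
    M.wk_eq hG wk_A (by decide) fun k hk =>
      ⟨trA.2.1 k hk, (keyA hk).sq (snd_sq w0_sq), (tD_disj'.1 k hk).1⟩,
    M.wk_eq hG wk_B (by decide) fun k hk =>
      ⟨trB.2.1 k hk, (keyB hk).sq (snd_sq rB_sq), (tD_disj'.2.1 k hk).1⟩,
    M.wk_eq hG wk_C (by decide) fun k hk =>
      ⟨trC.2.1 k hk, (keyC hk).sq (snd_sq rC_sq), tD_disj'.2.2 k hk⟩, M.P_one,
    M.pw_eq hG (snd_sq w0_sq) (snd_ne rc_w0 (by decide +kernel)) fun φ => (M.repA hG φ).1,
    M.pw_eq hG (snd_sq rB_sq) (snd_ne rc_rB (by decide +kernel)) fun φ => (M.repB hG φ).1,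
    M.pw_eq hG (snd_sq rC_sq) (snd_ne rc_rC (by decide +kernel)) fun φ => (M.repC hG φ).1,
    reps.1, reps.2.1, reps.2.2]
  have h1 := wv_1
  rw [← show mat (mcode 1) = idm by rw [gcM.code_one]; decide +kernel] at h1
  rw [M.wv_eq hG (B := []) M.ZS_one (by rw [h1]; decide), h1]
  decide +kernel

theorem count_z : sm (fun u => IsConj z u ∧ u * T 1458 = T 1458 * u) (fun _ => 1) = 69883 := by
  rw [sm_inj _ (N[V]).subtype Subtype.val_injective fun u h => M.cent_t (mem_cent1.2 h.2),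
    sm_fib (Q := (· ∈ Dd)) _ π fun u h => (M.mem_Dd_iff u).2 h.2,
    sm_congr (fun _ => Iff.rfl) (φ := fun g => sm (fun u : N[V] => IsConj z u ∧ π u = g) fun _ => 1)
      fun g hg => sm_congr (fun u => ⟨fun h => ⟨h.1.1, h.2⟩, fun h =>
        ⟨⟨h.1, (M.mem_Dd_iff u).1 (h.2 ▸ hg)⟩, h.2⟩⟩) fun _ _ => rfl,
    sum_Dd_inv (Ψ := fun g => sm (fun u : N[V] => IsConj z u ∧ π u = g) fun _ => 1)
      (fun g _ h => sm_zero fun u hu => absurd (hu.2 ▸ M.π_sq M.z_sq hu.1) h) fun d hd g => by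
      rw [sm_conj _ _ (κ d)]
      exact sm_congr (fun v => and_congr (isConj_conj _) (by simp [M.ms.sec])) fun _ _ => rfl,
    M.fib, M.fib, M.fib, M.fib, M.ZS_one, (M.repA hG _).1, (M.repB hG _).1, (M.repC hG _).1]
  decide +kernel

theorem cls_N {n : N[V]} (h2 : n * n = 1) (h1 : n ≠ 1) : IsConj z n ∨ IsConj (T 1458) n := by
  by_cases e : π n = 1
  · have h := M.el_co n
    rw [e, M.el_one] at h
    rw [← h] at h1 ⊢
    by_cases a : tbq 102 (cl clT6 (M.co n)) = true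
    · exact Or.inl ((M.cls _ (M.co_lt n)).2 a)
    · refine Or.inr ((M.tc_T (M.co_lt n)).2 ?_)
      simp only [du, band_eq, Bool.and_eq_true, Bool.not_eq_true', ← Bool.not_eq_true, Nat.beq_eq]
      exact ⟨fun k => h1 (Subtype.ext (by rw [k]; exact M.px.co.zero)), a⟩
  · have := hG _ (by rw [← map_mul, h2, map_one]) e n rfl h2
    exact (em _).imp this.1 this.2

end MC

end Cfsg.Agent.J4
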