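import Cfsg.Agent.J4.OFH0
import Cfsg.Agent.J4.OFN

/-!
# The types of involutions in the centraliser of a central involution
-/

set_option autoImplicit false
set_option linter.unusedSectionVars false
set_option linter.unusedVariables false
set_option exponentiation.threshold 600

namespace Cfsg.Agent.J4

open Cfsg.Agent.M24 Cfsg.Agent.GT Subgroup MulAction
open scoped Pointwise symmDiff

theorem ou_pow {r : R} (hr : r ∈ Lm) (k : ℕ) : ou (rc (r ^ k)) = k * ou (rc r) % 2 := by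
  induction k with
  | zero => rw [pow_zero, ou_one, zero_mul]; rfl
  | succ k ih =>
    rw [pow_succ, ou_mul (pow_mem hr k) hr, ih]
    have := ou_le (rc r)
    interval_cases ou (rc r)
    · simp
    · rcases Nat.mod_two_eq_zero_or_one k with e | e <;> simp [e, Nat.add_mod]

/-- The low part of `k` is the matrix of `r`. -/
def Mx (k : ℕ) (r : R) : Prop := ∀ j < 12, fld k j = fld (rc r) j

theorem Mx.rc (r : R) : Mx (rc r) r := fun _ _ => rfl
theorem Mx.lo (r : R) : Mx (lo (J4.rc r)) r := fun _ hj => fld_lo _ hj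
theorem Mx.lin {k : ℕ} {r : R} (h : Mx k r) (a : ℕ) : lin k a = lin (J4.rc r) a := lin_congr h a
theorem Mx.mm {a b : ℕ} {r s : R} (h : Mx a r) (h' : Mx b s) : mm a b = J4.lo (J4.rc (r * s)) := by
  rw [mm_congr (fun j hj => (h j hj).trans (Mx.lo r j hj).symm)
    fun j hj => (h' j hj).trans (Mx.lo s j hj).symm, lo_rc, lo_rc, lo_rc]
  rfl
theorem Mx.mul {a b : ℕ} {r s : R} (h : Mx a r) (h' : Mx b s) : Mx (J4.mm a b) (r * s) :=
  h.mm h' ▸ Mx.lo _

theorem inIm_congr {k : ℕ} {r : R} (h : Mx k r) (e : ℕ) : InIm 12 k e ↔ InIm 12 (rc r) e := by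
  simp only [InIm, h.lin]

theorem inIm12 {m : ℕ} {I : List ℕ} (hI : gbk (imf m) 12 (fun l => if l = I then 1 else 0) = 1) :
    ∀ x, x ∈ combs I ↔ x < 2 ^ 12 ∧ InIm 12 m x := by
  obtain ⟨l, h1, h2⟩ := im_span (n := 12) (m := m) le_rfl fun a _ => lin_lt m a
  rw [h1] at hI
  by_cases e : l = I
  · exact e ▸ h2
  · rw [if_neg e] at hI; omega

theorem out_fix {r : R} (h : Out r) {e : ℕ} (he : e < 4096) (hf : lin (rc r) e = e) : InIm 12 (rc r) e := by
  have key : ∀ r0 I, CjU Lm r0 r → gbk (imf (rc r0)) 12 (fun l => if l = I then 1 else 0) = 1 →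
      fixChk 12 (rc r0) I = true → InIm 12 (rc r) e := by
    rintro r0 I ⟨d, -, rfl⟩ h1 h2
    obtain ⟨-, y, hy, e1⟩ := (inIm12 h1 _).1 (((fix_span h2).2 (lin (rc d⁻¹) e)).2 ⟨lin_lt _ _, by
      rw [← lin_rc_mul, show r0 * d⁻¹ = d⁻¹ * (d * r0 * d⁻¹) by group, lin_rc_mul, hf]⟩)
    refine ⟨lin (rc d) y, lin_lt _ _, ?_⟩
    rw [← lin_rc_mul, inv_mul_cancel_right, lin_rc_mul, ← lin_xor, ← e1, lin_rc_inv' _ he]
  rcases out_cases h with a | a
  · exact key _ [768, 1920, 2368, 13, 18, 33] a (by rw [rc_rB]; decide +kernel) (by rw [rc_rB]; decide +kernel)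
  · exact key _ [773, 1925, 2369, 13, 18, 33] a (by rw [rc_rC]; decide +kernel) (by rw [rc_rC]; decide +kernel)

theorem fld_shl {a : ℕ} (ha : a < 4096) (i j : ℕ) : fld (a <<< (12 * i)) j = if i = j then a else 0 := by
  apply Nat.eq_of_testBit_eq; intro t
  rw [testBit_fld, Nat.testBit_shiftLeft]
  have h : ∀ u ≥ 12, a.testBit u = false := fun u hu =>
    Nat.testBit_lt_two_pow (ha.trans_le (Nat.pow_le_pow_right (n := 2) (i := 12) (by norm_num) hu))
  split_ifs with e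
  · subst e
    by_cases k : t < 12
    · simp [k]
    · simp [k, h t (by omega)]
  · rw [Nat.zero_testBit]
    by_cases k : t < 12
    · rcases lt_or_gt_of_ne e with e | e
      · simp [h (12 * j + t - 12 * i) (by omega)]
      · simp [show ¬ 12 * j + t ≥ 12 * i by omega]
    · simp [k]

theorem pk_xor (N N2 a b : ℕ) : pk N N2 (a ^^^ b) = pk N N2 a ^^^ pk N N2 b := by
  simp only [pk, lin_xor, Nat.shiftLeft_eq', Nat.xor_eq, Nat.shiftLeft_xor_distrib, Nat.xor_assoc,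
    Nat.xor_left_comm]

theorem fld_pk {a : ℕ} (ha : a < 4096) (N N2 b : ℕ) : fld (a ^^^ pk N N2 b) 0 = a ∧
    ∀ m, lfp m (a ^^^ pk N N2 b) = lf m (lin N b) (lin N2 b) := by
  have e : a ^^^ pk N N2 b = a <<< (12 * 0) ^^^ (lin N b <<< (12 * 1) ^^^ lin N2 b <<< (12 * 2)) := rfl
  simp only [e, lfp, force_eq, fld_xor, fld_shl ha, fld_shl (lin_lt _ _)]
  simp

theorem lfp_pk (m N N2 b : ℕ) : lfp m (pk N N2 b) = lf m (lin N b) (lin N2 b) := by
  simpa using (fld_pk (a := 0) (by norm_num) N N2 b).2 m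

theorem ssum_aff {P : ℕ → ℕ} (hP : ∀ a b, P (a ^^^ b) = P a ^^^ P b) (φ : ℕ → ℕ) (l : List ℕ) (y : ℕ) :
    ssum φ (l.map P) y = ssum (fun k => φ (P k ^^^ y)) l 0 := by
  have h0 : P 0 = 0 := by simpa using hP 0 0
  rw [ssum_shift φ, ← ssum_map hP (fun x => φ (x ^^^ y)), h0]

namespace HM

variable {H : Type*} [Group H] [Finite H] {z ω : H} {s : ℕ → H} {Λ : H →* R} (M : HM z ω s Λ)
include M

theorem aff : Aff Λ M.cb (fun h => lo (rc (Λ h))) idm where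
  co_mul a b := by rw [M.cb_mul, (Mx.lo _).lin]
  mt_mul a b := by rw [(Mx.lo _).mm (Mx.lo _), map_mul]
  mt_eq a := ⟨fun e => M.faith _ (M.mem a) fun x hx => by rw [← (Mx.lo _).lin, e, lin_idm hx],
    fun e => by rw [e, lo_rc]; rfl⟩
  co_one := M.cb_one

theorem sq_eq {c : H} (hf : lin (rc (Λ c)) (M.cb c) = M.cb c) : ∃ l ∈ N[zpowers ω], Λ l = Λ c ∧
    c * c = z ^ Qf (M.cb c) * z ^ (ou (rc (Λ c)) * Qf (M.cb c)) * (l * l) := by
  obtain ⟨l, hl, e1, e2⟩ := M.cb_dec c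
  have a := M.conj l hl _ (M.cb_lt c)
  rw [e2, hf, mul_inv_eq_iff_eq_mul] at a
  refine ⟨l, hl, e2, ?_⟩
  rw [← M.s_sq (M.cb_lt c)]
  conv_lhs => rw [e1, mul_assoc, ← mul_assoc l, a]
  simp only [mul_assoc]

theorem fix_of_sq {c : H} (h : M.cb (c * c) = 0) : lin (rc (Λ c)) (M.cb c) = M.cb c := by
  rw [M.cb_mul] at h
  exact (Nat.eq_of_xor_eq_zero h).symm

theorem sq_in {c : H} (h2 : Λ c * Λ c = 1) (hf : lin (rc (Λ c)) (M.cb c) = M.cb c) (ho : ou (rc (Λ c)) = 0) :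
    c * c = z ^ Qf (M.cb c) := by
  obtain ⟨l, hl, e1, e2⟩ := M.sq_eq hf
  rw [e2, ho, M.sq_inner hl (e1 ▸ h2) (e1 ▸ ho)]; simp

theorem z_mem_E {y : H} (h : Λ y = 1) : z ∈ zpowers y ↔ Qf (M.cb y) = 1 ∨ y = z := by
  have h1 := M.sq_ker h
  have := Qf_le (M.cb y)
  interval_cases Qf (M.cb y)
  · rw [mem_zpowers_sq (by simpa using h1)]
    simp [M.ne, eq_comm]
  · rw [pow_one] at h1
    exact iff_of_true (h1 ▸ mul_mem (mem_zpowers y) (mem_zpowers y)) (Or.inl rfl)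

/-- The sign-free condition. -/
def Ph (z x : H) : Prop := z ∈ zpowers x ∨ z ∈ zpowers (x * z)

theorem Ph_z (x : H) : Ph z (x * z) ↔ Ph z x := by
  rw [Ph, Ph, mul_assoc, M.zz, mul_one, or_comm]

theorem Ph_conj (g x : H) : Ph z (g * x * g⁻¹) ↔ Ph z x := by
  have e : g * z * g⁻¹ = z := by rw [M.zc]; simp
  rw [Ph, Ph, ← mem_zpowers_conj (g := g) (x := x), ← mem_zpowers_conj (g := g) (x := x * z), e,
    show g * (x * z) * g⁻¹ = g * x * g⁻¹ * (g * z * g⁻¹) by group, e]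

theorem Ph_even {x : H} (h : Even (orderOf x)) : Ph z x ↔ z ∈ zpowers x := by
  refine or_iff_left_of_imp fun e => ?_
  obtain ⟨k, e⟩ := mem_powers_iff_mem_zpowers.2 e
  simp only at e
  rw [Commute.mul_pow (M.zc x)] at e
  rcases Nat.even_or_odd' k with ⟨j, rfl | rfl⟩
  · rw [pow_mul z, pow_two z, M.zz, one_pow, mul_one] at e
    exact e ▸ npow_mem_zpowers x _
  · rw [pow_succ z, pow_mul z, pow_two z, M.zz, one_pow, one_mul, mul_eq_right] at e
    have := h.two_dvd.trans (orderOf_dvd_of_pow_eq_one e)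
    omega

variable (hO : ∀ l ∈ N[zpowers ω], Out (Λ l) → l * l = 1)
include hO in
theorem Ph_eq {x : H} {n : ℕ} (hn : orderOf (Λ x) = n) :
    ind1 (Ph z x) = lf (md n (ou (rc (Λ x)))) (M.cb (x ^ n)) (M.cb (x ^ (n / 2))) := by
  have h1 : Λ (x ^ n) = 1 := by rw [map_pow, ← hn, pow_orderOf_eq_one]
  have cz : M.cb z = 0 := by simpa using M.cb_zp 1
  rw [Ph, mem_zpowers_pow Λ M.Λz, mem_zpowers_pow Λ (x := x * z) M.Λz, map_mul, M.Λz, mul_one, hn,
    Commute.mul_pow (M.zc x), M.z_mem_E h1, M.z_mem_E (by rw [map_mul, h1, M.Λzp, mul_one]), M.cb_mul_zp,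
    lf, bif'_eq]
  split_ifs with h0 <;> rw [Nat.beq_eq] at h0
  swap
  · have a : ¬ x ^ n = z := fun e => h0 (by rw [e, cz])
    have b : ¬ x ^ n * z ^ n = z := fun e => h0 (by rw [← M.cb_mul_zp _ n, e, cz])
    have := Qf_le (M.cb (x ^ n))
    interval_cases Qf (M.cb (x ^ n)) <;> simp [a, b, ind1]
  have h2 := M.eq_s h1
  rw [h0, M.s0, one_mul] at h2
  rw [h0, Qf_zero, md]
  rcases Nat.even_or_odd' n with ⟨j, rfl | rfl⟩
  · have h3 : x ^ (2 * j) = x ^ j * x ^ j := by rw [two_mul, pow_add]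
    have h4 : Λ (x ^ j) * Λ (x ^ j) = 1 := by rw [← map_mul, ← h3, h1]
    have h5 := M.fix_of_sq (h3 ▸ h0)
    have h6 := ou_pow (M.mem x) j
    rw [← map_pow] at h6
    rw [pow_mul z, pow_two z, M.zz, one_pow, mul_one, Nat.mul_div_cancel_left _ two_pos, ← h6, h3,
      Nat.mul_mod_right]
    have := ou_le (rc (Λ (x ^ j)))
    rcases Nat.le_one_iff_eq_zero_or_eq_one.1 this with o | o
    · rw [M.sq_in h4 h5 o, o]
      have := Qf_le (M.cb (x ^ j))
      interval_cases Qf (M.cb (x ^ j)) <;> simp [ind1, bif'_eq, M.ne.symm]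
    · obtain ⟨l, hl, e1, e2⟩ := M.sq_eq h5
      rw [e2, o, one_mul, M.zp_sq, hO l hl (e1 ▸ ⟨M.mem _, h4, o⟩)]
      simp [ind1, bif'_eq, M.ne.symm]
  · rw [pow_succ z, pow_mul z, pow_two z, M.zz, one_pow, one_mul, show (2 * j + 1) % 2 = 1 by omega]
    rcases h2 with e | e <;> simp [e, ind1, bif'_eq]

include hO in
theorem cx_eq {r : R} (hr : r ∈ Lm) {K : ℕ → ℕ → ℕ → ℕ} {A : ℕ}
    (hK : ∀ m N N2, (∀ x, Λ x = r → ind1 (Ph z x) = lf m (lin N (M.cb x)) (lin N2 (M.cb x))) → A = K m N N2)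
    (h : cx (lo (rc r)) (ou (rc r)) K < BIG) : A = cx (lo (rc r)) (ou (rc r)) K := by
  simp only [cx, force_eq, bif'_eq, Nat.beq_eq] at h ⊢
  split_ifs at h ⊢ with e
  · exact absurd h (lt_irrefl _)
  refine hK _ _ _ ?_
  rintro x rfl
  rw [M.Ph_eq hO (M.aff.ord x 30 e), M.aff.co_pow, M.aff.co_pow]

theorem fibz {l : H} (hl : l ∈ N[zpowers ω]) (ψ : H → ℕ) : sm (fun h => Λ h = Λ l) ψ =
    ∑ e ∈ Finset.range 4096, (ψ (s e * l) + ψ (s e * l * z)) := by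
  rw [sm_split _ fun h => h = s (M.cb h) * l, Finset.sum_add_distrib,
    sm_range 4096 (fun e => s e * l) (fun a ha b hb e => by rw [← M.cb_eq ha hl, e, M.cb_eq hb hl]),
    sm_range 4096 (fun e => s e * l * z) fun a ha b hb e => by
      rw [← M.cb_eq ha hl, mul_right_cancel e, M.cb_eq hb hl]]
  · intro h
    refine ⟨fun e => ⟨_, M.cb_lt h, ((M.eq_of_crd (M.cb_eq (M.cb_lt h) hl).symm ?_).resolve_left e.2).symm⟩, ?_⟩
    · rw [map_mul, M.Λs (M.cb_lt h), one_mul, e.1]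
    · rintro ⟨e, he, rfl⟩
      rw [M.cb_mul_z, M.cb_eq he hl, map_mul, map_mul, M.Λs he, M.Λz, mul_eq_left]
      exact ⟨by simp, M.ne⟩
  · intro h
    refine ⟨fun e => ⟨_, M.cb_lt h, e.2.symm⟩, ?_⟩
    rintro ⟨e, he, rfl⟩
    rw [M.cb_eq he hl, map_mul, M.Λs he, one_mul]
    exact ⟨rfl, rfl⟩

/-- Multiplicity modulo the centre. -/
noncomputable def mu (z : H) (K : H → Prop) (h : H) : ℕ := ind1 (K h) + ind1 (K (h * z))

theorem mu_z (K : H → Prop) (h : H) : mu z K (h * z) = mu z K h := by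
  rw [mu, mu, mul_assoc, M.zz, mul_one, add_comm]

omit M in
theorem mu_le (K : H → Prop) (h : H) : mu z K h ≤ 2 := add_le_add (ind1_le _) (ind1_le _)

theorem fibmu {l : H} (hl : l ∈ N[zpowers ω]) (K : H → Prop) {φ : H → ℕ} (hφ : ∀ h, φ (h * z) = φ h) :
    sm (fun h => K h ∧ Λ h = Λ l) φ = ∑ e ∈ Finset.range 4096, mu z K (s e * l) * φ (s e * l) := by
  rw [sm_congr (Q := fun h => Λ h = Λ l ∧ K h) (fun n => and_comm) fun _ _ => rfl, sm_and, M.fibz hl]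
  simp only [hφ, mu, add_mul]

theorem sm_mu (K : H → Prop) {φ : H → ℕ} (hφ : ∀ h, φ (h * z) = φ h) :
    sm (fun _ => True) (fun h => mu z K h * φ h) = 2 * sm K φ := by
  have e : sm K φ = sm (fun _ => True) fun h => ind1 (K h) * φ h := by
    rw [← sm_and]; simp only [true_and]
  simp only [mu, add_mul]
  rw [sm_add, two_mul, e]
  congr 1
  rw [sm_equiv _ (Equiv.mulRight z)]
  simp only [Equiv.coe_mulRight, mul_assoc, M.zz, mul_one, hφ]

/-- Class functions modulo the centre supported on involutions. -/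
structure Iv (z : H) (ψ : H → ℕ) : Prop where
  conj : ∀ g h, ψ (g * h * g⁻¹) = ψ h
  zi : ∀ h, ψ (h * z) = ψ h
  supp : ∀ h, ¬ h * h = 1 → ψ h = 0

theorem sq_mul_z (h : H) : h * z * (h * z) = h * h := by
  rw [mul_assoc, ← mul_assoc z, ← M.zc, mul_assoc, M.zz, mul_one]

theorem iv_mu {K : H → Prop} (h1 : ∀ g h, K (g * h * g⁻¹) ↔ K h) (h2 : ∀ h, K h → h * h = 1) :
    Iv z (mu z K) :=
  ⟨fun g h => by
      rw [mu, mu, h1, ← h1 g (h * z), mul_assoc _ g⁻¹, M.zc g⁻¹]; simp only [mul_assoc], M.mu_z K, fun h e => by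
    rw [mu, ind1_neg (mt (h2 h) e), ind1_neg fun k => e (M.sq_mul_z h ▸ h2 _ k)]⟩

omit M in
theorem Iv.mul {ψ φ : H → ℕ} (I : Iv z ψ) (h1 : ∀ g h, φ (g * h * g⁻¹) = φ h) (h2 : ∀ h, φ (h * z) = φ h) :
    Iv z fun h => ψ h * φ h :=
  ⟨fun g h => by rw [I.conj, h1], fun h => by rw [I.zi, h2], fun h e => by rw [I.supp h e, zero_mul]⟩

variable {ψ : H → ℕ} (I : Iv z ψ)
include I

theorem iv_eq {h k : H} (e1 : M.cb h = M.cb k) (e2 : Λ h = Λ k) : ψ h = ψ k := by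
  rcases M.eq_of_crd e1 e2 with e | e <;> rw [e]
  exact I.zi k

theorem iv_lift {d : R} (hd : d ∈ Lm) {h k : H} (e1 : lin (rc d) (M.cb h) = M.cb k)
    (e2 : d * Λ h * d⁻¹ = Λ k) : ψ h = ψ k := by
  obtain ⟨g, hg, rfl⟩ := M.lift d hd
  rw [← I.conj g]
  exact M.iv_eq I (by rw [M.cb_conj, M.cb_norm hg, lin_zero, e1]; simp) (by simpa using e2)

theorem iv_im {h k : H} (e1 : InIm 12 (rc (Λ h)) (M.cb h ^^^ M.cb k)) (e2 : Λ h = Λ k) : ψ h = ψ k := by
  obtain ⟨y, hy, e⟩ := e1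
  have e3 : Λ (s y * h * (s y)⁻¹) = Λ h := by simp [M.Λs hy]
  rw [← I.conj (s y)]
  refine M.iv_eq I ?_ (e3.trans e2)
  rw [M.cb_conj, e3, M.cb_s hy, M.Λs hy, lin_rc_one (M.cb_lt h), Nat.xor_comm y, Nat.xor_assoc, ← e,
    ← Nat.xor_assoc, Nat.xor_self, Nat.zero_xor]

theorem typeE {h : H} (h1 : Λ h = 1) : ψ h = b2n (Nat.beq (tyE (M.cb h)) 1) * ψ 1 +
    (b2n (Nat.beq (tyE (M.cb h)) 2) * ψ (s 1) + b2n (Nat.beq (tyE (M.cb h)) 3) * ψ (s 20)) := by
  have key : ∀ a < 4096, (∃ g ∈ Lm, lin (rc g) a = M.cb h) → ψ h = ψ (s a) := by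
    rintro a ha ⟨g, hg, e⟩
    exact (M.iv_lift I hg (by rw [M.cb_s ha, e]) (by simp [h1, M.Λs ha])).symm
  have hc := ball_zero tv_cover _ (M.cb_lt h)
  simp only [tyE, bif'_eq, Nat.beq_eq]
  split_ifs with a b c
  · simpa [b2n_eq] using M.iv_eq I (a.trans M.cb_one.symm) (by simp [h1])
  · simpa [b2n_eq] using key 1 (by norm_num) (conn_vec (by norm_num) tv1_chk b)
  · simpa [b2n_eq] using key 20 (by norm_num) (conn_vec (by norm_num) tv2_chk c)
  · simp only [bor_eq, bif'_eq, band_eq, Bool.or_eq_true, Nat.beq_eq, a, b, c, false_or] at hc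
    have : Qf (M.cb h) = 1 := by_contra fun e => by simp [e] at hc
    simpa [b2n_eq] using I.supp h (by rw [M.sq_ker h1, this, pow_one]; exact M.ne)

theorem typeW {l h : H} (hl : l ∈ N[zpowers ω]) (e : Λ l = w0) (h1 : Λ h = w0) :
    ψ h = b2n (Nat.beq (tyW (M.cb h)) 1) * ψ l + (b2n (Nat.beq (tyW (M.cb h)) 2) * ψ (s 1 * l) +
      b2n (Nat.beq (tyW (M.cb h)) 3) * ψ (s 1152 * l)) := by
  have hI := inIm12 (m := rc (Λ h)) (I := [19, 33, 4, 12]) (by rw [h1, rc_w0]; decide +kernel)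
  have key : ∀ a < 4096, ∀ L : List ℕ, lall L (fun c => band (inL c) (Nat.beq (rmul c kw0) (rmul kw0 c))) = true →
      lany L (fun c => Nat.beq (red [19, 33, 4, 12] (M.cb h ^^^ lin c a)) 0) = true → ψ h = ψ (s a * l) := by
    intro a ha L h2 h3
    obtain ⟨c, hc, h4⟩ := (lany_iff _ _).1 h3
    have h5 := (lall_iff _ _).1 h2 c hc
    rw [band_eq, Bool.and_eq_true] at h5
    obtain ⟨h6, h7⟩ := relt_mem h5.1
    rw [M.iv_im I (k := s (lin c a) * l) (by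
      rw [M.cb_eq (lin_lt _ _) hl]; exact ((hI _).1 (mem_combs_of_red (Nat.eq_of_beq_eq_true h4))).2)
      (by simp [h1, e, M.Λs (lin_lt _ _)])]
    refine (M.iv_lift I h6 (by rw [M.cb_eq ha hl, M.cb_eq (lin_lt _ _) hl, h7]) ?_).symm
    simp only [map_mul, M.Λs ha, M.Λs (lin_lt _ _), e, one_mul, mul_inv_eq_iff_eq_mul]
    refine gcR.inj ?_
    rw [gcR.code_mul, gcR.code_mul, h7, rc_w0]
    exact Nat.eq_of_beq_eq_true h5.2
  have hc := ball_zero (f := fun e => force (tyW e) fun t => bif' (Nat.beq t 2)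
    (lany cV fun c => Nat.beq (red [19, 33, 4, 12] (e ^^^ lin c 1)) 0) (bor (!Nat.beq t 3)
    (lany cA fun c => Nat.beq (red [19, 33, 4, 12] (e ^^^ lin c 1152)) 0))) (d := 12) (by decide +kernel)
    _ (M.cb_lt h)
  simp only [tyW, bif'_eq, band_eq, Bool.and_eq_true, Nat.beq_eq, force_eq] at hc ⊢
  split_ifs at hc ⊢ with a b c <;> try contradiction
  · simpa [b2n_eq] using M.iv_im I (k := l)
      (by rw [M.cb_norm hl, Nat.xor_zero]; exact ((hI _).1 (mem_combs_of_red b)).2) (h1.trans e.symm)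
  · simpa [b2n_eq] using key 1 (by norm_num) cV (by decide +kernel) hc
  · simpa [b2n_eq] using key 1152 (by norm_num) cA (by decide +kernel) (by simpa [bor_eq] using hc)
  · simpa [b2n_eq] using I.supp h fun k => a (by
      have f := M.fix_of_sq (k ▸ M.cb_one)
      refine ⟨by rwa [h1, rc_w0] at f, (M.zp_eq_one (Qf_le _)).1 ?_⟩
      rw [← M.sq_in (h1 ▸ w0_sq) f (h1 ▸ (Wb_facts w0_mem).2.1), k])

theorem typeO {l h : H} (hl : l ∈ N[zpowers ω]) (e : Out (Λ l)) (h1 : Λ h = Λ l) :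
    ψ h = ind1 (InIm 12 (rc (Λ l)) (M.cb h)) * ψ l := by
  by_cases a : InIm 12 (rc (Λ l)) (M.cb h)
  · rw [ind1_pos a, one_mul]
    exact M.iv_im I (by rwa [M.cb_norm hl, Nat.xor_zero, h1]) h1
  · rw [ind1_neg a, zero_mul]
    exact I.supp h fun k => a (out_fix e (M.cb_lt h) (h1 ▸ M.fix_of_sq (k ▸ M.cb_one)))

theorem types {l lb lc : H} (hl : l ∈ N[zpowers ω]) (e : Λ l = w0) (hb : lb ∈ N[zpowers ω]) (eb : Λ lb = rB)
    (hc : lc ∈ N[zpowers ω]) (ec : Λ lc = rC) : sm (fun _ => True) ψ =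
    2 * (ψ 1 + 693 * ψ (s 1) + 1386 * ψ (s 20) + 1155 * (16 * ψ l + 48 * ψ (s 1 * l) + 96 * ψ (s 1152 * l)) +
      63360 * ψ lb + 266112 * ψ lc) := by
  have hi : ∀ d ∈ Lm, ∀ r, sm (fun h => Λ h = d * r * d⁻¹) ψ = sm (fun h => Λ h = r) ψ := fun d hd r => by
    obtain ⟨g, -, rfl⟩ := M.lift d hd
    rw [sm_conj _ _ g]
    exact sm_congr (fun h => by simp) fun h _ => I.conj g h
  have fo : ∀ l ∈ N[zpowers ω], Out (Λ l) → ∀ L, gbk (imf (rc (Λ l))) 12 (fun l => if l = L then 1 else 0) = 1 →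
      indep L = true → L.length = 6 → sm (fun h => Λ h = Λ l) ψ = 128 * ψ l := fun l hl o L h1 h2 h3 => by
    rw [M.fibz hl, Finset.sum_congr rfl fun e he => by
      rw [I.zi, M.typeO I hl o (by simp [M.Λs (Finset.mem_range.1 he)]), M.cb_eq (Finset.mem_range.1 he) hl,
        ← mul_add], sum_span (n := 4096) h2 (inIm12 h1), ssum_inv fun _ _ => rfl, h3]
    ring
  rw [sm_fib (Q := (· ∈ Lm)) ψ Λ fun h _ => M.mem h]
  simp only [true_and]
  rw [sum_Lm (Ψ := fun r => sm (fun h => Λ h = r) ψ) fun r _ k => sm_zero fun h e => I.supp h fun a =>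
    k (by rw [← e, ← map_mul, a, map_one]), sum_inn_inv hi, sum_out_inv hi, ← eb, ← ec, ← e, ← map_one Λ,
    fo lb hb (eb ▸ out_rB) [768, 1920, 2368, 13, 18, 33] (by rw [eb, rc_rB]; decide +kernel)
      (by decide +kernel) rfl,
    fo lc hc (ec ▸ out_rC) [773, 1925, 2369, 13, 18, 33] (by rw [ec, rc_rC]; decide +kernel)
      (by decide +kernel) rfl, M.fibz hl, M.fibz (one_mem _),
    Finset.sum_congr rfl fun a ha => by
      rw [I.zi, M.typeE I (by simp [M.Λs (Finset.mem_range.1 ha)]), M.cb_eq (Finset.mem_range.1 ha) (one_mem _)],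
    Finset.sum_congr (s₂ := Finset.range 4096) (f := fun a => ψ (s a * l) + ψ (s a * l * z)) rfl fun a ha => by
      rw [I.zi, M.typeW I hl e (by simp [e, M.Λs (Finset.mem_range.1 ha)]), M.cb_eq (Finset.mem_range.1 ha) hl]]
  have c : ∀ (f : ℕ → ℕ) (i : ℕ), ∑ a ∈ Finset.range 4096, b2n (Nat.beq (f a) i) =
    bsum (fun a => b2n (Nat.beq (f a) i)) 12 0 := fun f i => (bsum_zero _ 12).symm
  simp only [Finset.sum_add_distrib, ← Finset.sum_mul, c]
  rw [show bsum (fun a => b2n (Nat.beq (tyE a) 1)) 12 0 = 1 by decide +kernel,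
    show bsum (fun a => b2n (Nat.beq (tyE a) 2)) 12 0 = 693 by decide +kernel,
    show bsum (fun a => b2n (Nat.beq (tyE a) 3)) 12 0 = 1386 by decide +kernel,
    show bsum (fun a => b2n (Nat.beq (tyW a) 1)) 12 0 = 16 by decide +kernel,
    show bsum (fun a => b2n (Nat.beq (tyW a) 2)) 12 0 = 48 by decide +kernel,
    show bsum (fun a => b2n (Nat.beq (tyW a) 3)) 12 0 = 96 by decide +kernel]
  ring

end HM

end Cfsg.Agent.J4
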