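import Cfsg.Agent.J4.OFH

/-!
# The Thompson number of the first class
-/

set_option autoImplicit false
set_option linter.unusedSectionVars false
set_option linter.unusedVariables false
set_option exponentiation.threshold 600

namespace Cfsg.Agent.J4

open Cfsg.Agent.M24 Cfsg.Agent.GT Subgroup MulAction
open scoped Pointwise symmDiff

theorem lW_facts {j : ℕ} (hj : j < 16) : relt (lget lW 0 j) ∈ Wb ∧ rc (relt (lget lW 0 j)) = lget lW 0 j := by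
  have h : ∀ j < 16, isR (lget lW 0 j) = true ∧ lget lW 0 j ∈ lW := by decide +kernel
  exact ⟨by rw [mem_Wb, rc_relt (h j hj).1]; exact (h j hj).2, rc_relt (h j hj).1⟩

theorem sum_Wb (Ψ : R → ℕ) : sm (fun w => w ∈ Wb ∧ w ≠ 1) Ψ =
    ([1, 2, 3, 4, 5, 6, 7, 8, 9, 10, 11, 12, 13, 14, 15].map fun j => Ψ (relt (lget lW 0 j))).sum := by
  have h : ∀ j ∈ [1, 2, 3, 4, 5, 6, 7, 8, 9, 10, 11, 12, 13, 14, 15], j < 16 ∧ lget lW 0 j ≠ rone ∧
      ∀ i ∈ [1, 2, 3, 4, 5, 6, 7, 8, 9, 10, 11, 12, 13, 14, 15], lget lW 0 j = lget lW 0 i → j = i := by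
    decide +kernel
  have h' : ∀ k ∈ lW, k = rone ∨ ∃ j ∈ [1, 2, 3, 4, 5, 6, 7, 8, 9, 10, 11, 12, 13, 14, 15], lget lW 0 j = k := by
    decide +kernel
  refine sm_lst (by decide) _ (fun a ha b hb e => (h a ha).2.2 b hb ?_) fun w => ⟨fun e => ?_, ?_⟩
  · rw [← (lW_facts (h a ha).1).2, e, (lW_facts (h b hb).1).2]
  · obtain ⟨j, hj, k⟩ := (h' _ (mem_Wb.1 e.1)).resolve_left fun k => e.2 (gcR.inj (k.trans gcR.code_one.symm))
    exact ⟨j, hj, by rw [k, relt_rc]⟩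
  · rintro ⟨j, hj, rfl⟩
    exact ⟨(lW_facts (h j hj).1).1, fun e => (h j hj).2.1 (by
      rw [← (lW_facts (h j hj).1).2, e, gcR.code_one])⟩

theorem sum_eq_of_lt {l : List ℕ} {f g : ℕ → ℕ} (h : ∀ x ∈ l, g x < BIG → f x = g x) (h' : lsum l g < BIG) :
    (l.map f).sum = lsum l g := by
  rw [lsum_eq] at h' ⊢
  exact congrArg List.sum (List.map_congr_left fun x hx => h x hx (lt_of_sum_lt h' x hx))

/-- The data for the count. -/
structure KD {H : Type*} [Group H] {z ω : H} {s : ℕ → H} {Λ : H →* R} (M : HM z ω s Λ) (y g : H)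
    (T : ℕ → H) (K : H → Prop) (lc : H) : Prop where
  vc : VC M y g T 6
  conj : ∀ g h, K (g * h * g⁻¹) ↔ K h
  sq : ∀ h, K h → h * h = 1
  cls : ∀ a < 2048, K (T a) ↔ tbq 102 (cl clT6 a) = true
  hA : HM.mu z K (s 1152 * T 64) = 0
  hB : HM.mu z K g = 1
  lc_mem : lc ∈ N[zpowers ω]
  Λlc : Λ lc = rC
  hC : HM.mu z K lc = 0
  hO : ∀ l ∈ N[zpowers ω], Out (Λ l) → l * l = 1

namespace VC

variable {H : Type*} [Group H] [Finite H] {z ω : H} {s : ℕ → H} {Λ : H →* R} {M : HM z ω s Λ} {y g : H}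
  {T : ℕ → H} (D : VC M y g T 6)
include D

theorem T64 : T 64 ∈ N[zpowers ω] ∧ Λ (T 64) = w0 :=
  ⟨M.mem_norm_of_cb (D.cbT 64 (by norm_num)),
    gcR.inj (by rw [D.ΛT 64 (by norm_num), rc_w0]; decide +kernel)⟩

theorem Λg' : Λ g = rB := gcR.inj (by rw [D.Λg, rc_rB])

theorem mu_T {K : H → Prop} {f : ℕ → Bool} (h : ∀ a < 2048, K (T a) ↔ f a = true) {a : ℕ} (ha : a < 2048) :
    HM.mu z K (T a) = b2n (f a) + b2n (f (a ^^^ 1024)) := by
  rw [HM.mu, ← D.Tz, ← D.co.mul, ind1_b2n (h a ha), ind1_b2n (h _ (xor_lt11 ha (by norm_num)))]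

end VC

namespace KD

open HM

variable {H : Type*} [Group H] [Finite H] {z ω : H} {s : ℕ → H} {Λ : H →* R} {M : HM z ω s Λ} {y g : H}
  {T : ℕ → H} {K : H → Prop} {lc : H} (D : KD M y g T K lc)
include D

theorem iv : Iv z (mu z K) := M.iv_mu D.conj D.sq

/-- The count over an element of the model group. -/
noncomputable def Ψ (z : H) (Λ : H →* R) (K : H → Prop) (v : H) (r : R) : ℕ :=
  sm (fun u => K u ∧ Λ u = r) fun u => ind1 (Ph z (u * v))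

theorem Ψ_eq {l : H} (hl : l ∈ N[zpowers ω]) (v : H) : Ψ z Λ K v (Λ l) =
    ∑ e ∈ Finset.range 4096, mu z K (s e * l) * ind1 (Ph z (s e * l * v)) :=
  M.fibmu hl K fun h => by rw [mul_assoc, ← M.zc, ← mul_assoc, M.Ph_z]

theorem leaf {l v : H} (hl : l ∈ N[zpowers ω]) {m N N2 e : ℕ} (he : e < 4096)
    (h : ∀ x, Λ x = Λ l * Λ v → ind1 (Ph z x) = lf m (lin N (M.cb x)) (lin N2 (M.cb x))) :
    ind1 (Ph z (s e * l * v)) = lfp m (pk N N2 (e ^^^ lin (rc (Λ l)) (M.cb v))) := by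
  rw [h _ (by simp [M.Λs he]), lfp_pk, M.cb_mul, M.cb_eq he hl, map_mul, M.Λs he, one_mul]

theorem c1_eq (v : H) (h : c1 (M.cb v) (lo (rc (Λ v))) (ou (rc (Λ v))) < BIG) :
    Ψ z Λ K v 1 = c1 (M.cb v) (lo (rc (Λ v))) (ou (rc (Λ v))) := by
  refine M.cx_eq D.hO (M.mem v) (fun m N N2 k => ?_) h
  rw [← map_one Λ, D.Ψ_eq (one_mem _), bsum_zero]
  refine Finset.sum_congr rfl fun e he => ?_
  rw [Finset.mem_range] at he
  have h1 : mu z K 1 = 1 := by rw [← D.vc.co.zero, D.vc.mu_T D.cls (by norm_num)]; decide +kernel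
  have h2 : mu z K (s 1) = 2 := by
    rw [← D.vc.Ts 1 (by norm_num), D.vc.mu_T D.cls (by norm_num)]; decide +kernel
  have h3 : mu z K (s 20) = 0 := by
    rw [← D.vc.Ts 20 (by norm_num), D.vc.mu_T D.cls (by norm_num)]; decide +kernel
  rw [D.leaf (one_mem _) he (by simpa using k), M.typeE D.iv (by simp [M.Λs he]), M.cb_eq he (one_mem _), h1, h2,
    h3, map_one, lin_rc_one (M.cb_lt v), force_eq, force_eq, force_eq]
  have : tyE e ≤ 3 := by simp only [tyE, bif'_eq]; split_ifs <;> norm_num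
  interval_cases tyE e <;> simp [b2n_eq, bif'_eq]

theorem muW {u : H} (h : Λ u ∈ Wb) (h1 : Λ u ≠ 1) (h2 : ¬ M.cb u < 64) : mu z K u = 0 := by
  obtain ⟨d, hd, e⟩ := conj_w0_of_Wb h h1
  have a := lin_lt (rc d⁻¹) (M.cb u)
  have b := M.cb_eq a D.vc.T64.1
  have c : Λ (s (lin (rc d⁻¹) (M.cb u)) * T 64) = w0 := by simp [M.Λs a, D.vc.T64.2]
  rw [M.iv_lift D.iv (inv_mem (NV_le hd)) b.symm (by rw [c, ← e]; group),
    M.typeW D.iv D.vc.T64.1 D.vc.T64.2 c, b, D.hA]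
  have := ball_zero (f := fun e => bor (Nat.blt e 64) (force (tyW e) fun t => band (!Nat.beq t 1) (!Nat.beq t 2)))
    (d := 12) (by decide +kernel) _ a
  simp only [bor_eq, band_eq, force_eq, Bool.or_eq_true, Nat.blt_eq, Bool.and_eq_true, Bool.not_eq_true'] at this
  obtain ⟨e1, e2⟩ := this.resolve_left fun k => h2 (by simpa [lin_rc_inv' d (M.cb_lt u)] using NV_lin hd _ k)
  simp [e1, e2, b2n_eq]

theorem cW_eq {j : ℕ} (hj : j < 16) (h0 : j ≠ 0) (v : H)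
    (h : cW j (M.cb v) (lo (rc (Λ v))) (ou (rc (Λ v))) < BIG) :
    Ψ z Λ K v (relt (lget lW 0 j)) = cW j (M.cb v) (lo (rc (Λ v))) (ou (rc (Λ v))) := by
  obtain ⟨h1, h2⟩ := lW_facts hj
  obtain ⟨l, hl, e⟩ := M.lift _ (Wb_le h1)
  rw [← e] at h1 h2 ⊢
  have o : ou (rc (Λ v)) = ou (rc (Λ l * Λ v)) := by
    rw [ou_mul (M.mem _) (M.mem _), (Wb_facts h1).2.1, Nat.zero_xor]
  rw [cW, force_eq, force_eq, ← h2, (Mx.rc _).mm (Mx.lo _), o] at h ⊢
  refine M.cx_eq D.hO (mul_mem (M.mem _) (M.mem _)) (fun m N N2 k => ?_) h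
  have h3 : ∀ e < 64, (e ^^^ 64 * j) < 1024 ∧ (e ^^^ 64 * j) &&& 63 = e ∧ ((e ^^^ 64 * j) >>> 6) &&& 15 = j :=
    (show ∀ j < 16, ∀ e < 64, (e ^^^ 64 * j) < 1024 ∧ (e ^^^ 64 * j) &&& 63 = e ∧
      ((e ^^^ 64 * j) >>> 6) &&& 15 = j by decide +kernel) j hj
  have h4 : ∀ x, x ∈ combs [1, 2, 4, 8, 16, 32] ↔ x < 4096 ∧ x < 64 := fun x =>
    ⟨fun e => (show ∀ x ∈ combs [1, 2, 4, 8, 16, 32], x < 4096 ∧ x < 64 by decide +kernel) x e,
      fun e => (show ∀ x < 64, x ∈ combs [1, 2, 4, 8, 16, 32] by decide +kernel) x e.2⟩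
  rw [D.Ψ_eq hl, force_eq, force_eq, lmk_eq, ssum_aff (P := fun a => Nat.xor a (pk N N2 a)) fun a b => by
    simp only [Nat.xor_eq, pk_xor, Nat.xor_assoc, Nat.xor_left_comm], ← sum_span (by decide +kernel) h4]
  refine Finset.sum_congr rfl fun a ha => ?_
  rw [Finset.mem_range] at ha
  by_cases c : a < 64
  · obtain ⟨b1, b2, b3⟩ := h3 a c
    have : (Nat.xor a (pk N N2 a)) ^^^ Nat.xor (Nat.mul 64 j) (pk N N2 (lin (rc (Λ l)) (M.cb v))) =
        (a ^^^ 64 * j) ^^^ pk N N2 (a ^^^ lin (rc (Λ l)) (M.cb v)) := by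
      simp only [Nat.xor_eq, Nat.mul_eq, pk_xor, Nat.xor_assoc, Nat.xor_left_comm]
    rw [ind1_pos c, one_mul, this, force_eq, (fld_pk (by omega) _ _ _).1, (fld_pk (by omega) _ _ _).2,
      D.leaf hl ha k, lfp_pk, M.iv_eq D.iv (k := T (a ^^^ 64 * j))
      (by rw [M.cb_eq ha hl, D.vc.cbT _ (by omega), b2])
      (gcR.inj (by rw [D.vc.ΛT _ (by omega), b3, map_mul, M.Λs ha, one_mul, h2])), D.vc.mu_T D.cls (by omega),
      (show ∀ a < 1024, b2n (tbq 102 (cl clT6 a)) + b2n (tbq 102 (cl clT6 (a ^^^ 1024))) = wt a by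
        decide +kernel) _ b1]
    rfl
  · rw [ind1_neg c, zero_mul, D.muW (by simpa [M.Λs ha] using h1) ?_ (by rwa [M.cb_eq ha hl]), zero_mul]
    rw [map_mul, M.Λs ha, one_mul]
    intro e
    rw [e, gcR.code_one] at h2
    exact (show ∀ j < 16, j ≠ 0 → rone ≠ lget lW 0 j by decide +kernel) j hj h0 h2

theorem Ψ_conj (l v : H) (w : R) : Ψ z Λ K v (Λ l * w * (Λ l)⁻¹) = Ψ z Λ K (l⁻¹ * v * l) w := by
  rw [Ψ, sm_conj _ _ l]
  refine sm_congr (fun u => and_congr (D.conj _ _) (by simp)) fun u _ => ?_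
  rw [← M.Ph_conj l (u * _)]
  congr 2; group

theorem c2_eq (v : H) (h : c2 (M.cb v) (lo (rc (Λ v))) (ou (rc (Λ v))) < BIG) :
    sm Inn (Ψ z Λ K v) = c2 (M.cb v) (lo (rc (Λ v))) (ou (rc (Λ v))) := by
  rw [sum_inn]
  refine sum_eq_of_lt (fun d hd h => ?_) h
  obtain ⟨h1, h2⟩ := lD_mem hd
  obtain ⟨l, hl, e⟩ := M.lift _ h1
  rw [← e] at h2 ⊢
  have e1 : lin (rc (Λ l)⁻¹) (M.cb v) = M.cb (l⁻¹ * v * l) := by
    have := M.cb_conj l⁻¹ v
    rw [inv_inv, M.cb_norm (inv_mem hl), lin_zero, map_inv] at this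
    simpa using this.symm
  have e2 : ou (rc (Λ v)) = ou (rc (Λ (l⁻¹ * v * l))) := by
    simpa using (ou_conj (inv_mem (M.mem l)) (M.mem v)).symm
  simp only [force_eq, ← h2, ← gcR.code_inv, (Mx.rc (Λ l)⁻¹).mm ((Mx.lo (Λ v)).mul (Mx.rc (Λ l))), e1,
    ← mul_assoc] at h ⊢
  simp only [← map_inv, ← map_mul] at h ⊢
  simp only [map_inv, D.Ψ_conj]
  rw [sum_Wb, e2] at *
  exact sum_eq_of_lt (fun j hj h => D.cW_eq (by simp at hj; omega) (by simp at hj; omega) _ h) h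

theorem cB_eq {r : R} (hr : CjU Lm rB r) {k : ℕ} (hk : Mx k r) (v : H)
    (h : cB k (M.cb v) (lo (rc (Λ v))) (ou (rc (Λ v))) < BIG) :
    Ψ z Λ K v r = cB k (M.cb v) (lo (rc (Λ v))) (ou (rc (Λ v))) := by
  have ho := hr.out out_rB
  obtain ⟨l, hl, rfl⟩ := M.lift _ ho.1
  obtain ⟨B, h1, h2⟩ := im_span (n := 12) (m := k) le_rfl fun a _ => lin_lt k a
  have o : Nat.xor 1 (ou (rc (Λ v))) = ou (rc (Λ l * Λ v)) := by
    rw [ou_mul (M.mem _) (M.mem _), ho.2.2]; rfl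
  rw [cB, h1, bif'_eq] at h ⊢
  split_ifs at h ⊢ with b
  swap
  · exact absurd h (lt_irrefl _)
  rw [force_eq, hk.mm (Mx.lo _), o] at h ⊢
  refine M.cx_eq D.hO (mul_mem (M.mem _) (M.mem _)) (fun m N N2 c => ?_) h
  obtain ⟨d, hd, e⟩ := hr
  have h3 : mu z K l = 1 := by
    rw [← D.hB, M.iv_lift D.iv hd (h := g) (k := l) (by rw [M.cb_norm D.vc.g_mem, M.cb_norm hl, lin_zero])
      (by rw [D.vc.Λg', e])]
  rw [D.Ψ_eq hl, force_eq, force_eq, lmk_eq, ssum_aff (pk_xor N N2), ← sum_span (n := 4096) b h2]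
  refine Finset.sum_congr rfl fun a ha => ?_
  rw [Finset.mem_range] at ha
  rw [D.leaf hl ha c, M.typeO D.iv hl ho (by simp [M.Λs ha]), M.cb_eq ha hl, h3, mul_one, inIm_congr hk,
    ← pk_xor, hk.lin]

theorem c3_eq (v : H) (h : c3 (M.cb v) (lo (rc (Λ v))) (ou (rc (Λ v))) < BIG) :
    sm Out (Ψ z Λ K v) = c3 (M.cb v) (lo (rc (Λ v))) (ou (rc (Λ v))) := by
  rw [sum_out_B]
  · refine sum_eq_of_lt (fun d hd h => ?_) h
    obtain ⟨h1, h2, h3⟩ := lB_mem hd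
    have m1 : Mx d (relt d) := h2.symm ▸ (relt_rc (relt d)).symm ▸ Mx.rc _
    have mw : Mx kW rW := rc_rW ▸ Mx.rc _
    simp only [force_eq, Nat.add_eq] at h ⊢
    rw [D.cB_eq (out_of_snd out_rB h1 h3) m1 v (by omega),
      D.cB_eq (out_of_snd out_rB (mul_mem h1 rW_mem) (by simpa [rW_snd] using h3)) (m1.mul mw) v (by omega),
      D.cB_eq (out_of_snd out_rB (mul_mem (mul_mem h1 rW_mem) rW_mem) (by simpa [rW_snd] using h3))
        ((m1.mul mw).mul mw) v (by omega)]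
  · intro r hr
    have ho := hr.out out_rC
    obtain ⟨l, hl, rfl⟩ := M.lift _ ho.1
    obtain ⟨d, hd, e⟩ := hr
    have h3 : mu z K l = 0 := by
      rw [← D.hC, M.iv_lift D.iv hd (h := lc) (k := l) (by rw [M.cb_norm D.lc_mem, M.cb_norm hl, lin_zero])
        (by rw [D.Λlc, e])]
    rw [D.Ψ_eq hl]
    refine Finset.sum_eq_zero fun a ha => ?_
    rw [M.typeO D.iv hl ho (by simp [M.Λs (Finset.mem_range.1 ha)]), h3, mul_zero, zero_mul]

theorem cF_eq (v : H) {e k o n : ℕ} (he : M.cb v = e) (hk : rc (Λ v) = k) (ho : ou k = o)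
    (h : force (lo k) (fun k => cF e k o) = n) (hn : n < BIG) :
    sm K (fun u => ind1 (Ph z (u * v))) = n := by
  subst he hk ho h
  simp only [force_eq, cF, Nat.add_eq] at hn ⊢
  rw [sm_fib (Q := (· ∈ Lm)) _ Λ fun h _ => M.mem h, ← D.c1_eq v (by omega), ← D.c2_eq v (by omega),
    ← D.c3_eq v (by omega)]
  exact sum_Lm (Ψ := Ψ z Λ K v) fun r _ k => sm_zero fun h e => absurd
    (by rw [← e.2, ← map_mul, D.sq h e.1, map_one]) k

end KD

end Cfsg.Agent.J4
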