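import Cfsg.Agent.J4.OFL
import Cfsg.Agent.J4.MX

/-!
# The classes of involutions in `2¹¹ : M₂₄`
-/

set_option autoImplicit false
set_option linter.unusedSectionVars false
set_option linter.unusedVariables false
set_option exponentiation.threshold 600

namespace Cfsg.Agent.J4

open Cfsg.Agent.M24 Cfsg.Agent.GT Subgroup MulAction
open scoped Pointwise symmDiff

/-- Even sets representing the basis vectors. -/
def vL : List ℕ := [nat_lit 16457, nat_lit 66120, nat_lit 263, nat_lit 98309, nat_lit 131145, nat_lit 8326,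
  nat_lit 524296, nat_lit 24, nat_lit 8388624, nat_lit 8388672, nat_lit 557062]
/-- The matrix of a permutation. -/
noncomputable def mat (c : ℕ) : ℕ := mk12 fun j => bif' (Nat.beq j (nat_lit 11)) (nat_lit 2048)
  (force (lget vL 0 j) fun v => force (act c v) fun m => force (syn m) (lin TM))
/-- Duad test. -/
noncomputable def du (k : ℕ) : Bool := band (!Nat.beq k 0) (!tbq 102 (cl clT6 k))
/-- Element of order seven centralising the first involution. -/
def c7 : ℕ := nat_lit 0xadd4f85a24482855b06d09a47121d3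

theorem vL_chk : ∀ j < 11, lget vL 0 j < 2 ^ 24 ∧ pc (lget vL 0 j) % 2 = 0 ∧ tv (lget vL 0 j) = 2 ^ j := by
  decide +kernel

theorem mat_aux (c : ℕ) : ∀ j < 12, (bif' (Nat.beq j (nat_lit 11)) (nat_lit 2048)
    (force (lget vL 0 j) fun v => force (act c v) fun m => force (syn m) (lin TM))) < 4096 := fun j _ => by
  rw [bif'_eq, force_eq, force_eq, force_eq]
  split_ifs
  exacts [by norm_num, lin_lt _ _]

theorem mat_lt (c : ℕ) : mat c < 2 ^ 144 := mk12_lt (mat_aux c)

theorem fld_mat (c : ℕ) {j : ℕ} (hj : j < 11) : fld (mat c) j = tv (act c (lget vL 0 j)) := by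
  rw [mat, fld_mk12 (mat_aux c) (by omega), bif'_eq, if_neg (by rw [Nat.beq_eq]; exact hj.ne), force_eq,
    force_eq, force_eq]; rfl

theorem fld_mat11 (c : ℕ) : fld (mat c) 11 = 2048 := by
  rw [mat, fld_mk12 (mat_aux c) (by omega)]; rfl

theorem xor_lt11 {a b : ℕ} (ha : a < 2048) (hb : b < 2048) : a ^^^ b < 2048 :=
  Nat.xor_lt_two_pow (n := 11) ha hb

theorem inIm_of_red {m : ℕ} {I : List ℕ} (hm : ∀ a < 2 ^ 11, lin m a < 2 ^ 11)
    (hI : gbk (imf m) 11 (fun l => if l = I then 1 else 0) = 1) :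
    ∀ x, x ∈ combs I ↔ x < 2 ^ 11 ∧ InIm 11 m x := by
  obtain ⟨l, h1, h2⟩ := im_span (n := 11) (by norm_num) hm
  rw [h1] at hI
  by_cases e : l = I
  · exact e ▸ h2
  · rw [if_neg e] at hI; omega

theorem mem_combs_of_red {l : List ℕ} {x : ℕ} (h : red l x = 0) : x ∈ combs l := by
  have r := red_xor l x
  rwa [h, Nat.zero_xor] at r

/-- The data on the `M₂₄` side. -/
structure MC {G : Type*} [Group G] (z : G) (V : Subgroup G) (T : ℕ → G) (π : N[V] →* M24)
    (κ : M24 →* N[V]) : Prop where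
  px : PX V T π
  cls : ∀ a < 2048, IsConj z (T a) ↔ tbq 102 (cl clT6 a) = true
  ms : MS z V π κ fun X => T (tv (mask X))

namespace MC

variable {G : Type*} [Group G] [Finite G] {z : G} {V : Subgroup G} {T : ℕ → G} {π : N[V] →* M24}
  {κ : M24 →* N[V]} (M : MC z V T π κ)
include M

/-- Elements of `V` in the normaliser. -/
def tn (k : ℕ) : N[V] := ⟨T k, le_normalizer (M.px.co.mem k)⟩
/-- The element with given coordinates. -/
def el (k : ℕ) (g : M24) : N[V] := M.tn k * κ g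
/-- The `V`-coordinate. -/
noncomputable def co (n : N[V]) : ℕ := (M.px.co.surj _ (M.ms.mul_inv_κ_mem n)).choose

theorem tn_xor (a b : ℕ) : M.tn (a ^^^ b) = M.tn a * M.tn b := Subtype.ext (M.px.co.mul a b)
theorem tn_sq (a : ℕ) : M.tn a * M.tn a = 1 := Subtype.ext (M.px.co.sq a)
theorem π_tn (k : ℕ) : π (M.tn k) = 1 := (M.ms.ker _).2 (M.px.co.mem k)
theorem π_el (k : ℕ) (g : M24) : π (M.el k g) = g := by rw [el, map_mul, M.π_tn, M.ms.sec, one_mul]
theorem co_lt (n : N[V]) : M.co n < 2048 := (M.px.co.surj _ (M.ms.mul_inv_κ_mem n)).choose_spec.1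
theorem el_co (n : N[V]) : M.el (M.co n) (π n) = n :=
  Subtype.ext (eq_mul_inv_iff_mul_eq.1 (M.px.co.surj _ (M.ms.mul_inv_κ_mem n)).choose_spec.2)
theorem el_inj {a b : ℕ} (ha : a < 2048) (hb : b < 2048) {g : M24} (e : M.el a g = M.el b g) : a = b :=
  M.px.co.eq ha hb (congrArg Subtype.val (mul_right_cancel e))
theorem co_el {k : ℕ} (hk : k < 2048) (g : M24) : M.co (M.el k g) = k :=
  M.el_inj (M.co_lt _) hk (by have := M.el_co (M.el k g); rwa [M.π_el] at this)
theorem el_one (k : ℕ) : M.el k 1 = M.tn k := by rw [el, map_one, mul_one]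
theorem el_zero (g : M24) : M.el 0 g = κ g := by
  rw [el, show M.tn 0 = 1 from Subtype.ext M.px.co.zero, one_mul]
theorem tn_el (a k : ℕ) (g : M24) : M.tn a * M.el k g = M.el (a ^^^ k) g := by
  rw [el, el, M.tn_xor, mul_assoc]

theorem act_mat (n : N[V]) : Act 11 T n (mat (mcode (π n))) := by
  refine M.px.co.act_of_basis fun i hi => ?_
  obtain ⟨h1, h2, h3⟩ := vL_chk i hi
  have := M.px.conj n (unmask (lget vL 0 i)) (by rw [card_unmask h1, Nat.even_iff, h2])
  rw [← acSM.ap_code _ trivial, mask_unmask h1, h3] at this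
  rw [fld_mat _ hi]
  exact ⟨this, tv_lt _⟩

theorem mat_lt11 (g : M24) : ∀ a < 2 ^ 11, lin (mat (mcode g)) a < 2 ^ 11 := fun a ha => by
  have := (M.act_mat (κ g) a ha).2
  rwa [M.ms.sec] at this

theorem conj_tn (n : N[V]) {a : ℕ} (ha : a < 2048) :
    n * M.tn a = M.tn (lin (mat (mcode (π n))) a) * n :=
  mul_inv_eq_iff_eq_mul.1 (Subtype.ext (M.act_mat n a ha).1)

theorem el_mul (a : ℕ) {b : ℕ} (hb : b < 2048) (g h : M24) :
    M.el a g * M.el b h = M.el (a ^^^ lin (mat (mcode g)) b) (g * h) := by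
  rw [el, el, el, mul_assoc, ← mul_assoc (κ g), M.conj_tn _ hb, M.ms.sec, M.tn_xor, map_mul]
  simp only [mul_assoc]

theorem mat_mul (g h : M24) : mat (mcode (g * h)) = mm (mat (mcode g)) (mat (mcode h)) := by
  refine mat_ext (mat_lt _) (mm_lt _ _) fun j hj => ?_
  rcases Nat.lt_succ_iff_lt_or_eq.1 hj with hj' | rfl
  · have h1 := Nat.pow_lt_pow_right (a := 2) (by norm_num) hj'
    have h2 := M.act_mat (κ g * κ h) _ h1
    have h3 := (M.act_mat (κ g)).mul (M.act_mat (κ h)) _ h1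
    simp only [map_mul, M.ms.sec] at h2 h3
    rw [← lin_pow _ hj, ← lin_pow _ hj]
    exact M.px.co.eq h2.2 h3.2 (h2.1.symm.trans h3.1)
  · rw [fld_mm _ _ hj, fld_mat11, fld_mat11]
    exact (fld_mat11 _).symm.trans (lin_pow _ hj).symm

theorem aff : Aff π M.co (fun n => mat (mcode (π n))) idm where
  co_mul a b := by
    conv_lhs => rw [← M.el_co a, ← M.el_co b, M.el_mul _ (M.co_lt b)]
    exact M.co_el (xor_lt11 (M.co_lt a) (M.mat_lt11 _ _ (M.co_lt b))) _
  mt_mul a b := by rw [map_mul, M.mat_mul]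
  mt_eq a := ⟨fun e => gcM.inj ((M.px.code_eq (e ▸ M.act_mat a) (c := one) (by decide +kernel)).trans
    gcM.code_one.symm), fun e => by rw [e, gcM.code_one]; decide +kernel⟩
  co_one := by
    have := M.co_el (k := 0) (by norm_num) 1
    rwa [M.el_zero, map_one] at this

theorem el_sq {k : ℕ} (hk : k < 2048) (g : M24) :
    M.el k g * M.el k g = 1 ↔ g * g = 1 ∧ lin (mat (mcode g)) k = k := by
  rw [M.el_mul _ hk]
  constructor
  · intro e
    have h1 : g * g = 1 := by rw [← M.π_el _ (g * g), e, map_one]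
    have := congrArg M.co e
    rw [M.co_el (xor_lt11 hk (M.mat_lt11 _ _ hk)), M.aff.co_one] at this
    exact ⟨h1, (Nat.eq_of_xor_eq_zero this).symm⟩
  · rintro ⟨h1, h2⟩
    rw [h1, h2, Nat.xor_self, M.el_zero, map_one]

theorem el_conj_tn {y : ℕ} (hy : y < 2048) (k : ℕ) (g : M24) :
    M.tn y * M.el k g * (M.tn y)⁻¹ = M.el (k ^^^ (y ^^^ lin (mat (mcode g)) y)) g := by
  rw [inv_eq_of_mul_eq_one_right (M.tn_sq y), M.tn_el, ← M.el_one, M.el_mul _ hy, mul_one, Nat.xor_comm y,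
    Nat.xor_assoc]

omit M in
theorem isConj_coe {a b c : N[V]} (h : c * a * c⁻¹ = b) : IsConj (a : G) b :=
  isConj_iff.2 ⟨c, congrArg Subtype.val h⟩

theorem conj_of_im {k k' : ℕ} {g : M24} (h : InIm 11 (mat (mcode g)) (k ^^^ k')) :
    IsConj (M.el k g : G) (M.el k' g) := by
  obtain ⟨y, hy, e⟩ := h
  refine isConj_coe (c := M.tn y) ?_
  rw [M.el_conj_tn hy, ← e, ← Nat.xor_assoc, Nat.xor_self, Nat.zero_xor]

theorem el_conj_κ {k : ℕ} (hk : k < 2048) (d g : M24) :
    κ d * M.el k g * (κ d)⁻¹ = M.el (lin (mat (mcode d)) k) (d * g * d⁻¹) := by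
  rw [el, el, ← mul_assoc, M.conj_tn _ hk, M.ms.sec, map_mul, map_mul, map_inv]
  simp only [mul_assoc]

/-- Conjugate under `V` into the complement. -/
def Imc (n : N[V]) : Prop := ∃ y < 2048, n = M.tn y * κ (π n) * (M.tn y)⁻¹

theorem imc_el {k : ℕ} (hk : k < 2048) (g : M24) : M.Imc (M.el k g) ↔ InIm 11 (mat (mcode g)) k := by
  refine exists_congr fun y => and_congr_right fun hy => ?_
  rw [M.π_el, ← M.el_zero, M.el_conj_tn hy, Nat.zero_xor]
  exact ⟨M.el_inj hk (xor_lt11 hy (M.mat_lt11 _ _ hy)), fun e => e ▸ rfl⟩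

theorem Imc.conj {n : N[V]} (h : M.Imc n) (d : M24) : M.Imc (κ d * n * (κ d)⁻¹) := by
  obtain ⟨y, hy, e⟩ := h
  refine ⟨_, M.mat_lt11 d y hy, ?_⟩
  have := M.conj_tn (κ d) hy
  rw [M.ms.sec, ← mul_inv_eq_iff_eq_mul] at this
  rw [← this]
  simp only [map_mul, map_inv, M.ms.sec]
  conv_lhs => rw [e]
  group

/-- The classes of the involutions over `g`. -/
def Good (g : M24) : Prop :=
  ∀ n, π n = g → n * n = 1 → (M.Imc n → IsConj z n) ∧ (¬ M.Imc n → IsConj (T 1458) n)

theorem Good.conj {g : M24} (h : M.Good g) (d : M24) : M.Good (d * g * d⁻¹) := by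
  intro n h1 h2
  have := h (κ d⁻¹ * n * (κ d⁻¹)⁻¹) (by simp [h1, M.ms.sec, mul_assoc]) (CjU.sq ⟨_, mem_top _, rfl⟩ h2)
  simp only [coe_mul, coe_inv, isConj_conj] at this
  exact ⟨fun e => this.1 (e.conj M _), fun e => this.2 fun k => e (by simpa [mul_assoc] using k.conj M d)⟩

theorem hnc : ¬ IsConj z (T 1458) := by rw [M.cls _ (by norm_num)]; decide +kernel

theorem tv_duad0 : tv (mask ({none, some 0} : Finset GolayPt)) = 1458 := by
  rw [mask_duad]; decide +kernel

theorem t_ne : T 1458 ≠ 1 := fun e => absurd (M.px.co.inj _ (by norm_num) e) (by norm_num)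

theorem tc_T {a : ℕ} (ha : a < 2048) : IsConj (T 1458) (T a) ↔ du a = true := by
  simp only [du, band_eq, Bool.and_eq_true, Bool.not_eq_true', ← Bool.not_eq_true, Nat.beq_eq]
  constructor
  · intro h
    refine ⟨fun e => M.t_ne ?_, fun e => M.hnc (((M.cls a ha).2 e).trans h.symm)⟩
    rwa [e, M.px.co.zero, isConj_one_left] at h
  · intro h
    obtain ⟨Y, hY, rfl⟩ := exists_duad ha h.1 (by simpa using h.2)
    have e : ({none, some 0} : Finset GolayPt).card = 2 := by decide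
    obtain ⟨n, -, k⟩ := (M.ms.orbit_small (X := {none, some 0}) (by rw [e]; decide) (by rw [e]; norm_num)).ge
      ⟨Y, hY.trans e.symm, rfl⟩
    rw [M.tv_duad0] at k
    exact isConj_iff.2 ⟨n, k⟩

theorem fix_of_conj {i : G} (hi : i * i = 1) {k : ℕ} (hk : k < 2048) {g : M24}
    (h : IsConj i (M.el k g)) : g * g = 1 ∧ lin (mat (mcode g)) k = k :=
  (M.el_sq hk g).1 (Subtype.ext (sq_of_isConj hi h))

theorem good_of {g : M24} (hz : IsConj z (κ g)) (ht : ∀ k < 2048, lin (mat (mcode g)) k = k →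
    ¬ InIm 11 (mat (mcode g)) k → IsConj (T 1458) (M.el k g)) : M.Good g := by
  rintro n rfl h2
  rw [← M.el_co n] at h2 ⊢
  rw [M.imc_el (M.co_lt n)]
  refine ⟨fun e => ?_, ht _ (M.co_lt n) ((M.el_sq (M.co_lt n) _).1 h2).2⟩
  rw [← M.el_zero] at hz
  exact hz.trans (M.conj_of_im (by rwa [Nat.zero_xor]))

theorem z_sq : z * z = 1 :=
  sq_of_isConj (M.px.co.sq 1024) ((M.cls 1024 (by norm_num)).2 (by decide +kernel)).symm

theorem goodA {e : N[V]} (he : mcode (π e) = lget pE 0 0) (h0 : IsConj z e)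
    (h2 : IsConj (T 1458) (T 2 * e)) (h4 : IsConj (T 1458) (T 4 * e)) : M.Good (π e) := by
  have hm : mat (mcode (π e)) = lget lE 0 0 := by rw [he]; decide +kernel
  have hI := inIm_of_red (I := [34, 16, 12, 1024]) (M.mat_lt11 (π e)) (by rw [hm]; decide +kernel)
  have h7 : mcode (elt c7) = c7 := mcode_elt (by decide +kernel)
  have hc : elt c7 * π e * (elt c7)⁻¹ = π e := gcM.inj (by
    rw [← gcM.cjap_code, h7, he]; decide +kernel)
  have key : ∀ k < 2048, lin (mat (mcode (π e))) k = k → ¬ InIm 11 (mat (mcode (π e))) k →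
      IsConj (M.el 2 (π e) : G) (M.el k (π e)) := by
    have step : ∀ k < 2048, IsConj (M.el k (π e) : G) (M.el (lin (mat c7) k) (π e)) := fun k hk =>
      isConj_coe (c := κ (elt c7)) (by rw [M.el_conj_κ hk, h7, hc])
    have orb : ∀ j < 7, IsConj (M.el 2 (π e) : G)
        (M.el (lget [2, 1918, 1862, 1894, 1066, 1874, 6] 0 j) (π e)) := fun j hj => by
      induction j with
      | zero => exact IsConj.refl _
      | succ j ih =>
        have : ∀ j < 6, lget [2, 1918, 1862, 1894, 1066, 1874, 6] 0 j < 2048 ∧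
            lin (mat c7) (lget [2, 1918, 1862, 1894, 1066, 1874, 6] 0 j) =
            lget [2, 1918, 1862, 1894, 1066, 1874, 6] 0 (j + 1) := by decide +kernel
        exact (ih (by omega)).trans ((this j (by omega)).2 ▸ step _ (this j (by omega)).1)
    intro k hk h1 h2
    have := ball_zero (f := fun k => bor (!Nat.beq (lin (lget lE 0 0) k) k) (bor
      (Nat.beq (red [34, 16, 12, 1024] k) 0) (nany 7 fun j => Nat.beq (red [34, 16, 12, 1024]
        (lget [2, 1918, 1862, 1894, 1066, 1874, 6] 0 j ^^^ k)) 0))) (d := 11) (by decide +kernel) k hk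
    simp only [← hm, h1, bor_eq, Bool.or_eq_true, Bool.not_eq_true', Nat.beq_refl, Bool.true_eq_false,
      false_or, nany_iff, Nat.beq_eq] at this
    obtain ⟨j, hj, e⟩ := this.resolve_left fun e => h2 ((hI _).1 (mem_combs_of_red e)).2
    exact (orb j hj).trans (M.conj_of_im ((hI _).1 (mem_combs_of_red e)).2)
  have t2 := M.px.co.sq 1458
  have k0 := M.co_lt e
  replace h2 : IsConj (T 1458) (M.el (2 ^^^ M.co e) (π e)) := by rw [← M.tn_el, M.el_co]; exact h2
  replace h4 : IsConj (T 1458) (M.el (4 ^^^ M.co e) (π e)) := by rw [← M.tn_el, M.el_co]; exact h4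
  have l2 := xor_lt11 (a := 2) (by norm_num) k0
  have l4 := xor_lt11 (a := 4) (by norm_num) k0
  have hr : IsConj (T 1458) (M.el 2 (π e)) := by
    by_cases a : InIm 11 (mat (mcode (π e))) (2 ^^^ M.co e)
    · refine h4.trans (key _ l4 (M.fix_of_conj t2 l4 h4).2 fun b => ?_).symm
      have := a.xor b
      rw [Nat.xor_comm 4, Nat.xor_assoc, ← Nat.xor_assoc (M.co e), Nat.xor_self, Nat.zero_xor] at this
      exact absurd ((hI _).2 ⟨by decide, this⟩) (by decide)
    · exact h2.trans (key _ l2 (M.fix_of_conj t2 l2 h2).2 a).symm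
  refine M.good_of ?_ fun k hk h1 h2 => hr.trans (key k hk h1 h2)
  rw [← M.el_co e] at h0
  rw [← M.el_zero]
  refine h0.trans (M.conj_of_im ?_)
  by_contra a
  rw [Nat.xor_zero] at a
  exact M.hnc (h0.trans (hr.trans (key _ k0 (M.fix_of_conj M.z_sq k0 h0).2 a)).symm)

theorem fixB {g : M24} (he : mcode g = lget pE 0 4) {k : ℕ} (hk : k < 2048)
    (h : lin (mat (mcode g)) k = k) : InIm 11 (mat (mcode g)) k ∨ InIm 11 (mat (mcode g)) (32 ^^^ k) := by
  have hm : mat (mcode g) = lget lE 0 4 := by rw [he]; decide +kernel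
  have hI := inIm_of_red (I := [1, 2, 7, 8, 1024]) (M.mat_lt11 g) (by rw [hm]; decide +kernel)
  have := ball_zero (f := fun k => bor (!Nat.beq (lin (lget lE 0 4) k) k) (bor
    (Nat.beq (red [1, 2, 7, 8, 1024] k) 0) (Nat.beq (red [1, 2, 7, 8, 1024] (32 ^^^ k)) 0))) (d := 11)
    (by decide +kernel) k hk
  simp only [← hm, h, bor_eq, Bool.or_eq_true, Bool.not_eq_true', Nat.beq_refl, Bool.true_eq_false,
    false_or, Nat.beq_eq] at this
  exact this.imp (fun e => ((hI _).1 (mem_combs_of_red e)).2) fun e => ((hI _).1 (mem_combs_of_red e)).2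

theorem goodB {e : N[V]} (he : mcode (π e) = lget pE 0 4) (h0 : IsConj (T 1458) e)
    (h2 : IsConj z (T 32 * e)) (h : InIm 11 (mat (mcode (π e))) (32 ^^^ M.co e)) : M.Good (π e) := by
  replace h2 : IsConj z (M.el (32 ^^^ M.co e) (π e)) := by rw [← M.tn_el, M.el_co]; exact h2
  refine M.good_of (by rw [← M.el_zero]; exact h2.trans (M.conj_of_im (by rwa [Nat.xor_zero])))
    fun k hk h1 h3 => ?_
  rw [← M.el_co e] at h0
  refine h0.trans (M.conj_of_im ?_)
  have := h.xor ((M.fixB he hk h1).resolve_left h3)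
  rwa [Nat.xor_comm 32, Nat.xor_assoc, ← Nat.xor_assoc 32, Nat.xor_self, Nat.zero_xor] at this

theorem exists_twist {e : N[V]} (he : mcode (π e) = lget pE 0 4) (h0 : e * e = 1) :
    ∃ (κ' : M24 →* N[V]) (M' : MC z V T π κ'), InIm 11 (mat (mcode (π e))) (32 ^^^ M'.co e) := by
  rw [← M.el_co e] at h0
  rcases M.fixB he (M.co_lt e) ((M.el_sq (M.co_lt e) _).1 h0).2 with a | a
  swap
  · exact ⟨κ, M, a⟩
  let κ' : M24 →* N[V] := MonoidHom.mk' (fun g => M.el (tv (mask (({pt 4} : Finset GolayPt) ∆ {g • pt 4}))) g)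
    fun g k => Subtype.ext (M.ms.theta_mul g k)
  have h := M.ms
  have M' : MC z V T π κ' := ⟨M.px, M.cls, ⟨h.T_mul, h.T_mem, h.T_surj, h.T_one, h.card, h.conj, h.ker,
    fun g => M.π_el _ g, h.sext, h.duad, h.cent2, h.uniq⟩⟩
  refine ⟨κ', M', ?_⟩
  have e1 : tv (mask (({pt 4} : Finset GolayPt) ∆ {π e • pt 4})) = 1070 := by
    rw [mask_symmDiff, mask_singleton, mask_singleton, ← acM.ap_code _ trivial, he, idx_pt (by norm_num)]
    decide +kernel
  have e2 : M.el (M'.co e ^^^ 1070) (π e) = M.el (M.co e) (π e) := by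
    rw [M.el_co, ← M.tn_el, ← e1]; exact M'.el_co e
  have e3 := M.el_inj (xor_lt11 (M'.co_lt e) (by norm_num)) (M.co_lt e) e2
  have hm : mat (mcode (π e)) = lget lE 0 4 := by rw [he]; decide +kernel
  have hI := inIm_of_red (I := [1, 2, 7, 8, 1024]) (M.mat_lt11 (π e)) (by rw [hm]; decide +kernel)
  have := (e3 ▸ a).xor ((hI (1070 ^^^ 32)).1 (by decide)).2
  rwa [Nat.xor_assoc, ← Nat.xor_assoc 1070, Nat.xor_self, Nat.zero_xor, Nat.xor_comm] at this

theorem good_all {g₁ g₂ : M24} (h1 : mcode g₁ = lget pE 0 0) (h2 : mcode g₂ = lget pE 0 4)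
    (G1 : M.Good g₁) (G2 : M.Good g₂) {g : M24} (hg : g * g = 1) (hn : g ≠ 1) : M.Good g := by
  have o : orderOf g = 2 := orderOf_eq_prime (by rw [pow_two, hg]) hn
  by_cases h : ∀ p, (g : Equiv.Perm GolayPt) p ≠ p
  · obtain ⟨a, ea⟩ := class2B o h
    obtain ⟨b, eb⟩ := class2B (gcM.orderOf_prime h2 (by decide +kernel))
      (fixs_eq_empty.1 ((fixs_eq (m := 0) h2 (by decide +kernel)).trans unmask_zero))
    exact conj_of_two eb ea ▸ G2.conj M _
  · obtain ⟨a, ea⟩ := class2A o h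
    obtain ⟨b, eb⟩ := class2A (gcM.orderOf_prime h1 (by decide +kernel)) fun k =>
      k (pt 5) (by rw [← idx_inj.eq_iff]; exact (acM.ap_code g₁ trivial).symm.trans (by rw [h1]; decide +kernel))
    exact conj_of_two eb ea ▸ G1.conj M _

end MC

end Cfsg.Agent.J4
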