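import Cfsg.Agent.J4.OFM

/-!
# The Thompson number of the second class: computations
-/

set_option autoImplicit false
set_option linter.unusedSectionVars false
set_option linter.unusedVariables false
set_option exponentiation.threshold 600

namespace Cfsg.Agent.J4

open Cfsg.Agent.M24 Cfsg.Agent.GT Subgroup MulAction
open scoped Pointwise symmDiff

/-- A large number marking failure. -/
def BIG : ℕ := nat_lit 0x1000000000000000
/-- Test for the second involution. -/
noncomputable def eqt (x : ℕ) : ℕ := b2n (Nat.beq x (nat_lit 1458))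
/-- Pair count. -/
noncomputable def pv (Z : (ℕ → ℕ) → ℕ) (m1 : ℕ) (B : List ℕ) (m2 : ℕ) (X I : List ℕ) : ℕ :=
  force (mm m1 m2) fun r => force (ordL idm r 30 r 1) fun n => bif' (Nat.beq n 0) BIG
    (force (nrm r n idm 0) fun N => force (mm N m1) fun N1 =>
      lmk B (lin N) fun b => lmk I (lin N1) fun i => lmk X (lin N1) fun x =>
      rb b 1 [] fun c l => rb i c l fun c' l' => rb x c' l' fun c'' l'' =>
        Z fun a => force (lin N a) fun y =>
          Nat.sub (Nat.mul c'' (ssum eqt l'' y)) (Nat.mul c' (ssum eqt l' y)))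
/-- Pair count against the duads. -/
noncomputable def pw (m1 : ℕ) (B : List ℕ) : ℕ :=
  force (nrm m1 2 idm 0) fun N => force (mm N m1) fun N1 => lmk B (lin N) fun b =>
    bsum (fun k => bif' (du k) (force (lin N1 k) (ssum eqt b)) 0) 11 0
/-- Matrices of the representatives. -/
def mA : ℕ := nat_lit 0x8003b36225e93da54f4027a31ee50b393423
/-- Matrices of the representatives. -/
def mB : ℕ := nat_lit 0x8000437b204c68254f59275e7463091f30bc
/-- Matrices of the representatives. -/
def mC : ℕ := nat_lit 0x8002ff3901aa5d80401b05e23af60676d49e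
/-- Weighted pair count. -/
noncomputable def wv (Z : (ℕ → ℕ) → ℕ) (m1 : ℕ) (B : List ℕ) : ℕ :=
  Nat.add (Nat.mul 1155 (pv Z m1 B mA [68, 33, 19] [203, 301, 913, 1058]))
    (Nat.add (Nat.mul 330 (pv Z m1 B mB [79, 46, 24] [1091, 577, 332, 189]))
      (Nat.mul 1386 (pv Z m1 B mC [23] [170, 87, 365, 1008, 1183])))
/-- Weighted pair count for a permutation. -/
noncomputable def wk (k : ℕ) : ℕ :=
  force (mat k) fun m => gbk (imf m) 11 fun B => bif' (indep B) (wv (fun f => f 0) m B) BIG

theorem wk_A : tDA.sum (fun k _ _ => wk k) = 141944880 := by decide +kernel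
theorem wk_B : tDB.sum (fun k _ _ => wk k) = 234178560 := by decide +kernel
theorem wk_C : tDC.sum (fun k _ _ => wk k) = 1163840832 := by decide +kernel
theorem wv_1 : wv (fun f => bsum (fun k => bif' (tbq 102 (cl clT6 k)) (f k) 0) 11 0) idm [] = 4139520 := by
  decide +kernel

theorem pv_11 : bsum (fun b => bif' (du b)
    (bsum (fun a => bif' (tbq 102 (cl clT6 a)) (eqt (Nat.xor a b)) 0) 11 0) 0) 11 0 = 231 := by decide +kernel

end Cfsg.Agent.J4
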