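import Cfsg.Agent.J4.TA

/-!
# Groups of type `J₄`: Sylow three-subgroups
-/

set_option autoImplicit false
set_option linter.unusedSectionVars false

namespace Cfsg.Agent.J4

open Cfsg.Agent.M24 Cfsg.Agent.TT Cfsg.Agent.GT Subgroup MulAction
open scoped Pointwise symmDiff

theorem MS.conj_of_π {G : Type*} [Group G] [Finite G] {z : G} {V : Subgroup G} {π : N[V] →* M24} {κ : M24 →* N[V]}
    {T : Finset GolayPt → G} (h : MS z V π κ T) {n m : N[V]} (on : Odd (orderOf (n : G))) (om : Odd (orderOf (m : G)))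
    {k : M24} (e : k * π n * k⁻¹ = π m) : IsConj (n : G) m := by
  obtain ⟨v, -, e1⟩ := conj_of_coset (K := V) (a := ((κ k * n * (κ k)⁻¹ : N[V]) : G)) (m := m) (pg_of_sq fun _ => h.sq)
    (Subtype.property _) (by rwa [coe_mul, coe_mul, coe_inv, orderOf_conj]) om
    ((h.ker (m * (κ k * n * (κ k)⁻¹)⁻¹)).1 (by simp only [map_mul, map_inv, h.sec, e, mul_inv_cancel]))
  exact e1 ▸ (isConj_conj v).2 (isConj_iff.2 ⟨κ k, rfl⟩)

namespace HM

variable {H : Type*} [Group H] [Finite H] {z ω : H} {s : ℕ → H} {Λ : H →* R} (M : HM z ω s Λ)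
include M

theorem conj_lift {p : ℕ} (hp : p.Prime) {K : Subgroup R} (hK : K ≤ Lm) {m : ℕ} (h : Nat.card K * m = 2661120)
    (hm : ¬ p ∣ 4096 * m) {Q : Subgroup H} (hQ : IsPGroup p Q) : ∃ l, cj[l] Q ≤ N[zpowers ω] ⊓ K.comap Λ := by
  have h0 := card_mul_relIndex (le_top (a := N[zpowers ω] ⊓ K.comap Λ))
  rw [card_top, M.card, M.card_norm_inf hK, show 2 ^ 13 * 3 * 887040 = 2 * 2661120 * 4096 by norm_num, ← h,
    show 2 * (Nat.card K * m) * 4096 = 2 * Nat.card K * (4096 * m) by ring] at h0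
  obtain ⟨l, -, e⟩ := conj_le_of_index hp le_top
    (by rwa [Nat.eq_of_mul_eq_mul_left (Nat.mul_pos two_pos Nat.card_pos) h0]) hQ le_top
  exact ⟨l, e⟩

theorem exists_R0 : ∃ Q, Q ≤ N[zpowers ω] ⊓ R3.comap Λ ∧ Nat.card Q = 27 := by
  have : Fact (Nat.Prime 3) := ⟨by norm_num⟩
  obtain ⟨Q, hQ⟩ := Sylow.exists_subgroup_card_pow_prime (G := ↥(N[zpowers ω] ⊓ R3.comap Λ)) 3 (n := 3)
    (by rw [M.card_norm_inf R3_le, card_R3]; norm_num)
  exact ⟨Q.map (Subgroup.subtype _), map_subtype_le _, by rw [card_map_inj (subtype_injective _), hQ]; norm_num⟩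

variable {Q : Subgroup H} (hQ : Q ≤ N[zpowers ω] ⊓ R3.comap Λ) (hc : Nat.card Q = 27)
include hQ hc

theorem R0_cube {x : H} (hx : x ∈ Q) : x ^ 3 = 1 :=
  M.eq_of_odd (n := 13) (pow_mem (hQ hx).1 3) (one_mem _) (by rw [map_pow, (R3_facts (hQ hx).2).1, map_one])
    (by rw [← pow_mul, mul_comm, pow_mul, show 2 * 13 + 1 = 27 from rfl, ← hc, PG.pow_card_eq_one_of_mem hx, one_pow])
    (one_pow _)

theorem R0_map : Q.map Λ = R3 := by
  have h1 : Λ.ker ⊓ Q = ⊥ := eq_bot_iff.2 fun x hx =>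
    M.eq_of_odd (n := 1) (hQ hx.2).1 (one_mem _) (hx.1.trans (map_one _).symm) (M.R0_cube hQ hc hx.2) (one_pow _)
  have h2 := card_map_mul_card_inf_ker Λ Q
  rw [h1, card_bot, mul_one, hc] at h2
  exact eq_of_le_of_card_ge (by rintro _ ⟨x, hx, rfl⟩; exact (hQ hx).2) (by rw [h2, card_R3])

theorem mem_R0 {x : H} (h1 : x ∈ N[zpowers ω]) (h2 : Λ x ∈ R3) (h3 : x ^ 3 = 1) : x ∈ Q := by
  obtain ⟨q, hq, e⟩ := (M.R0_map hQ hc).ge h2
  rwa [← M.eq_of_odd (n := 1) (hQ hq).1 h1 e (M.R0_cube hQ hc hq) h3]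

theorem R0_cases {x : H} (hx : x ∈ Q) : (x = 1 ∨ x = ω ∨ x = ω * ω) ∨
    ((∃ l ∈ N[zpowers ω], Λ l * x3 * (Λ l)⁻¹ = Λ x) ∧ ∃ u ∈ Q, x * u ≠ u * x) := by
  have key : ∀ k, k ∈ zpowers ω → Λ x = Λ k → x = k := fun k hk e =>
    M.eq_of_odd (n := 1) (hQ hx).1 (le_normalizer hk) e (M.R0_cube hQ hc hx)
      (by obtain ⟨i, rfl⟩ := hk; simp only; rw [← zpow_natCast, ← zpow_mul, mul_comm, zpow_mul, zpow_natCast, M.ω3, one_zpow])
  refine (R3_facts (hQ hx).2).2.2.imp (Or.imp (fun e => key _ (one_mem _) (by rw [e, map_one])) (Or.imp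
    (fun e => key _ (mem_zpowers _) (by rw [e, M.Λω])) fun e => key _ (mul_mem (mem_zpowers _) (mem_zpowers _))
      (by rw [e, map_mul, M.Λω]))) fun ⟨⟨d, hd, a⟩, u, hu, b⟩ => ⟨?_, ?_⟩
  · obtain ⟨l, hl, rfl⟩ := M.lift d (N3_le hd)
    exact ⟨l, hl, a⟩
  · obtain ⟨u, hu', rfl⟩ := (M.R0_map hQ hc).ge hu
    exact ⟨u, hu', fun e => b (by rw [← map_mul, e, map_mul])⟩

theorem ω_mem_R0 : ω ∈ Q := M.mem_R0 hQ hc HM.ω_mem (M.Λω ▸ rW_mem_R3) M.ω3

end HM

namespace JD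

variable {G H : Type*} [Group G] [Group H] [Finite G] {ι : H →* G} {z ω : H} {s : ℕ → H} {Λ : H →* R}
  {M : GM ι z ω s Λ} {y g : H} {T : ℕ → H} {π : N[M.V] →* M24} {κ : M24 →* N[M.V]} (J : JD M y g T π κ)
include J

theorem conj_x3 {x : H} (hx : x ∈ N[zpowers ω]) (h : Λ x = x3) (h3 : x ^ 3 = 1) : IsConj (ι ω) (ι x) := by
  have : Fact (Nat.Prime 3) := ⟨by norm_num⟩
  have hm : y ^ 4 * (g * (y * g)) ∈ N[zpowers ω] :=
    mul_mem (pow_mem J.vc.y_mem 4) (mul_mem J.vc.g_mem (mul_mem J.vc.y_mem J.vc.g_mem))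
  have a0 : Λ (y ^ 4 * (g * (y * g))) = x3 := gcR.inj (by
    simp only [map_mul, map_pow, gcR.code_mul, ← gcR.cpow_code, J.vc.Λy, J.vc.Λg, rc_x3]; decide +kernel)
  have a1 : x = (y ^ 4 * (g * (y * g))) ^ 4 := M.eq_of_odd (n := 1) hx (pow_mem hm 4)
    (by rw [map_pow, a0, pow_succ, (R3_facts x3_mem).1, one_mul, h]) h3 (by
      rw [← pow_mul, mul_comm 4, pow_mul]
      rcases M.ker_norm (pow_mem hm 3) (by rw [map_pow, a0, (R3_facts x3_mem).1]) with e | e <;> rw [e]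
      exacts [one_pow _, by rw [show 4 = 2 * 2 from rfl, pow_mul, pow_two z, M.zz, one_pow]])
  have a2 := (Act.pow J.vc.co ((Act.pow J.vc.co J.vc.actY 4).mul (J.vc.actG.mul (J.vc.actY.mul J.vc.actG))) 4).map ι
  rw [← a1] at a2
  have b2 := J.px.code_eq (n := ⟨_, J.px.co.act_norm a2⟩) a2 (c := px3) (by decide +kernel)
  have a4 := J.vc.actW.map ι
  have b4 := J.px.code_eq (n := ⟨_, J.px.co.act_norm a4⟩) a4 (c := pW) (by decide +kernel)
  obtain ⟨l, hl⟩ := class3A (gcM.orderOf_prime (p := 3) b2 (by decide +kernel)) fun h =>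
    h (pt 6) (apply_of_code b2 _ _ (by decide +kernel))
  obtain ⟨l', hl'⟩ := class3A (gcM.orderOf_prime (p := 3) b4 (by decide +kernel)) fun h =>
    h (pt 3) (apply_of_code b4 _ _ (by decide +kernel))
  have o : ∀ u : H, u ^ 3 = 1 → Odd (orderOf (ι u)) := fun u hu =>
    Odd.of_dvd_nat (by decide) (orderOf_dvd_of_pow_eq_one (n := 3) (by rw [← map_pow, hu, map_one]))
  exact J.ms.conj_of_π (o _ M.ω3) (o _ h3) (conj_of_two hl' hl)

variable {Q : Subgroup H} (hQ : Q ≤ N[zpowers ω] ⊓ R3.comap Λ) (hc : Nat.card Q = 27)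
include hQ hc

theorem norm_R0_le : N[Q.map ι] ≤ N[zpowers (ι ω)] := fun n hn => by
  have := M.finH
  obtain ⟨q, hq, e⟩ := conj_mem_of_mem_norm hn (mem_map_of_mem ι (M.ω_mem_R0 hQ hc))
  refine mem_normalizer_of_conj_le ?_
  rw [conj_zpowers, zpowers_le, ← e]
  rcases M.R0_cases hQ hc hq with (rfl | rfl | rfl) | ⟨-, u, hu, h⟩
  · simp
  · simp
  · rw [map_mul]; exact mul_mem (mem_zpowers _) (mem_zpowers _)
  · obtain ⟨v, hv, e1⟩ := conj_mem_of_mem_norm (inv_mem hn) (mem_map_of_mem ι hu)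
    have h1 := congrArg ι (M.conj_ω (hQ hv).1 (R3_facts (hQ hv).2).2.1)
    refine absurd (M.inj ?_) h
    rw [map_mul, map_mul, e1] at h1
    rw [map_mul, map_mul, e, ← mul_right_inj n⁻¹, ← mul_left_inj n]
    convert h1.symm using 1 <;> group

theorem norm_R0 : N[Q.map ι] = (N[zpowers ω] ⊓ N3.comap Λ).map ι := by
  have := M.finH
  refine le_antisymm (fun n hn => ?_) ?_
  · have h1 := J.norm_R0_le hQ hc hn
    obtain ⟨h, rfl⟩ := M.surj n (J.norm_ω h1)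
    rw [← MonoidHom.map_zpowers, map_mem_norm_map_iff M.inj] at h1
    exact mem_map_of_mem ι ⟨h1, mem_N3 (M.mem h)
      (M.R0_map hQ hc ▸ map_le_norm_map le_rfl Λ (mem_map_of_mem Λ ((map_mem_norm_map_iff M.inj).1 hn)))⟩
  · rintro _ ⟨h, hh, rfl⟩
    refine (map_mem_norm_map_iff M.inj).2 (mem_normalizer_of_conj fun x hx => M.mem_R0 hQ hc
      (mul_mem (mul_mem hh.1 (hQ hx).1) (inv_mem hh.1)) ?_ (by rw [conj_pow, M.R0_cube hQ hc hx]; simp))
    rw [map_mul, map_mul, map_inv]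
    exact conj_mem_of_mem_norm (N3_le_norm hh.2) (hQ hx).2

theorem card_norm_R0 : Nat.card N[Q.map ι] = 864 := by
  rw [J.norm_R0 hQ hc, card_map_inj M.inj, M.card_norm_inf N3_le, card_N3]

theorem syl_R0 : IsPiHallOf {3} (Q.map ι) ⊤ := by
  have h1 := card_mul_relIndex (le_normalizer (H := Q.map ι))
  rw [J.card_norm_R0 hQ hc, card_map_inj M.inj, hc] at h1
  exact syl_top_of_norm_le Nat.prime_three (syl_mk Nat.prime_three le_normalizer
    (IsPGroup.of_card (n := 3) (by rw [card_map_inj M.inj, hc]; norm_num)) (by omega)) le_rfl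

omit hQ hc in
theorem conj_ω3 {x : G} (hx : orderOf x = 3) : IsConj (ι ω) x := by
  have := M.finH
  obtain ⟨Q, hQ, hc⟩ := M.exists_R0
  obtain ⟨a, -, ha⟩ := syl_exists_conj_le Nat.prime_three (J.syl_R0 hQ hc) (Q := zpowers x)
    (isPGroup_of_card_eq_prime (by rw [Nat.card_zpowers, hx])) le_top
  obtain ⟨q, hq, e⟩ := ha (conj_mem_conj.2 (mem_zpowers x))
  rw [← isConj_conj a, ← e]
  rcases M.R0_cases hQ hc hq with (rfl | rfl | rfl) | ⟨⟨l, hl, h⟩, -⟩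
  · rw [map_one, eq_comm, conj_eq_one_iff] at e
    rw [e, orderOf_one] at hx; omega
  · exact IsConj.refl _
  · refine ι.map_isConj (isConj_iff.2 ⟨g, M.eq_of_odd (n := 1) (mul_mem (mul_mem J.vc.g_mem HM.ω_mem) (inv_mem J.vc.g_mem))
      (mul_mem HM.ω_mem HM.ω_mem) (gcR.inj ?_) (by rw [conj_pow, M.ω3]; simp) (M.R0_cube hQ hc hq)⟩)
    rw [map_mul, map_mul, map_inv, map_mul, M.Λω, ← gcR.cjap_code, rc_rW2, rc_rW, J.vc.Λg]; decide +kernel
  · refine (J.conj_x3 (x := l⁻¹ * q * l⁻¹⁻¹) (mul_mem (mul_mem (inv_mem hl) (hQ hq).1) (inv_mem (inv_mem hl)))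
      (by simp [← h, mul_assoc]) (by rw [conj_pow, M.R0_cube hQ hc hq]; simp)).trans
      (ι.map_isConj (isConj_iff.2 ⟨l⁻¹, rfl⟩).symm)

omit hQ hc in
theorem three_syl {P : Subgroup G} (hP : IsPiHallOf {3} P ⊤) (hz : P ≤ C1[ι z]) : IsExtraspecial 3 P ∧ Nat.card P = 27 ∧
    Monoid.exponent P = 3 ∧ N[P] ≤ C1[ι z] ∧ Nat.card N[P] = 864 := by
  have := M.finH
  have : Fact (Nat.Prime 3) := ⟨by norm_num⟩
  obtain ⟨Q0, hQ0, hc0⟩ := M.exists_R0
  have h1 : Nat.card P = 27 := by rw [syl_card_eq Nat.prime_three hP (J.syl_R0 hQ0 hc0), card_map_inj M.inj, hc0]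
  have h2 : (P.comap ι).map ι = P := map_comap_eq_self (M.range_eq_cent ▸ hz)
  obtain ⟨l, hQ⟩ := M.conj_lift Nat.prime_three R3_le (m := 98560) (by rw [card_R3]) (by norm_num)
    ((syl_isPGroup Nat.prime_three hP).comap_of_injective ι M.inj)
  have hc : Nat.card (cj[l] (P.comap ι)) = 27 := by rw [card_conj, ← card_map_inj M.inj, h2, h1]
  have h3 : (cj[l] (P.comap ι)).map ι = cj[ι l] P := by rw [map_conj, h2]
  have h4 : ¬ IsMulCommutative P := fun h => by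
    obtain ⟨x, hx, e⟩ := (M.R0_map hQ hc).ge x3_mem
    rw [← isMulCommutative_conj_iff (g := ι l), ← h3, isMulCommutative_map_iff M.inj, isMulCommutative_iff_forall] at h
    rcases M.R0_cases hQ hc hx with (rfl | rfl | rfl) | ⟨-, u, hu, a⟩
    · exact absurd (congrArg rc e) (by rw [map_one, gcR.code_one, rc_x3]; decide +kernel)
    · exact absurd (congrArg rc e) (by rw [M.Λω, rc_rW, rc_x3]; decide +kernel)
    · exact absurd (congrArg rc e) (by rw [map_mul, M.Λω, rc_rW2, rc_x3]; decide +kernel)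
    · exact a (h x hx u hu)
  have h5 : ι l * ι z * (ι l)⁻¹ = ι z := by rw [← map_mul, M.zc, map_mul]; simp
  refine ⟨PG.isExtraspecial_of_card_cube h1 h4, h1, ?_, ?_, ?_⟩
  · have : Nontrivial P := Finite.one_lt_card_iff_nontrivial.1 (by omega)
    refine Monoid.exponent_eq_prime_iff Nat.prime_three |>.2 fun x hx => orderOf_eq_prime (Subtype.ext ?_) hx
    obtain ⟨q, hq, e⟩ := h3.ge (conj_mem_conj.2 x.2)
    have := congrArg ι (M.R0_cube hQ hc hq)
    rwa [map_pow, e, conj_pow, map_one, conj_eq_one_iff] at this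
  · rw [← conj_le_conj_iff (g := ι l), conj_normalizer, conj_cent1, h5, ← h3]
    exact fun n hn => mem_cent1.2 (J.norm_ω (J.norm_R0_le hQ hc hn))
  · rw [← card_conj (ι l), conj_normalizer, ← h3, J.card_norm_R0 hQ hc]

end JD

end Cfsg.Agent.J4
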