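import Cfsg.Agent.J4.PD
import Cfsg.Agent.J4.TB

/-!
# Elements of order seven in `M₂₄`, small groups, and the stabiliser of a line
-/

set_option autoImplicit false
set_option linter.unusedSectionVars false

namespace Cfsg.Agent.J4

open Cfsg.Agent.M24 Cfsg.Agent.TT Cfsg.Agent.GT Subgroup MulAction
open scoped Pointwise symmDiff

theorem exists_conj_pow {G : Type*} [Group G] [Finite G] {p : ℕ} (hp : p.Prime) {M : Subgroup G} {a x : G} (ha : a ∈ M)
    (hx : x ∈ M) (oa : orderOf a = p) (ox : orderOf x = p) (h : ¬ p * p ∣ Nat.card M) :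
    ∃ g ∈ M, cj[g] (zpowers x) = zpowers a := by
  have h1 := card_mul_relIndex (zpowers_le.2 ha)
  rw [Nat.card_zpowers, oa] at h1
  obtain ⟨g, hg, e⟩ := conj_le_of_index hp (zpowers_le.2 ha) (fun e => h (h1 ▸ Nat.mul_dvd_mul_left p e))
    (isPGroup_of_card_eq_prime (by rw [Nat.card_zpowers, ox])) (zpowers_le.2 hx)
  exact ⟨g, hg, eq_of_le_of_card_ge e (by rw [card_conj, Nat.card_zpowers, Nat.card_zpowers, oa, ox])⟩

theorem two_class {G : Type*} [Group G] [Finite G] {X I : Subgroup G} {a b : G} (ha : a ∈ X ⊓ I) (hb : b ∈ X ⊓ I)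
    (oa : orderOf a = 2) (ob : orderOf b = 2) (hnc : ∀ g ∈ X, g * a * g⁻¹ ≠ b)
    (h2 : ∀ i ∈ X ⊓ I, orderOf i = 2 → X ⊓ C1[i] ≤ I)
    (h3 : ∀ g ∈ X, g * a * g⁻¹ ∈ I → ∃ k ∈ X ⊓ I, k * a * k⁻¹ = g * a * g⁻¹) : X ≤ I := fun g hg => by
  have sq : ∀ {c : G}, orderOf c = 2 → c * c = 1 := fun h => by rw [← pow_two, ← h, pow_orderOf_eq_one]
  have hu : g * a * g⁻¹ ∈ X := mul_mem (mul_mem hg ha.1) (inv_mem hg)
  have su : g * a * g⁻¹ * (g * a * g⁻¹) = 1 := sq (by rw [orderOf_conj, oa])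
  obtain ⟨n, hn⟩ : 2 ∣ orderOf (g * a * g⁻¹ * b) := by
    by_contra h
    obtain ⟨k, hk⟩ := BS.conj_of_odd su (sq ob) (Nat.odd_iff.2 (by omega))
    have hw := pow_mem (mul_mem hu hb.1) k
    generalize (g * a * g⁻¹ * b) ^ k = w at hk hw
    exact hnc (w * g) (mul_mem hw hg) (by rw [← mul_right_inj w⁻¹, ← mul_left_inj w, ← hk]; group)
  have oi : orderOf ((g * a * g⁻¹ * b) ^ n) = 2 := by
    have := orderOf_pos (g * a * g⁻¹ * b)
    rw [orderOf_pow_of_dvd (by omega) ⟨2, by omega⟩, hn, Nat.mul_div_cancel _ (by omega)]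
  have hi := pow_mem (mul_mem hu hb.1) n
  obtain ⟨c1, c2⟩ := comm_of_mem_zpowers su (sq ob) (sq oi) (npow_mem_zpowers _ _)
  obtain ⟨k, hk, e⟩ := h3 g hg (h2 _ ⟨hi, h2 b hb ob ⟨hi, mem_cent1.2 c2.symm⟩⟩ oi ⟨hu, mem_cent1.2 c1⟩)
  have := h2 a ha oa (x := k⁻¹ * g) ⟨X.mul_mem (X.inv_mem hk.1) hg, mem_cent1.2 (by
    rw [mul_assoc, mul_inv_eq_iff_eq_mul.1 e.symm]; group)⟩
  exact (I.mul_mem_cancel_left (I.inv_mem hk.2)).1 this

theorem exists_perm_rel {G ι : Type*} [Group G] (R : G → ι → ι → Prop) (ex : ∀ g v, ∃ v', R g v v')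
    (uq : ∀ g v a b, R g v a → R g v b → a = b) (hmul : ∀ g h u v w, R h u v → R g v w → R (g * h) u w)
    (hone : ∀ v, R 1 v v) : ∃ f : G →* Equiv.Perm ι, ∀ g v, R g v (f g v) := by
  choose a ha using ex
  letI : MulAction G ι :=
    { smul := a
      one_smul := fun v => uq 1 v _ _ (ha 1 v) (hone v)
      mul_smul := fun g h v => uq (g * h) v _ _ (ha _ v) (hmul g h v _ _ (ha h v) (ha g _)) }
  exact ⟨toPermHom G ι, ha⟩

theorem card_SL3 : Nat.card (Matrix.SpecialLinearGroup (Fin 3) (ZMod 2)) = 168 := by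
  have hc := Cl.card_sl_mul (F := ZMod 2) 3 (by norm_num)
  simp only [ZMod.card, Fin.prod_univ_three] at hc
  exact (one_mul _).symm.trans (hc.trans (by norm_num))

/-- An element of order seven. -/
noncomputable def w7 : M24 := elt pw7
theorem mcode_w7 : mcode w7 = pw7 := mcode_elt (by decide +kernel)
theorem orderOf_w7 : orderOf w7 = 7 :=
  haveI : Fact (Nat.Prime 7) := ⟨by norm_num⟩
  gcM.orderOf_prime mcode_w7 (by decide +kernel)
theorem cent_w7 : C1[w7] = gen mcode cw7_l0.gens := cent_of_chk mcode_w7 cw7_chk 5 (by decide +kernel) (by decide +kernel)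

theorem not_real_w7 {n : M24} (h : n * w7 * n⁻¹ = w7⁻¹) : False := by
  have hn : n ∈ N[zpowers w7] := mem_normalizer_of_conj_le (by rw [conj_zpowers, h, zpowers_inv])
  have hle : gen mcode (gensOf cw7) ≤ N[zpowers w7] := cent_w7.ge.trans ((cent_zpowers w7).ge.trans (cent_le_norm _))
  have h0 : ∀ x, ap pw7 (idx x) = idx (w7 • x) := fun x => by rw [← mcode_w7, acM.ap_code w7 trivial]
  obtain ⟨k, hk, h4⟩ := (chkM_sound cw7_chk).2.1.reduce acM 1 hle (fun x _ e => ⟨fun g hg => T.has_sound (by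
    have h1 : ∀ x, ap pw7 (idx x) ≠ idx x → cw7_l0.t.has (idx x) = true := by decide +kernel
    refine h1 _ fun h2 => ?_
    rw [h0, idx_inj.eq_iff] at h2
    obtain ⟨j, hj⟩ := conj_mem_of_mem_norm hg (mem_zpowers w7)
    have h3 : w7 • x = x := by
      rw [← smul_left_cancel_iff g, ← mul_smul, ← mul_inv_cancel_right (g * w7) g⁻¹, inv_inv, mul_smul, ← hj]
      exact (stabilizer M24 (g • x)).zpow_mem h2 j
    rw [← idx_inj.eq_iff, ← h0, e] at h3
    exact absurd h3 (by decide +kernel)), trivial⟩) n hn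
  have h5 : (k * n) • (none : GolayPt) = none := h4 cw7_l0 (by simp [cw7]) _ trivial rfl
  have h6 : k * n * w7 = w7⁻¹ * (k * n) := by
    rw [mul_assoc, mul_inv_eq_iff_eq_mul.1 h, ← mul_assoc, ← mul_assoc,
      (show Commute k w7 from mem_cent1.1 (cent_w7.ge hk)).inv_right.eq]
  obtain ⟨m, a0⟩ := exists_mcode (p := pn0) (by decide +kernel)
  have h7 : ∀ j : ℕ, (k * n) • w7 ^ j • (none : GolayPt) = w7⁻¹ ^ j • none := fun j => by
    rw [← mul_smul, (show SemiconjBy (k * n) w7 w7⁻¹ from h6).pow_right j, mul_smul, h5]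
  have h8 := ((chkM_sound cM_chk).2.1.drop 5).enum_one gcM acM (f := fun g => force (mul pn0 g) fun m =>
    !Nat.beq (mul m pw7) (mul (inv pw7) m)) (by decide +kernel) _
    ((chkM_sound cM_chk).2.1.mem_drop 5 (g := m⁻¹ * (k * n)) (gen_gM.ge trivial) fun K hK x _ e => by
      obtain ⟨j, -, e1, e2⟩ : ∃ j < 5, K.b = ap (cpow mul one pw7 j) 23 ∧
        ap pn0 K.b = ap (cpow mul one (inv pw7) j) 23 := by clear e; revert K; decide +kernel
      rw [← e, ← mcode_w7, gcM.cpow_code, show 23 = idx none from rfl, acM.ap_code _ trivial, idx_inj.eq_iff] at e1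
      rw [← e, ← a0, ← mcode_w7, ← gcM.code_inv, gcM.cpow_code, show 23 = idx none from rfl, acM.ap_code _ trivial,
        acM.ap_code _ trivial, idx_inj.eq_iff] at e2
      rw [mul_smul, inv_smul_eq_iff, e2, e1, h7])
  rw [force_eq, ← a0, ← mcode_w7, ← gcM.code_inv, ← gcM.code_mul, ← gcM.code_mul, ← gcM.code_mul, mul_inv_cancel_left,
    h6] at h8
  simp at h8

theorem conj_w7 {g : M24} (hg : orderOf g = 7) : ∃ k, cj[k] (zpowers g) = zpowers w7 :=
  (exists_conj_pow (by norm_num) (mem_top w7) (mem_top g) orderOf_w7 hg (by rw [card_top, card_M24]; norm_num)).imp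
    fun _ h => h.2

theorem not_real7 {g n : M24} (hg : orderOf g = 7) : n * g * n⁻¹ ≠ g⁻¹ := fun h => by
  obtain ⟨k, e⟩ := conj_w7 hg
  obtain ⟨j, hj⟩ := ((conj_zpowers k g).symm.trans e).ge (mem_zpowers w7)
  refine not_real_w7 (n := k * n * k⁻¹) ?_
  have h1 := congrArg (· ^ j) h
  simp only [conj_zpow, inv_zpow] at h1 hj
  rw [← hj, mul_inv_rev (k * g ^ j), mul_inv_rev k (g ^ j), ← h1]; group

theorem card_cent7 {g : M24} (hg : orderOf g = 7) {Y : Finset GolayPt} (hY : Y.card = 2) :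
    Nat.card ↥(C1[g] ⊓ stabilizer M24 Y) ≤ 14 := by
  obtain ⟨k, e⟩ := conj_w7 hg
  have h1 : cj[k] C1[g] = C1[w7] := by rw [← cent_zpowers, ← cent_zpowers, conj_centralizer, e]
  have h2 : Nat.card ↥(C1[g] ⊓ stabilizer M24 Y) ∣ 42 := by
    rw [← card_of_chk cw7_chk (n := 42) (by decide +kernel), ← show C1[w7] = gen mcode (gensOf cw7) from cent_w7, ← h1,
      card_conj]
    exact card_dvd_of_le inf_le_left
  refine Nat.le_of_dvd (by norm_num) ((Nat.Coprime.dvd_mul_left (n := 14) (m := 3) ?_).1 h2)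
  refine ((Nat.Prime.coprime_iff_not_dvd Nat.prime_three).2 fun h => ?_).symm
  obtain ⟨u, hu, o⟩ := exists_mem_orderOf_eq Nat.prime_three h
  have h3 := forall_of_enum cw7_chk (f := fun c => bor (!Nat.beq (cpow mul one c 3) one) (bor (Nat.beq c one) (fixIs c 0)))
    (by decide +kernel) _ (cent_w7.le (h1.le (conj_mem_conj.2 hu.1)))
  rw [gcM.cpow_code, conj_pow, ← o, pow_orderOf_eq_one, bor_eq, bor_eq, mul_one, mul_inv_cancel, gcM.eq_one_iff.2 rfl, Bool.not_true,
    Bool.false_or, Bool.or_eq_true, gcM.eq_one_iff, conj_eq_one_iff] at h3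
  have h4 := h3.resolve_left fun e => by rw [e, orderOf_one] at o; omega
  have h5 := card_fixs_conj k u
  rw [fixs_eq rfl h4, unmask_zero, Finset.card_empty, eq_comm, Finset.card_eq_zero, fixs_eq_empty] at h5
  obtain ⟨a, b, hab, rfl⟩ := Finset.card_eq_two.1 hY
  have h6 : ∀ c ∈ ({a, b} : Finset GolayPt), u • c ∈ ({a, b} : Finset GolayPt) := fun c hc =>
    (show u • ({a, b} : Finset GolayPt) = {a, b} from hu.2) ▸ mem_smul24.2 hc
  simp only [Finset.mem_insert, Finset.mem_singleton, forall_eq_or_imp, forall_eq] at h6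
  have e1 := h6.1.resolve_left (h5 a)
  have e2 := h6.2.resolve_right (h5 b)
  have e3 : (u ^ 3) • a = b := by rw [pow_succ, pow_two, mul_smul, mul_smul, e1, e2, e1]
  rw [← o, pow_orderOf_eq_one, one_smul] at e3
  exact hab e3

end Cfsg.Agent.J4
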