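import Cfsg.Agent.J4.PL

/-!
# Groups of type `J₄`: the subgroup `2³⁺¹².(S₅ × L₃(2))`
-/

set_option autoImplicit false
set_option linter.unusedSectionVars false

namespace Cfsg.Agent.J4

open Cfsg.Agent.M24 Cfsg.Agent.TT Cfsg.Agent.GT Subgroup MulAction Matrix
open scoped Pointwise symmDiff

/-- The group `L₃(2)`. -/
abbrev SL3 : Type := SpecialLinearGroup (Fin 3) (ZMod 2)

/-- Code of a vector. -/
def enc3 (v : Fin 3 → ZMod 2) : ℕ := (v 0).val + 2 * (v 1).val + 4 * (v 2).val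

theorem enc3_facts : (∀ v, enc3 v < 8) ∧ (∀ u v, enc3 u = enc3 v → u = v) ∧ (∀ u v, enc3 (u + v) = enc3 u ^^^ enc3 v) ∧
    ∀ f < 8, ∃ v, enc3 v = f := by decide +kernel

theorem inv_SL3 : ∀ A : Matrix (Fin 3) (Fin 3) (ZMod 2), A * A = 1 → ∃ w, ∀ v, A *ᵥ v = v ∨ A *ᵥ v = v + w := by
  decide +kernel

theorem Co.exists_SL3 {G : Type*} [Group G] {Z : Subgroup G} {T : ℕ → G} (C : Co Z 3 T) :
    ∃ β : N[Z] →* SL3, (∀ n, β n = 1 ↔ (n : G) ∈ C[Z]) ∧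
      ∀ n : N[Z], n * n = 1 → ∃ w ∈ Z, ∀ v ∈ Z, n * v * (n : G)⁻¹ = v ∨ n * v * (n : G)⁻¹ = v * w := by
  obtain ⟨e1, e2, e3, e4⟩ := enc3_facts
  obtain ⟨β, h⟩ := exists_hom_SL_rel (G := N[Z]) (fun n v w => n * T (enc3 v) * (n : G)⁻¹ = T (enc3 w))
    (fun n v => by
      obtain ⟨a, ha, e⟩ := C.surj _ (conj_mem_of_mem_norm n.2 (C.mem (enc3 v)))
      obtain ⟨w, rfl⟩ := e4 a ha
      exact ⟨w, e.symm⟩)
    (fun n v a b h1 h2 => e2 _ _ (C.eq (e1 _) (e1 _) (h1.symm.trans h2)))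
    (fun n u v a b c h1 h2 h3 => e2 _ _ (C.eq (e1 _) (e1 _) (by rw [← h3, e3, e3, C.mul, C.mul, ← h1, ← h2]; group)))
    (fun g h u v w h1 h2 => by rw [← h2, ← h1, coe_mul]; group) (fun v => by simp)
  have hs : ∀ v ∈ Z, ∃ u, T (enc3 u) = v := fun v hv => by
    obtain ⟨a, ha, rfl⟩ := C.surj v hv
    obtain ⟨w, rfl⟩ := e4 a ha
    exact ⟨w, rfl⟩
  refine ⟨β, fun n => ⟨fun e v hv => ?_, fun e => Subtype.ext (Matrix.ext_iff_mulVec.2 fun v => ?_)⟩, fun n hn => ?_⟩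
  · obtain ⟨u, rfl⟩ := hs v hv
    have := h n u
    rw [show (β n).1 = 1 from congrArg Subtype.val e, one_mulVec] at this
    exact (mul_inv_eq_iff_eq_mul.1 this).symm
  · refine e2 _ _ (C.eq (e1 _) (e1 _) ?_)
    rw [← h n v, ← e _ (C.mem _), mul_inv_cancel_right]
    exact congrArg (fun u => T (enc3 u)) (one_mulVec v).symm
  · obtain ⟨w, hw⟩ := inv_SL3 (β n).1 (congrArg Subtype.val (show β n * β n = 1 by rw [← map_mul, hn, map_one]))
    refine ⟨_, C.mem (enc3 w), fun v hv => ?_⟩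
    obtain ⟨u, rfl⟩ := hs v hv
    rw [h n u]
    exact (hw u).imp (fun e => by rw [e]) fun e => by rw [e, e3, C.mul]

theorem PX.conj_mask {G : Type*} [Group G] {V : Subgroup G} {T : ℕ → G} {π : N[V] →* M24} (P : PX V T π) (n : N[V])
    {m : ℕ} (h : band (Nat.ble m 16777215) (Nat.beq (pc m % 2) 0) = true) :
    n * T (tv m) * (n : G)⁻¹ = T (tv (act (mcode (π n)) m)) := by
  simp only [band_eq, Bool.and_eq_true, Nat.ble_eq, Nat.beq_eq] at h
  have h1 := mask_unmask (m := m) (by omega)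
  have := P.conj n (unmask m) (by rw [card_eq_pc, h1]; exact Nat.even_iff.2 h.2)
  rwa [← acSM.ap_code _ trivial, h1] at this

theorem PX.act_co {G : Type*} [Group G] {V W : Subgroup G} {T : ℕ → G} {π : N[V] →* M24} (P : PX V T π) {d : ℕ}
    {f : ℕ → ℕ} (C : Co W d fun c => T (f c)) {n : N[V]} {c k : ℕ} (hc : mcode (π n) = c) (l : List ℕ)
    (h : nall d (fun i => force (lget l 0 i) fun m => band (band (Nat.ble m 16777215) (Nat.beq (pc m % 2) 0))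
      (band (band (Nat.beq (f (2 ^ i)) (tv m)) (Nat.beq (f (fld k i)) (tv (act c m)))) (Nat.blt (fld k i) (2 ^ d)))) = true) :
    Act d (fun c => T (f c)) n k := C.act_of_basis fun i hi => by
  have h1 := (nall_iff _ _).1 h i hi
  rw [force_eq, band_eq, Bool.and_eq_true] at h1
  have h2 := h1.2
  simp only [band_eq, Bool.and_eq_true, Nat.beq_eq, Nat.blt_eq] at h2
  exact ⟨by rw [h2.1.1, h2.1.2, P.conj_mask n h1.1, hc], h2.2⟩

/-- Coordinates of `2³` in `2¹¹`. -/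
def mZ : ℕ := 17179877377
/-- Tetrads giving a basis of `2³`. -/
def lZm : List ℕ := [16457, 147713, 65801]
/-- A subgroup `L₃(2)` of the trio group. -/
noncomputable def L3 : Subgroup M24 := gen mcode (gensOf chL3)
theorem card_L3 : Nat.card L3 = 168 := card_of_chk chL3_chk (by decide +kernel)
theorem mcode_p7 : mcode (elt p7) = p7 := mcode_elt (by decide +kernel)

namespace GM

variable {G H : Type*} [Group G] [Group H] {ι : H →* G} {z ω : H} {s : ℕ → H} {Λ : H →* R} (M : GM ι z ω s Λ)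
include M

/-- The subgroup `2³`. -/
def Z : Subgroup G := M.ZH.map ι
/-- The subgroup `2³⁺¹²`. -/
noncomputable def L : Subgroup G := (C[M.ZH] ⊓ O4.comap Λ).map ι

theorem mem_Z {h : H} : ι h ∈ M.Z ↔ h ∈ M.ZH := mem_map_inj M.inj
theorem mem_L {h : H} : ι h ∈ M.L ↔ Λ h ∈ O4 ∧ M.cb h &&& 192 = 0 := by
  rw [L, mem_map_inj M.inj, mem_inf, M.mem_cent_ZH, mem_comap]
  exact ⟨fun h => ⟨h.2, h.1.2⟩, fun h => ⟨⟨(O4_facts h.1).1, h.2⟩, h.1⟩⟩
theorem z_mem_Z : ι z ∈ M.Z := M.mem_Z.2 M.z_mem_ZH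
theorem Z_le : M.Z ≤ M.V := map_mono M.ZH_le
theorem Z_sq : ∀ x ∈ M.Z, x * x = 1 := fun x hx => M.V_sq x (M.Z_le hx)
theorem mem_cent_Z {h : H} : ι h ∈ C[M.Z] ↔ Λ h ∈ CZ ∧ M.cb h &&& 192 = 0 :=
  (map_mem_cent_map_iff M.inj).trans M.mem_cent_ZH

theorem cent_Z : C[M.Z] = (C[M.ZH] ⊓ CZ.comap Λ).map ι := by
  refine le_antisymm (fun g hg => ?_) ((map_mono inf_le_left).trans (map_le_cent_map le_rfl ι))
  obtain ⟨h, rfl⟩ := M.surj g (hg _ M.z_mem_Z).symm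
  exact mem_map_of_mem ι ⟨(map_mem_cent_map_iff M.inj).1 hg, (M.mem_cent_Z.1 hg).1⟩

theorem L_le : M.L ≤ C[M.Z] := (map_mono inf_le_left).trans (map_le_cent_map le_rfl ι)

variable [Finite G]

theorem card_cent_Z : Nat.card C[M.Z] = 120 * 2 ^ 15 := by
  have := M.finH
  rw [M.cent_Z, card_map_inj M.inj, M.card_cent_ZH le_rfl, card_CZ]; norm_num

theorem card_L : Nat.card M.L = 2 ^ 15 := by
  have := M.finH
  rw [L, card_map_inj M.inj, M.card_cent_ZH fun r hr => (O4_facts hr).1, card_O4]; norm_num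

theorem card_Z : Nat.card M.Z = 2 ^ 3 := by
  have := M.finH
  rw [Z, card_map_inj M.inj, ← inf_eq_right.2 (show M.ZH ≤ Λ.ker from fun h hh => hh.1),
    M.card_ker_eq M.z_mem_ZH (S := Finset.range 4) fun a => by
      rw [Finset.mem_range]
      exact ⟨fun h => ⟨by omega, M.s_mem_ZH h⟩, fun h => M.cb_s h.1 ▸ h.2.2⟩]
  rfl

theorem mem_norm_Z {g : H} (h : ∀ a < 4, lin (rc (Λ g)) a < 4) : ι g ∈ N[M.Z] :=
  haveI := M.finH; (map_mem_norm_map_iff M.inj).2 (M.mem_norm_ZH h)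

theorem exists_S5 {q : H} (hq : q ∈ N[zpowers ω]) (e : Λ q = r5) : ∃ α : N[M.Z] →* Equiv.Perm (Fin 5),
    ∀ (h : H) (hn : ι h ∈ N[M.Z]) (σ : Equiv.Perm (Fin 5)),
      (∀ i : Fin 5, ract (rc (Λ h)) (lget lHx 0 i) = lget lHx 0 (σ i)) → α ⟨ι h, hn⟩ = σ := by
  have := M.finH
  have uq : ∀ a b : Fin 5, cj[ι (q ^ a.1)] M.V = cj[ι (q ^ b.1)] M.V → a = b := fun a b h => by
    rw [conj_eq_iff, eq_comm, ← mul_conj, conj_eq_self_iff, ← map_inv, ← map_mul, M.mem_norm_V, NV,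
      mem_genR chN_chk, map_mul, map_inv, map_pow, map_pow, e, gcR.code_mul, gcR.code_inv, ← gcR.cpow_code,
      ← gcR.cpow_code, rc_r5] at h
    revert a b; decide +kernel
  have hZ : ∀ i : ℕ, M.Z ≤ cj[ι (q ^ i)] M.V := fun i => by
    rw [← conj_eq_self_of_mem_cent (H := M.Z) (g := ι (q ^ i)) (by
      rw [map_pow]
      exact pow_mem (M.mem_cent_Z.2 ⟨mem_CZ.2 ⟨M.mem q, by rw [e, rc_r5]; decide +kernel⟩, by rw [M.cb_norm hq]; rfl⟩) i)]
    exact conj_mono _ M.Z_le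
  obtain ⟨α, h⟩ := exists_perm_rel (G := N[M.Z]) (ι := Fin 5)
    (fun n i j => cj[(n : G)] (cj[ι (q ^ i.1)] M.V) = cj[ι (q ^ j.1)] M.V) (fun n i => by
      obtain ⟨F, hF⟩ : ∃ F, F = cj[(n : G)] (cj[ι (q ^ i.1)] M.V) := ⟨_, rfl⟩
      have h1 : M.Z ≤ F := hF ▸ (conj_eq_self n.2).ge.trans (conj_mono _ (hZ i))
      have h2 : ∀ x ∈ F, x * x = 1 := hF ▸ sq_conj (sq_conj M.V_sq _) _
      have h3 : (F.comap ι).map ι = F := map_comap_eq_self fun x hx => M.surj x (comm_of_sq h2 hx (h1 M.z_mem_Z))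
      obtain ⟨g, hg⟩ := M.elem_eleven (F := F.comap ι) (fun x hx => M.inj (by rw [map_mul, h2 _ hx, map_one]))
        (by rw [← card_map_inj M.inj, h3, hF, card_conj, card_conj, M.card_V])
      have h4 := (M.mem_VH.1 (hg.le (conj_mem_conj.2 (h1 (M.mem_Z.2 (M.s_mem_ZH (a := 1) (by norm_num))))))).2
      rw [M.cb_conj_ker (M.Λs (by norm_num)), M.cb_s (by norm_num)] at h4
      obtain ⟨j, hj, h5⟩ := pentad_R (M.mem g) h4
      refine ⟨⟨j, hj⟩, ?_⟩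
      rw [← hF, ← h3, conj_eq_iff.1 hg, map_conj, eq_comm, conj_eq_iff, eq_comm, ← mul_conj, ← map_inv, ← map_mul]
      exact conj_eq_self (M.mem_norm_V.2 (by simpa [e] using h5)))
    (fun n i a b h1 h2 => uq a b (h1.symm.trans h2))
    (fun g h u v w h1 h2 => by rw [coe_mul, mul_conj, h1, h2]) (fun v => by rw [coe_one, one_conj])
  refine ⟨α, fun g hn σ h1 => Equiv.ext fun i => uq _ _ ((h _ i).symm.trans ?_)⟩
  rw [eq_comm, conj_eq_iff, ← mul_conj, ← mul_conj, eq_comm, ← map_inv, ← map_mul, ← map_mul]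
  exact conj_eq_self (M.mem_norm_V.2 (by simpa [e] using mem_NV_of_hx (M.mem g) i.2 (σ i).2 (h1 i)))

end GM

/-- The structure of the normaliser of `2³`. -/
structure PT {G H : Type*} [Group G] [Group H] {ι : H →* G} {z ω : H} {s : ℕ → H} {Λ : H →* R} (M : GM ι z ω s Λ)
    (q : H) (ψ : N[M.Z] →* Equiv.Perm (Fin 5) × SL3) : Prop where
  q_mem : q ∈ N[zpowers ω]
  Λq : Λ q = r5
  q5 : q ^ 5 = 1
  al : ∀ (h : H) (hn : ι h ∈ N[M.Z]) (σ : Equiv.Perm (Fin 5)),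
    (∀ i : Fin 5, ract (rc (Λ h)) (lget lHx 0 i) = lget lHx 0 (σ i)) → (ψ ⟨ι h, hn⟩).1 = σ
  be : ∀ n, (ψ n).2 = 1 ↔ (n : G) ∈ C[M.Z]
  inv : ∀ n : N[M.Z], n * n = 1 → ∃ w ∈ M.Z, ∀ v ∈ M.Z, n * v * (n : G)⁻¹ = v ∨ n * v * (n : G)⁻¹ = v * w
  surj : Function.Surjective ψ
  ker : ∀ n, ψ n = 1 ↔ (n : G) ∈ M.L

namespace JD

variable {G H : Type*} [Group G] [Group H] [Finite G] {ι : H →* G} {z ω : H} {s : ℕ → H} {Λ : H →* R}
  {M : GM ι z ω s Λ} {y g : H} {T : ℕ → H} {π : N[M.V] →* M24} {κ : M24 →* N[M.V]} (J : JD M y g T π κ)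
include J

theorem co3 : Co M.Z 3 fun c => ι (T (lin mZ c)) := by
  have h := ball_zero (show ball (fun a => force (lin mZ a) fun c => band (band (Nat.blt c 2048) (Nat.beq (c &&& 960) 0))
    (band (Nat.blt (c &&& 63) 4) (bor (Nat.ble 8 a) (bor (!Nat.beq c 0) (Nat.beq a 0))))) 12 0 = true by decide +kernel)
  simp only [force_eq, band_eq, bor_eq, Bool.and_eq_true, Bool.or_eq_true, Nat.blt_eq, Nat.ble_eq, Bool.not_eq_true',
    ← Bool.not_eq_true, Nat.beq_eq] at h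
  refine co_of_inj (by norm_num) (fun a b => by rw [lin_xor, J.vc.co.mul, map_mul]) (fun a => ?_) (fun a ha e => ?_) M.card_Z
  · have := h _ (and4095_lt' a)
    rw [lin_and] at this
    exact M.mem_Z.2 ⟨(J.vc.Λ_eq_one this.1.1).2 this.1.2, by rw [J.vc.cbT _ this.1.1]; exact this.2.1⟩
  · have := h a (by omega)
    have := J.px.co.inj _ this.1.1 e
    omega

theorem act7 : Act 3 (fun c => ι (T (lin mZ c))) (κ (elt p7) : G) z7 :=
  J.px.act_co J.co3 (by rw [J.ms.sec, mcode_p7]) lZm (by decide +kernel)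

theorem L3_le : lift κ L3 ≤ N[M.Z] := by
  rintro _ ⟨p, hp, rfl⟩
  refine gen_le (H := N[M.Z].comap (N[M.V].subtype.comp κ)) (fun p hp => ?_) hp
  simp only [gens_chL3, List.mem_cons, List.not_mem_nil, or_false] at hp
  rcases hp with e | e
  · exact J.co3.act_norm (J.px.act_co J.co3 (k := z7) ((congrArg mcode (J.ms.sec p)).trans e) lZm (by decide +kernel))
  · exact J.co3.act_norm (J.px.act_co J.co3 (k := z2) ((congrArg mcode (J.ms.sec p)).trans e) lZm (by decide +kernel))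

theorem L3_inf {p : M24} (hp : p ∈ L3) (h : (κ p : G) ∈ C[M.Z]) : p = 1 := by
  have h1 := forall_of_enum chL3_chk (f := fun c => bor (Nat.beq c one) (lany lZm fun m => !Nat.beq (tv (act c m)) (tv m)))
    (by decide +kernel) p hp
  rw [bor_eq, Bool.or_eq_true, gcM.eq_one_iff, lany_iff] at h1
  refine h1.resolve_right fun ⟨m, hm, e⟩ => ?_
  obtain ⟨h2, a, h3⟩ : band (Nat.ble m 16777215) (Nat.beq (pc m % 2) 0) = true ∧ ∃ a < 8, lin mZ a = tv m := by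
    clear e; revert m; decide +kernel
  have h4 := J.px.conj_mask (κ p) h2
  rw [← h _ (h3.2 ▸ J.co3.mem a), mul_inv_cancel_right, J.ms.sec] at h4
  simp [J.px.co.eq (tv_lt _) (tv_lt _) h4.symm] at e

theorem bij_L3 {β : N[M.Z] →* SL3} (h : ∀ n, β n = 1 ↔ (n : G) ∈ C[M.Z]) :
    Function.Bijective (β.comp (inclusion J.L3_le)) :=
  (Nat.bijective_iff_injective_and_card _).2 ⟨(injective_iff_map_eq_one _).2 fun ⟨_, p, hp, rfl⟩ e =>
    Subtype.ext (by simp [J.L3_inf hp ((h _).1 e)]), by rw [J.ms.card_lift, card_L3, card_SL3]⟩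

theorem exists_pt : ∃ q ψ, PT M q ψ := by
  obtain ⟨q, hq, e1, e2⟩ := M.lift_odd (k := k5) (n := 2) (by decide +kernel) (by decide +kernel)
  have e3 : Λ q = r5 := gcR.inj (e1.trans rc_r5.symm)
  obtain ⟨α, hα⟩ := M.exists_S5 hq e3
  obtain ⟨β, h1, h2⟩ := J.co3.exists_SL3
  have key : ∀ k, inL k = true → lin k 1 = 1 → lin k 2 = 2 → ∀ σ : Equiv.Perm (Fin 5),
      (∀ i : Fin 5, ract k (lget lHx 0 i) = lget lHx 0 (σ i)) → σ ∈ (C[M.Z].subgroupOf N[M.Z]).map α :=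
    fun k a b c σ d => by
      obtain ⟨l, hl, rfl⟩ := M.lift_code a
      have : ι l ∈ C[M.Z] := M.mem_cent_Z.2 ⟨mem_CZ.2 ⟨M.mem l, b, c⟩, by rw [M.cb_norm hl]; rfl⟩
      exact ⟨⟨ι l, cent_le_norm _ this⟩, this, hα l _ σ d⟩
  have h3 : (C[M.Z].subgroupOf N[M.Z]).map α = ⊤ := by
    rw [eq_top_iff, ← Equiv.Perm.closure_cycle_adjacent_swap isCycle_finRotate support_finRotate (0 : Fin 5), closure_le]
    rintro _ (rfl | rfl)
    · exact key k5 (by decide +kernel) (by decide +kernel) (by decide +kernel) _ (by decide +kernel)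
    · exact key kτ (by decide +kernel) (by decide +kernel) (by decide +kernel) _ (by decide +kernel)
  have h4 : M.L.subgroupOf N[M.Z] = α.ker ⊓ C[M.Z].subgroupOf N[M.Z] := by
    refine eq_of_le_of_card_ge ?_ ?_
    · rintro ⟨_, hn⟩ ⟨h, hh, rfl⟩
      exact ⟨hα h hn 1 fun i => (O4_facts hh.2).2.2.2.2.2 i i.2, M.L_le ⟨h, hh, rfl⟩⟩
    · have := card_map_mul_card_inf_ker α (C[M.Z].subgroupOf N[M.Z])
      rw [h3, card_top, card_subgroupOf (cent_le_norm _), M.card_cent_Z, Nat.card_perm, Nat.card_eq_fintype_card (α := Fin 5),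
        Fintype.card_fin, show Nat.factorial 5 = 120 from rfl] at this
      rw [card_subgroupOf (M.L_le.trans (cent_le_norm _)), M.card_L]; omega
  refine ⟨q, α.prod β, hq, e3, e2, hα, h1, h2, fun ⟨σ, m⟩ => ?_, fun n => ?_⟩
  · obtain ⟨n, hn⟩ := (J.bij_L3 h1).2 m
    obtain ⟨c, hc, e⟩ := h3.ge (mem_top (σ * (α (inclusion J.L3_le n))⁻¹))
    exact ⟨c * inclusion J.L3_le n, Prod.ext (by simp [e]) (by simpa [(h1 c).2 hc] using hn)⟩
  · rw [← mem_subgroupOf, h4, MonoidHom.prod_apply, Prod.mk_eq_one, h1]; rfl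

theorem trans_Z {v : G} (hv : v ∈ M.Z) (h1 : v ≠ 1) : ∃ j : ℕ, (κ (elt p7) : G) ^ j * ι z * ((κ (elt p7) : G) ^ j)⁻¹ = v := by
  obtain ⟨a, ha, rfl⟩ := J.co3.surj v hv
  obtain ⟨j, -, e⟩ := (show ∀ a < 2 ^ 3, a ≠ 0 → ∃ j < 7, lin (cpow mm idm z7 j) 4 = a by decide +kernel) a ha
    fun e => h1 (e ▸ J.co3.zero)
  refine ⟨j, ?_⟩
  rw [← e, ← (Act.pow J.co3 J.act7 j 4 (by norm_num)).1, show lin mZ 4 = 1024 by decide +kernel, J.vc.Tz]

end JD

end Cfsg.Agent.J4
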