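import Cfsg.Agent.J4.PM

/-!
# Groups of type `J₄`: the special group `2³⁺¹²`
-/

set_option autoImplicit false
set_option linter.unusedSectionVars false

namespace Cfsg.Agent.J4

open Cfsg.Agent.M24 Cfsg.Agent.TT Cfsg.Agent.GT Subgroup MulAction Matrix
open scoped Pointwise symmDiff commutatorElement

theorem exists_pow_lt {G : Type*} [Group G] [Finite G] {x y : G} (h : y ∈ zpowers x) : ∃ i < orderOf x, x ^ i = y := by
  classical simpa using mem_zpowers_iff_mem_range_orderOf.1 h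

theorem conj_pow_pow {G : Type*} [Group G] {x u : G} {a : ℕ} (hu : u * x * u⁻¹ = x ^ a) (j : ℕ) :
    u ^ j * x * (u ^ j)⁻¹ = x ^ a ^ j := by
  induction j with
  | zero => simp
  | succ j ih => rw [pow_succ a, pow_mul, ← ih, conj_pow, ← hu, pow_succ]; group

theorem norm_struct {G : Type*} [Group G] [Finite G] {x u : G} {a p k : ℕ} (ox : orderOf x = p) (ou : orderOf u = k)
    (hu : u * x * u⁻¹ = x ^ a) (h1 : ∀ j < k, a ^ j ≡ 1 [MOD p] → j = 0)
    (h : ∀ n, ∀ i < p, n * x * n⁻¹ = x ^ i → ∃ j : ℕ, i ≡ a ^ j [MOD p]) :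
    zpowers u ⊔ C1[x] = N[zpowers x] ∧ zpowers u ⊓ C1[x] = ⊥ ∧ Nat.card N[zpowers x] = k * Nat.card C1[x] := by
  have hn : zpowers u ≤ N[zpowers x] := zpowers_le.2 (mem_normalizer_of_conj_le (by
    rw [conj_zpowers, hu]; exact zpowers_le.2 (npow_mem_zpowers _ _)))
  have h2 : zpowers u ⊔ C1[x] = N[zpowers x] := by
    refine le_antisymm (sup_le hn ((cent_zpowers x).ge.trans (cent_le_norm _))) fun n hn => ?_
    obtain ⟨i, hi, e⟩ := exists_pow_lt (conj_mem_of_mem_norm hn (mem_zpowers x))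
    obtain ⟨j, e1⟩ := h n i (ox ▸ hi) e.symm
    rw [pow_eq_pow_iff_modEq.2 (ox ▸ e1), ← conj_pow_pow hu] at e
    rw [← mul_inv_cancel_left (u ^ j) n]
    exact mul_mem (mem_sup_left (npow_mem_zpowers _ _)) (mem_sup_right (mem_cent1.2 (by
      rw [mul_assoc, mul_inv_eq_iff_eq_mul.1 e.symm]; group)))
  have h3 : zpowers u ⊓ C1[x] = ⊥ := eq_bot_iff.2 fun c hc => by
    obtain ⟨j, hj, rfl⟩ := exists_pow_lt hc.1
    have := conj_pow_pow hu j
    rw [mem_cent1.1 hc.2, mul_inv_cancel_right, ← pow_one x, ← pow_mul, one_mul, pow_eq_pow_iff_modEq, ox] at this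
    rw [h1 j (ou ▸ hj) this.symm, pow_zero]; exact one_mem _
  exact ⟨h2, h3, by rw [← h2, card_sup_of_inf_eq_bot (.inl (cent_zpowers x ▸ le_norm_cent hn)) h3, Nat.card_zpowers, ou]⟩

namespace GM

variable {G H : Type*} [Group G] [Group H] {ι : H →* G} {z ω : H} {s : ℕ → H} {Λ : H →* R} (M : GM ι z ω s Λ)
include M

theorem Z_le_L : M.Z ≤ M.L := by
  rintro _ ⟨h, hh, rfl⟩
  exact M.mem_L.2 ⟨hh.1 ▸ one_mem _, (show ∀ a < 4, a &&& 192 = 0 by decide) _ hh.2⟩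

theorem s_mem_L {a : ℕ} (ha : a < 4096) (h : a &&& 192 = 0) : ι (s a) ∈ M.L :=
  M.mem_L.2 ⟨M.Λs ha ▸ one_mem _, by rwa [M.cb_s ha]⟩

theorem L_cent : M.L ⊓ C[M.L] = M.Z := by
  refine le_antisymm ?_ (le_inf M.Z_le_L (le_cent_symm M.L_le))
  rintro _ ⟨⟨h, hh, rfl⟩, hc⟩
  have h1 := fun i (hi : i < 12) e => have a := Nat.pow_lt_pow_right one_lt_two hi
    M.comm_s (h := h) a (M.inj (by rw [map_mul, map_mul]; exact (hc _ (M.s_mem_L a e)).symm))
  have h2 := (O4_facts hh.2).2.2.2.1 fun i hi e => (h1 i hi e).1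
  have h3 := ball_zero (show ball (fun b => bor (Nat.blt b 4) (nany 12 fun i => band (Nat.beq (2 ^ i &&& 192) 0)
    (!Nat.beq (Bf b (2 ^ i)) 0))) 12 0 = true by decide +kernel) _ (M.cb_lt h)
  simp only [band_eq, bor_eq, Bool.and_eq_true, Bool.or_eq_true, nany_iff, Nat.blt_eq, Bool.not_eq_true',
    ← Bool.not_eq_true, Nat.beq_eq] at h3
  refine M.mem_Z.2 ⟨h2, h3.resolve_right fun ⟨i, hi, a, b⟩ => b ?_⟩
  rw [← (h1 i hi a).2, h2, gcR.code_one, show ou rone = 0 by decide +kernel, zero_mul]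

theorem L_sq : ∀ x ∈ M.L, x * x ∈ M.Z := by
  rintro _ ⟨h, hh, rfl⟩
  have h1 := O4_facts hh.2
  rw [← map_mul]
  exact M.mem_Z.2 ⟨by rw [map_mul, h1.2.1], by
    rw [M.cb_mul]; exact h1.2.2.2.2.1 _ (M.cb_lt h) (M.mem_cent_ZH.1 hh.1).2⟩

theorem L_comm : ⁅M.L, M.L⁆ ≤ M.Z := commutator_le.2 fun a ha b hb => by
  rw [show ⁅a, b⁆ = a * a * (a⁻¹ * b * (a⁻¹ * b)) * (b * b)⁻¹ by rw [commutatorElement_def]; group]
  exact mul_mem (mul_mem (M.L_sq _ ha) (M.L_sq _ (mul_mem (inv_mem ha) hb))) (inv_mem (M.L_sq _ hb))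

theorem z_mem_comm : ι z ∈ ⁅M.L, M.L⁆ := by
  have := commutator_mem_commutator (M.s_mem_L (a := 4) (by norm_num) rfl) (M.s_mem_L (a := 256) (by norm_num) rfl)
  rwa [← map_commutatorElement, commutatorElement_def, M.s_conj (by norm_num) (by norm_num),
    show Bf 4 256 = 1 by decide +kernel, pow_one, M.zc, mul_inv_cancel_right] at this

theorem pg_L [Finite G] : IsPGroup 2 M.L := IsPGroup.of_card M.card_L

theorem twist (g : G) : GM ((MulAut.conj g).toMonoidHom.comp ι) z ω s Λ :=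
  { M.toHM with
    inj := (conj_hom_injective g).comp M.inj
    surj := fun a ha => (M.surj (g⁻¹ * a * g) (by
      rw [← mul_right_inj g, ← mul_left_inj g⁻¹]; simpa [mul_assoc] using ha)).imp fun h e => by simp [e, mul_assoc] }

end GM

namespace PT

variable {G H : Type*} [Group G] [Group H] [Finite G] {ι : H →* G} {z ω : H} {s : ℕ → H} {Λ : H →* R}
  {M : GM ι z ω s Λ} {q : H} {ψ : N[M.Z] →* Equiv.Perm (Fin 5) × SL3} (P : PT M q ψ)
include P

theorem norm_L : N[M.L] = N[M.Z] := by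
  refine le_antisymm (M.L_cent ▸ le_norm_inf le_rfl (norm_le_norm_cent _)) (le_norm_iff.2 fun n hn l hl => ?_)
  have h := M.L_le.trans (cent_le_norm _) hl
  exact (P.ker (⟨n, hn⟩ * ⟨l, h⟩ * (⟨n, hn⟩ : N[M.Z])⁻¹)).1 (by
    rw [map_mul, map_mul, (P.ker ⟨l, h⟩).2 hl]; simp)

theorem quot_L : Nonempty (N[M.L] ⧸ M.L.subgroupOf N[M.L] ≃* Equiv.Perm (Fin 5) × SL3) :=
  ⟨(QuotientGroup.quotientMulEquivOfEq (N := (ψ.comp (inclusion P.norm_L.le)).ker) (ext fun n => (P.ker (inclusion P.norm_L.le n)).symm)).trans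
    (QuotientGroup.quotientKerEquivOfSurjective _ fun t => (P.surj t).elim fun n e => ⟨⟨n, P.norm_L.ge n.2⟩, e⟩)⟩

theorem lift_cent {x : N[M.Z]} (o : Odd (orderOf (x : G))) {t : Equiv.Perm (Fin 5) × SL3} (h : t * ψ x = ψ x * t) :
    ∃ c : N[M.Z], (c : G) ∈ C1[(x : G)] ∧ ψ c = t := by
  obtain ⟨n, rfl⟩ := P.surj t
  obtain ⟨l, hl, c, hc, e⟩ := exists_mul_cent_of_commutator_mem (N := M.L) (A := zpowers (x : G)) (x := n)
    (.inl (solvable_of_isPGroup Nat.prime_two M.pg_L)) (zpowers_le.2 (P.norm_L.ge x.2))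
    (by rw [M.card_L, Nat.card_zpowers]; exact (Nat.coprime_two_left.2 o).pow_left _) (by
      rintro _ ⟨k, rfl⟩
      exact (P.ker ⁅n, x ^ k⁆).1 (by
        rw [map_commutatorElement, map_zpow, commutatorElement_eq_one_iff_commute]; exact Commute.zpow_right h k))
  have h1 := M.L_le.trans (cent_le_norm _) hl
  refine ⟨(⟨l, h1⟩ : N[M.Z])⁻¹ * n, ?_, by simp [(P.ker ⟨l, h1⟩).2 hl]⟩
  rw [coe_mul, coe_inv, e, inv_mul_cancel_left]
  exact (cent_zpowers _).le hc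

end PT

theorem JD.special {G H : Type*} [Group G] [Group H] [Finite G] {ι : H →* G} {z ω : H} {s : ℕ → H} {Λ : H →* R}
    {M : GM ι z ω s Λ} {y g : H} {T : ℕ → H} {π : N[M.V] →* M24} {κ : M24 →* N[M.V]} (J : JD M y g T π κ)
    {q : H} {ψ : N[M.Z] →* Equiv.Perm (Fin 5) × SL3} (P : PT M q ψ) : IsSpecial 2 M.L ∧ Nat.card (center M.L) = 8 := by
  have : Fact (Nat.Prime 2) := ⟨Nat.prime_two⟩
  have h1 : ⁅M.L, M.L⁆ = M.Z := le_antisymm M.L_comm fun v hv => by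
    by_cases h : v = 1
    · exact h ▸ one_mem _
    obtain ⟨j, rfl⟩ := J.trans_Z hv h
    exact conj_mem_of_mem_norm (norm_le_norm_commutator_self _ (P.norm_L.ge (pow_mem (J.co3.act_norm J.act7) j)))
      M.z_mem_comm
  have h2 := (map_subtype_center M.L).trans M.L_cent
  refine ⟨⟨M.pg_L, ?_, ?_⟩, by rw [← card_map_inj M.L.subtype_injective, h2, M.card_Z]; rfl⟩ <;>
    rw [← map_inj_iff M.L.subtype_injective, h2]
  · exact le_antisymm ((PG.phi_le_iff M.pg_L).2 ⟨h1.le, fun x hx => pow_two x ▸ M.L_sq x hx⟩)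
      (h1.ge.trans (PG.commutator_le_phi M.pg_L))
  · rw [map_subtype_commutator, h1]

end Cfsg.Agent.J4
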