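import Cfsg.Agent.J4.ED
import Cfsg.Agent.GT.Transfer

/-!
# Subgroups of `M₂₄` of order prime to `35` and not divisible by `27`
-/

set_option autoImplicit false
set_option linter.unusedSectionVars false

namespace Cfsg.Agent.J4

open Cfsg.Agent.M24 Cfsg.Agent.GT Subgroup MulAction
open scoped Pointwise

section
variable {G : Type*} [Group G] [Finite G] {p : ℕ} {S : Subgroup G}

theorem syl_count (hp : p.Prime) {P : Subgroup G} (h : IsPiHallOf {p} P S) :
    ∃ n, n % p = 1 ∧ Nat.card ↥(S ⊓ N[P]) * n = Nat.card S := by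
  have := Fact.mk hp
  obtain ⟨Q, rfl⟩ := exists_sylow_of_syl hp h
  refine ⟨_, Eq.trans (card_sylow_modEq_one p S) (Nat.mod_eq_of_lt hp.one_lt), ?_⟩
  have e : normalizer ((Q : Subgroup S) : Set S) = N[(Q : Subgroup S).map S.subtype].subgroupOf S := by
    rw [subgroupOf_norm (map_subtype_le _), subgroupOf_map_subtype_self]
  rw [Q.card_eq_index_normalizer, inf_comm, ← card_inf_mul_relIndex N[(Q : Subgroup S).map S.subtype] S]
  exact congrArg _ (congrArg index e)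

theorem syl_zp (hp : p.Prime) {x : G} (hx : x ∈ S) (o : orderOf x = p) (h : ¬ p * p ∣ Nat.card S) :
    IsPiHallOf {p} (zpowers x) S :=
  syl_mk hp (zpowers_le.2 hx) (isPGroup_of_card_eq_prime (by rw [Nat.card_zpowers, o])) fun e => h (by
    rw [← card_mul_relIndex (zpowers_le.2 hx), Nat.card_zpowers, o]; exact Nat.mul_dvd_mul_left p e)

theorem burn (hp : p.Prime) {x : G} (hx : x ∈ S) (o : orderOf x = p) (h : ¬ p * p ∣ Nat.card S)
    (hn : Nat.card ↥(S ⊓ N[zpowers x]) = p) : ∃ K ≤ S, S ≤ N[K] ∧ Nat.card K * p = Nat.card S := by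
  have h1 : zpowers x = S ⊓ N[zpowers x] :=
    eq_of_le_of_card_ge (le_inf (zpowers_le.2 hx) le_normalizer) (by rw [hn, Nat.card_zpowers, o])
  have h2 := Burnside_normal_complement hp (syl_zp hp hx o h) (by
    rw [← h1, cent_zpowers]; exact zpowers_le.2 (self_mem_cent1 x))
  exact ⟨_, h2.left_le, h2.norm, by rw [← h2.card_mul, Nat.card_zpowers, o]⟩

end

/-- An element of order `23`. -/
noncomputable def x23 : M24 := elt 0x48ab8a0f44a9b37d8d075d9520c41
theorem mcode_x23 : mcode x23 = 0x48ab8a0f44a9b37d8d075d9520c41 := mcode_elt (by decide +kernel)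
theorem orderOf_x23 : orderOf x23 = 23 :=
  have : Fact (Nat.Prime 23) := ⟨by norm_num⟩
  gcM.orderOf_prime mcode_x23 (by decide +kernel)

theorem cent_x23 : C1[x23] = zpowers x23 := by
  refine le_antisymm (fun c h => ?_) (zpowers_le.2 (self_mem_cent1 _))
  obtain ⟨j, -, e⟩ := (nany_iff _ _).1 (trChk_sound mcode_x23 mcode_x23 (g := one)
    (f := fun c => nany 23 fun j => Nat.beq (cpow mul one 0x48ab8a0f44a9b37d8d075d9520c41 j) c) (by decide +kernel)
    (mem_cent1.1 h))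
  rw [← mcode_x23, gcM.cpow_code, beq_mcode] at e
  exact e ▸ pow_mem (mem_zpowers _) j

theorem cent23 {x : M24} (o : orderOf x = 23) : Nat.card C1[x] = 23 ∧ Nat.card N[zpowers x] = 253 := by
  have h0 : ¬ 23 * 23 ∣ Nat.card M24 := by rw [card_M24]; norm_num
  have h1 := (card_cent_prime (by norm_num) h0 orderOf_x23 o).1
  rw [cent_x23, Nat.card_zpowers, orderOf_x23] at h1
  obtain ⟨e, h2, h3, -⟩ := exists_aut (by norm_num) o
  obtain ⟨n, h4, h5⟩ := syl_count (by norm_num) (syl_zp (S := ⊤) (by norm_num) trivial o (by rwa [card_top]))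
  rw [top_inf_eq, card_top, card_M24, h3, h1] at h5
  have : e ≤ 22 := Nat.le_of_dvd (by norm_num) h2
  refine ⟨h1, ?_⟩
  rw [h3, h1]
  interval_cases e <;> omega

theorem norm11 {x : M24} (o : orderOf x = 11) : Nat.card N[zpowers x] ∣ 110 := by
  have h1 := (card_cent_prime (by norm_num) (by rw [card_M24]; norm_num) orderOf_rX2 o).1
  rw [show C1[rX.2] = zpowers rX.2 from le_antisymm (fun c h => cent_x11 (mem_cent1.1 h))
    (zpowers_le.2 (self_mem_cent1 _)), Nat.card_zpowers, orderOf_rX2] at h1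
  obtain ⟨e, h2, h3, -⟩ := exists_aut (by norm_num) o
  rw [h3, h1]
  exact Nat.mul_dvd_mul_left 11 h2

/-- The arithmetic of the orders. -/
def ArOk (n : ℕ) : Prop := (5 ∣ n ∨ 7 ∣ n ∨ 27 ∣ n) ∨
  ¬ (¬ 23 ∣ n ∨ n / 23 % 23 = 1 ∧ ¬ 3 ∣ n ∨ 253 ∣ n ∧ n / 253 % 23 = 1) ∨
  ¬ (¬ 11 ∣ n ∨ n / 11 % 11 = 1 ∧ n ≠ 11264 ∨ 22 ∣ n ∧ n / 22 % 11 = 1) ∨
  (¬ 23 ∣ n ∨ n ≤ 2897 ∨ n = 6072) ∧ (23 ∣ n ∨ n ≤ 9216)
instance instDecArOk (n : ℕ) : Decidable (ArOk n) := by unfold ArOk; infer_instance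

theorem m24_arith {S : Subgroup M24} (h5 : ¬ 5 ∣ Nat.card S) (h7 : ¬ 7 ∣ Nat.card S) (h27 : ¬ 27 ∣ Nat.card S) :
    (23 ∣ Nat.card S → 2897 < Nat.card S → Nat.card S = 6072) ∧ (¬ 23 ∣ Nat.card S → Nat.card S ≤ 9216) := by
  have h0 : Nat.card S ∣ 2 ^ 10 * (3 ^ 3 * (5 ^ 1 * (7 ^ 1 * (11 ^ 1 * 23 ^ 1)))) :=
    (card_subgroup_dvd_card S).trans (by rw [card_M24]; norm_num)
  have a23 : 23 ∣ Nat.card S → Nat.card S / 23 % 23 = 1 ∧ ¬ 3 ∣ Nat.card S ∨
      253 ∣ Nat.card S ∧ Nat.card S / 253 % 23 = 1 := fun h => by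
    obtain ⟨x, hx, o⟩ := exists_mem_orderOf_eq (by norm_num) h
    have q : ¬ 23 * 23 ∣ Nat.card S := fun e => absurd (e.trans h0) (by norm_num)
    obtain ⟨n, h1, h2⟩ := syl_count (by norm_num) (syl_zp (by norm_num) hx o q)
    have h3 := (cent23 o).2 ▸ card_dvd_of_le (inf_le_right : S ⊓ N[zpowers x] ≤ _)
    have h4 := o ▸ orderOf_dvd_card_of_mem (H := S ⊓ N[zpowers x]) ⟨hx, le_normalizer (mem_zpowers x)⟩
    rcases (show ∀ k, k ∣ 253 → 23 ∣ k → k = 23 ∨ k = 253 from fun k a b => by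
      have := Nat.le_of_dvd (by norm_num) a; obtain ⟨c, rfl⟩ := b; have : c ≤ 11 := by omega
      interval_cases c <;> omega) _ h3 h4 with e | e
    · refine Or.inl ⟨by rw [e] at h2; omega, fun h6 => ?_⟩
      obtain ⟨K, k1, k2, k3⟩ := burn (by norm_num) hx o q e
      obtain ⟨R, hR⟩ := exists_syl (p := 3) (by norm_num) K
      have f := card_sup_dvd (H := K) (K := S ⊓ N[R]) (Or.inr (inf_le_left.trans k2))
      rw [frattini_arg (by norm_num) hR k1 k2, ← k3, Nat.mul_dvd_mul_iff_left (card_pos' K)] at f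
      obtain ⟨y, hy, oy⟩ := exists_mem_orderOf_eq (by norm_num) f
      obtain ⟨j, hj⟩ := (have := Fact.mk Nat.prime_three; IsPGroup.iff_card.1 (syl_isPGroup Nat.prime_three hR))
      have h7 := card_modEq_one (p := 23) (by norm_num) (oy ▸ pow_orderOf_eq_one _) hy.2 fun d hd e =>
        orderOf_eq_one_iff.1 (Nat.eq_one_of_dvd_coprimes (Nat.Coprime.pow_left j (by norm_num : Nat.Coprime 3 23))
          (hj ▸ orderOf_dvd_card_of_mem hd) ((cent23 oy).1 ▸ orderOf_dvd_card_of_mem (mem_cent1.2 e.symm)))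
      have h8 : j ≤ 2 := le_of_pow_dvd (hj ▸ card_dvd_of_le ((syl_le hR).trans k1)) h27
      have h9 := (syl_ne_bot_iff (by norm_num) hR).2 (by omega)
      rw [ne_bot_iff_one_lt_card] at h9
      rw [hj] at h7 h9
      interval_cases j <;> omega
    · rw [e] at h2; omega
  have a11 : 11 ∣ Nat.card S → Nat.card S / 11 % 11 = 1 ∧ Nat.card S ≠ 11264 ∨
      22 ∣ Nat.card S ∧ Nat.card S / 22 % 11 = 1 := fun h => by
    obtain ⟨x, hx, o⟩ := exists_mem_orderOf_eq (by norm_num) h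
    have q : ¬ 11 * 11 ∣ Nat.card S := fun e => absurd (e.trans h0) (by norm_num)
    obtain ⟨n, h1, h2⟩ := syl_count (by norm_num) (syl_zp (by norm_num) hx o q)
    have h3 := (card_dvd_of_le (inf_le_right : S ⊓ N[zpowers x] ≤ _)).trans (norm11 o)
    have h4 := o ▸ orderOf_dvd_card_of_mem (H := S ⊓ N[zpowers x]) ⟨hx, le_normalizer (mem_zpowers x)⟩
    rcases (show ∀ k, k ∣ 110 → 11 ∣ k → ¬ 5 ∣ k → k = 11 ∨ k = 22 from fun k a b _ => by
      have := Nat.le_of_dvd (by norm_num) a; obtain ⟨c, rfl⟩ := b; have : c ≤ 10 := by omega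
      interval_cases c <;> omega) _ h3 h4 fun e => h5 (e.trans (card_dvd_of_le inf_le_left)) with e | e
    · refine Or.inl ⟨by rw [e] at h2; omega, fun h6 => ?_⟩
      obtain ⟨K, -, k2, k3⟩ := burn (by norm_num) hx o q e
      obtain ⟨g, -, hg⟩ := exists_conj_pow (M := ⊤) (by norm_num) trivial trivial orderOf_rX2 o
        (by rw [card_top, card_M24]; norm_num)
      have k4 : Nat.card ↥(cj[g] K) = 2 ^ 10 := by rw [card_conj]; omega
      have := two_M24 (IsPGroup.of_card k4) (by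
        rw [← conj_normalizer]; exact conj_mono g ((zpowers_le.2 hx).trans k2) (hg.ge (mem_zpowers _)))
      rw [this, card_bot] at k4; omega
    · rw [e] at h2; omega
  suffices h : ArOk (Nat.card S) by
    rcases h with (h | h | h) | h | h | h
    exacts [absurd h h5, absurd h h7, absurd h h27, absurd (imp_iff_not_or.1 a23) h, absurd (imp_iff_not_or.1 a11) h,
      ⟨fun a b => (h.1.resolve_left (not_not.2 a)).resolve_left (not_le.2 b), h.2.resolve_left⟩]
  clear a23 a11 h5 h7 h27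
  generalize Nat.card S = n at *
  obtain ⟨_, _, b1, h1, rfl⟩ := (Nat.dvd_mul).1 h0
  obtain ⟨_, _, b2, h2, rfl⟩ := (Nat.dvd_mul).1 h1
  obtain ⟨_, _, b3, h3, rfl⟩ := (Nat.dvd_mul).1 h2
  obtain ⟨_, _, b4, h4, rfl⟩ := (Nat.dvd_mul).1 h3
  obtain ⟨_, _, b5, b6, rfl⟩ := (Nat.dvd_mul).1 h4
  clear h0 h1 h2 h3 h4
  rw [Nat.dvd_prime_pow (by norm_num)] at b1 b2 b3 b4 b5 b6
  obtain ⟨a, ha, rfl⟩ := b1
  obtain ⟨b, hb, rfl⟩ := b2
  obtain ⟨c, hc, rfl⟩ := b3
  obtain ⟨d, hd, rfl⟩ := b4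
  obtain ⟨e, he, rfl⟩ := b5
  obtain ⟨f, hf, rfl⟩ := b6
  revert a b c d e f
  decide +kernel

end Cfsg.Agent.J4
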