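import Cfsg.Agent.J4.QA

/-!
# The action on the conjugates of a subgroup
-/

set_option autoImplicit false
set_option linter.unusedSectionVars false

namespace Cfsg.Agent.J4

open Cfsg.Agent.M24 Cfsg.Agent.GT Subgroup MulAction
open scoped Pointwise

section
variable {K X : Type*} [Group K] [MulAction K X] [Finite X] {n : ℕ} {c : Fin n → X}

theorem orb_union (hd : ∀ i j, i ≠ j → orbit K (c i) ≠ orbit K (c j)) :
    (⋃ i, orbit K (c i)).ncard = ∑ i, (orbit K (c i)).ncard := by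
  rw [← finsum_eq_sum_of_fintype, ← Set.ncard_iUnion_of_finite (fun _ => Set.toFinite _) fun i j h =>
    ((orbit.eq_or_disjoint (c i) (c j)).resolve_left (hd i j h))]

theorem orb_sum_le (hd : ∀ i j, i ≠ j → orbit K (c i) ≠ orbit K (c j)) {A : Set X} (hA : ∀ i, orbit K (c i) ⊆ A) :
    ∑ i, (orbit K (c i)).ncard ≤ A.ncard :=
  orb_union hd ▸ Set.ncard_le_ncard (Set.iUnion_subset hA)

theorem orb_cover {l : Fin n → ℕ} (hd : ∀ i j, i ≠ j → orbit K (c i) ≠ orbit K (c j))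
    (hl : ∀ i, l i ≤ (orbit K (c i)).ncard) (hs : Nat.card X ≤ ∑ i, l i) :
    (∀ q, ∃ i, q ∈ orbit K (c i)) ∧ ∀ i, (orbit K (c i)).ncard = l i := by
  have h1 := orb_sum_le hd fun _ => Set.subset_univ _
  rw [Set.ncard_univ] at h1
  have h2 : ∑ i, l i ≤ ∑ i, (orbit K (c i)).ncard := Finset.sum_le_sum fun i _ => hl i
  refine ⟨fun q => Set.mem_iUnion.1 ((Set.eq_of_subset_of_ncard_le (Set.subset_univ _)
    (by rw [orb_union hd, Set.ncard_univ]; omega)).ge trivial), fun i => ?_⟩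
  exact ((Finset.sum_eq_sum_iff_of_le fun i _ => hl i).1 (by omega) i (Finset.mem_univ _)).symm

end

theorem ncard_le_fib {α β : Type*} [Finite α] [Finite β] {A : Set α} {r : α → β → Prop} {c : ℕ}
    (h : ∀ a ∈ A, {b | r a b}.ncard ≤ c) : {b | ∃ a ∈ A, r a b}.ncard ≤ c * A.ncard := by
  refine Set.Finite.induction_on_subset (motive := fun B _ => {b | ∃ a ∈ B, r a b}.ncard ≤ c * B.ncard) A
    (Set.toFinite A) (by simp) fun {a B} ha _ hn ih => ?_
  rw [Set.ncard_insert_of_notMem hn, mul_add, mul_one, show {b | ∃ x ∈ insert a B, r x b} =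
    {b | ∃ x ∈ B, r x b} ∪ {b | r a b} by ext; simp [or_comm]]
  exact (Set.ncard_union_le _ _).trans (Nat.add_le_add ih (h a ha))

section
variable {G : Type*} [Group G] {V : Subgroup G}

/-- The conjugate of `V` belonging to a coset of the normaliser. -/
noncomputable def pq (V : Subgroup G) (q : G ⧸ N[V]) : Subgroup G := cj[q.out] V

theorem pq_mk (g : G) : pq V (g : G ⧸ N[V]) = cj[g] V := by
  obtain ⟨h, e⟩ := QuotientGroup.mk_out_eq_mul N[V] g
  rw [pq, e, mul_conj, conj_eq_self h.2]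

theorem pq_smul (g : G) (q : G ⧸ N[V]) : pq V (g • q) = cj[g] (pq V q) := by
  obtain ⟨a, rfl⟩ := QuotientGroup.mk_surjective q
  rw [Quotient.smul_mk, pq_mk, pq_mk, smul_eq_mul, mul_conj]

theorem pq_inj {q q' : G ⧸ N[V]} (h : pq V q = pq V q') : q = q' := by
  obtain ⟨a, rfl⟩ := QuotientGroup.mk_surjective q
  obtain ⟨b, rfl⟩ := QuotientGroup.mk_surjective q'
  rw [pq_mk, pq_mk, eq_comm, conj_eq_iff, eq_comm, ← mul_conj, conj_eq_self_iff] at h
  exact (QuotientGroup.eq.2 h).symm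

theorem stab_pq (q : G ⧸ N[V]) : stabilizer G q = N[pq V q] := by
  ext g
  rw [mem_stabilizer_iff, ← conj_eq_self_iff, ← pq_smul]
  exact ⟨congrArg _, pq_inj⟩

theorem card_orb (K : Subgroup G) (q : G ⧸ N[V]) : Nat.card ↥(K ⊓ N[pq V q]) * (orbit K q).ncard = Nat.card K :=
  stab_pq q ▸ card_inf_stab K q

/-- Invariants of a pair of subgroups. -/
noncomputable def inv3 (W W' : Subgroup G) : ℕ × ℕ × ℕ :=
  (Nat.card ↥(W ⊓ W'), Nat.card ↥(W' ⊓ N[W]), Nat.card ↥(N[W] ⊓ N[W']))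

theorem inv3_conj (g : G) (W W' : Subgroup G) : inv3 (cj[g] W) (cj[g] W') = inv3 W W' := by
  simp only [inv3, ← conj_normalizer, ← conj_inf, card_conj]

theorem inv3_orbit {q q' : G ⧸ N[V]} (h : q' ∈ orbit N[V] q) : inv3 V (pq V q') = inv3 V (pq V q) := by
  obtain ⟨n, rfl⟩ := h
  rw [← inv3_conj (n : G) V (pq V q), conj_eq_self n.2, ← pq_smul]; rfl

theorem exists_pq (c d : G) : ∃ q, inv3 V (pq V q) = inv3 (cj[c] V) (cj[d] V) :=
  ⟨(c⁻¹ * d : G), by rw [pq_mk, ← inv3_conj c, mul_conj, conj_inv_conj]⟩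

theorem excl [Finite G] {p : ℕ} (hp : p.Prime) {Q : Subgroup G} (hQ : IsPiHallOf {p} Q ⊤) {c₀ : G}
    (h1 : Q ≤ N[cj[c₀] V]) (h2 : ∀ n ∈ N[Q], cj[n] (cj[c₀] V) ⊓ N[cj[c₀] V] ≠ ⊥) {d : G}
    (h : cj[d] V ⊓ N[V] = ⊥) : ¬ Nat.card Q ∣ Nat.card ↥(N[V] ⊓ N[cj[d] V]) := fun e => by
  have := Fact.mk hp
  obtain ⟨k, hk⟩ := IsPGroup.iff_card.1 (syl_isPGroup hp hQ)
  obtain ⟨R, hR⟩ := exists_syl hp (N[V] ⊓ N[cj[d] V])
  have h3 : IsPiHallOf {p} R ⊤ := syl_of_card_le hp hQ (syl_isPGroup hp hR) le_top (Nat.le_of_dvd (card_pos' _) (by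
    rw [← card_mul_relIndex (syl_le hR), hk] at e
    rw [hk]
    exact (Nat.Coprime.pow_left k ((hp.coprime_iff_not_dvd).2 (syl_not_dvd hp hR))).dvd_of_dvd_mul_right e))
  obtain ⟨g, hg, e1⟩ := syl_exists_conj hp (syl_of_le (conj_top c₀ ▸ syl_conj h3 c₀) (K := N[cj[c₀] V])
    (conj_le_norm_conj_iff.2 ((syl_le hR).trans inf_le_left)) le_top) (syl_of_le hQ h1 le_top)
  obtain ⟨n, hn, e2⟩ := syl_fusion_norm hp hQ (g := g * c₀ * d * c₀⁻¹) trivial h1 (by
    rw [← mul_conj, inv_mul_cancel_right, mul_conj, mul_conj, e1, conj_le_norm_conj_iff, conj_le_norm_conj_iff]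
    exact (syl_le hR).trans inf_le_right)
  refine h2 n hn.2 ?_
  rw [e2, ← mul_conj, inv_mul_cancel_right, ← conj_eq_self hg, ← mul_conj, mul_conj _ d, ← conj_normalizer, ← conj_inf, h,
    conj_bot]

end

end Cfsg.Agent.J4
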