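import Cfsg.Agent.J4.QB
import Cfsg.Agent.J4.QD0
import Cfsg.Agent.J4.PS

/-!
# Groups of type `J₄`: conjugates of `V` through the involution `z`
-/

set_option autoImplicit false
set_option linter.unusedSectionVars false

namespace Cfsg.Agent.J4

open Cfsg.Agent.M24 Cfsg.Agent.TT Cfsg.Agent.GT Subgroup MulAction
open scoped Pointwise

theorem card_stab_hx {Ls : List Lvl} (h : chkR Ls = true) {d : R} {k n : ℕ} {t : M24.T} (e : rc d = k)
    (c : band (orbChk ract (gensOf Ls) (ract k 8499969) 16777216 t) (Nat.beq (n * t.size) (chainSize Ls)) = true) :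
    Nat.card ↥(gen rc (gensOf Ls) ⊓ stabilizer R (d • H0)) = n := by
  have h1 := card_inf_stab (gen rc (gensOf Ls)) (d • H0)
  rw [band_eq, Bool.and_eq_true, Nat.beq_eq, ← e, ← mask_H0, acRS.ap_code _ trivial] at c
  have h2 := acRS.orb_sound (chkR_sound h).1 (x₀ := d • H0) trivial c.1
  rw [card_genR h rfl, ← c.2, h2.2.1] at h1
  refine Nat.eq_of_mul_eq_mul_right ?_ h1
  rw [← h2.2.1]
  exact (Set.ncard_pos (Set.toFinite _)).2 ⟨_, mem_orbit_self _⟩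

namespace GM

variable {G H : Type*} [Group G] [Group H] [Finite G] {ι : H →* G} {z ω : H} {s : ℕ → H} {Λ : H →* R}
  (M : GM ι z ω s Λ)
include M

/-- The extraspecial group. -/
def Ex (_ : GM ι z ω s Λ) : Subgroup G := Λ.ker.map ι

theorem mem_Ex {h : H} : ι h ∈ M.Ex ↔ Λ h = 1 := mem_map_iff_mem M.inj
theorem es_Ex : ES M.Ex (ι z) := M.es.map ι fun _ _ e => M.inj (e.trans (map_one ι).symm)
theorem s_mem_Ex {a : ℕ} (ha : a < 4096) : ι (s a) ∈ M.Ex := M.mem_Ex.2 (M.Λs ha)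
theorem ex_ι {x : G} (h : x ∈ C1[ι z]) : ∃ k, ι k = x := M.surj x (mem_cent1.1 h)
theorem ι_mem (h : H) : ι h ∈ C1[ι z] := M.range_eq_cent ▸ ⟨h, rfl⟩

theorem cent_le_norm_Ex : C1[ι z] ≤ N[M.Ex] := fun x hx => by
  obtain ⟨k, rfl⟩ := M.ex_ι hx
  rw [← conj_eq_self_iff, Ex, ← map_conj, conj_eq_self_of_normal]

theorem mem_cjV {l h : H} (hl : l ∈ N[zpowers ω]) :
    ι h ∈ cj[ι l] M.V ↔ (Λ l)⁻¹ * Λ h * Λ l ∈ Wb ∧ lin (rc (Λ l)⁻¹) (M.cb h) < 64 := by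
  rw [mem_conj, ← map_inv, ← map_mul, ← map_mul, M.mem_V, M.mem_VH, M.cb_mul, M.cb_mul, M.cb_norm hl,
    M.cb_norm (inv_mem hl), lin_zero, Nat.zero_xor, Nat.xor_zero, map_mul, map_mul, map_inv]

theorem mem_norm_cjV {l h : H} : ι h ∈ N[cj[ι l] M.V] ↔ Λ h ∈ stabilizer R (Λ l • H0) := by
  rw [← conj_normalizer, mem_conj, ← map_inv, ← map_mul, ← map_mul, M.mem_norm_V, mem_NV, ← smulS_def, map_mul, map_mul,
    map_inv, mul_smul, mul_smul, inv_smul_eq_iff, mem_stabilizer_iff]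
  exact and_iff_right (mul_mem (mul_mem (inv_mem (M.mem _)) (M.mem _)) (M.mem _))

theorem z_mem_cjV (l : H) : ι z ∈ cj[ι l] M.V := by
  rw [mem_conj, mul_assoc, ← mem_cent1.1 (M.ι_mem l), inv_mul_cancel_left]; exact M.z_mem_V

theorem cjV_le {c x : G} (h : x ∈ cj[c] M.V) : cj[c] M.V ≤ C1[x] := fun _ hy =>
  mem_cent1.2 (comm_of_sq (sq_conj M.V_sq c) hy h)

theorem Ex_le_norm (l : H) : M.Ex ≤ N[cj[ι l] M.V] := by
  rintro _ ⟨h, hh, rfl⟩
  rw [M.mem_norm_cjV, MonoidHom.mem_ker.1 hh]; exact one_mem _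

theorem Ex_le_normV : M.Ex ≤ N[M.V] := by simpa [one_conj] using M.Ex_le_norm 1

theorem pt_z {c : G} (hz : ι z ∈ cj[c] M.V) : ∃ l, cj[c] M.V = cj[ι l] M.V := by
  have := M.finH
  have h3 : ((cj[c] M.V).comap ι).map ι = cj[c] M.V := map_comap_eq_self fun x hx => M.ex_ι (M.cjV_le hz hx)
  obtain ⟨g, hg⟩ := M.elem_eleven (F := (cj[c] M.V).comap ι)
    (fun x hx => M.inj (by rw [map_mul, sq_conj M.V_sq c _ hx, map_one]))
    (by rw [← card_map_inj M.inj, h3, card_conj, M.card_V])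
  exact ⟨g⁻¹, by rw [← h3, conj_eq_iff.1 hg, map_conj]; rfl⟩

theorem card_comap {S : Subgroup G} (hS : S ≤ C1[ι z]) : Nat.card (S.comap ι) = Nat.card S := by
  rw [← card_map_inj M.inj, map_comap_eq_self fun x hx => M.ex_ι (hS hx)]

theorem card_split {S : Subgroup G} (hS : S ≤ C1[ι z]) :
    Nat.card ((S.comap ι).map Λ) * Nat.card ↥(M.Ex ⊓ S) = Nat.card S := by
  rw [← M.card_comap hS, ← card_map_mul_card_inf_ker Λ, ← M.card_comap (inf_le_right.trans hS), comap_inf, Ex,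
    comap_map_eq_self_of_injective M.inj]

theorem bound {S : Subgroup G} (hS : S ≤ C1[ι z]) {K : Subgroup R} (h : ∀ k, ι k ∈ S → Λ k ∈ K) :
    Nat.card S ≤ Nat.card K * Nat.card ↥(M.Ex ⊓ S) := by
  rw [← M.card_split hS]
  exact Nat.mul_le_mul_right _ (card_le_of_le (map_le_iff_le_comap.2 h))

theorem card_Ex : Nat.card M.Ex = 2 ^ 13 := by have := M.finH; rw [Ex, card_map_inj M.inj, M.card_ker]

theorem card_Ex_inf {S : Subgroup G} (hz : ι z ∈ S) {U : Finset ℕ} (hU : ∀ a, a ∈ U ↔ a < 4096 ∧ ι (s a) ∈ S) :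
    Nat.card ↥(M.Ex ⊓ S) = U.card * 2 := by
  have := M.finH
  rw [← M.card_comap (inf_le_left.trans M.es_Ex.le_cent1), comap_inf, Ex, comap_map_eq_self_of_injective M.inj,
    M.card_ker_eq hz hU]

theorem card_Ex_le {S : Subgroup G} (hz : ι z ∈ S) {U : Finset ℕ} (hU : ∀ a < 4096, ι (s a) ∈ S → a ∈ U) :
    Nat.card ↥(M.Ex ⊓ S) ≤ U.card * 2 := by
  have := M.finH
  rw [← M.card_comap (inf_le_left.trans M.es_Ex.le_cent1), comap_inf, Ex, comap_map_eq_self_of_injective M.inj]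
  exact M.card_ker_le hz hU

theorem card_Ex_cjV (l : H) : Nat.card ↥(M.Ex ⊓ cj[ι l] M.V) = 128 := by
  rw [← conj_eq_self (M.cent_le_norm_Ex (M.ι_mem l)), ← conj_inf, card_conj, M.card_Ex_inf M.z_mem_V (U := Finset.range 64)
    fun a => ?_]
  · rfl
  rw [Finset.mem_range, M.mem_V, M.mem_VH]
  exact ⟨fun h => ⟨by omega, by rw [M.Λs (by omega)]; exact one_mem _, by rwa [M.cb_s (by omega)]⟩,
    fun h => M.cb_s h.1 ▸ h.2.2⟩

theorem near {l : H} (hl : l ∈ N[zpowers ω]) {k m n : ℕ} {t : M24.T} (e : rc (Λ l) = k)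
    (c1 : band (orbChk ract (gensOf chN) (ract k 8499969) 16777216 t) (Nat.beq (n * t.size) (chainSize chN)) = true)
    (c2 : lall lW (fun w => bor (Nat.beq w rone) (force (rmul (rmul (rinv k) w) k) fun c => !lany lW (Nat.beq c))) = true)
    (c3 : ((Finset.range 64).filter fun a => lin (rinv k) a < 64).card * 2 = m + 1) :
    (inv3 M.V (cj[ι l] M.V)).1 = m + 1 ∧ 128 ≤ (inv3 M.V (cj[ι l] M.V)).2.1 ∧
      (inv3 M.V (cj[ι l] M.V)).2.2 ≤ n * 2 ^ 13 * m := by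
  have h1 : M.V ⊓ cj[ι l] M.V ≤ M.Ex := fun x hx => by
    obtain ⟨h, a1, rfl⟩ := hx.1
    have a2 := (lall_iff _ _).1 c2 _ (mem_Wb.1 (M.mem_VH.1 a1).1)
    rw [← e, ← gcR.code_inv, ← gcR.code_mul, ← gcR.code_mul, force_eq, lany_beq.2 (mem_Wb.1 ((M.mem_cjV hl).1 hx.2).1),
      ← gcR.code_one] at a2
    exact M.mem_Ex.2 (beq_rc.1 (by simpa [bor_eq] using a2))
  have hz : ι z ∈ M.V ⊓ cj[ι l] M.V := ⟨M.z_mem_V, M.z_mem_cjV l⟩
  have h2 : Nat.card ↥(M.V ⊓ cj[ι l] M.V) = m + 1 := by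
    rw [← inf_eq_right.2 h1, M.card_Ex_inf hz fun a => ?_, c3]
    rw [Finset.mem_filter, Finset.mem_range, mem_inf, M.mem_V, M.mem_VH, M.mem_cjV hl, gcR.code_inv, e]
    refine ⟨fun h => ⟨by omega, ?_⟩, fun h => M.cb_s h.1 ▸ ⟨h.2.1.2, h.2.2.2⟩⟩
    rw [M.Λs (by omega), M.cb_s (by omega), mul_one, inv_mul_cancel]
    exact ⟨⟨one_mem _, h.1⟩, one_mem _, h.2⟩
  refine ⟨h2, M.card_Ex_cjV l ▸ card_le_of_le (le_inf inf_le_right (inf_le_left.trans M.Ex_le_normV)), ?_⟩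
  change Nat.card ↥(N[M.V] ⊓ N[cj[ι l] M.V]) ≤ _
  rw [← ncard_conj_orbit _ (ι z)]
  refine Nat.mul_le_mul ((M.bound (S := N[M.V] ⊓ N[cj[ι l] M.V] ⊓ C1[ι z]) inf_le_right
    (K := NV ⊓ stabilizer R (Λ l • H0)) fun k hk => ⟨M.mem_norm_V.1 hk.1.1, M.mem_norm_cjV.1 hk.1.2⟩).trans (Nat.mul_le_mul (card_stab_hx chN_chk e c1).le
      (M.card_Ex ▸ card_le_of_le inf_le_left))) ?_
  have h3 := ncard_sdiff (bot_le (a := M.V ⊓ cj[ι l] M.V))
  rw [h2, card_bot, Nat.add_sub_cancel] at h3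
  refine h3 ▸ Set.ncard_le_ncard ?_
  rintro _ ⟨x, hx, rfl⟩
  exact ⟨conj_mem_of_le_norm (le_norm_inf inf_le_left inf_le_right) hx hz, fun e => M.es_Ex.ne (by simpa using e)⟩

theorem exists_near : (∃ d, (inv3 M.V (cj[d] M.V)).1 = 8 ∧ 128 ≤ (inv3 M.V (cj[d] M.V)).2.1 ∧
      (inv3 M.V (cj[d] M.V)).2.2 ≤ 33030144) ∧ ∃ d, (inv3 M.V (cj[d] M.V)).1 = 2 ∧ 128 ≤ (inv3 M.V (cj[d] M.V)).2.1 ∧
      (inv3 M.V (cj[d] M.V)).2.2 ≤ 17694720 := by
  obtain ⟨a, ha, ea⟩ := M.lift_code (k := k5) (by decide +kernel)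
  obtain ⟨b, hb, eb⟩ := M.lift_code (k := k16) (by decide +kernel)
  exact ⟨⟨_, M.near ha ea (m := 7) (n := 576) (t := th60) (by decide +kernel) (by decide +kernel) (by decide +kernel)⟩,
    _, M.near hb eb (m := 1) (n := 2160) (t := th16) (by decide +kernel) (by decide +kernel) (by decide +kernel)⟩

end GM

end Cfsg.Agent.J4
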