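import Cfsg.Agent.J4.QC

/-!
# Groups of type `J₄`: two extraspecial groups containing each other's centre
-/

set_option autoImplicit false
set_option linter.unusedSectionVars false

namespace Cfsg.Agent.J4

open Cfsg.Agent.M24 Cfsg.Agent.TT Cfsg.Agent.GT Subgroup MulAction
open scoped Pointwise

/-- An element interchanging `z` and `s 1`. -/
structure SW {G H : Type*} [Group G] [Group H] {ι : H →* G} {z ω : H} {s : ℕ → H} {Λ : H →* R} (M : GM ι z ω s Λ)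
    (τ : G) : Prop where
  a : τ * ι z * τ⁻¹ = ι (s 1)
  b : τ * ι (s 1) * τ⁻¹ = ι z

theorem lHx_eq : ∀ i < 5, lget lHx 0 i = mask (r5 ^ i • H0) := fun i hi => by
  rw [← acRS.ap_code _ trivial, ← gcR.cpow_code, rc_r5, mask_H0]; revert i; decide +kernel

theorem ract_stab {r d : R} (h : r ∈ stabilizer R (d • H0)) :
    ract (rc r) (ract (rc d) 8499969) = ract (rc d) 8499969 := by
  rw [← mask_H0, acRS.ap_code _ trivial, acRS.ap_code _ trivial, h]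

variable {G H : Type*} [Group G] [Group H] [Finite G] {ι : H →* G} {z ω : H} {s : ℕ → H} {Λ : H →* R}
  {M : GM ι z ω s Λ}

theorem GM.z_ne_s1 (M : GM ι z ω s Λ) : ι z ≠ ι (s 1) := fun e => by
  simpa using M.s_inj 1 (by norm_num) (Or.inr (M.inj e).symm)

theorem GM.mem_F1_of (M : GM ι z ω s Λ) {h : H} (e : ι h ∈ C1[ι (s 1)]) : Λ h ∈ F1 :=
  mem_F1.2 ⟨M.mem h, (M.comm_s (by norm_num) (M.inj (by simpa using mem_cent1.1 e))).1⟩

theorem GM.z_mem_cent (M : GM ι z ω s Λ) (h : H) : ι z ∈ C1[ι h] := mem_cent1_comm.1 (M.ι_mem h)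

theorem JD.E_conj {y g : H} {T : ℕ → H} {π : N[M.V] →* M24} {κ : M24 →* N[M.V]} (J : JD M y g T π κ) {x : G}
    (hx : x ∈ M.Ex) (hz : IsConj (ι z) x) (hn : x ≠ ι z) : ∃ l, ι l * ι (s 1) * (ι l)⁻¹ = x := by
  have := M.finH
  obtain ⟨h, hh, rfl⟩ := hx
  have h2 : h * h = 1 := M.inj (by rw [map_mul, map_one, sq_of_isConj J.mc.z_sq hz])
  rcases M.E_cls hh h2 fun e => by
    rcases M.eq_s hh with e' | e' <;> rw [e, M.s0] at e'
    · exact J.ms.ne_one_of_conj hz (by rw [e', map_one])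
    · exact hn (by rw [e', one_mul]) with ⟨l, rfl⟩ | ⟨l, rfl⟩
  · exact ⟨l, by simp⟩
  · refine absurd (isConj_conj (ι l) |>.1 (by simpa using hz)) ?_
    rw [← J.vc.Ts 20 (by norm_num)]; exact M.not_conj_20 J.vc

theorem JD.exists_sw {y g : H} {T : ℕ → H} {π : N[M.V] →* M24} {κ : M24 →* N[M.V]} (J : JD M y g T π κ) :
    ∃ τ, SW M τ := by
  have h0 := M.mem_Z.2 (M.s_mem_ZH (a := 1) (by norm_num))
  obtain ⟨j, e⟩ := J.trans_Z h0 fun e => by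
    simpa using M.s_inj 1 (by norm_num) (Or.inl (M.inj (e.trans (map_one ι).symm)))
  have h1 := pow_mem (J.co3.act_norm J.act7) j
  generalize (κ (elt p7) : G) ^ j = t at e h1
  obtain ⟨l, hl⟩ := J.E_conj (x := t⁻¹ * ι z * t) (by
    obtain ⟨h, hh, e⟩ := conj_mem_of_mem_norm (inv_mem h1) M.z_mem_Z
    rw [inv_inv] at e
    exact e ▸ M.mem_Ex.2 (M.mem_ZH.1 hh).1) (isConj_iff.2 ⟨t⁻¹, by simp⟩) fun k => M.z_ne_s1 (by
      rw [← e]; nth_rw 2 [← k]; group)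
  refine ⟨t * ι l, ?_, ?_⟩
  · rw [← e, mul_assoc t, mem_cent1.1 (M.ι_mem l)]; group
  · rw [show t * ι l * ι (s 1) * (t * ι l)⁻¹ = t * (ι l * ι (s 1) * (ι l)⁻¹) * t⁻¹ by group, hl]; group

namespace SW

variable {τ : G} (W : SW M τ)
include W

theorem es2 : ES (cj[τ] M.Ex) (ι (s 1)) := W.a ▸ M.es_Ex.conj_ τ
theorem z_mem : ι z ∈ cj[τ] M.Ex := W.b ▸ conj_mem_conj.2 (M.s_mem_Ex (by norm_num))
theorem cu : cj[τ] C1[ι z] = C1[ι (s 1)] := by rw [conj_cent1, W.a]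
theorem cz : cj[τ] C1[ι (s 1)] = C1[ι z] := by rw [conj_cent1, W.b]
theorem cjE : cj[τ] (cj[τ] M.Ex) = M.Ex := by
  rw [← mul_conj]
  refine conj_eq_self (M.cent_le_norm_Ex (mem_cent1.2 ?_))
  rw [← mul_inv_eq_iff_eq_mul]
  nth_rw 2 [← W.b]; rw [← W.a]; group
theorem nu : C1[ι (s 1)] ≤ N[cj[τ] M.Ex] := W.cu ▸ conj_le_norm_conj_iff.2 M.cent_le_norm_Ex

theorem nE {c : G} (h : ι (s 1) ∈ cj[c] M.V) : cj[τ] M.Ex ≤ N[cj[c] M.V] := by
  obtain ⟨l, e⟩ := M.pt_z (c := τ⁻¹ * c) (by rwa [mul_conj, ← conj_mem_conj (g := τ), conj_inv_conj, W.a])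
  rw [mul_conj, conj_eq_iff, inv_inv] at e
  rw [e]
  exact conj_le_norm_conj_iff.2 (M.Ex_le_norm l)

theorem memO5 {h : H} (e : ι h ∈ cj[τ] M.Ex) : rc (Λ h) ∈ lO5 := by
  have h1 : ∀ i < 5, ract (rc (Λ h)) (lget lHx 0 i) = lget lHx 0 i := fun i hi => by
    obtain ⟨l, hl, el⟩ := M.lift _ (pow_mem r5_mem i)
    have := M.mem_norm_cjV.1 (W.nE ((M.mem_cjV hl).2 ⟨by rw [M.Λs (by norm_num)]; simp, by
      rw [M.cb_s (by norm_num), el, gcR.code_inv, ← gcR.cpow_code, rc_r5]; clear el; revert i; decide +kernel⟩) e)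
    rw [lHx_eq i hi, acRS.ap_code _ trivial, ← el, this]
  have h2 := forall_of_enumR chF_chk (f := fun k => bor (nany 5 fun i => !Nat.beq (ract k (lget lHx 0 i)) (lget lHx 0 i))
    (lany lO5 (Nat.beq k))) (by decide +kernel) _ (M.mem_F1_of (W.es2.le_cent1 e))
  rw [bor_eq, Bool.or_eq_true, nany_iff] at h2
  exact lany_beq.1 (h2.resolve_left fun ⟨i, hi, k⟩ => by simp [h1 i hi] at k)

theorem card_EE : Nat.card ↥(M.Ex ⊓ cj[τ] M.Ex) = 128 ∧ ∀ k ∈ lO5, ∃ h, ι h ∈ cj[τ] M.Ex ∧ rc (Λ h) = k := by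
  have h1 := card_le_two_mul (K := M.Ex) (M := C1[ι (s 1)]) fun a ha b hb h1 h2 => mem_cent1.2
    (M.es_Ex.commute_mul ha hb (M.s_mem_Ex (by norm_num)) (fun e => h1 (mem_cent1.2 e)) fun e => h2 (mem_cent1.2 e))
  rw [M.card_Ex, ← card_conj τ, conj_inf, W.cz] at h1
  have h2 := es_abelian_le M.es_Ex (W := M.Ex ⊓ cj[τ] M.Ex) inf_le_left ⟨M.es_Ex.mem, W.z_mem⟩ fun x hx y hy =>
    by_contra fun e => M.z_ne_s1 (mul_left_cancel
      ((M.es_Ex.conj_of_not hx.1 hy.1 e).symm.trans (W.es2.conj_of_not hx.2 hy.2 e)))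
  have h3 := M.card_split (S := C1[ι z] ⊓ cj[τ] M.Ex) inf_le_left
  rw [← inf_assoc, inf_eq_left.2 M.es_Ex.le_cent1] at h3
  rw [M.card_Ex] at h2
  have h4 : Nat.card ↥(M.Ex ⊓ cj[τ] M.Ex) ≤ 128 := by nlinarith
  have h5 : ∀ l : List ℕ, (∀ h, ι h ∈ cj[τ] M.Ex → rc (Λ h) ∈ l) → 4096 ≤ l.length * Nat.card ↥(M.Ex ⊓ cj[τ] M.Ex) :=
    fun l hl => le_trans (by omega) (Nat.mul_le_mul_right _ (card_le_codes (l := l)
      (K := ((C1[ι z] ⊓ cj[τ] M.Ex).comap ι).map Λ) (by rintro _ ⟨h, hh, rfl⟩; exact hl h hh.2)))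
  have h6 := h5 _ fun _ => W.memO5
  rw [show lO5.length = 32 from rfl] at h6
  refine ⟨by omega, fun k hk => by_contra fun e => ?_⟩
  have h7 := h5 (lO5.erase k) fun h hh => (List.mem_erase_of_ne fun e' => e ⟨h, hh, e'⟩).2 (W.memO5 hh)
  rw [List.length_erase_of_mem hk, show lO5.length = 32 from rfl] at h7
  omega

theorem mem_lX {a : ℕ} (ha : a < 4096) (h : ι (s a) ∈ cj[τ] M.Ex) : a ∈ lXv := by
  have h1 := ball_zero (show ball (fun a => bor (lany lO5 fun k => force (lin k a) fun b =>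
    band (!Nat.beq b a) (!Nat.beq b (a ^^^ 1))) (lany lXv (Nat.beq a))) 12 0 = true by decide +kernel) a ha
  rw [bor_eq, Bool.or_eq_true, lany_iff] at h1
  refine lany_beq.1 (h1.resolve_left fun ⟨k, hk, e⟩ => ?_)
  have h0 := h
  obtain ⟨h, hh, rfl⟩ := W.card_EE.2 k hk
  have h2 := M.cb_conj_ker (g := h) (M.Λs ha)
  rw [M.cb_s ha] at h2
  rw [force_eq, ← h2] at e
  rcases W.es2.conj _ hh _ h0 with k | k
  · rw [M.inj (a₁ := h * s a * h⁻¹) (a₂ := s a) (by simpa using k), M.cb_s ha] at e; simp [band_eq] at e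
  · rw [M.inj (a₁ := h * s a * h⁻¹) (a₂ := s a * s 1) (by simpa using k), M.cb_mul, M.cb_s ha, M.cb_s (by norm_num),
      M.Λs ha, lin_rc_one (by norm_num)] at e
    simp [band_eq] at e

theorem lX_mem {a : ℕ} (ha : a ∈ lXv) : ι (s a) ∈ cj[τ] M.Ex := by_contra fun e => by
  have h := M.card_Ex_le W.z_mem (U := lXv.toFinset.erase a) fun b hb k =>
    Finset.mem_erase.2 ⟨fun e' => e (e' ▸ k), List.mem_toFinset.2 (W.mem_lX hb k)⟩
  rw [W.card_EE.1, Finset.card_erase_of_mem (List.mem_toFinset.2 ha)] at h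
  have := List.toFinset_card_le lXv
  rw [show lXv.length = 64 from rfl] at this
  omega

theorem s_cb {h : H} (h1 : Λ h = 1) (h2 : ι h ∈ cj[τ] M.Ex) : M.cb h ∈ lXv := by
  refine W.mem_lX (M.cb_lt h) ?_
  rcases M.eq_s h1 with e | e
  · exact e ▸ h2
  · simpa [mul_assoc] using mul_mem (show ι (s (M.cb h) * z) ∈ _ from e ▸ h2) (inv_mem W.z_mem)

variable {l : H} (hl : l ∈ N[zpowers ω]) (el : rc (Λ l) = k32)
include hl el

omit W in
theorem c1 : cj[ι l] M.V ⊓ C1[ι (s 1)] ≤ M.Ex := fun x hx => by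
  obtain ⟨h, rfl⟩ := M.ex_ι (M.cjV_le (M.z_mem_cjV l) hx.1)
  have h1 := (lall_iff _ _).1 (show lall lW (fun w => bor (Nat.beq w rone) (!Nat.beq (lin (cjap rmul rinv k32 w) 1) 1))
    = true by decide +kernel) _ (mem_Wb.1 ((M.mem_cjV hl).1 hx.1).1)
  rw [← el, gcR.cjap_code, show Λ l * ((Λ l)⁻¹ * Λ h * Λ l) * (Λ l)⁻¹ = Λ h by group,
    (mem_F1.1 (M.mem_F1_of hx.2)).2, ← gcR.code_one] at h1
  have h2 : (Λ l)⁻¹ * Λ h * Λ l = 1 := beq_rc.1 (by simpa [bor_eq] using h1)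
  exact M.mem_Ex.2 (by rwa [mul_assoc, inv_mul_eq_one, eq_comm, mul_eq_right] at h2)

theorem c2 {x : G} (h1 : x ∈ cj[ι l] M.V) (h2 : x ∈ M.Ex) (h3 : x ∈ cj[τ] M.Ex) : x = 1 ∨ x = ι z := by
  obtain ⟨h, hh, rfl⟩ := h2
  have h4 := ((M.mem_cjV hl).1 h1).2
  rw [gcR.code_inv, el] at h4
  have h5 := (show ∀ a ∈ lXv, lin (rinv k32) a < 64 → a = 0 by decide +kernel) _ (W.s_cb hh h3) h4
  exact (M.eq_s hh).imp (fun e => by rw [e, h5, M.s0, map_one]) fun e => by rw [e, h5, M.s0, one_mul]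

theorem c3 : cj[τ] M.Ex ⊓ C1[ι z] ⊓ N[cj[ι l] M.V] ≤ M.Ex := fun x hx => by
  obtain ⟨h, rfl⟩ := M.ex_ι hx.1.2
  have h1 := (lall_iff _ _).1 (show lall lO5 (fun w => bor (Nat.beq w rone)
    (!Nat.beq (ract w (ract k32 8499969)) (ract k32 8499969))) = true by decide +kernel) _ (W.memO5 hx.1.1)
  rw [← el, ract_stab (M.mem_norm_cjV.1 hx.2), ← gcR.code_one] at h1
  exact M.mem_Ex.2 (beq_rc.1 (by simpa [bor_eq] using h1))

theorem c4 : N[cj[ι l] M.V] ⊓ C1[ι (s 1)] ≤ C1[ι z] := fun n hn => by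
  have h1 := conj_mem_of_mem_norm hn.1 (M.z_mem_cjV l)
  rcases W.c2 hl el h1 (c1 hl el ⟨h1, mul_mem (mul_mem hn.2 (M.z_mem_cent _)) (C1[ι (s 1)].inv_mem hn.2)⟩)
    (conj_mem_of_mem_norm (W.nu hn.2) W.z_mem) with e | e
  · exact absurd (by simpa using e) M.es_Ex.ne
  · exact mem_cent1.2 (mul_inv_eq_iff_eq_mul.1 e)

theorem d4 : N[cj[τ * ι l] M.V] ⊓ C1[ι z] ≤ C1[ι (s 1)] := by
  have h := conj_mono τ (W.c4 hl el)
  rwa [conj_inf, W.cz, W.cu, conj_normalizer, ← mul_conj] at h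

theorem d3 : M.Ex ⊓ (N[cj[τ * ι l] M.V] ⊓ C1[ι z]) ≤ cj[τ] M.Ex := fun x hx => by
  have h := conj_mono τ (W.c3 hl el)
  rw [conj_inf, conj_inf, W.cjE, W.cu, conj_normalizer, ← mul_conj] at h
  exact h ⟨⟨hx.1, W.d4 hl el hx.2⟩, hx.2.1⟩

theorem bound0 {S : Subgroup G} (h1 : S ≤ N[cj[τ * ι l] M.V] ⊓ C1[ι z]) {m : H} (h2 : S ≤ N[cj[ι m] M.V]) :
    Nat.card S ≤ Nat.card ↥(F1 ⊓ stabilizer R (Λ m • H0)) * 128 :=
  (M.bound (h1.trans inf_le_right) fun _ hk =>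
    mem_inf.2 ⟨M.mem_F1_of (W.d4 hl el (h1 hk)), M.mem_norm_cjV.1 (h2 hk)⟩).trans
    (Nat.mul_le_mul_left _ (W.card_EE.1 ▸ card_le_of_le
      (le_inf inf_le_left ((inf_le_inf_left _ h1).trans (W.d3 hl el)))))

omit hl el in
theorem E2_le : cj[τ] M.Ex ≤ N[cj[τ * ι l] M.V] := by rw [mul_conj]; exact conj_le_norm_conj_iff.2 (M.Ex_le_norm l)

theorem pairA : (inv3 (cj[τ * ι l] M.V) (cj[ι l] M.V)).2.1 = 2 ∧ (inv3 (cj[τ * ι l] M.V) (cj[ι l] M.V)).2.2 ≤ 15360 := by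
  have h1 : cj[ι l] M.V ⊓ N[cj[τ * ι l] M.V] = zpowers (ι z) := by
    refine le_antisymm (fun x hx => ?_) (zpowers_le.2 ⟨M.z_mem_cjV l, W.E2_le W.z_mem⟩)
    have a1 : x ∈ N[cj[τ * ι l] M.V] ⊓ C1[ι z] := ⟨hx.2, M.cjV_le (M.z_mem_cjV l) hx.1⟩
    have a2 := c1 hl el ⟨hx.1, W.d4 hl el a1⟩
    exact M.es_Ex.mem_zp.2 (W.c2 hl el hx.1 a2 (W.d3 hl el ⟨a2, a1⟩))
  refine ⟨(congrArg (fun K : Subgroup G => Nat.card K) h1).trans (card_zpowers_two M.es_Ex.zz M.es_Ex.ne), ?_⟩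
  refine (W.bound0 hl el (le_inf inf_le_left fun n hn => ?_) inf_le_right).trans ?_
  · rcases M.es_Ex.mem_zp.1 (h1.le (conj_mem_of_le_norm (le_norm_inf inf_le_right (le_norm_self inf_le_left)) hn
      (h1.ge (mem_zpowers _)))) with e | e
    · exact absurd (by simpa using e) M.es_Ex.ne
    · exact mem_cent1.2 (mul_inv_eq_iff_eq_mul.1 e)
  · rw [F1, card_stab_hx chF_chk el (n := 120) (t := th32) (by decide +kernel)]

end SW

end Cfsg.Agent.J4
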