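import Cfsg.Agent.J4.QE

/-!
# Groups of type `J₄`: the suborbit of length `3400320`
-/

set_option autoImplicit false
set_option linter.unusedSectionVars false

namespace Cfsg.Agent.J4

open Cfsg.Agent.M24 Cfsg.Agent.TT Cfsg.Agent.GT Subgroup MulAction
open scoped Pointwise

/-- The hexacode words of weight six. -/
def b18 (m : ℕ) : Bool := tbq 23978162615076512 m

set_option synthInstance.maxSize 1000 in
theorem fin4 {F : Finset ℕ} (h1 : ∀ a ∈ F, a < 64) (h0 : 0 ∈ F) (h2 : ∀ a ∈ F, ∀ b ∈ F, a ^^^ b ∈ F) (h3 : F.card ≤ 8) :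
    (F.filter fun a => b18 a = true).card ≤ 4 := by
  by_contra! h
  obtain ⟨p, hp, -⟩ := Finset.exists_mem_notMem_of_card_lt_card (s := ∅) (Nat.zero_lt_of_lt h)
  obtain ⟨x, hx, e1⟩ := Finset.exists_mem_notMem_of_card_lt_card (s := {p}) (lt_trans (by simp) h)
  obtain ⟨y, hy, e2⟩ := Finset.exists_mem_notMem_of_card_lt_card (s := {p, x, p ^^^ x})
    (lt_trans (Nat.lt_succ_of_le Finset.card_le_three) h)
  simp only [Finset.mem_filter, Finset.mem_insert, Finset.mem_singleton, not_or] at hp hx hy e1 e2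
  obtain ⟨a, b⟩ := (show ∀ p < 64, b18 p = true → ∀ x < 64, b18 x = true ∧ x ≠ p → ∀ y < 64, b18 y = true ∧ y ≠ p ∧
    y ≠ x ∧ y ≠ p ^^^ x → [0, p, x, y, p ^^^ x, p ^^^ y, x ^^^ y, p ^^^ x ^^^ y].Nodup ∧
      ([0, p, x, y, p ^^^ x, p ^^^ y, x ^^^ y, p ^^^ x ^^^ y].filter b18).length ≤ 4 by decide +kernel)
    p (h1 p hp.1) hp.2 x (h1 x hx.1) ⟨hx.2, e1⟩ y (h1 y hy.1) ⟨hy.2, e2⟩
  rw [← Finset.eq_of_subset_of_card_le (s := [0, p, x, y, p ^^^ x, p ^^^ y, x ^^^ y, p ^^^ x ^^^ y].toFinset) (t := F)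
    (by simp [Finset.insert_subset_iff, *]) (by rw [List.toFinset_card_of_nodup a]; exact h3), ← List.toFinset_filter] at h
  have := List.toFinset_card_le ([0, p, x, y, p ^^^ x, p ^^^ y, x ^^^ y, p ^^^ x ^^^ y].filter b18)
  omega

theorem HM.hex4 {H : Type*} [Group H] [Finite H] {z ω : H} {s : ℕ → H} {Λ : H →* R} (M : HM z ω s Λ) {D : Subgroup H}
    (hD : D ≤ Λ.ker) (h8 : Nat.card D ≤ 8) (h0 : ∀ h ∈ D, M.cb h < 64 → h = 1) :
    {h | h ∈ D ∧ b18 (M.cb h >>> 6) = true}.ncard ≤ 4 := by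
  have e : ∀ a ∈ D, ∀ b, M.cb (a * b) >>> 6 = M.cb a >>> 6 ^^^ M.cb b >>> 6 := fun a ha b => by
    rw [M.cb_mul, hD ha, lin_rc_one (M.cb_lt b), Nat.shiftRight_xor_distrib]
  have hi : Set.InjOn (fun h => M.cb h >>> 6) D := fun a ha b hb k => by
    have h1 := e _ (inv_mem ha) b
    rw [M.cb_inv, hD ha, inv_one, lin_rc_one (M.cb_lt a), show M.cb a >>> 6 = M.cb b >>> 6 from k, Nat.xor_self,
      Nat.shiftRight_eq_div_pow] at h1
    exact inv_mul_eq_one.1 (h0 _ (mul_mem (inv_mem ha) hb) (by omega))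
  have hF := ((D : Set H).toFinite.image fun h => M.cb h >>> 6).coe_toFinset
  generalize Set.Finite.toFinset _ = F at hF
  have m : ∀ a, a ∈ F ↔ ∃ h ∈ D, M.cb h >>> 6 = a := fun a => by rw [← Finset.mem_coe, hF]; rfl
  refine le_trans (Set.ncard_le_ncard_of_injOn (fun h => M.cb h >>> 6) (t := (F.filter fun a => b18 a = true : Finset ℕ))
    (fun h hh => by simpa using ⟨(m _).2 ⟨h, hh.1, rfl⟩, hh.2⟩) (hi.mono fun _ h => h.1)) ?_
  rw [Set.ncard_coe_finset]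
  refine fin4 (fun a ha => ?_) ((m _).2 ⟨1, one_mem _, by rw [M.cb_one]; rfl⟩) (fun a ha b hb => ?_) ?_
  · obtain ⟨h, -, rfl⟩ := (m _).1 ha
    have := M.cb_lt h
    rw [Nat.shiftRight_eq_div_pow]; omega
  · obtain ⟨h, hh, rfl⟩ := (m _).1 ha
    obtain ⟨k, hk, rfl⟩ := (m _).1 hb
    exact (m _).2 ⟨_, mul_mem hh hk, e h hh k⟩
  · rw [← Set.ncard_coe_finset, hF]
    exact (Set.ncard_image_le (D : Set H).toFinite).trans h8

variable {G H : Type*} [Group G] [Group H] [Finite G] {ι : H →* G} {z ω : H} {s : ℕ → H} {Λ : H →* R}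
  {M : GM ι z ω s Λ} {y g : H} {T : ℕ → H} {π : N[M.V] →* M24} {κ : M24 →* N[M.V]}

theorem JD.pi_E (J : JD M y g T π κ) {h : H} (h1 : Λ h = 1) (hn : ι h ∈ N[M.V]) :
    mcode (π ⟨ι h, hn⟩) = lget lPE 0 (M.cb h >>> 6) := by
  have hm : ∀ a < 4096, ι (s a) ∈ N[M.V] := fun a ha => M.Ex_le_normV (M.s_mem_Ex ha)
  have hy : ∀ n : ℕ, ι (z ^ n) ∈ N[M.V] := fun n => by rw [map_pow]; exact pow_mem (le_normalizer M.z_mem_V) n
  have hz : ∀ n : ℕ, π ⟨ι (z ^ n), hy n⟩ = 1 := fun n => (J.ms.ker _).2 (by simpa using pow_mem M.z_mem_V n)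
  have h2 : ∀ u < 64, ∀ hn, mcode (π ⟨ι (s u), hn⟩) = one := fun u hu _ => by
    rw [(J.ms.ker _).2 (M.mem_V.2 (M.s_mem_EA prV (Finset.mem_range.2 hu))), gcM.code_one]
  have h3 := ind12 (P := fun a => ∀ hn, mcode (π ⟨ι (s a), hn⟩) = lget lPE 0 (a >>> 6))
    (fun _ => by rw [h2 0 (by norm_num)]; decide +kernel) (fun i hi hn => by
      by_cases k : i < 6
      · rw [h2 _ (Nat.pow_lt_pow_right (n := 6) (by norm_num) k)]; clear hn hi; revert i; decide +kernel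
      · obtain ⟨j, rfl⟩ := Nat.exists_eq_add_of_le (not_lt.1 k)
        have hj : j < 6 := by omega
        exact J.px.code_eq ((J.vc.actE j hj).map ι) (by clear hn hi k; revert j; decide +kernel))
    fun a ha b hb e1 e2 hn => by
      have e3 : π ⟨_, hm a ha⟩ * π ⟨_, hm b hb⟩ = π ⟨_, hn⟩ * π ⟨_, hy (be a b)⟩ := by
        rw [← map_mul, ← map_mul]; exact congrArg π (Subtype.ext (by
          simp only [MulMemClass.mk_mul_mk, ← map_mul, M.s_mul a ha b hb]))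
      rw [hz, mul_one] at e3
      rw [← e3, gcM.code_mul, e1, e2, Nat.shiftRight_xor_distrib]
      refine (show ∀ x < 64, ∀ y < 64, mul (lget lPE 0 x) (lget lPE 0 y) = lget lPE 0 (x ^^^ y) by decide +kernel)
        _ ?_ _ ?_ <;> rw [Nat.shiftRight_eq_div_pow] <;> omega
  rw [← h3 _ (M.cb_lt h) (hm _ (M.cb_lt h))]
  rcases M.eq_s h1 with e | e
  · exact congrArg (fun x => mcode (π x)) (Subtype.ext (congrArg ι e))
  · rw [← mul_one (π ⟨ι (s _), _⟩), ← hz 1, ← map_mul]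
    exact congrArg (fun x => mcode (π x)) (Subtype.ext (by simpa using congrArg ι e))

theorem JD.b18_conj (J : JD M y g T π κ) {h k : H} (h1 : Λ h = 1) (h2 : Λ k = 1) {n : G} (hn : n ∈ N[M.V])
    (e : n * ι h * n⁻¹ = ι k) (hb : b18 (M.cb h >>> 6) = true) : b18 (M.cb k >>> 6) = true := by
  have a : ∀ h, Λ h = 1 → ∀ hn, (fixs (π ⟨ι h, hn⟩)).card = 0 ↔ b18 (M.cb h >>> 6) = true := fun h h1 hn => by
    have := (show ∀ m < 64, b18 m = nall 24 fun i => !Nat.beq (ap (lget lPE 0 m) i) i by decide +kernel) (M.cb h >>> 6)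
      (by have := M.cb_lt h; rw [Nat.shiftRight_eq_div_pow]; omega)
    rw [this, ← J.pi_E h1 hn, Finset.card_eq_zero, fixs_eq_empty, nall_iff]
    refine ⟨fun k i hi => ?_, fun k p e => ?_⟩
    · rw [← idx_pt hi, acM.ap_code _ trivial]
      simp only [Bool.not_eq_true', ← Bool.not_eq_true, Nat.beq_eq]
      exact fun e => k _ (idx_inj e)
    · simpa [acM.ap_code _ (Set.mem_univ p), M24_smul_pt, e] using k _ (idx_lt p)
  have a1 := M.Ex_le_normV (M.mem_Ex.2 h1)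
  have a2 := M.Ex_le_normV (M.mem_Ex.2 h2)
  rw [← a k h2 a2, show (⟨ι k, a2⟩ : N[M.V]) = ⟨n, hn⟩ * ⟨_, a1⟩ * ⟨n, hn⟩⁻¹ from Subtype.ext e.symm, map_mul, map_mul, map_inv,
    card_fixs_conj, a h h1]
  exact hb

theorem SW.pairB (J : JD M y g T π κ) {τ : G} (W : SW M τ) {l m : H} (hl : l ∈ N[zpowers ω]) (el : rc (Λ l) = k32)
    (hm : m ∈ N[zpowers ω]) (em : rc (Λ m) = k40) : (2 < (inv3 (cj[τ * ι l] M.V) (cj[ι m] M.V)).2.1 ∧
      (inv3 (cj[τ * ι l] M.V) (cj[ι m] M.V)).2.1 ≤ 16) ∧ (inv3 (cj[τ * ι l] M.V) (cj[ι m] M.V)).2.2 ≤ 147456 := by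
  have := M.finH
  obtain ⟨D, hD⟩ : ∃ D, D = cj[ι m] M.V ⊓ N[cj[τ * ι l] M.V] := ⟨_, rfl⟩
  have a1 : D ≤ N[cj[τ * ι l] M.V] ⊓ C1[ι z] := hD ▸ le_inf inf_le_right (inf_le_left.trans (M.cjV_le (M.z_mem_cjV m)))
  have a2 : M.Ex ⊓ D ≤ cj[τ] M.Ex := (inf_le_inf_left _ a1).trans (W.d3 hl el)
  have hz : ι z ∈ D := hD ▸ ⟨M.z_mem_cjV m, W.E2_le W.z_mem⟩
  have a3 : Nat.card ↥(M.Ex ⊓ D) = 8 := M.card_Ex_inf hz (U := {0, 42, 3840, 3882}) fun a => by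
    rw [hD, mem_inf, M.mem_cjV hm, gcR.code_inv, em]
    refine ⟨fun h => ?_, fun h => ?_⟩
    · obtain ⟨b1, b2, b3⟩ := (show ∀ a ∈ ({0, 42, 3840, 3882} : Finset ℕ), a < 4096 ∧ lin (rinv k40) a < 64 ∧ a ∈ lXv by
        decide +kernel) a h
      exact ⟨b1, ⟨by simp [M.Λs b1], by rwa [M.cb_s b1]⟩, W.E2_le (W.lX_mem b3)⟩
    · exact (show ∀ a ∈ lXv, lin (rinv k40) a < 64 → a ∈ ({0, 42, 3840, 3882} : Finset ℕ) by decide +kernel) a
        (W.mem_lX h.1 (a2 ⟨M.s_mem_Ex h.1, hD ▸ ⟨(M.mem_cjV hm).2 (by rw [gcR.code_inv, em]; exact h.2.1), h.2.2⟩⟩))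
        (M.cb_s h.1 ▸ h.2.1.2)
  have a4 : Nat.card D ≤ 2 * 8 := by
    rw [← M.card_split (a1.trans inf_le_right), a3]
    refine Nat.mul_le_mul_right _ (card_le_codes
      (l := (lW.map (cjap rmul rinv k40)).filter fun k => Nat.beq (lin k 1) 1) ?_ |>.trans (by decide +kernel))
    rintro _ ⟨h, hh, rfl⟩
    refine List.mem_filter.2 ⟨List.mem_map.2 ⟨_, mem_Wb.1 ((M.mem_cjV hm).1 (hD.le hh).1).1, ?_⟩, ?_⟩
    · rw [← em, gcR.cjap_code]; congr 1; group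
    · rw [(mem_F1.1 (M.mem_F1_of (W.d4 hl el (a1 hh)))).2]; rfl
  refine ⟨by
    simp only [inv3]
    rw [← hD]; exact ⟨lt_of_lt_of_le (by omega) (card_le_of_le (inf_le_right : M.Ex ⊓ D ≤ D)), a4⟩, ?_⟩
  simp only [inv3]
  rw [← ncard_conj_orbit _ (ι z)]
  refine Nat.mul_le_mul (n₂ := 96 * 128) (m₂ := 8 + 4) ((W.bound0 hl el (inf_le_inf_right _ inf_le_left)
    (inf_le_left.trans inf_le_right)).trans_eq
      (by rw [F1, card_stab_hx chF_chk em (n := 96) (t := th40) (by decide +kernel)])) ?_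
  have a5 := ncard_sdiff (inf_le_right : M.Ex ⊓ D ≤ D)
  have a6 : cj[(τ * ι l)⁻¹] (M.Ex ⊓ D) ≤ M.Ex := by
    rw [conj_le_iff, inv_inv, mul_conj, conj_eq_self (M.cent_le_norm_Ex (M.ι_mem l))]; exact a2
  have a7 := M.hex4 (D := (cj[(τ * ι l)⁻¹] (M.Ex ⊓ D)).comap ι) (fun h hh => M.mem_Ex.1 (a6 hh))
    (by rw [M.card_comap (a6.trans M.es_Ex.le_cent1), card_conj, a3]) fun h hh k => by
      have b1 := M.mem_Ex.1 (a6 hh)
      have b2 : (τ * ι l)⁻¹⁻¹ * ι h * (τ * ι l)⁻¹ ∈ M.Ex ⊓ D := mem_conj.1 hh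
      rw [show (τ * ι l)⁻¹⁻¹ * ι h * (τ * ι l)⁻¹ = τ * (ι l * ι h * (ι l)⁻¹) * τ⁻¹ by group] at b2
      rcases W.c2 hl el (conj_mem_conj.2 (M.mem_V.2 (M.mem_VH.2 ⟨b1 ▸ one_mem _, k⟩)))
        (conj_mem_of_mem_norm (M.cent_le_norm_Ex (M.ι_mem l)) (a6 hh))
        (conj_mem_conj.1 (W.cjE.ge b2.1)) with e | e
      · exact M.inj (by simpa using e)
      · rw [e, W.a, hD] at b2
        have := ((M.mem_cjV hm).1 b2.2.1).2
        rw [M.cb_s (by norm_num), gcR.code_inv, em] at this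
        exact absurd this (by decide +kernel)
  refine le_trans (Set.ncard_le_ncard (t := ((D : Set G) \ ↑(M.Ex ⊓ D)) ∪ (fun h => τ * ι l * ι h * (τ * ι l)⁻¹) '' _) ?_)
    ((Set.ncard_union_le _ _).trans (Nat.add_le_add (by omega) ((Set.ncard_image_le (Set.toFinite _)).trans a7)))
  rintro _ ⟨n, hn, rfl⟩
  have b1 : n * ι z * n⁻¹ ∈ D := conj_mem_of_mem_norm
    (hD ▸ le_norm_inf inf_le_right (le_norm_self inf_le_left) hn) hz
  refine or_iff_not_imp_left.2 fun k => ?_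
  have b2 : (τ * ι l)⁻¹ * (n * ι z * n⁻¹) * (τ * ι l)⁻¹⁻¹ ∈ cj[(τ * ι l)⁻¹] (M.Ex ⊓ D) :=
    conj_mem_conj.2 (by_contra fun e => k ⟨b1, e⟩)
  obtain ⟨h, hh, e⟩ := a6 b2
  refine ⟨h, ⟨by rw [mem_comap, e]; exact b2, ?_⟩, by simp only [e]; group⟩
  have b3 : Λ (l⁻¹ * s 1 * l⁻¹⁻¹) = 1 := by simp [M.Λs (a := 1) (by norm_num)]
  refine J.b18_conj b3 hh (n := (τ * ι l)⁻¹ * n * (τ * ι l)) (mem_conj.1 (conj_normalizer _ M.V ▸ hn.1)) ?_ ?_
  · rw [e, ← W.b]; simp only [map_mul, map_inv]; group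
  · rw [M.cb_conj_ker (M.Λs (by norm_num)), M.cb_s (by norm_num), map_inv, gcR.code_inv, el]; decide +kernel

end Cfsg.Agent.J4
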