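import Cfsg.Agent.J4.QF

/-!
# Groups of type `J₄`: conjugates of `V` meeting its normaliser
-/

set_option autoImplicit false
set_option linter.unusedSectionVars false

namespace Cfsg.Agent.J4

open Cfsg.Agent.M24 Cfsg.Agent.TT Cfsg.Agent.GT Subgroup MulAction
open scoped Pointwise

theorem conj_zA {g : M24} {c : ℕ} (e : mcode g = c)
    (h : (Nat.beq (cpow mul one c 2) one && !Nat.beq c one) = true ∧ ∃ i < 24, ap c i = i) : IsConj zA g := by
  obtain ⟨h, i, hi, k⟩ := h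
  rw [← e, ← idx_pt hi, acM.ap_code _ trivial] at k
  obtain ⟨k, e⟩ := class2A (gcM.orderOf_prime e h) fun a => a _ (idx_inj k)
  exact isConj_iff.2 ⟨k, e.symm⟩

theorem conj_zB {g : M24} {c : ℕ} (e : mcode g = c)
    (h : (Nat.beq (cpow mul one c 2) one && !Nat.beq c one) = true ∧ ∀ i < 24, ap c i ≠ i) : IsConj zB g := by
  obtain ⟨k, e⟩ := class2B (gcM.orderOf_prime e h.1) fun p a => h.2 _ (idx_lt p) (by
    rw [← e, acM.ap_code _ trivial, M24_smul_pt, a])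
  exact isConj_iff.2 ⟨k, e.symm⟩

theorem inv_M24 {g : M24} (h2 : g * g = 1) (h1 : g ≠ 1) : IsConj zA g ∨ IsConj zB g := by
  obtain ⟨k, e⟩ := class2 (orderOf_eq_prime (by rw [pow_two, h2]) h1)
  exact e.imp (fun e => isConj_iff.2 ⟨k, e.symm⟩) fun e => isConj_iff.2 ⟨k, e.symm⟩

theorem sum_M24 {Ψ : M24 → ℕ} (h : ∀ g, ¬ g * g = 1 → Ψ g = 0) (hi : ∀ d g, Ψ (d * g * d⁻¹) = Ψ g) :
    sm (fun _ => True) Ψ = Ψ 1 + (11385 * Ψ w0.2 + 31878 * Ψ rC.2) := by
  have a := conj_zA (g := w0.2) (c := rp kw0) (by rw [← rp_rc, rc_w0]) (by decide +kernel)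
  have b := conj_zB (g := rC.2) (c := rp kC) (by rw [← rp_rc, rc_rC]) (by decide +kernel)
  have a1 := cls_mul w0.2
  have b1 := cls_mul rC.2
  rw [card_cent_of_isConj a, cent_zA, card_of_chk cZA_chk (n := 21504) (by decide +kernel), card_M24] at a1
  rw [card_cent_of_isConj b, cent_zB, card_of_chk cZB_chk (n := 7680) (by decide +kernel), card_M24] at b1
  have n : ∀ {r g : M24}, IsConj r g → orderOf r = 2 → ¬ g = 1 := fun e o k => by
    have := orderOf_isConj e; rw [k, o, orderOf_one] at this; omega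
  rw [sm_split _ (· = 1), sm_split (fun g => True ∧ ¬ g = 1) (IsConj w0.2), sm_restrict (Q := IsConj rC.2)
    (P := fun g => (True ∧ ¬ g = 1) ∧ ¬ IsConj w0.2 g) fun g k1 k2 => h g fun e =>
      (inv_M24 e k1.1.2).elim (fun c => k1.2 (a.symm.trans c)) fun c => k2 (b.symm.trans c),
    sm_congr (Q := (· = 1)) (φ := Ψ) (fun _ => and_iff_right trivial) fun _ _ => rfl, sm_single,
    sm_congr (Q := IsConj w0.2) (φ := Ψ) (fun g => and_iff_right_of_imp fun k => ⟨trivial, n (a.trans k) orderOf_zA⟩)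
      fun _ _ => rfl,
    sm_congr (Q := IsConj rC.2) (φ := Ψ) (fun g => and_iff_right_of_imp fun k => ⟨⟨trivial, n (b.trans k) orderOf_zB⟩,
      fun c => by
        obtain ⟨d, e⟩ := isConj_iff.1 ((a.trans c).trans (b.trans k).symm)
        have := card_fixs_conj d zA
        rw [e, card_fixs_zA, card_fixs_zB] at this; omega⟩) fun _ _ => rfl, sm_class _ hi, sm_class _ hi,
    Nat.eq_of_mul_eq_mul_right (by norm_num) (a1.trans (show _ = 11385 * 21504 by norm_num)),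
    Nat.eq_of_mul_eq_mul_right (by norm_num) (b1.trans (show _ = 31878 * 7680 by norm_num)), mul_comm, mul_comm (Ψ rC.2)]

namespace MC

variable {G : Type*} [Group G] [Finite G] {z : G} {V : Subgroup G} {T : ℕ → G} {π : N[V] →* M24} {κ : M24 →* N[V]}
  (M : MC z V T π κ)
include M

theorem cnt {i : G} (hi : i * i = 1) : {u | u ∈ N[V] ∧ IsConj i u}.ncard =
    ∑ k ∈ Finset.range 2048, ind1 (IsConj i (M.el k 1)) * 1 +
      (11385 * ∑ k ∈ Finset.range 2048, ind1 (IsConj i (M.el k w0.2)) * 1 +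
        31878 * ∑ k ∈ Finset.range 2048, ind1 (IsConj i (M.el k rC.2)) * 1) := by
  rw [← sm_one, sm_inj _ (N[V]).subtype Subtype.val_injective fun u h => ⟨⟨u, h.1⟩, rfl⟩,
    sm_congr (P := fun u => N[V].subtype u ∈ N[V] ∧ IsConj i (N[V].subtype u)) (Q := fun u : N[V] => IsConj i u)
      (φ := fun _ => 1) (fun u => and_iff_right u.2) fun _ _ => rfl,
    sm_fib (Q := fun _ => True) _ π fun _ _ => trivial,
    sum_M24 (Ψ := fun g => sm (fun u : N[V] => IsConj i u ∧ π u = g) fun _ => 1)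
      (fun g h => sm_zero fun u hu => absurd (hu.2 ▸ M.π_sq hi hu.1) h) fun d g => by
      rw [sm_conj _ _ (κ d)]
      exact sm_congr (fun v => and_congr (isConj_conj _) (by simp [M.ms.sec])) fun _ _ => rfl,
    M.fib, M.fib, M.fib]

variable (hG : ∀ g : M24, g * g = 1 → g ≠ 1 → M.Good g)
include hG

theorem cnt_z : {u | u ∈ N[V] ∧ IsConj z u}.ncard = 1204027 := by
  rw [M.cnt M.z_sq, M.ZS_one, (M.repA hG _).1, (M.repC hG _).1]; decide +kernel

theorem cnt_t : {u | u ∈ N[V] ∧ IsConj (T 1458) u}.ncard = 2295492 := by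
  have a := (M.repA hG fun _ => 1).2
  have b := (M.repC hG fun _ => 1).2
  rw [show ssum (fun _ => 1) [203, 301, 913, 1058] 0 = 16 by decide +kernel,
    show ssum (fun _ => 1) ([68, 33, 19] ++ [203, 301, 913, 1058]) 0 = 112 + 16 by decide +kernel, add_left_inj] at a
  rw [show ssum (fun _ => 1) [170, 87, 365, 1008, 1183] 0 = 32 by decide +kernel,
    show ssum (fun _ => 1) ([23] ++ [170, 87, 365, 1008, 1183]) 0 = 32 + 32 by decide +kernel, add_left_inj] at b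
  rw [M.cnt (M.px.co.sq _), M.TS_one, a, b]; decide +kernel

theorem conj_N {u e : N[V]} (hu : IsConj z u) (he : IsConj z e) (h1 : π u ≠ 1) (h : IsConj (π u) (π e)) :
    ∃ n : N[V], n * u * n⁻¹ = e := by
  obtain ⟨d, hd⟩ := isConj_iff.1 h
  have a : π (κ d * u * (κ d)⁻¹) = π e := by rw [← hd]; simp [M.ms.sec]
  have b : π e ≠ 1 := fun k => h1 (by simpa [k] using h)
  have c := (M.zc_el hG (M.π_sq M.z_sq he) b (M.co_lt (κ d * u * (κ d)⁻¹))).1 (by
    rw [← a, M.el_co]; exact (isConj_conj _).2 hu)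
  obtain ⟨y, hy, k⟩ := c.xor ((M.zc_el hG (M.π_sq M.z_sq he) b (M.co_lt e)).1 (by rwa [M.el_co]))
  refine ⟨M.tn y * κ d, ?_⟩
  have := M.el_conj_tn hy (M.co (κ d * u * (κ d)⁻¹)) (π e)
  rw [← k, ← Nat.xor_assoc, Nat.xor_self, Nat.zero_xor, M.el_co, ← a, M.el_co] at this
  rw [← this]; group

end MC

theorem ncard_pq_le {G : Type*} [Group G] [Finite G] {V : Subgroup G} (r : Subgroup G → Prop) (g : G) :
    {q | r (cj[g] (pq V q))}.ncard ≤ {q | r (pq V q)}.ncard :=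
  Set.ncard_le_ncard_of_injOn (g • ·) (fun q h => by rwa [Set.mem_ofPred_eq, pq_smul]) fun _ _ _ _ =>
    (smul_left_cancel_iff g).1

variable {G H : Type*} [Group G] [Group H] [Finite G] {ι : H →* G} {z ω : H} {s : ℕ → H} {Λ : H →* R}
  {M : GM ι z ω s Λ} {y g : H} {T : ℕ → H} {π : N[M.V] →* M24} {κ : M24 →* N[M.V]}

namespace JD

variable (J : JD M y g T π κ)
include J

theorem conj_Ex {u : G} (hu : u ∈ N[M.V]) (h1 : u ∉ M.V) (hz : IsConj (ι z) u) : ∃ n ∈ N[M.V], n * u * n⁻¹ ∈ M.Ex := by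
  obtain ⟨κ', M', hG⟩ := J.exists_good
  have a : π ⟨u, hu⟩ ≠ 1 := fun e => h1 ((J.ms.ker _).1 e)
  have k : ∀ a < 4096, tyE a = 2 → ∀ r, (∀ g, mcode g = lget lPE 0 (a >>> 6) → IsConj r g) → IsConj r (π ⟨u, hu⟩) →
      ∃ n ∈ N[M.V], n * u * n⁻¹ ∈ M.Ex := fun b hb e r c d => by
    obtain ⟨n, hn⟩ := M'.conj_N hG (u := ⟨u, hu⟩) (e := ⟨_, M.Ex_le_normV (M.s_mem_Ex hb)⟩) hz
      ((J.cls_E (M.Λs hb)).1 (by rwa [M.cb_s hb])) a (d.symm.trans (c _ (by rw [J.pi_E (M.Λs hb), M.cb_s hb])))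
    exact ⟨n, n.2, (show (n : G) * u * (n : G)⁻¹ = ι (s b) from congrArg Subtype.val hn) ▸ M.s_mem_Ex hb⟩
  rcases inv_M24 (M'.π_sq M'.z_sq (n := ⟨u, hu⟩) hz) a with e | e
  · exact k 64 (by norm_num) (by decide +kernel) _ (fun g e => conj_zA e (by decide +kernel)) e
  · exact k 1056 (by norm_num) (by decide +kernel) _ (fun g e => conj_zB e (by decide +kernel)) e

theorem pts77 {x : G} (hx : IsConj (ι z) x) : {q | x ∈ pq M.V q}.ncard ≤ 77 := by
  obtain ⟨c, rfl⟩ := isConj_iff.1 hx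
  have h1 := card_orb C1[ι z] ((1 : G) : G ⧸ N[M.V])
  rw [pq_mk, one_conj, inf_comm, M.card_norm_V_inf, J.card_cz] at h1
  refine le_trans (le_of_eq ?_) ((ncard_pq_le (V := M.V) (ι z ∈ ·) c⁻¹).trans
    ((Set.ncard_le_ncard (t := orbit C1[ι z] ((1 : G) : G ⧸ N[M.V])) fun q hq => ?_).trans (by omega)))
  · simp only [mem_conj, inv_inv]
  · obtain ⟨l, e⟩ := M.pt_z hq
    have e2 : ι l • ((1 : G) : G ⧸ N[M.V]) = q := pq_inj (by rw [pq_smul, pq_mk, one_conj]; exact e.symm)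
    exact ⟨⟨_, M.ι_mem l⟩, e2⟩

theorem pts72 : {q | ι (s 1) ∈ pq M.V q ∧ ι z ∉ pq M.V q}.ncard ≤ 72 := by
  choose l hl el using fun i : Fin 5 => M.lift _ (pow_mem r5_mem i)
  have h1 := Set.ncard_inter_add_ncard_sdiff_eq_ncard {q | ι (s 1) ∈ pq M.V q} {q | ι z ∈ pq M.V q}
  have h2 := J.pts77 (x := ι (s 1)) ((J.cls_E (M.Λs (by norm_num))).1 (by rw [M.cb_s (by norm_num)]; decide +kernel))
  have h3 := Set.ncard_le_ncard_of_injOn (s := Set.univ) (t := {q | ι (s 1) ∈ pq M.V q} ∩ {q | ι z ∈ pq M.V q})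
    (fun i => (ι (l i) : G ⧸ N[M.V])) (fun i _ => by
      simp only [Set.mem_inter_iff, Set.mem_ofPred_eq, pq_mk]
      exact ⟨(M.mem_cjV (hl i)).2 ⟨by rw [M.Λs (by norm_num)]; simp, by
        rw [M.cb_s (by norm_num), el, gcR.code_inv, ← gcR.cpow_code, rc_r5]; revert i; decide +kernel⟩, M.z_mem_cjV _⟩)
    fun i _ j _ e => by
      have := QuotientGroup.eq.1 e
      rw [← map_inv, ← map_mul, M.mem_norm_V, mem_NV, ← smulS_def, map_mul, map_inv, mul_smul, inv_smul_eq_iff, el, el] at this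
      have h := congrArg mask this.2
      rw [← lHx_eq _ i.2, ← lHx_eq _ j.2] at h
      revert h; clear this e; revert i j; decide +kernel
  rw [Set.ncard_univ, Nat.card_eq_fintype_card, Fintype.card_fin] at h3
  exact le_trans (le_of_eq rfl) (by omega : ({q | ι (s 1) ∈ pq M.V q} \ {q | ι z ∈ pq M.V q}).ncard ≤ 72)

theorem pts1 {x : G} (hx : IsConj (ι (T 1458)) x) : {q | x ∈ pq M.V q}.ncard ≤ 1 := by
  obtain ⟨c, rfl⟩ := isConj_iff.1 hx
  refine le_trans (le_of_eq ?_) ((ncard_pq_le (V := M.V) (ι (T 1458) ∈ ·) c⁻¹).trans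
    ((Set.ncard_le_one_iff (Set.toFinite _)).2 fun {a b} ha hb => pq_inj ?_))
  · simp only [mem_conj, inv_inv]
  · have k : ∀ q, ι (T 1458) ∈ pq M.V q → pq M.V q = M.V := fun q h => M.eq_V_of_norm (sq_conj M.V_sq _)
      (by rw [pq, card_conj, M.card_V]) ((M.cjV_le h).trans (by simpa using J.mc.cent_t))
    rw [k a ha, k b hb]

theorem card_X : {q | pq M.V q ⊓ N[M.V] ≠ ⊥}.ncard ≤ 89143132 := by
  obtain ⟨κ', M', hG⟩ := J.exists_good
  have h1 := ncard_le_fib (A := {u | u ∈ N[M.V] ∧ IsConj (ι (T 1458)) u}) (r := fun u q => u ∈ pq M.V q)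
    fun u hu => J.pts1 hu.2
  have h2 := ncard_le_fib (A := {u | u ∈ M.V ∧ IsConj (ι z) u}) (r := fun u q => u ∈ pq M.V q) fun u hu => J.pts77 hu.2
  have h3 := ncard_le_fib (A := {u | u ∈ N[M.V] ∧ IsConj (ι z) u}) (c := 72)
    (r := fun u q => u ∉ M.V ∧ u ∈ pq M.V q ∧ ∀ v ∈ M.V, IsConj (ι z) v → v ∉ pq M.V q) fun u hu => by
      by_cases k : u ∈ M.V
      · simp [k]
      obtain ⟨n, hn, e⟩ := J.conj_Ex hu.1 k hu.2
      obtain ⟨l, e'⟩ := J.E_conj e ((isConj_conj _).2 hu.2) fun e' => k (by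
        simpa [← e', mul_assoc] using conj_mem_of_mem_norm (inv_mem hn) M.z_mem_V)
      refine le_trans (Set.ncard_le_ncard fun q hq => ?_)
        ((ncard_pq_le (fun W => ι (s 1) ∈ W ∧ ι z ∉ W) ((ι l)⁻¹ * n)).trans J.pts72)
      simp only [Set.mem_ofPred_eq, mem_conj]
      refine ⟨by convert hq.2.1 using 1; rw [← mul_left_inj n⁻¹, ← mul_right_inj n, ← mul_assoc n u, ← e']; group, ?_⟩
      rw [show ((ι l)⁻¹ * n)⁻¹ * ι z * ((ι l)⁻¹ * n) = n⁻¹ * (ι l * ι z * (ι l)⁻¹) * n⁻¹⁻¹ by group,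
        mem_cent1.1 (M.ι_mem l), mul_inv_cancel_right]
      exact hq.2.2 _ (conj_mem_of_mem_norm (inv_mem hn) M.z_mem_V) ((isConj_conj _).2 (IsConj.refl _))
  rw [M'.cnt_t hG] at h1
  rw [M'.cnt_z hG] at h3
  have h4 : {u | u ∈ M.V ∧ IsConj (ι z) u}.ncard ≤ 2 ^ 11 :=
    M.card_V ▸ Set.ncard_le_ncard (t := (M.V : Set G)) fun _ h => h.1
  refine le_trans (Set.ncard_le_ncard fun q hq => ?_) (((Set.ncard_union_le _ _).trans (Nat.add_le_add h1
    ((Set.ncard_union_le _ _).trans (Nat.add_le_add h2 h3)))).trans (by omega))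
  obtain ⟨u, hu, u1⟩ := exists_ne_one_of_ne_bot hq
  rcases J.hcl u (orderOf_eq_prime (by rw [pow_two, sq_conj M.V_sq _ u hu.1]) u1) with e | e
  · refine Or.inr (or_iff_not_imp_left.2 fun k => ⟨u, ⟨hu.2, e⟩, fun a => k ⟨u, ⟨a, e⟩, hu.1⟩, hu.1,
      fun v a b c => k ⟨v, ⟨a, b⟩, c⟩⟩)
  · exact Or.inl ⟨u, ⟨hu.2, e⟩, hu.1⟩

end JD

end Cfsg.Agent.J4
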