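import Cfsg.Agent.Cl.SimpleUniq
import Cfsg.Agent.Cl.ProjLine
import Cfsg.Agent.J4.EF
import Cfsg.Agent.J4.QH

/-! Recognition of `PGL₂(23)` by its order and a self-centralising element of order 23. -/

set_option autoImplicit false

namespace Cfsg.Agent.J4

open MulAction Subgroup Equiv Cfsg.Agent.Cl

theorem exists_zset_faith {G : Type*} [Group G] [Finite G] {p m : ℕ} [hp : Fact p.Prime]
    (hn : Nat.card G = p ^ 1 * ((p + 1) * m)) (hm : ¬ p ∣ (p + 1) * m)
    (hS : Nat.card (Sylow p G) = p + 1) (a0 : ZMod p)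
    (hU : ∀ u : ZMod p, u ^ m = 1 ↔ ∃ k < m, u = a0 ^ k) (hm1 : 1 < m)
    (hC : ∀ P : Sylow p G, centralizer (P : Set G) ≤ P) :
    Nonempty (ZSet G (Sylow p G) fun t : ZMod p => a0 * t) := by
  have : Nontrivial (Sylow p G) := Finite.one_lt_card_iff_nontrivial.1 (by
    have := hp.out.pos; omega)
  obtain ⟨P, Q, hPQ⟩ := exists_pair_ne (Sylow p G)
  obtain ⟨g0, rfl⟩ := exists_smul_eq G P Q
  have hg0 := hPQ.symm
  set Q := g0 • P
  have hP : Nat.card (P : Subgroup G) = p := (card_sylow_of_card_eq P hn hm).trans (pow_one p)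
  obtain ⟨⟨g, hgP⟩, hg⟩ := exists_prime_orderOf_dvd_card' (G := (P : Subgroup G)) p hP.symm.dvd
  rw [orderOf_mk] at hg
  have hzp : zpowers g = P := eq_of_le_of_card_ge (zpowers_le.2 hgP) (by
    rw [Nat.card_zpowers, hg, hP])
  have hgp : g ^ p = 1 := hg ▸ pow_orderOf_eq_one g
  let x : ZMod p → G := fun t => g ^ t.val
  have hadd : ∀ a b, x (a + b) = x a * x b := pow_val_add hgp
  have hinj : Function.Injective x := injective_of_add_mul hadd fun t ht => by
    have := orderOf_dvd_of_pow_eq_one ht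
    rw [hg] at this
    exact (ZMod.val_eq_zero t).1 (Nat.eq_zero_of_dvd_of_lt this t.val_lt)
  have hxP : ∀ t, x t ∈ P := fun t => pow_mem hgP _
  have hTI := sylow_inf_eq_bot_of_prime hP hg0
  have hreg := existsUnique_smul_sylow hg0 hTI hinj hxP (by rw [hS, Nat.card_zmod])
  have hfaith : ∀ g : G, (∀ y : Sylow p G, g • y = y) → g = 1 := fun c hc => by
    refine eq_one_of_smul_sylow_eq hTI (hC P fun u hu => ?_) (hc Q)
    have h1 := eq_one_of_smul_sylow_eq hTI (mul_mem (inv_mem hu) (conj_mem_sylow (hc P) hu))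
      (by rw [mul_smul, mul_smul, mul_smul, inv_smul_eq_iff.2 (hc Q).symm, hc, inv_smul_smul])
    rw [inv_mul_eq_one, eq_mul_inv_iff_mul_eq] at h1
    exact h1
  set D := stabilizer G P ⊓ stabilizer G Q
  have hD : Nat.card D = m := by
    have h1 := card_stabilizer_inf (G := G) hg0 fun y hy => by
      obtain ⟨t, ht, -⟩ := hreg y hy
      exact ⟨x t, smul_sylow_self (hxP t), ht⟩
    have h2 := (stabilizer G P).index_mul_card
    rw [index_stabilizer_of_transitive, hS, ← h1, hS, hn, pow_one, Nat.add_sub_cancel] at h2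
    refine Nat.eq_of_mul_eq_mul_left (Nat.mul_pos (Nat.add_one_pos p) hp.out.pos) ?_
    rw [mul_assoc, h2]; ring
  have hex : ∀ d : D, ∃ a : ZMod p, ∀ t, d * x t * (d : G)⁻¹ = x (a * t) := fun d => by
    have h1 : d * g * (d : G)⁻¹ ∈ zpowers g := hzp ▸ conj_mem_sylow d.2.1 hgP
    obtain ⟨k, hk⟩ := (mem_powers_iff_mem_zpowers.2 h1)
    refine ⟨k, fun t => ?_⟩
    simp only [x]
    rw [pow_val_natCast_mul hgp, ← conj_pow, ← hk]
  choose a ha using hex
  have hmul : ∀ d e : D, a (d * e) = a d * a e := fun d e => by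
    apply hinj
    have h1 := ha (d * e) 1
    rw [mul_one] at h1
    rw [← h1, ← ha, ← mul_one (a e), ← ha]
    simp only [coe_mul, mul_inv_rev, mul_assoc]
  have hone : a 1 = 1 := hinj (by simpa using (ha 1 1).symm)
  let α : D →* ZMod p := ⟨⟨a, hone⟩, hmul⟩
  have hα : Function.Injective α := by
    rw [injective_iff_map_eq_one]
    intro d hd
    refine Subtype.ext (hfaith _ fun y => ?_)
    by_cases hy : y = P
    · rw [hy]; exact d.2.1
    obtain ⟨t, rfl, -⟩ := hreg y hy
    have h1 := ha d t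
    rw [show a d = 1 from hd, one_mul, mul_inv_eq_iff_eq_mul] at h1
    rw [← mul_smul, h1, mul_smul, mem_stabilizer_iff.1 d.2.2]
  have hαm : ∀ d, α d ^ m = 1 := fun d => by rw [← map_pow, ← hD, pow_card_eq_one', map_one]
  have hsurj : ∃ d, α d = a0 := by
    let f : D → {u : ZMod p | u ^ m = 1} := fun d => ⟨α d, hαm d⟩
    have hf : Function.Injective f := fun d e h => hα (congrArg Subtype.val h)
    have hle : Nat.card {u : ZMod p | u ^ m = 1} ≤ m := by
      have := Nat.card_le_card_of_surjective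
        (fun k : Fin m => (⟨a0 ^ k.1, (hU _).2 ⟨k.1, k.2, rfl⟩⟩ : {u : ZMod p | u ^ m = 1}))
        fun ⟨u, hu⟩ => by
          obtain ⟨k, hk, rfl⟩ := (hU u).1 hu
          exact ⟨⟨k, hk⟩, rfl⟩
      rwa [Nat.card_eq_fintype_card (α := Fin m), Fintype.card_fin] at this
    have hb : Function.Bijective f := (Nat.bijective_iff_injective_and_card f).2
      ⟨hf, le_antisymm (Nat.card_le_card_of_injective f hf) (hD ▸ hle)⟩
    obtain ⟨d, hd⟩ := hb.2 ⟨a0, (hU _).2 ⟨1, hm1, (pow_one _).symm⟩⟩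
    exact ⟨d, congrArg Subtype.val hd⟩
  obtain ⟨d, hd⟩ := hsurj
  refine ⟨⟨P, Q, x, d, hadd, fun t => smul_sylow_self (hxP t), hg0, hreg, d.2.1, d.2.2,
    fun t => hd ▸ ha d t, fun e h1 h2 => ?_, ⟨g0, hg0⟩, hfaith⟩⟩
  obtain ⟨k, -, hk⟩ := (hU _).1 (hαm ⟨e, h1, h2⟩)
  rw [← hd, ← map_pow] at hk
  exact ⟨k, congrArg Subtype.val (hα hk)⟩

/-- The model for `PGL₂(23)`. -/
def zm23 : ZModel (ZMod 23) where
  μ t := 5 * t
  m := 22
  e1 := 1
  e2 := 1
  lg t := ([0, 0, 2, 16, 4, 1, 18, 19, 6, 10, 3, 9, 20, 14, 21, 17, 8, 7, 12, 15, 5, 13, 11].getD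
    t.val 0, true)
  j0 := 21
  u0 := 1
  v0 := 0

theorem zm23_aux : ∀ j < zm23.m, ∀ u, zm23.Aff (zm23.W j u 0) zm23.e1 → zm23.Good j u 0 := by
  decide +kernel

theorem zm23_chk : zm23.Chk (fun _ => true) := by
  refine ⟨by decide +kernel, fun j hj _ u v h _ => ?_⟩
  have e : zm23.W j u v = zm23.W j u 0 := by
    funext y
    cases y <;> rfl
  rw [e] at h
  obtain ⟨k, hk, h'⟩ := zm23_aux j hj u h
  exact ⟨k, hk, fun y => e ▸ h' y⟩

instance j4FactPrime23 : Fact (Nat.Prime 23) := ⟨by norm_num⟩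

theorem rec23 {K : Type*} [Group K] [Finite K] (h : Nat.card K = 12144) {x : K}
    (ox : orderOf x = 23) (hc : centralizer {x} ≤ zpowers x) :
    Nonempty (K ≃* closure zm23.gens) := by
  have hn : Nat.card K = 23 ^ 1 * ((23 + 1) * 22) := h
  have hx : Nat.card (zpowers x) = 23 := by rw [Nat.card_zpowers, ox]
  have hi := (zpowers x).card_mul_index
  rw [hx, h] at hi
  let P : Sylow 23 K := (IsPGroup.of_card (n := 1) hx).toSylow (by omega)
  have hP : centralizer (P : Set K) ≤ P :=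
    (centralizer_le (Set.singleton_subset_iff.2 (mem_zpowers x))).trans hc
  have hC : ∀ Q : Sylow 23 K, centralizer (Q : Set K) ≤ Q := fun Q c hc => by
    obtain ⟨g, rfl⟩ := exists_smul_eq K P Q
    have : g⁻¹ * c * g ∈ P := hP fun u hu => by
      have := hc (g * u * g⁻¹) (smul_mem_pointwise_smul u (MulAut.conj g) P.1 hu)
      calc _ = g⁻¹ * (g * u * g⁻¹ * c) * g := by group
        _ = _ := by rw [this]; group
    simpa [mul_assoc, Sylow.coe_subgroup_smul] using smul_mem_pointwise_smul _ (MulAut.conj g) P.1 this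
  have hS : Nat.card (Sylow 23 K) = 24 := by
    have h1 : Nat.card (Sylow 23 K) ∣ 528 := by
      have := P.card_dvd_index
      rwa [show (P : Subgroup K).index = 528 by change (zpowers x).index = _; omega] at this
    have h2 : Nat.card (Sylow 23 K) % 23 = 1 := card_sylow_modEq_one 23 K
    have h3 : Nat.card (Sylow 23 K) ≠ 1 := fun e => by
      rw [P.card_eq_index_normalizer, index_eq_one] at e
      obtain ⟨n, h4, h5, -⟩ := exists_aut (p := 23) (by norm_num) ox
      have h6 := card_le_of_le hc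
      have h7 := Nat.mul_le_mul h6 (Nat.le_of_dvd (by norm_num) h4)
      rw [← h5, hx, show normalizer (zpowers x : Set K) = ⊤ from e, card_top, h] at h7
      omega
    have := Nat.le_of_dvd (by norm_num) h1
    generalize Nat.card (Sylow 23 K) = k at *
    obtain ⟨c, rfl⟩ : ∃ c, k = 23 * c + 1 := ⟨k / 23, by omega⟩
    have : c < 23 := by omega
    interval_cases c <;> simp_all
  obtain ⟨Z⟩ := exists_zset_faith hn (by norm_num) hS 5 (by decide) (by norm_num) hC
  exact ZSet.nonempty_equiv zm23 Z _ zm23_chk fun _ _ _ _ _ _ => rfl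

theorem pgl23 : Nonempty ((GL (Fin 2) (ZMod 23) ⧸ center (GL (Fin 2) (ZMod 23))) ≃*
    closure zm23.gens) := by
  let U : ZMod 23 → GL (Fin 2) (ZMod 23) := fun t => gl2mk 1 t 0 1 (by simp)
  have hU : ∀ n : ℕ, U 1 ^ n = U n := fun n => by
    induction n with
    | zero => apply gl2_ext <;> simp [U]
    | succ n ih => rw [pow_succ, ih]; apply gl2_ext <;> simp [U, gl2_mul, add_comm]
  refine rec23 ?_ (x := (U 1 : _ ⧸ center _)) (orderOf_eq_prime ?_ ?_) fun A hA => ?_
  · have h := card_units_mul_card_pgl (R := ZMod 23) (ι := Fin 2)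
    rw [card_gl_two, card_units_field, ZMod.card] at h
    exact Nat.eq_of_mul_eq_mul_left (by norm_num) (h.trans (by norm_num))
  · rw [← QuotientGroup.mk_pow, hU, QuotientGroup.eq_one_iff,
      show U ((23 : ℕ) : ZMod 23) = 1 from (hU 0).symm]
    exact one_mem _
  · rw [Ne, QuotientGroup.eq_one_iff, Matrix.GeneralLinearGroup.mem_center_iff_val_mem_range_scalar]
    rintro ⟨a, ha⟩
    have := congrFun (congrFun ha 0) 1
    simp [U] at this
  · obtain ⟨A, rfl⟩ := QuotientGroup.mk_surjective A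
    have h := hA _ rfl
    rw [← QuotientGroup.mk_mul, ← QuotientGroup.mk_mul, QuotientGroup.eq,
      Matrix.GeneralLinearGroup.mem_center_iff_val_mem_range_scalar] at h
    obtain ⟨c, hc⟩ := h
    have e : ∀ i j, (A * U 1).1 i j = (U 1 * A).1 i j * c := fun i j => by
      rw [← mul_inv_cancel_left (U 1 * A) (A * U 1), Units.val_mul, ← hc]
      simp
    have d := A.det_ne_zero
    rw [Matrix.det_fin_two] at d
    have e00 := e 0 0
    have e01 := e 0 1
    have e10 := e 1 0
    have e11 := e 1 1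
    simp only [gl2_mul, U, gl2mk00, gl2mk01, gl2mk10, gl2mk11] at e00 e01 e10 e11
    have h10 : A.1 1 0 = 0 := by_contra fun n => n (by
      have : c = 1 := mul_left_cancel₀ n (by linear_combination -e10)
      rw [this] at e11
      linear_combination e11)
    have h00 : A.1 0 0 ≠ 0 := fun n => d (by rw [n, h10]; ring)
    have : c = 1 := mul_left_cancel₀ h00 (by rw [h10] at e00; linear_combination -e00)
    rw [this] at e01
    have h11 : A.1 1 1 = A.1 0 0 := by linear_combination -e01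
    refine ⟨(A.1 0 1 / A.1 0 0).val, ?_⟩
    simp only [zpow_natCast]
    rw [← QuotientGroup.mk_pow, hU, ZMod.natCast_zmod_val, QuotientGroup.eq, mem_center_iff]
    intro B
    have hA : A = U (A.1 0 1 / A.1 0 0) * gl2mk (A.1 0 0) 0 0 (A.1 0 0) (by simpa using h00) := by
      apply gl2_ext <;> simp [U, gl2_mul, h10, h11, h00]
    rw [inv_mul_eq_iff_eq_mul.2 hA]
    apply gl2_ext <;> simp [gl2_mul, mul_comm]

end Cfsg.Agent.J4
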