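import Cfsg.Agent.J4.Rep1

/-!
# Uniqueness of the twelve-dimensional module, II: the remaining generators
-/

set_option autoImplicit false

namespace Cfsg.Agent.J4

open Cfsg.Agent.M24

/-- The matrix part of a code. -/
def lo (c : ℕ) : ℕ := Nat.land c (nat_lit 0xffffffffffffffffffffffffffffffffffff)

theorem fld_lo (c : ℕ) {j : ℕ} (hj : j < 12) : fld (lo c) j = fld c j := by
  apply Nat.eq_of_testBit_eq; intro t
  change (fld (c &&& (2 ^ 144 - 1)) j).testBit t = _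
  rw [testBit_fld, testBit_fld, Nat.testBit_and, Nat.testBit_two_pow_sub_one]
  by_cases h : t < 12
  · simp [show 12 * j + t < 144 by omega]
  · simp [h]

theorem lin_lo (c a : ℕ) : lin (lo c) a = lin c a := lin_congr (fun _ hj => fld_lo c hj) a

/-- A matrix from the list of its columns. -/
noncomputable def mkl (l : List ℕ) : ℕ := mk12 fun i => lget l (nat_lit 0) i

theorem eq_mm_mkl {U B Bi : ℕ} (hU : U < 2 ^ 144) (h : mm B Bi = idm) {l : List ℕ}
    (hl : ∀ i < 12, lget l 0 i = lin U (fld B i)) : U = mm (mkl l) Bi := by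
  have : mkl l = mm U B := mat_ext (mk12_lt fun i hi => by rw [hl i hi]; exact lin_lt _ _) (mm_lt _ _)
    fun i hi => by rw [mkl, fld_mk12 (fun i hi => by rw [hl i hi]; exact lin_lt _ _) hi, fld_mm _ _ hi]; exact hl i hi
  rw [this, mm_assoc, h]
  exact mat_ext' hU (mm_lt _ _) fun a ha => by rw [lin_mm, lin_idm ha]

def mY2p : ℕ := nat_lit 0x80040032d14f1952fd2a63ca2d321e12a001
def mW2p : ℕ := nat_lit 0x400c0032a19529e14f2f332d3c21e12a4152
def mX4p : ℕ := nat_lit 0x8004001e52a61532fd32a19529e14f2f332d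
def mPA : ℕ := nat_lit 0xc0080021831408f10c1ae12105f39a338153
def mPB : ℕ := nat_lit 0x400c0013525b11a3f13082eb28c184212152
def mBm : ℕ := nat_lit 0xd63b930902f2470720fc02c800400153001
def mBi : ℕ := nat_lit 0x8004b735b14933c25f2761cc3921111001
def lFY : List ℕ := [nat_lit 0, nat_lit 1, nat_lit 338, nat_lit 339, nat_lit 1024, nat_lit 1025, nat_lit 1362, nat_lit 1363, nat_lit 2048, nat_lit 2049, nat_lit 2386, nat_lit 2387, nat_lit 3072, nat_lit 3073, nat_lit 3410, nat_lit 3411]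
def lKA : List ℕ := [nat_lit 0, nat_lit 47, nat_lit 73, nat_lit 102, nat_lit 159, nat_lit 176, nat_lit 214, nat_lit 249, nat_lit 777, nat_lit 806, nat_lit 832, nat_lit 879, nat_lit 918, nat_lit 953, nat_lit 991, nat_lit 1008]
def lKB : List ℕ := [nat_lit 0, nat_lit 44, nat_lit 94, nat_lit 114, nat_lit 142, nat_lit 162, nat_lit 208, nat_lit 252, nat_lit 537, nat_lit 565, nat_lit 583, nat_lit 619, nat_lit 663, nat_lit 699, nat_lit 713, nat_lit 741]
def lUp : List ℕ := [nat_lit 0x153001f4554dc88ad89b4510e7a77e685400, nat_lit 0x115274594d488ed8db491067ab7ea85800, nat_lit 0x152153b45d4d8886d85b4d10a7af7ee85c00]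
def lT : List ℕ := [nat_lit 0xc01553eba7b6072247b9751b39604930902f, nat_lit 0x4019536babb6072247f9791b39604930902f, nat_lit 0x801d53abafb6072247797d1b39604930902f]
def lTi : List ℕ := [nat_lit 0x43c828d7119c7f5ceb920ede8fbe5bb95414, nat_lit 0x828c14d7119c7f5ceb920ede8fbe5bb95414, nat_lit 0xc1443cd7119c7f5ceb920ede8fbe5bb95414]
/-- Candidate matrix. -/
noncomputable def candU (b1 b2 c1 c2 : ℕ) : ℕ :=
  force (mkl [b1, lin mWp b1, b2, lin mWp b2, c1, lin mWp c1, lin mY2p c1, lin mWp (lin mY2p c1),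
    c2, lin mWp c2, lin mY2p c2, lin mWp (lin mY2p c2)]) fun m => mm m mBi
/-- Test of a candidate matrix. -/
noncomputable def okU (U : ℕ) : Bool :=
  bif' (Nat.beq (force (mm U U) fun V => mm V V) idm)
    (force (force (mm mX4p U) fun V => cpow mm idm V 5) fun V =>
      bif' (bor (Nat.beq V idm) (bor (Nat.beq V mWp) (Nat.beq V mW2p))) (lany lUp (Nat.beq U)) true) true

theorem listsU : ball (fun a => band (bif' (Nat.beq (lin mY2p a) a) (lany lFY (Nat.beq a)) true)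
    (band (bif' (Nat.beq (lin mPA a) 0) (lany lKA (Nat.beq a)) true)
      (bif' (Nat.beq (lin mPB a) 0) (lany lKB (Nat.beq a)) true))) 12 0 = true := by decide +kernel

theorem chkU : lall lFY (fun b1 => lall lFY fun b2 => lall lKA fun c1 => lall lKB fun c2 =>
    force (candU b1 b2 c1 c2) okU) = true := by decide +kernel

theorem matB : mm mYp mYp = mY2p ∧ mm mWp mWp = mW2p ∧ cpow mm idm mXp 4 = mX4p ∧ mm mBm mBi = idm ∧
    mPA = mm mY2p mY2p ^^^ mm mWp mY2p ^^^ idm ∧ mPB = mm mY2p mY2p ^^^ mm mW2p mY2p ^^^ idm ∧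
    lin mYp 1 = 1 ∧ lin mYp 1024 = 1024 ∧ lin mYp (lin mYp 44) ^^^ lin mWp (lin mYp 44) ^^^ 44 = 0 ∧
    lin mYp (lin mYp 47) ^^^ lin mWp (lin mWp (lin mYp 47)) ^^^ 47 = 0 ∧
    ∀ i < 12, fld mBm i = lget [1, lin mWp 1, 1024, lin mWp 1024, 44, lin mWp 44, lin mYp 44,
      lin mWp (lin mYp 44), 47, lin mWp 47, lin mYp 47, lin mWp (lin mYp 47)] 0 i := by decide +kernel

theorem U_cases {U : ℕ} (hU : U < 2 ^ 144) (h1 : mm U mWp = mm mWp U) (h2 : mm U mYp = mm (mm mYp mYp) U)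
    (h3 : mm (mm U U) (mm U U) = idm) (h4 : cpow mm idm (mm (cpow mm idm mXp 4) U) 5 = idm ∨
      cpow mm idm (mm (cpow mm idm mXp 4) U) 5 = mWp ∨ cpow mm idm (mm (cpow mm idm mXp 4) U) 5 = mm mWp mWp) :
    U ∈ lUp := by
  obtain ⟨m1, m2, m3, m4, m5, m6, m7, m8, m9, m10, m11⟩ := matB
  rw [m1] at h2
  rw [m2, m3] at h4
  have e1 : ∀ a, lin U (lin mWp a) = lin mWp (lin U a) := fun a => by rw [← lin_mm, h1, lin_mm]
  have e2 : ∀ a, lin U (lin mYp a) = lin mY2p (lin U a) := fun a => by rw [← lin_mm, h2, lin_mm]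
  have hl := fun a ha => ball_zero listsU a ha
  simp only [band_eq, bif'_eq, Bool.and_eq_true, Nat.beq_eq] at hl
  have hF : ∀ a, lin mYp a = a → lin U a ∈ lFY := fun a h => by
    have := (hl _ (lin_lt U a)).1
    rw [if_pos (by rw [← e2, h])] at this
    obtain ⟨x, hx, e⟩ := (lany_iff _ _).1 this
    rwa [Nat.eq_of_beq_eq_true e]
  have hA : lin U 44 ∈ lKA := by
    have := (hl _ (lin_lt U 44)).2.1
    rw [if_pos (by
      rw [m5, xor_lin, xor_lin, lin_mm, lin_mm, lin_idm (lin_lt _ _), ← e2, ← e2, ← e1, ← lin_xor,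
        ← lin_xor, m9, lin_zero])] at this
    obtain ⟨x, hx, e⟩ := (lany_iff _ _).1 this
    rwa [Nat.eq_of_beq_eq_true e]
  have hB : lin U 47 ∈ lKB := by
    have := (hl _ (lin_lt U 47)).2.2
    rw [if_pos (by
      rw [m6, ← m2, xor_lin, xor_lin, lin_mm, lin_mm, lin_mm, lin_idm (lin_lt _ _), ← e2, ← e2, ← e1, ← e1,
        ← lin_xor, ← lin_xor, m10, lin_zero])] at this
    obtain ⟨x, hx, e⟩ := (lany_iff _ _).1 this
    rwa [Nat.eq_of_beq_eq_true e]
  have e : U = candU (lin U 1) (lin U 1024) (lin U 44) (lin U 47) := by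
    rw [candU, force_eq]
    refine eq_mm_mkl hU m4 fun i hi => ?_
    rw [m11 i hi]
    interval_cases i <;> simp only [lget_eq_getD, List.getD_cons_zero, List.getD_cons_succ, e1, e2]
  have h5 := chkU
  simp only [lall_iff] at h5
  have h6 := h5 _ (hF 1 m7) _ (hF 1024 m8) _ hA _ hB
  rw [← e, force_eq, okU] at h6
  simp only [force_eq, bif'_eq, bor_eq, Bool.or_eq_true, Nat.beq_eq, h3, if_true, if_pos h4] at h6
  obtain ⟨x, hx, e⟩ := (lany_iff _ _).1 h6
  rwa [Nat.eq_of_beq_eq_true e]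

theorem matT : ∀ k < 3, mm (lT.getD k 0) (lTi.getD k 0) = idm ∧ mm (lTi.getD k 0) (lT.getD k 0) = idm ∧
    mm mWp (lT.getD k 0) = mm (lT.getD k 0) (lo kW) ∧ mm mXp (lT.getD k 0) = mm (lT.getD k 0) (lo kX) ∧
    mm mYp (lT.getD k 0) = mm (lT.getD k 0) (lo kY) ∧
    mm (lUp.getD k 0) (lT.getD k 0) = mm (lT.getD k 0) (lo kU) := by decide +kernel

theorem lo_lt (c : ℕ) : lo c < 2 ^ 144 := Nat.and_lt_two_pow _ (by decide)

def mSi : ℕ := nat_lit 0x523f31521f32b116224cf84adf866492de1b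
def mBv : ℕ := nat_lit 0x43c828d7119c7f5ceb920ede8fbe5bb95414
def mT0 : ℕ := nat_lit 0xc01553eba7b6072247b9751b39604930902f
def lFY0 : List ℕ := [nat_lit 0, nat_lit 20, nat_lit 40, nat_lit 60, nat_lit 1024, nat_lit 1044, nat_lit 1064, nat_lit 1084, nat_lit 2048, nat_lit 2068, nat_lit 2088, nat_lit 2108, nat_lit 3072, nat_lit 3092, nat_lit 3112, nat_lit 3132]
/-- Candidate matrix. -/
noncomputable def candV (b c : ℕ) : ℕ :=
  force (mkl [lin (cpow mm idm mSi 0) b, lin (cpow mm idm mSi 1) b, lin (cpow mm idm mSi 2) b, lin (cpow mm idm mSi 3) b, lin (cpow mm idm mSi 4) b, lin (cpow mm idm mSi 5) b, lin (cpow mm idm mSi 6) b, lin (cpow mm idm mSi 7) b, lin (cpow mm idm mSi 8) b, lin (cpow mm idm mSi 9) b, c, lin kW2 c]) fun m => mm m mT0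
/-- Test of a candidate matrix. -/
noncomputable def okV (V : ℕ) : Bool :=
  bif' (band (Nat.beq (mm V V) idm) (band (Nat.beq (mm V (lo kU)) (mm (lo kU) V))
    (Nat.beq (force (mm (lo kX) V) fun t => mm t (lo kX)) V)))
    (bor (Nat.beq V (lo kV)) (bor (Nat.beq (mm V (lo kW)) (lo kV)) (Nat.beq (mm V (lo kW2)) (lo kV)))) true

theorem listsV : ball (fun a => bif' (Nat.beq (lin kY a) a) (lany lFY0 (Nat.beq a)) true) 12 0 = true := by
  decide +kernel

theorem chkV : lall lFY0 (fun b => lall lFY0 fun c => force (candV b c) okV) = true := by decide +kernel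

theorem matC : mm mBv mT0 = idm ∧ mm mSi (mm (mm (lo kW) (lo kW)) (cpow mm idm (lo kX) 10)) = mm mSi mSi ∧
    mm (lo kW) (lo kW) = lo kW2 ∧ lin kY 1044 = 1044 ∧ lin kY 2088 = 2088 ∧
    mm (cpow mm idm (lo kX) 10) (lo kX) = idm ∧ mm (mm (lo kW) (lo kW)) (cpow mm idm (lo kX) 10) = mSi ∧
    (∀ i < 10, fld mBv i = lin (cpow mm idm (mm (lo kW) (lo kX)) i) 1044) ∧ fld mBv 10 = 2088 ∧
    fld mBv 11 = lin (lo kW) 2088 := by decide +kernel

theorem V_cases {V : ℕ} (hV : V < 2 ^ 144) (h1 : mm V (lo kW) = mm (mm (lo kW) (lo kW)) V)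
    (h2 : mm (mm (lo kX) V) (lo kX) = V) (h3 : mm V (lo kY) = mm (lo kY) V)
    (h4 : mm V (lo kU) = mm (lo kU) V) (h5 : mm V V = idm) :
    V = lo kV ∨ mm V (lo kW) = lo kV ∨ mm V (mm (lo kW) (lo kW)) = lo kV := by
  obtain ⟨m1, -, m3, m4, m5, m6, m7, m8, m9, m10⟩ := matC
  have e1 : ∀ a, lin V (lin (lo kW) a) = lin (mm (lo kW) (lo kW)) (lin V a) := fun a => by
    rw [← lin_mm, h1, lin_mm]
  have e2 : ∀ a, lin V (lin (lo kX) a) = lin (cpow mm idm (lo kX) 10) (lin V a) := fun a => by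
    conv_rhs => rw [← h2, lin_mm, lin_mm, ← lin_mm _ (lo kX), m6, lin_idm (lin_lt _ _)]
  have e3 : ∀ n a, a < 4096 → lin V (lin (cpow mm idm (mm (lo kW) (lo kX)) n) a) =
      lin (cpow mm idm mSi n) (lin V a) := by
    intro n
    induction n with
    | zero => intro a ha; exact (congrArg _ (lin_idm ha)).trans (lin_idm (lin_lt _ _)).symm
    | succ n ih =>
      intro a ha
      rw [cpow_succ, cpow_succ, lin_mm, lin_mm, lin_mm, ih _ (lin_lt _ _), e1, e2, ← lin_mm (mm (lo kW) (lo kW)), m7]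
  have hF : ∀ a, lin kY a = a → lin V a ∈ lFY0 := fun a h => by
    have := ball_zero listsV _ (lin_lt V a)
    rw [bif'_eq, if_pos (by rw [Nat.beq_eq, ← lin_lo, ← lin_mm, ← h3, lin_mm, lin_lo, h])] at this
    obtain ⟨x, hx, e⟩ := (lany_iff _ _).1 this
    rwa [Nat.eq_of_beq_eq_true e]
  have e : V = candV (lin V 1044) (lin V 2088) := by
    rw [candV, force_eq]
    refine eq_mm_mkl hV m1 fun i hi => ?_
    by_cases h10 : i < 10
    · rw [m8 i h10, e3 _ _ (by norm_num)]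
      interval_cases i <;> simp only [lget_eq_getD, List.getD_cons_zero, List.getD_cons_succ]
    · obtain rfl | rfl : i = 10 ∨ i = 11 := by omega
      · rw [m9]; rfl
      · rw [m10, e1, m3, lin_lo]; rfl
  have h6 := chkV
  simp only [lall_iff] at h6
  have h7 := h6 _ (hF _ m4) _ (hF _ m5)
  rw [← e, force_eq, okV] at h7
  simp only [force_eq, bif'_eq, bor_eq, band_eq, Bool.or_eq_true, Bool.and_eq_true, Nat.beq_eq, h2, h4, h5,
    and_self, if_true] at h7
  rwa [m3]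

/-- The relations satisfied by the generators. -/
structure RelB {M : Type*} [AddCommGroup M] (w x y u v : Module.End ℤ M) : Prop extends RelA w x y where
  uw : u * w = w * u
  uy : u * y = y * y * u
  u4 : u * u * (u * u) = 1
  xu : (x ^ 4 * u) ^ 5 = 1 ∨ (x ^ 4 * u) ^ 5 = w ∨ (x ^ 4 * u) ^ 5 = w * w
  vw : v * w = w * w * v
  vx : x * v * x = v
  vy : v * y = y * v
  vu : v * u = u * v
  v2 : v * v = 1

theorem RelB.sq {M : Type*} [AddCommGroup M] {w x y u v : Module.End ℤ M} (h : RelB w x y u v) :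
    RelB (w ^ 2) x y u v := by
  have e : w ^ 2 * w ^ 2 = w := by
    rw [← pow_add, show 2 + 2 = 3 + 1 from rfl, pow_add, h.w3, one_mul, pow_one]
  refine { h.toRelA.sq, h with uw := (Commute.pow_right h.uw 2).eq, xu := ?_, vw := ?_ }
  · rw [e, pow_two]; have := h.xu; tauto
  · rw [pow_two, ← mul_assoc, h.vw, mul_assoc, h.vw, ← mul_assoc]

theorem RelB.core {M : Type*} [AddCommGroup M] {w x y u v : Module.End ℤ M} (h : RelB w x y u v)
    (C : Crd M) (h1 : C.mat w = mWp) (h2 : C.mat x = mXp) (h3 : C.mat y = mYp) :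
    ∃ C : Crd M, C.mat w = lo kW ∧ C.mat x = lo kX ∧ C.mat y = lo kY ∧ C.mat u = lo kU ∧
      (C.mat v = lo kV ∨ C.mat (v * w) = lo kV ∨ C.mat (v * (w * w)) = lo kV) := by
  have hU : C.mat u ∈ lUp := by
    refine U_cases (C.mat_lt u) ?_ ?_ ?_ ?_
    · rw [← h1, ← C.mat_mul, ← C.mat_mul, h.uw]
    · rw [← h3, ← C.mat_mul, ← C.mat_mul, ← C.mat_mul, h.uy]
    · rw [← C.mat_mul, ← C.mat_mul, h.u4, C.mat_one]
    · rw [← h2, ← h1, ← C.mat_pow, ← C.mat_mul, ← C.mat_pow, ← C.mat_mul, ← C.mat_one]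
      exact h.xu.imp (congrArg _) (Or.imp (congrArg _) (congrArg _))
  obtain ⟨k, hk, ek⟩ : ∃ k < 3, C.mat u = lUp.getD k 0 := by
    simp only [lUp, List.mem_cons, List.not_mem_nil, or_false] at hU
    rcases hU with e | e | e
    exacts [⟨0, by norm_num, e⟩, ⟨1, by norm_num, e⟩, ⟨2, by norm_num, e⟩]
  obtain ⟨t1, t2, t3, t4, t5, t6⟩ := matT k hk
  have a1 := C.mat_chg t1 t2 h1 (lo_lt _) t3
  have a2 := C.mat_chg t1 t2 h2 (lo_lt _) t4
  have a3 := C.mat_chg t1 t2 h3 (lo_lt _) t5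
  have a4 := C.mat_chg t1 t2 ek (lo_lt _) t6
  generalize C.chg t1 t2 = D at *
  refine ⟨D, a1, a2, a3, a4, ?_⟩
  simp only [D.mat_mul, a1]
  refine V_cases (D.mat_lt v) ?_ ?_ ?_ ?_ ?_
  · rw [← a1, ← D.mat_mul, ← D.mat_mul, ← D.mat_mul, h.vw]
  · rw [← a2, ← D.mat_mul, ← D.mat_mul, h.vx]
  · rw [← a3, ← D.mat_mul, ← D.mat_mul, h.vy]
  · rw [← a4, ← D.mat_mul, ← D.mat_mul, h.vu]
  · rw [← D.mat_mul, h.v2, D.mat_one]

/-- Recognition of the module. -/
theorem RelB.recog {M : Type*} [AddCommGroup M] {w x y u v : Module.End ℤ M} (h : RelB w x y u v)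
    (h2 : ∀ m : M, m + m = 0) (hM : Nat.card M = 4096) :
    ∃ (C : Crd M) (j k : ℕ), (j = 1 ∨ j = 2) ∧ C.mat (w ^ j) = lo kW ∧ C.mat x = lo kX ∧ C.mat y = lo kY ∧
      C.mat u = lo kU ∧ C.mat (v * w ^ k) = lo kV := by
  obtain ⟨C, h3 | h3, h4, h5⟩ := h.toRelA.stageA h2 hM
  · obtain ⟨D, a1, a2, a3, a4, a5⟩ := h.core C h3 h4 h5
    rcases a5 with a | a | a
    · exact ⟨D, 1, 0, by simp [*]⟩
    · exact ⟨D, 1, 1, by simp [*]⟩
    · exact ⟨D, 1, 2, by simp [pow_two, *]⟩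
  · obtain ⟨D, a1, a2, a3, a4, a5⟩ := h.sq.core C h3 h4 h5
    rcases a5 with a | a | a
    · exact ⟨D, 2, 0, by simp [*]⟩
    · exact ⟨D, 2, 2, by simp [*]⟩
    · exact ⟨D, 2, 4, by rw [← pow_add] at a; simp [*]⟩

/-- A quadratic form invariant under the model group is the standard one. -/
theorem quad_eq {q : ℕ → ZMod 2} (h0 : q 0 = 0)
    (h3 : ∀ a < 4096, ∀ b < 4096, ∀ c < 4096,
      q (a ^^^ b ^^^ c) + q (a ^^^ b) + q (a ^^^ c) + q (b ^^^ c) + q a + q b + q c = 0)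
    (hi : ∀ s ∈ gL, ∀ a < 4096, q (lin s a) = q a) (hne : ∃ a < 4096, q a ≠ 0) :
    ∀ a < 4096, q a = (Qf a : ZMod 2) := by
  have hg : ∀ g ∈ Lm, ∀ a < 4096, q (lin (rc g) a) = q a := fun g hg => inv_of_gens hi hg
  have t1 : ∀ a, tv1.has a = true → q a = q 1 := fun a ha => by
    obtain ⟨g, h, e⟩ := conn_vec (by norm_num) tv1_chk ha; rw [← e, hg g h _ (by norm_num)]
  have t2 : ∀ a, tv2.has a = true → q a = q 20 := fun a ha => by
    obtain ⟨g, h, e⟩ := conn_vec (by norm_num) tv2_chk ha; rw [← e, hg g h _ (by norm_num)]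
  have t3 : ∀ a, tv3.has a = true → q a = q 65 := fun a ha => by
    obtain ⟨g, h, e⟩ := conn_vec (by norm_num) tv3_chk ha; rw [← e, hg g h _ (by norm_num)]
  have q1 : q 1 = 0 := by
    have := h3 1 (by norm_num) 2 (by norm_num) 4 (by norm_num)
    change q 7 + q 3 + q 5 + q 6 + q 1 + q 2 + q 4 = 0 at this
    rw [t1 7 (by decide +kernel), t1 3 (by decide +kernel), t1 5 (by decide +kernel), t1 6 (by decide +kernel), t1 2 (by decide +kernel), t1 4 (by decide +kernel)] at this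
    revert this; generalize q 1 = r; generalize q 20 = s; generalize q 65 = t; revert r s t; decide
  have q2 : q 20 = 0 := by
    have := h3 1 (by norm_num) 2 (by norm_num) 64 (by norm_num)
    change q 67 + q 3 + q 65 + q 66 + q 1 + q 2 + q 64 = 0 at this
    rw [t3 67 (by decide +kernel), t1 3 (by decide +kernel), t2 66 (by decide +kernel), t1 2 (by decide +kernel), t1 64 (by decide +kernel)] at this
    revert this; generalize q 1 = r; generalize q 20 = s; generalize q 65 = t; revert r s t; decide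
  have hall : ∀ a < 4096, q a = (Qf a : ZMod 2) * q 65 := fun a ha => by
    by_cases e : a = 0
    · rw [e, h0, Qf_zero]; simp
    rcases orbits_vec ha e with ⟨e1, ⟨g, h, e2⟩ | ⟨g, h, e2⟩⟩ | ⟨e1, g, h, e2⟩
    · rw [e1, ← e2, hg g h _ (by norm_num), q1]; simp
    · rw [e1, ← e2, hg g h _ (by norm_num), q2]; simp
    · rw [e1, ← e2, hg g h _ (by norm_num)]; simp
  have q3 : q 65 = 1 := by
    obtain ⟨a, ha, h⟩ := hne
    rw [hall a ha] at h
    revert h; generalize q 65 = t; generalize (Qf a : ZMod 2) = s; revert s t; decide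
  intro a ha; rw [hall a ha, q3, mul_one]

end Cfsg.Agent.J4
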