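import Cfsg.Agent.J4.TD
import Cfsg.Agent.J4.AX
import Cfsg.Agent.J4.OF0
import Cfsg.Agent.GT.CoprimeGen
import Cfsg.Agent.PG.Frattini

/-!
# Groups of type `J₄`: the centraliser of an element of order three
-/

set_option autoImplicit false
set_option linter.unusedSectionVars false

namespace Cfsg.Agent.J4

open Cfsg.Agent.M24 Cfsg.Agent.TT Cfsg.Agent.GT Subgroup MulAction
open scoped Pointwise symmDiff

theorem four_gen {G : Type*} [Group G] [Finite G] {x y : G} (hx : x * x = 1) (hy : y * y = 1) (hc : x * y = y * x)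
    (x1 : x ≠ 1) (y1 : y ≠ 1) (xy : x ≠ y) {O X : Subgroup G} (ho : Odd (Nat.card O)) (nx : x ∈ N[O]) (ny : y ∈ N[O])
    (h1 : O ⊓ C1[x] ≤ X) (h2 : O ⊓ C1[y] ≤ X) (h3 : O ⊓ C1[x * y] ≤ X) : O ≤ X := by
  have e1 : ∀ a, x * (x * a) = a := fun a => by rw [← mul_assoc, hx, one_mul]
  have e2 : ∀ a, y * (x * a) = x * (y * a) := fun a => by rw [← mul_assoc, ← hc, mul_assoc]
  have e3 : ∀ a, y * (y * a) = a := fun a => by rw [← mul_assoc, hy, one_mul]
  let B : Subgroup G :=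
    { carrier := {a | a = 1 ∨ a = x ∨ a = y ∨ a = x * y}
      mul_mem' := by
        rintro a b (e | e | e | e) (e' | e' | e' | e') <;> simp [e, e', hx, hy, e1, e2, e3, mul_assoc, ← hc]
      one_mem' := .inl rfl
      inv_mem' := by
        rintro a (e | e | e | e) <;>
          simp [e, inv_eq_of_mul_eq_one_right hx, inv_eq_of_mul_eq_one_right hy, ← hc] }
  have hB : ∀ a ∈ B, a * a = 1 := by rintro a (e | e | e | e) <;> simp [e, hx, hy, e1, e2, mul_assoc]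
  refine coprime_abelian_gen_cent1 (A := B) (elem_of_sq hB).1 (fun h => ?_) ?_ ?_ ?_
  · obtain ⟨⟨a, ha⟩, h⟩ := h.exists_zpow_surjective
    have h4 : ∀ b ∈ B, b = 1 ∨ b = a := fun b hb => by
      obtain ⟨k, e⟩ := h ⟨b, hb⟩
      exact (mem_zpowers_of_sq (hB a ha)).1 ⟨k, congrArg Subtype.val e⟩
    exact xy (((h4 x (by simp [B])).resolve_left x1).trans ((h4 y (by simp [B])).resolve_left y1).symm)
  · rintro _ (rfl | rfl | rfl | rfl)
    exacts [one_mem _, nx, ny, mul_mem nx ny]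
  · obtain ⟨n, hn⟩ := IsPGroup.iff_card.1 (pg_of_sq hB)
    rw [hn]; exact (Nat.coprime_two_right.2 ho).pow_right _
  · rintro _ (rfl | rfl | rfl | rfl) h
    exacts [absurd rfl h, h1, h2, h3]

theorem conj_of_coset {G : Type*} [Group G] [Finite G] {K : Subgroup G} {a m : G} (hK : IsPGroup 2 K) (ha : a ∈ N[K])
    (oa : Odd (orderOf a)) (om : Odd (orderOf m)) (h : m * a⁻¹ ∈ K) : ∃ n ∈ K, m = n * a * n⁻¹ := by
  obtain ⟨k, hk⟩ := IsPGroup.iff_card.1 hK
  have c : ∀ b : G, Odd (orderOf b) → (Nat.card K).Coprime (Nat.card (zpowers b)) := fun b hb => by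
    rw [hk, Nat.card_zpowers]; exact (Nat.coprime_two_left.2 hb).pow_left _
  obtain ⟨n, hn, e⟩ := sz_le_conj (solvable_of_isPGroup Nat.prime_two hK) (zpowers_le.2 ha) (c a oa) (B := zpowers m)
    (zpowers_le.2 (by simpa using mul_mem (mem_sup_left h) (mem_sup_right (mem_zpowers a)))) (c m om)
  have h1 := mem_conj.1 (e (mem_zpowers m))
  have h2 : n⁻¹ * m * n * a⁻¹ ∈ K ⊓ zpowers a := ⟨by
    have := mul_mem (mul_mem (inv_mem hn) h) (conj_mem_of_mem_norm ha hn)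
    simpa [mul_assoc] using this, (zpowers a).mul_mem h1 (inv_mem (mem_zpowers a))⟩
  rw [GT.inf_eq_bot_of_coprime (c a oa), mem_bot, mul_inv_eq_one] at h2
  exact ⟨n, hn, by rw [← h2]; group⟩

/-- A Sylow three-subgroup. -/
noncomputable def R3 : Subgroup R := gen rc (gensOf chR3)
/-- Its normaliser. -/
noncomputable def N3 : Subgroup R := gen rc (gensOf chN3)
/-- A non-central element of order three. -/
noncomputable def x3 : R := relt kx3
theorem rc_x3 : rc x3 = kx3 := rc_relt (by decide +kernel)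
theorem card_R3 : Nat.card R3 = 27 := card_genR chR3_chk (by decide +kernel)
theorem card_N3 : Nat.card N3 = 432 := card_genR chN3_chk (by decide +kernel)
theorem R3_le : R3 ≤ Lm := Lm_eq ▸ genR_le chL_chk (by decide +kernel)
theorem N3_le : N3 ≤ Lm := Lm_eq ▸ genR_le chL_chk (by decide +kernel)
theorem rW_mem_R3 : rW ∈ R3 := (mem_genR chR3_chk).2 (by rw [rc_rW]; decide +kernel)
theorem x3_mem : x3 ∈ R3 := (mem_genR chR3_chk).2 (by rw [rc_x3]; decide +kernel)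
theorem N3_le_norm : N3 ≤ N[R3] :=
  gcR.gen_le_normalizer (fun _ hg => (mem_genR chR3_chk).2 hg) (by decide +kernel)

theorem mem_R3 {r : R} : r ∈ R3 ↔ rc r ∈ l27 :=
  ⟨fun hr => lany_beq.1 (forall_of_enumR chR3_chk (f := fun k => lany l27 (Nat.beq k)) (by decide +kernel) r hr),
    fun hr => (mem_genR chR3_chk).2 ((lall_iff _ _).1 (show lall l27 _ = true by decide +kernel) _ hr)⟩

theorem R3_facts {r : R} (hr : r ∈ R3) : r ^ 3 = 1 ∧ r * rW = rW * r ∧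
    ((r = 1 ∨ r = rW ∨ r = rW * rW) ∨ ((∃ d ∈ N3, d * x3 * d⁻¹ = r) ∧ ∃ u ∈ R3, r * u ≠ u * r)) := by
  have h := (lall_iff _ _).1 (show lall l27 (fun k => band (band (Nat.beq (cpow rmul rone k 3) rone) (Nat.beq (ou k) 0))
    (bor (bor (Nat.beq k rone) (bor (Nat.beq k kW) (Nat.beq k kW2))) (band (t24.has k) (lany l27 fun u => !cm k u))))
    = true by decide +kernel) _ (mem_R3.1 hr)
  rw [gcR.cpow_code, ← gcR.code_one, ← rc_rW, ← rc_rW2] at h
  simp only [band_eq, bor_eq, Bool.and_eq_true, Bool.or_eq_true, beq_rc, lany_iff] at h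
  refine ⟨h.1.1, (ou_eq_zero (R3_le hr)).1 (Nat.eq_of_beq_eq_true h.1.2), h.2.imp id fun ⟨a, u, hu, b⟩ => ⟨?_, ?_⟩⟩
  · have h5 := (gcR.acCj.orb_sound (chkR_sound chN3_chk).1 (x₀ := toCj x3) trivial (rc_x3 ▸ t24_chk)).1
    obtain ⟨⟨d, hd⟩, e⟩ : toCj r ∈ orbit (gen rc (gensOf chN3)) (toCj x3) := h5 ▸ ⟨trivial, T.has_sound a⟩
    exact ⟨d, hd, e⟩
  · obtain ⟨u, rfl⟩ := valid_rc (l := l27) (by decide +kernel) u hu
    exact ⟨u, mem_R3.2 hu, fun e => by simp [cm_of e] at b⟩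

/-- The regular orbit of `3²`. -/
def S9 : Finset GolayPt := unmask 4999254
theorem mask_S9 : mask S9 = 4999254 := mask_unmask (by norm_num)

theorem mem_S9 {p : GolayPt} : p ∈ S9 ↔ ∀ w ∈ R3, w.2 • p = p → w.2 = 1 := by
  have h1 : ∀ p : GolayPt, p ∈ S9 ↔
      lall l27 (fun k => bor (Nat.beq (rp k) one) (!Nat.beq (ap (rp k) (idx p)) (idx p))) = true := by decide +kernel
  have h2 : ∀ w : R, bor (Nat.beq (rp (rc w)) one) (!Nat.beq (ap (rp (rc w)) (idx p)) (idx p)) = true ↔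
      (w.2 • p = p → w.2 = 1) := fun w => by
    rw [rp_rc, acM.ap_code w.2 trivial, bor_eq, Bool.or_eq_true, gcM.eq_one_iff, Bool.not_eq_true',
      ← Bool.not_eq_true, Nat.beq_eq, idx_inj.eq_iff]
    tauto
  rw [h1, lall_iff]
  refine ⟨fun h w hw => (h2 w).1 (h _ (mem_R3.1 hw)), fun h k hk => ?_⟩
  obtain ⟨w, rfl⟩ := valid_rc (l := l27) (by decide +kernel) k hk
  exact (h2 w).2 (h w (mem_R3.2 hk))

theorem mem_N3 {d : R} (hd : d ∈ Lm) (h : d ∈ N[R3]) : d ∈ N3 := by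
  have e : Lm ⊓ stabilizer R S9 = N3 := by
    rw [Lm_eq]; exact inf_stabR acRS trivial chL_chk chN3_chk mask_S9 t6160_chk (by decide +kernel)
  refine e.le ⟨hd, show d.2 • S9 = S9 from Finset.eq_of_subset_of_card_le (fun p hp => ?_) (by rw [card_smul24])⟩
  obtain ⟨q, hq, rfl⟩ := Finset.mem_smul_finset.1 hp
  refine mem_S9.2 fun w hw e => ?_
  have := mem_S9.1 hq _ (conj_mem_of_mem_norm (inv_mem h) hw) (by
    rw [Prod.snd_mul, Prod.snd_mul, inv_inv, mul_smul, mul_smul, e, ← mul_smul]; simp)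
  rwa [Prod.snd_mul, Prod.snd_mul, Prod.snd_inv d⁻¹, conj_eq_one_iff] at this

theorem H22_perfect : ⁅H22, H22⁆ = H22 := by
  refine le_antisymm (commutator_le_of_le_norm_left le_normalizer) (H22_le_gen.trans (gen_le fun g hg => ?_))
  have key : ∀ a b : ℕ, (isM24 a && isM24 b && Nat.beq (ap a 23) 23 && Nat.beq (ap a 0) 0 && Nat.beq (ap b 23) 23 &&
      Nat.beq (ap b 0) 0 && Nat.beq (mul (cjap mul inv a b) (inv b)) (mcode g)) = true → g ∈ ⁅H22, H22⁆ := fun a b h => by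
    simp only [Bool.and_eq_true] at h
    obtain ⟨⟨⟨⟨⟨⟨a1, b1⟩, a2⟩, a3⟩, b2⟩, b3⟩, e⟩ := h
    have a4 := mcode_elt a1
    have b4 := mcode_elt b1
    rw [← a4, ← b4, gcM.cjap_code, ← gcM.code_inv, ← gcM.code_mul, Nat.beq_eq, gcM.inj.eq_iff] at e
    rw [← e]
    exact commutator_mem_commutator (mem_H22.2 ⟨apply_of_code a4 _ _ a2, apply_of_code a4 _ _ a3⟩)
      (mem_H22.2 ⟨apply_of_code b4 _ _ b2, apply_of_code b4 _ _ b3⟩)
  simp only [List.mem_cons, List.not_mem_nil, or_false] at hg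
  rcases hg with e | e
  · exact key (lget lcm22 0 0) (lget lcm22 0 1) (by rw [e]; decide +kernel)
  · exact key (lget lcm22 0 2) (lget lcm22 0 3) (by rw [e]; decide +kernel)

namespace HM

variable {H : Type*} [Group H] {z ω : H} {s : ℕ → H} {Λ : H →* R} (M : HM z ω s Λ)
include M

theorem card_norm_inf {K : Subgroup R} (hK : K ≤ Lm) : Nat.card ↥(N[zpowers ω] ⊓ K.comap Λ) = 2 * Nat.card K := by
  have h1 : (N[zpowers ω] ⊓ K.comap Λ).map Λ = K := le_antisymm (by rintro _ ⟨h, hh, rfl⟩; exact hh.2) fun r hr => by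
    obtain ⟨l, hl, rfl⟩ := M.lift r (hK hr); exact mem_map_of_mem Λ ⟨hl, hr⟩
  have h2 : Λ.ker ⊓ (N[zpowers ω] ⊓ K.comap Λ) = zpowers z :=
    le_antisymm (fun h hh => (mem_zpowers_of_sq M.zz).2 (M.ker_norm hh.2.1 hh.1))
      (zpowers_le.2 ⟨M.Λz, M.z_mem, mem_comap.2 (M.Λz ▸ K.one_mem)⟩)
  rw [← card_map_mul_card_inf_ker Λ, h1, h2, Nat.card_zpowers,
    orderOf_eq_prime (p := 2) (by rw [pow_two, M.zz]) M.ne, mul_comm]

theorem eq_of_odd {a b : H} (ha : a ∈ N[zpowers ω]) (hb : b ∈ N[zpowers ω]) (h : Λ a = Λ b) {n : ℕ}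
    (h1 : a ^ (2 * n + 1) = 1) (h2 : b ^ (2 * n + 1) = 1) : a = b := by
  rcases M.eq_of_crd (by rw [M.cb_norm ha, M.cb_norm hb]) h with e | e
  · exact e
  · rw [e, Commute.mul_pow (M.zc b), h2, one_mul, pow_succ, pow_mul, pow_two, M.zz, one_pow, one_mul] at h1
    exact absurd h1 M.ne

theorem norm_of_comm {h : H} (e : h * ω = ω * h) : h ∈ N[zpowers ω] :=
  cent_le_norm _ (by rw [cent_zpowers]; exact mem_cent1.2 e)

theorem ω_ne : ω ≠ 1 := fun e => rW_ne (by rw [← M.Λω, e, map_one, one_mul])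

theorem orderOf_ω : orderOf ω = 3 := haveI : Fact (Nat.Prime 3) := ⟨by norm_num⟩; orderOf_eq_prime M.ω3 M.ω_ne

theorem lift22 {p : M24} (hp : p ∈ H22) : ∃ l, l * ω = ω * l ∧ (Λ l).2 = p := by
  obtain ⟨r, hr, rfl⟩ := exists_lift (H22_le_Dd hp)
  obtain ⟨l, hl, rfl⟩ := M.lift r hr
  exact ⟨l, M.conj_ω hl ((ou_eq_zero hr).1 (by rw [ou_rc]; exact if_pos (mem_H22.1 hp).2)), rfl⟩

theorem snd_mem22 {h : H} (e : h * ω = ω * h) : (Λ h).2 ∈ H22 := by
  rcases Lm_cases (M.mem h) with ⟨a, b, -⟩ | ⟨-, -, a⟩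
  · exact mem_H22.2 ⟨b, a⟩
  · rw [← M.Λω, ← map_mul, e, map_mul, M.Λω, mul_left_inj] at a
    exact absurd a rW_ne

theorem mem_zpowers_zω {h : H} (hn : h ∈ N[zpowers ω]) (e : (Λ h).2 = 1) : h ∈ zpowers (z * ω) := by
  have c : Commute z ω := (M.zc ω).symm
  have a1 : (z * ω) ^ 3 = z := by rw [c.mul_pow, M.ω3, mul_one, pow_succ, pow_two, M.zz, one_mul]
  have a2 : (z * ω) ^ 4 = ω := by rw [pow_succ, a1, ← mul_assoc, M.zz, one_mul]
  have b1 : z ∈ zpowers (z * ω) := a1.subst (motive := (· ∈ zpowers (z * ω))) (npow_mem_zpowers _ _)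
  have b2 : ω ∈ zpowers (z * ω) := a2.subst (motive := (· ∈ zpowers (z * ω))) (npow_mem_zpowers _ _)
  have key : ∀ k ∈ zpowers ω, Λ h = Λ k → h ∈ zpowers (z * ω) := fun k hk e => by
    rcases M.eq_of_crd (by rw [M.cb_norm hn, M.cb_norm (le_normalizer hk)]) e with e | e <;> rw [e]
    exacts [zpowers_le.2 b2 hk, mul_mem (zpowers_le.2 b2 hk) b1]
  rcases J4.kerθ (M.mem h) e with a | a | a
  exacts [key 1 (one_mem _) (by rw [a, map_one]), key ω (mem_zpowers _) (by rw [a, M.Λω]),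
    key (ω * ω) (mul_mem (mem_zpowers _) (mem_zpowers _)) (by rw [a, map_mul, M.Λω])]

theorem cent_K {h : H} (h1 : h * ω = ω * h) (h2 : ∀ k, k * ω = ω * k → h * k = k * h) : h ∈ zpowers (z * ω) :=
  M.mem_zpowers_zω (M.norm_of_comm h1) (Dd_cent (snd_mem_Dd (M.mem h)) fun p hp => by
    obtain ⟨l, a, rfl⟩ := M.lift22 hp
    rw [← Prod.snd_mul, ← map_mul, h2 l a, map_mul, Prod.snd_mul])

theorem orderOf_zω : orderOf (z * ω) = 6 := by
  rw [(show Commute z ω from (M.zc ω).symm).orderOf_mul_eq_mul_orderOf_of_coprime] <;>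
    rw [M.orderOf_ω, orderOf_eq_prime (p := 2) (by rw [pow_two, M.zz]) M.ne]
  norm_num

theorem center_K : ∀ h : C1[ω], h ∈ center C1[ω] ↔ (h : H) ∈ zpowers (z * ω) := fun h =>
  ⟨fun hh => M.cent_K (mem_cent1.1 h.2) fun k hk => (congrArg Subtype.val (mem_center_iff.1 hh ⟨k, mem_cent1.2 hk⟩)).symm,
    fun hh => mem_center_iff.2 fun k => Subtype.ext (mem_cent1.1 ((zpowers_le (H := C1[(k : H)])).2 (mem_cent1.2 (by
      rw [mul_assoc, ← mem_cent1.1 k.2, ← mul_assoc, ← M.zc, mul_assoc])) hh)).symm⟩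

theorem six_cover {X : Type*} [Group X] (e : C1[ω] ≃* X) : IsCyclic (center X) ∧ Nat.card (center X) = 6 ∧
    Spor.IsoM22 (X ⧸ center X) := by
  have h1 : (center C1[ω]).map C1[ω].subtype = zpowers (z * ω) := le_antisymm
    (by rintro _ ⟨h, hh, rfl⟩; exact (M.center_K h).1 hh) fun h hh => by
      have : h ∈ C1[ω] := (zpowers_le (H := C1[ω])).2 (mem_cent1.2 (by rw [mul_assoc, ← M.zc, mul_assoc, ← M.zc])) hh
      exact ⟨⟨h, this⟩, (M.center_K _).2 hh, rfl⟩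
  let φ : C1[ω] →* H22 := (((MonoidHom.snd _ _).comp Λ).comp C1[ω].subtype).codRestrict H22
    fun h => M.snd_mem22 (mem_cent1.1 h.2)
  have h2 : Function.Surjective (φ.comp e.symm.toMonoidHom) := fun p => by
    obtain ⟨l, a, b⟩ := M.lift22 p.2
    exact ⟨e ⟨l, mem_cent1.2 a⟩, Subtype.ext ((congrArg (fun x => (φ x : M24)) (e.symm_apply_apply _)).trans b)⟩
  have h3 : (φ.comp e.symm.toMonoidHom).ker = center X := by
    ext x
    obtain ⟨k, rfl⟩ := e.surjective x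
    have a : e k ∈ center X ↔ k ∈ center C1[ω] := by
      simp only [mem_center_iff, e.surjective.forall, ← map_mul, e.injective.eq_iff]
    rw [a, M.center_K, MonoidHom.mem_ker, Subtype.ext_iff]
    simp only [φ, MonoidHom.comp_apply, MulEquiv.toMonoidHom_eq_coe, MonoidHom.coe_coe, MulEquiv.symm_apply_apply]
    refine ⟨M.mem_zpowers_zω (M.norm_of_comm (mem_cent1.1 k.2)), fun h => ?_⟩
    exact (zpowers_le (H := ((MonoidHom.snd _ _).comp Λ).ker)).2 (by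
      simp [MonoidHom.mem_ker, M.Λz, M.Λω, rW_snd]) h
  refine ⟨isCyclic_of_equiv (centerCongr e) ?_, ?_, ⟨((QuotientGroup.quotientMulEquivOfEq h3.symm).trans
    (QuotientGroup.quotientKerEquivOfSurjective _ h2)).trans eH22⟩⟩
  · rw [← isCyclic_map_iff C1[ω].subtype_injective, h1]; infer_instance
  · rw [← Nat.card_congr (centerCongr e).toEquiv, ← card_map_inj C1[ω].subtype_injective, h1, Nat.card_zpowers,
      M.orderOf_zω]

end HM

namespace JD

variable {G H : Type*} [Group G] [Group H] [Finite G] {ι : H →* G} {z ω : H} {s : ℕ → H} {Λ : H →* R}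
  {M : GM ι z ω s Λ} {y g : H} {T : ℕ → H} {π : N[M.V] →* M24} {κ : M24 →* N[M.V]} (J : JD M y g T π κ)
include J

theorem T_norm {c : ℕ} (hc : c < 2048) (h : c &&& 63 = 0) : T c ∈ N[zpowers ω] :=
  M.mem_norm_of_cb (by rw [J.vc.cbT c hc, h])

theorem T_comm {c : ℕ} (hc : c < 2048) (h : c &&& 63 = 0) : T c * ω = ω * T c :=
  M.conj_ω (J.T_norm hc h) ((ou_eq_zero (M.mem _)).1 (Wb_facts (J.vc.co.mem c).1).2.1)

theorem iso3V {a : G} (ha : a * ι ω = ι ω * a) (hv : a * ι z * a⁻¹ ∈ M.V) : a * ι z * a⁻¹ = ι z := by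
  obtain ⟨c, hc, e⟩ := J.px.co.surj _ hv
  replace e : ι (T c) = a * ι z * a⁻¹ := e
  have h0 : c &&& 63 = 0 := by
    rw [← J.vc.cbT c hc]
    refine M.cb_norm (M.norm_of_comm (M.inj ?_))
    rw [map_mul, map_mul, e, mul_assoc, mul_assoc, (show Commute a (ι ω) from ha).inv_left.eq, ← mul_assoc (ι z),
      ← map_mul, ← M.zc, map_mul, ← mul_assoc, ← mul_assoc, ha]; group
  have h1 := ball_zero (show ball (fun c => bor (!Nat.beq (c &&& 63) 0) (bor (!tbq 102 (cl clT6 c)) (bor (Nat.beq c 1024)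
    (nany 32 fun m => force (64 * m) fun d => band (band (!tbq 102 (cl clT6 d)) (!tbq 102 (cl clT6 (d ^^^ c))))
      (band (!Nat.beq d 0) (!Nat.beq d c)))))) 11 0 = true by decide +kernel) c hc
  rw [h0, (J.cls c hc).1 (isConj_iff.2 ⟨a, e.symm⟩)] at h1
  simp only [Nat.beq_refl, Bool.not_true, bor_eq, Bool.false_or, Bool.or_eq_true, Nat.beq_eq, nany_iff, force_eq, band_eq,
    Bool.and_eq_true, Bool.not_eq_true', ← Bool.not_eq_true] at h1
  rcases h1 with rfl | ⟨m, hm, ⟨a1, a2⟩, a3, a4⟩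
  · rw [← e, J.vc.Tz]
  obtain ⟨d, rfl⟩ : ∃ d, d = 64 * m := ⟨_, rfl⟩
  have hd : 64 * m < 2048 := by omega
  have hd' : (64 * m) &&& 63 = 0 := by rw [and63_eq]; omega
  generalize 64 * m = d at *
  obtain ⟨n, hn, e1⟩ := M.fusion_V M.z_mem_V hv
  obtain ⟨k, e2⟩ := M.surj (n⁻¹ * a) (by rw [mul_assoc, mul_inv_eq_iff_eq_mul.1 e1.symm]; group)
  obtain ⟨b, hb, e3⟩ := J.px.co.surj _ (conj_mem_of_mem_norm (inv_mem hn) (J.px.co.mem d))
  replace e3 : ι (T b) = n⁻¹ * ι (T d) * n⁻¹⁻¹ := e3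
  have e4 : ι (T (b ^^^ 1024)) = n⁻¹ * ι (T (d ^^^ c)) * n⁻¹⁻¹ := by
    rw [J.vc.co.mul, J.vc.co.mul, map_mul, map_mul, e3, e, ← e1, J.vc.Tz]; group
  have h2 := ball_zero (show ball (fun b => bor (tbq 102 (cl clT6 b)) (bor (tbq 102 (cl clT6 (b ^^^ 1024)))
    (Nat.beq (b &&& 960) 0))) 11 0 = true by decide +kernel) b hb
  have hx : ∀ {u v : ℕ}, u < 2048 → v < 2048 → u ^^^ v < 2048 := fun h h' => Nat.xor_lt_two_pow (n := 11) h h'
  rw [bor_eq, bor_eq, Bool.or_eq_true, Bool.or_eq_true, ← J.cls b hb, ← J.cls _ (hx hb (by norm_num)), e3, e4,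
    isConj_conj, isConj_conj, J.cls d hd, J.cls _ (hx hd hc), Nat.beq_eq, ← J.vc.Λ_eq_one hb] at h2
  have h3 : ι (k⁻¹ * T b * k) = a⁻¹ * ι (T d) * a := by rw [map_mul, map_mul, map_inv, e2, e3]; group
  have h4 := M.ker_norm (l := k⁻¹ * T b * k) (M.norm_of_comm (M.inj (by
    rw [map_mul _ _ ω, map_mul _ ω, h3, mul_assoc, ha, mul_assoc, ← mul_assoc (ι _), ← map_mul, J.T_comm hd hd', map_mul,
      ← mul_assoc, ← mul_assoc, (show Commute a (ι ω) from ha).inv_left.eq]; group)))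
    (by simp [(h2.resolve_left a1).resolve_left a2])
  have h5 : ι (T d) = a * ι (k⁻¹ * T b * k) * a⁻¹ := by rw [h3]; group
  rcases h4 with h4 | h4 <;> rw [h4] at h5
  · exact absurd (J.px.co.inj d hd (h5.trans (by simp))) a3
  · exact absurd (J.px.co.eq hd hc (h5.trans e.symm)) a4

theorem iso3 {a : G} (ha : a * ι ω = ι ω * a) (hc : ι z * (a * ι z * a⁻¹) = a * ι z * a⁻¹ * ι z) :
    a * ι z * a⁻¹ = ι z := by
  obtain ⟨h, e⟩ := M.surj _ hc.symm
  have h1 : h * ω = ω * h := M.inj (by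
    rw [map_mul, map_mul, e, mul_assoc, mul_assoc, (show Commute a (ι ω) from ha).inv_left.eq, ← mul_assoc (ι z),
      ← map_mul, ← M.zc, map_mul, ← mul_assoc, ← mul_assoc, ha]; group)
  have h2 : h * h = 1 := M.inj (by rw [map_mul, e, conj_mul, ← map_mul, M.zz]; simp)
  by_cases h3 : Λ h = 1
  · refine J.iso3V ha (e ▸ M.mem_V.2 (M.mem_VH.2 ⟨h3 ▸ one_mem _, ?_⟩))
    rw [M.cb_norm (M.norm_of_comm h1)]; norm_num
  obtain ⟨d, hd, e1⟩ := inner_conj (M.mem h) (by rw [← map_mul, h2, map_one]) h3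
    ((ou_eq_zero (M.mem h)).2 (by rw [← M.Λω, ← map_mul, h1, map_mul]))
  obtain ⟨l, hl, rfl⟩ := M.lift d hd
  have hz : ι l * ι z = ι z * ι l := by rw [← map_mul, M.zc, map_mul]
  have e2 : (ι l)⁻¹ * a * ι l * ι z * ((ι l)⁻¹ * a * ι l)⁻¹ = ι (l⁻¹ * h * l⁻¹⁻¹) := by
    rw [map_mul, map_mul, map_inv, map_inv, map_inv, e, mul_assoc _ (ι l), hz]; group
  have h4 := J.iso3V (a := (ι l)⁻¹ * a * ι l) (by
    obtain ⟨k, hk⟩ := conj_mem_of_mem_norm hl (mem_zpowers ω)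
    have h5 : ι l * ι ω = ι ω ^ k * ι l := by rw [← map_zpow, ← map_mul, ← map_mul, show ω ^ k = _ from hk]; simp
    rw [mul_assoc, h5, ← mul_assoc, mul_assoc _ a, ((show Commute a (ι ω) from ha).zpow_right k).eq,
      ← mul_inv_eq_iff_eq_mul.2 h5]; group) (e2 ▸ M.mem_V.2 (M.mem_VH.2 ⟨by simpa [← e1, mul_assoc] using w0_mem, by
        rw [M.cb_norm (mul_mem (mul_mem (inv_mem hl) (M.norm_of_comm h1)) (inv_mem (inv_mem hl)))]; norm_num⟩))
  rw [e2, M.inj.eq_iff, mul_inv_eq_iff_eq_mul, ← M.zc, mul_right_inj] at h4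
  rw [← e, h4]

theorem cent_ω {a : G} (ha : a * ι ω = ι ω * a) : a * ι z = ι z * a := by
  have hz : ι z ∈ C1[ι ω] := mem_cent1.2 (by rw [← map_mul, ← M.zc, map_mul])
  have h1 := BS.zstar (G := C1[ι ω]) (t := ⟨_, hz⟩) (Subtype.ext (by simp [← map_mul, M.zz]))
    (fun g hg => Subtype.ext (J.iso3 (mem_cent1.1 g.2) (congrArg Subtype.val hg))) ⟨a, mem_cent1.2 ha⟩
  rw [← piCoreOf_subgroupOf_self, mem_subgroupOf] at h1
  obtain ⟨O, hO⟩ : ∃ O, O = piCoreOf {2}ᶜ C1[ι ω] := ⟨_, rfl⟩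
  have ho : Odd (Nat.card O) := BS.piNat_two_compl.1 (hO ▸ piCoreOf_isPi _ _)
  have hn : ∀ c < 2048, c &&& 63 = 0 → ι (T c) ∈ N[O] := fun c hc h =>
    hO ▸ self_le_norm_piCoreOf _ _ (mem_cent1.2 (by rw [← map_mul, J.T_comm hc h, map_mul]))
  have hd : ∀ c < 2048, c ≠ 0 → tbq 102 (cl clT6 c) = false → O ⊓ C1[ι (T c)] ≤ N[M.V] := fun c hc h0 h => by
    obtain ⟨Y, hY, rfl⟩ := exists_duad hc h0 h
    exact inf_le_right.trans (J.ms.cent_duad hY)
  have h2 : O ≤ N[M.V] := four_gen (J.px.co.sq 64) (J.px.co.sq 128) (comm_of_sq M.V_sq (J.px.co.mem _) (J.px.co.mem _))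
    (fun e => by simpa using J.px.co.inj 64 (by norm_num) e) (fun e => by simpa using J.px.co.inj 128 (by norm_num) e)
    (fun e => by simpa using J.px.co.eq (by norm_num) (by norm_num) e) ho (hn 64 (by norm_num) rfl)
    (hn 128 (by norm_num) rfl) (hd 64 (by norm_num) (by norm_num) (by decide +kernel))
    (hd 128 (by norm_num) (by norm_num) (by decide +kernel))
    (J.px.co.mul 64 128 ▸ hd (64 ^^^ 128) (by decide) (by decide) (by decide +kernel))
  rw [← hO] at h1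
  replace h1 : ι z * (a * ι z * a⁻¹) ∈ O := h1
  have h3 : ι z * (a * ι z * a⁻¹) * ι z * (ι z * (a * ι z * a⁻¹))⁻¹ * (ι z)⁻¹ ∈ O ⊓ M.V :=
    mem_inf.2 ⟨by simpa only [mul_assoc] using O.mul_mem h1 (conj_mem_of_mem_norm (hO ▸ self_le_norm_piCoreOf _ _ hz) (inv_mem h1)),
      M.V.mul_mem (conj_mem_of_mem_norm (h2 h1) M.z_mem_V) (inv_mem M.z_mem_V)⟩
  rw [GT.inf_eq_bot_of_coprime (by rw [M.card_V]; exact (Nat.coprime_two_right.2 ho).pow_right _), mem_bot,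
    mul_inv_eq_one, mul_inv_eq_iff_eq_mul, mul_assoc, mul_right_inj] at h3
  exact mul_inv_eq_iff_eq_mul.1 (J.iso3 ha h3.symm)

theorem norm_ω {a : G} (ha : a ∈ N[zpowers (ι ω)]) : a * ι z = ι z * a := by
  have key : ∀ b ∈ N[zpowers (ι ω)], b * ι z * b⁻¹ * ι ω = ι ω * (b * ι z * b⁻¹) := fun b hb => by
    have := conj_mem_of_mem_norm (norm_le_norm_cent _ hb) (x := ι z) (by
      rw [cent_zpowers]; exact mem_cent1.2 (by rw [← map_mul, ← M.zc, map_mul]))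
    rwa [cent_zpowers, mem_cent1] at this
  have := M.finH
  obtain ⟨h, e⟩ := M.surj _ (J.cent_ω (key a ha))
  have h1 : h * ω = ω * h := M.inj (by rw [map_mul, map_mul, e, key a ha])
  have h2 : ∀ k, k * ω = ω * k → h * k = k * h := fun k hk => M.inj (by
    have := conj_mem_of_mem_norm (norm_le_norm_cent _ (inv_mem ha)) (x := ι k) (by
      rw [cent_zpowers]; exact mem_cent1.2 (by rw [← map_mul, hk, map_mul]))
    rw [cent_zpowers, mem_cent1] at this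
    rw [map_mul, map_mul, e, ← mul_right_inj a⁻¹, ← mul_left_inj a⁻¹⁻¹]
    convert (J.cent_ω this).symm using 1 <;> group)
  have h3 : z * ω * (z * ω) * (z * ω) = z := by
    rw [← pow_three', (show Commute z ω from (M.zc ω).symm).mul_pow, M.ω3, mul_one, pow_succ, pow_two, M.zz, one_mul]
  have o2 : ∀ u : H, u * u = 1 → u ≠ 1 → orderOf u = 2 := fun u a b => orderOf_eq_prime (by rw [pow_two, a]) b
  have h4 : h = z := invol_unique (o2 h (M.inj (by rw [map_mul, e, conj_mul, ← map_mul, M.zz]; simp)) fun e' => M.ne (M.inj (by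
    rwa [e', map_one, eq_comm, conj_eq_one_iff, ← map_one ι] at e))) (o2 z M.zz M.ne) (M.cent_K h1 h2)
    (h3.subst (motive := (· ∈ zpowers (z * ω))) (mul_mem (mul_mem (mem_zpowers _) (mem_zpowers _)) (mem_zpowers _)))
  exact mul_inv_eq_iff_eq_mul.1 (by rw [← e, h4])

theorem perfect_K (h : ω ∈ ⁅C1[ω], C1[ω]⁆) : ⁅C1[ω], C1[ω]⁆ = C1[ω] := by
  have hy : y ∈ C1[ω] := mem_cent1.2 (M.conj_ω J.vc.y_mem ((ou_eq_zero (M.mem y)).1 (by rw [J.vc.Λy]; decide +kernel)))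
  have h1 : ∀ c < 2048, c &&& 63 = 0 → T (lin mY c ^^^ c) ∈ ⁅C1[ω], C1[ω]⁆ := fun c hc e => by
    have := commutator_mem_commutator hy (mem_cent1.2 (J.T_comm hc e))
    rwa [commutatorElement_def, (J.vc.actY c hc).1, inv_eq_of_mul_eq_one_right (J.vc.co.sq c), ← J.vc.co.mul] at this
  have h2 : z ∈ ⁅C1[ω], C1[ω]⁆ := by
    have a1 := h1 768 (by norm_num) rfl
    have a2 := conj_mem_of_mem_norm (norm_le_norm_commutator_self _ (cent_zpowers ω ▸ norm_le_norm_cent _ J.vc.g_mem))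
      (h1 704 (by norm_num) rfl)
    rw [(J.vc.actG _ (by decide +kernel)).1] at a2
    have a3 := mul_mem a1 a2
    rwa [← J.vc.co.mul, show lin mY 768 ^^^ 768 ^^^ lin (lget lG 0 6) (lin mY 704 ^^^ 704) = 1024 by decide +kernel,
      J.vc.Tz] at a3
  refine le_antisymm (commutator_le_of_le_norm_left le_normalizer) fun k hk => ?_
  have h3 : C1[ω].map ((MonoidHom.snd _ _).comp Λ) = H22 := le_antisymm
    (by rintro _ ⟨h, hh, rfl⟩; exact M.snd_mem22 (mem_cent1.1 hh)) fun p hp => by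
      obtain ⟨l, a, b⟩ := M.lift22 hp
      exact ⟨l, mem_cent1.2 a, b⟩
  obtain ⟨l, a, b⟩ : (Λ k).2 ∈ ⁅C1[ω], C1[ω]⁆.map ((MonoidHom.snd _ _).comp Λ) := by
    rw [map_commutator, h3, H22_perfect]; exact M.snd_mem22 (mem_cent1.1 hk)
  have h4 := M.mem_zpowers_zω (h := l⁻¹ * k) (M.norm_of_comm (mem_cent1.1 (mul_mem (inv_mem
    (commutator_le_of_le_norm_left le_normalizer a)) hk))) (by
      rw [map_mul, map_inv, Prod.snd_mul, Prod.snd_inv, ← b]; simp)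
  simpa using mul_mem a (zpowers_le.2 (mul_mem h2 h) h4)

end JD

end Cfsg.Agent.J4
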