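import Cfsg.Agent.J4.CO
import Cfsg.Agent.J4.HC

/-!
# Coordinates on the subgroup `2¹¹`
-/

set_option autoImplicit false

namespace Cfsg.Agent.J4

open Cfsg.Agent.M24 Cfsg.Agent.TT Cfsg.Agent.GT Subgroup

/-- Matrices of six elements of the extraspecial group. -/
def lE : List ℕ := [nat_lit 0x80040062252e09c04c020010008004002401, nat_lit 0x8004006115190b8048020010008004402001, nat_lit
  0x800400618101499469020010008404002001, nat_lit 0x8004006341034b7457020010408004002001, nat_lit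
  0x80040020e10208f048020410008004002001, nat_lit 0x80040020910108a044420010008004002001]
/-- Matrix of `ω`. -/
def mW : ℕ := nat_lit 0x80040020010008004003002000c008003002
/-- Matrix of the element of order five. -/
def mY : ℕ := nat_lit 0x8004003c020010008002701e00f00a00e009
/-- Candidate matrices of the outer involution. -/
def lG : List ℕ := [nat_lit 0x8004002003402c004000100203601b010020, nat_lit 0x8004002003402c044000100203601b010020, nat_lit
  0x8004002003406c004000100203601b010020, nat_lit 0x8004002003406c044000100203601b010020, nat_lit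
  0x8004002007402c004000100203601b010020, nat_lit 0x8004002007402c044000100203601b010020, nat_lit
  0x8004002007406c004000100203601b010020, nat_lit 0x8004002007406c044000100203601b010020, nat_lit
  0x8004006003402c004000100203601b010020, nat_lit 0x8004006003402c044000100203601b010020, nat_lit
  0x8004006003406c004000100203601b010020, nat_lit 0x8004006003406c044000100203601b010020, nat_lit
  0x8004006007402c004000100203601b010020, nat_lit 0x8004006007402c044000100203601b010020, nat_lit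
  0x8004006007406c004000100203601b010020, nat_lit 0x8004006007406c044000100203601b010020]

/-- Coordinates on `V` and the matrices of generators of its normaliser in `H`. -/
structure VC {H : Type*} [Group H] {z ω : H} {s : ℕ → H} {Λ : H →* R} (M : HM z ω s Λ) (y g : H)
    (T : ℕ → H) (f : ℕ) : Prop where
  co : Co M.VH 11 T
  y_mem : y ∈ N[zpowers ω]
  Λy : rc (Λ y) = kY
  y5 : y ^ 5 = 1
  g_mem : g ∈ N[zpowers ω]
  Λg : rc (Λ g) = kG
  Ts : ∀ u < 64, T u = s u
  Tz : T 1024 = z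
  cbT : ∀ c < 2048, M.cb (T c) = c &&& 63
  ΛT : ∀ c < 2048, rc (Λ (T c)) = lget lW 0 ((c >>> 6) &&& 15)
  actE : ∀ i < 6, Act 11 T (s (2 ^ (6 + i))) (lget lE 0 i)
  actW : Act 11 T ω mW
  actY : Act 11 T y mY
  actG : Act 11 T g (lget lG 0 f)
  hf : f = 0 ∨ f = 6

theorem be_lt64 {u v : ℕ} (hu : u < 64) (hv : v < 64) : be u v = 0 :=
  Bf_lt64 (by rw [← rc_rW2]; exact NV_lin (mul_mem (mem_gen_of_mem (by rw [gens_chN, rc_rW]; simp))
    (mem_gen_of_mem (by rw [gens_chN, rc_rW]; simp))) u hu) hv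

theorem lW_mul : ∀ a < 16, ∀ b < 16, rmul (lget lW 0 a) (lget lW 0 b) = lget lW 0 (a ^^^ b) := by decide +kernel

namespace HM

variable {H : Type*} [Group H] {z ω : H} {s : ℕ → H} {Λ : H →* R} (M : HM z ω s Λ)
include M

theorem act_of {T : ℕ → H} (C : Co M.VH 11 T) (Ts : ∀ u < 64, T u = s u) (Tz : T 1024 = z) {h : H} {r b k : ℕ}
    (hr : rc (Λ h) = r) (hb : M.cb h = b)
    (h1 : ∀ i < 6, fld r i < 64 ∧ fld k i = fld r i ^^^ 1024 * Bf b (fld r i)) (h2 : fld k 10 = 1024)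
    (h3 : ∀ i < 4, h * T (2 ^ (6 + i)) * h⁻¹ = T (fld k (6 + i)) ∧ fld k (6 + i) < 2048) : Act 11 T h k := by
  refine C.act_of_basis fun i hi => ?_
  by_cases a : i < 6
  · have := Bf_le b (fld r i)
    rw [Ts _ (Nat.pow_lt_pow_right (a := 2) (n := 6) (by norm_num) a), M.conj_s h (pow_lt12 (by omega)),
      Qf_lt64 _ (Nat.pow_lt_pow_right (a := 2) (n := 6) (by norm_num) a), hr, hb, lin_pow _ (by omega), (h1 i a).2,
      C.mul, Ts _ (h1 i a).1, mul_zero, Nat.zero_xor]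
    refine ⟨?_, Nat.xor_lt_two_pow (by have := (h1 i a).1; omega) (by omega)⟩
    interval_cases Bf b (fld r i) <;> simp [C.zero, Tz]
  by_cases a' : i < 10
  · obtain ⟨j, rfl⟩ : ∃ j, i = 6 + j := ⟨i - 6, by omega⟩
    exact h3 j (by omega)
  · obtain rfl : i = 10 := by omega
    rw [h2]; exact ⟨by rw [show 2 ^ 10 = 1024 from rfl, Tz, M.zc, mul_inv_cancel_right], by norm_num⟩

theorem exists_yw : ∃ y ∈ N[zpowers ω], rc (Λ y) = kY ∧ y ^ 5 = 1 ∧ ∃ w : ℕ → H, (∀ i, w i ∈ N[zpowers ω]) ∧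
    (∀ i < 4, rc (Λ (w i)) = lget lW 0 (2 ^ i)) ∧ (∀ i, y * w i * y⁻¹ = w (i + 1)) ∧
      w 0 * w 1 * w 2 * w 3 * w 4 = 1 := by
  obtain ⟨y, hy, e1, e2⟩ : ∃ y ∈ N[zpowers ω], rc (Λ y) = kY ∧ y ^ 5 = 1 := by
    obtain ⟨y, hy, e⟩ := M.lift _ (mem_Lm_of (k := kY) (by simp [gL]))
    have e1 : rc (Λ y) = kY := by rw [e, rc_relt (by decide +kernel)]
    rcases M.ker_norm (pow_mem hy 5) (gcR.inj (by
      rw [map_pow, ← gcR.cpow_code, e1, gcR.code_one]; decide +kernel)) with h | h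
    · exact ⟨y, hy, e1, h⟩
    · exact ⟨y * z, mul_mem hy M.z_mem, by rw [map_mul, M.Λz, mul_one, e1], by
        rw [Commute.mul_pow (M.zc y), h, pow_succ', ← mul_assoc, M.zz, one_mul, pow_mul z 2 2, pow_two z, M.zz, one_pow]⟩
  refine ⟨y, hy, e1, e2, ?_⟩
  have key : ∀ l ∈ N[zpowers ω], Λ l = w0 → ∃ w : ℕ → H, (∀ i, w i = y ^ i * l * (y ^ i)⁻¹) ∧
      (∀ i, w i ∈ N[zpowers ω]) ∧ (∀ i < 5, rc (Λ (w i)) = lget lW 0 (if i = 4 then 15 else 2 ^ i)) ∧
      ∀ i, y * w i * y⁻¹ = w (i + 1) := fun l hl e =>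
    ⟨_, fun _ => rfl, fun i => mul_mem (mul_mem (pow_mem hy i) hl) (inv_mem (pow_mem hy i)), fun i hi => by
      rw [map_mul, map_mul, map_inv, ← gcR.cjap_code, map_pow, ← gcR.cpow_code, e1, e, rc_w0]
      revert i; decide +kernel, fun i => by rw [pow_succ']; group⟩
  obtain ⟨l, hl, e⟩ := M.lift w0 (Wb_le w0_mem)
  obtain ⟨w, a1, a2, a3, a4⟩ := key l hl e
  have a5 : ∀ i < 4, (if i = 4 then 15 else 2 ^ i) = 2 ^ i := fun i hi => if_neg (by omega)
  rcases M.ker_norm (l := w 0 * w 1 * w 2 * w 3 * w 4) (mul_mem (mul_mem (mul_mem (mul_mem (a2 _) (a2 _)) (a2 _)) (a2 _))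
    (a2 _)) (gcR.inj (by
      simp only [map_mul, gcR.code_mul, a3 0 (by omega), a3 1 (by omega), a3 2 (by omega), a3 3 (by omega),
        a3 4 (by omega), gcR.code_one]
      decide +kernel)) with h | h
  · exact ⟨w, a2, fun i hi => by rw [a3 i (by omega), a5 i hi], a4, h⟩
  · obtain ⟨w', b1, b2, b3, b4⟩ := key (l * z) (mul_mem hl M.z_mem) (by rw [map_mul, M.Λz, mul_one, e])
    refine ⟨w', b2, fun i hi => by rw [b3 i (by omega), a5 i hi], b4, ?_⟩
    have b5 : ∀ i, w' i = w i * z := fun i => by rw [a1, b1, ← mul_assoc, mul_assoc _ z, ← M.zc, ← mul_assoc]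
    have b6 : ∀ a b : H, a * z * (b * z) = a * b := fun a b => by
      rw [mul_assoc, ← mul_assoc z, ← M.zc, mul_assoc, M.zz, mul_one]
    rw [b5, b5, b5, b5, b5, b6, mul_assoc (w 0 * w 1), b6, ← mul_assoc, ← mul_assoc, h, M.zz]

theorem exists_vc [Finite H] : ∃ y g T f, VC M y g T f := by
  obtain ⟨y, hy, e1, e2, w, a1, a2, a3, a4⟩ := M.exists_yw
  let bs : ℕ → H := fun i => if i < 6 then s (2 ^ i) else if i < 10 then w (i - 6) else z
  have hw : ∀ i < 4, w i ∈ M.VH := fun i hi => M.norm_mem_EA prV (a1 i) (mem_Wb.2 (by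
    rw [a2 i hi]; revert i; decide +kernel))
  have hb : ∀ i < 11, bs i ∈ M.VH := fun i hi => by
    simp only [bs]
    split_ifs with a b
    · exact M.s_mem_EA prV (Finset.mem_range.2 (Nat.pow_lt_pow_right (a := 2) (n := 6) (by norm_num) a))
    · exact hw _ (by omega)
    · exact M.z_mem_EA _
  obtain ⟨T, hT⟩ : ∃ T, T = vc bs 11 := ⟨_, rfl⟩
  have Tm : ∀ a b, T (a ^^^ b) = T a * T b := hT ▸ vc_xor (fun _ h => M.EA_sq _ h) hb
  have TV : ∀ a, T a ∈ M.VH := hT ▸ vc_mem hb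
  have T0 : T 0 = 1 := hT ▸ vc_zero 11
  have Tp : ∀ i < 11, T (2 ^ i) = bs i := fun i hi => by rw [hT, vc_pow, if_pos hi]
  have Tw : ∀ i < 4, T (2 ^ (6 + i)) = w i := fun i hi => by
    rw [Tp _ (by omega)]; simp only [bs]; rw [if_neg (by omega), if_pos (by omega), Nat.add_sub_cancel_left]
  have Tz : T 1024 = z := Tp 10 (by norm_num)
  have Ts : ∀ u < 64, T u = s u := bits_induction (n := 6) (by rw [T0, M.s0])
    (fun i hi => by rw [Tp i (by omega)]; exact if_pos hi) fun a ha b hb h1 h2 => by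
      rw [Tm, h1, h2, M.s_mul a (by omega) b (by omega), be_lt64 ha hb, pow_zero, mul_one]
  have crd : ∀ c < 2048, M.cb (T c) = c &&& 63 ∧ rc (Λ (T c)) = lget lW 0 ((c >>> 6) &&& 15) := by
    refine bits_induction (n := 11) (by rw [T0, M.cb_one, map_one, gcR.code_one]; decide +kernel) (fun i hi => ?_)
      fun a _ b _ h1 h2 => ?_
    · by_cases a : i < 6
      · rw [Tp i hi]; simp only [bs, a, if_true]
        rw [M.cb_s (pow_lt12 (by omega)), M.Λs (pow_lt12 (by omega)), gcR.code_one]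
        clear hi; revert i; decide +kernel
      by_cases a' : i < 10
      · obtain ⟨j, rfl⟩ : ∃ j, i = 6 + j := ⟨i - 6, by omega⟩
        have hj : j < 4 := by omega
        rw [Tw j hj, M.cb_norm (a1 j), a2 j hj]
        clear hi a a'; revert j; decide +kernel
      · obtain rfl : i = 10 := by omega
        rw [show 2 ^ 10 = 1024 from rfl, Tz, M.cb_norm M.z_mem, M.Λz, gcR.code_one]; decide +kernel
    · rw [Tm, M.cb_mul, map_mul, gcR.code_mul, (Wb_facts (TV a).1).2.2.1 _ (M.mem_VH.1 (TV b)).2, h1.1, h1.2, h2.1, h2.2,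
        lW_mul _ (Nat.and_lt_two_pow (n := 4) _ (by norm_num)) _ (Nat.and_lt_two_pow (n := 4) _ (by norm_num)),
        Nat.shiftRight_xor_distrib, Nat.and_xor_distrib_right, Nat.and_xor_distrib_right]
      exact ⟨rfl, rfl⟩
  have C : Co M.VH 11 T := co_of_inj (by norm_num) Tm TV (fun c hc e => by
    obtain ⟨h1, h2⟩ := crd c hc
    rw [e, M.cb_one] at h1
    rw [e, map_one, gcR.code_one] at h2
    have h3 := ball_zero (show ball (fun c => bor (bor (Nat.beq c 0) (Nat.beq c 1024))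
      (bor (!Nat.beq 0 (c &&& 63)) (!Nat.beq rone (lget lW 0 ((c >>> 6) &&& 15))))) 11 0 = true by decide +kernel) c hc
    rw [← h1, ← h2] at h3
    simp only [Nat.beq_refl, Bool.not_true, bor_eq, Bool.or_false, Bool.or_eq_true, Nat.beq_eq] at h3
    exact h3.resolve_right fun h => M.ne (by rw [← Tz, ← h, e])) M.card_VH
  obtain ⟨hG, hG'⟩ := relt_mem (k := kG) (by decide +kernel)
  obtain ⟨g, hg, e3⟩ := M.lift _ hG
  rw [← e3] at hG'
  have aG : ∀ i < 4, ∃ e < 2, g * T (2 ^ (6 + i)) * g⁻¹ = T (64 * lget [1, 11, 13, 8] 0 i ^^^ 1024 * e) := fun i hi => by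
    have h1 : 64 * lget [1, 11, 13, 8] 0 i < 2048 := by revert i; decide +kernel
    rcases M.eq_of_crd (h := g * T (2 ^ (6 + i)) * g⁻¹) (k := T (64 * lget [1, 11, 13, 8] 0 i)) (by
      rw [(crd _ h1).1, Tw i hi, M.cb_norm (mul_mem (mul_mem hg (a1 i)) (inv_mem hg))]
      clear h1; revert i; decide +kernel) (gcR.inj (by
      rw [(crd _ h1).2, Tw i hi, map_mul, map_mul, map_inv, ← gcR.cjap_code, hG', a2 i hi]
      clear h1; revert i; decide +kernel)) with e | e
    · exact ⟨0, by norm_num, by simpa using e⟩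
    · exact ⟨1, by norm_num, by rw [e, Tm, mul_one, Tz]⟩
  choose! ε h1 h2 using aG
  have hf : ε 0 + 2 * ε 1 + 4 * ε 2 + 8 * ε 3 < 16 := by
    have := h1 0; have := h1 1; have := h1 2; have := h1 3; omega
  have actG : Act 11 T g (lget lG 0 (ε 0 + 2 * ε 1 + 4 * ε 2 + 8 * ε 3)) := by
    have h3 : ∀ f < 16, (∀ i < 6, fld kG i < 64 ∧ fld (lget lG 0 f) i = fld kG i ^^^ 1024 * Bf 0 (fld kG i)) ∧
      fld (lget lG 0 f) 10 = 1024 := by decide +kernel
    have h4 : ∀ a < 2, ∀ b < 2, ∀ c < 2, ∀ d < 2, ∀ i < 4, fld (lget lG 0 (a + 2 * b + 4 * c + 8 * d)) (6 + i) =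
      64 * lget [1, 11, 13, 8] 0 i ^^^ 1024 * lget [a, b, c, d] 0 i ∧ fld (lget lG 0 (a + 2 * b + 4 * c + 8 * d)) (6 + i) < 2048 := by
      decide +kernel
    refine M.act_of C Ts Tz hG' (M.cb_norm hg) (h3 _ hf).1 (h3 _ hf).2 fun i hi => ?_
    have h5 := h4 _ (h1 0 (by omega)) _ (h1 1 (by omega)) _ (h1 2 (by omega)) _ (h1 3 (by omega)) i hi
    refine ⟨?_, h5.2⟩
    rw [h5.1, h2 i hi]
    interval_cases i <;> rfl
  have actY : Act 11 T y mY := by
    refine M.act_of C Ts Tz e1 (M.cb_norm hy) (by decide +kernel) (by decide +kernel) fun i hi => ?_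
    rw [Tw i hi, a3]
    by_cases a : i < 3
    · rw [← Tw _ (by omega)]; clear hi; revert i
      exact fun i hi => ⟨congrArg T (by revert i; decide +kernel), by revert i; decide +kernel⟩
    · obtain rfl : i = 3 := by omega
      refine ⟨?_, by decide +kernel⟩
      rw [show fld mY (6 + 3) = 2 ^ (6 + 0) ^^^ 2 ^ (6 + 1) ^^^ 2 ^ (6 + 2) ^^^ 2 ^ (6 + 3) by decide +kernel,
        eq_inv_of_mul_eq_one_right (C.sq (_ ^^^ _)), Tm, Tm, Tm, Tw 0 (by omega), Tw 1 (by omega), Tw 2 (by omega), Tw 3 (by omega)]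
      exact eq_inv_of_mul_eq_one_right a4
  have triv : ∀ l ∈ N[zpowers ω], ∀ k, rc (Λ l) = rone → Act 11 T l k → nall 11 (fun i => fx k (2 ^ i)) = true :=
    fun l hl k e h => (nall_iff _ _).2 fun i hi => by
      have h1 := h _ (Nat.pow_lt_pow_right (a := 2) (by norm_num) hi)
      rw [fx, Nat.beq_eq]
      refine C.eq h1.2 (Nat.pow_lt_pow_right (a := 2) (by norm_num) hi) ?_
      rw [← h1.1]
      rcases M.ker_norm hl (gcR.inj (by rw [e, gcR.code_one])) with rfl | rfl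
      · simp
      · rw [← M.zc]; simp
  refine ⟨y, g, T, _, C, hy, e1, e2, hg, hG', Ts, Tz, fun c hc => (crd c hc).1, fun c hc => (crd c hc).2,
    fun i hi => ?_, ?_, actY, actG, ?_⟩
  · have b1 : 2 ^ (6 + i) < 4096 := pow_lt12 (by omega)
    refine M.act_of C Ts Tz (r := rone) (by rw [M.Λs b1, gcR.code_one]) (M.cb_s b1) (by clear b1; revert i; decide +kernel)
      (by clear b1; revert i; decide +kernel) fun j hj => ?_
    have b2 : ∀ i < 6, ∀ j < 4, ou (lget lW 0 (2 ^ j)) = 0 ∧ 2 ^ (6 + i) ^^^ lin (lget lW 0 (2 ^ j)) (2 ^ (6 + i)) < 64 ∧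
        fld (lget lE 0 i) (6 + j) = 2 ^ (6 + i) ^^^ lin (lget lW 0 (2 ^ j)) (2 ^ (6 + i)) ^^^
          1024 * be (2 ^ (6 + i)) (lin (lget lW 0 (2 ^ j)) (2 ^ (6 + i))) ^^^ 2 ^ (6 + j) ∧
        fld (lget lE 0 i) (6 + j) < 2048 ∧ Qf (2 ^ (6 + i)) = 0 := by decide +kernel
    obtain ⟨c1, c2, c3, c4, c5⟩ := b2 i hi j hj
    have c6 := M.conj _ (a1 j) _ b1
    rw [a2 j hj, c1, zero_mul, pow_zero, mul_one] at c6
    refine ⟨?_, c4⟩
    have c7 := be_le (2 ^ (6 + i)) (lin (lget lW 0 (2 ^ j)) (2 ^ (6 + i)))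
    rw [c3, Tm, Tm, Ts _ c2, Tw j hj, M.s_inv b1, c5, pow_zero, mul_one, mul_assoc, mul_inv_eq_iff_eq_mul.1 c6,
      ← mul_assoc, M.s_mul _ b1 _ (lin_lt _ _)]
    interval_cases be (2 ^ (6 + i)) (lin (lget lW 0 (2 ^ j)) (2 ^ (6 + i))) <;> simp [T0, Tz]
  · refine M.act_of C Ts Tz (r := kW) (by rw [M.Λω, rc_rW]) (M.cb_norm HM.ω_mem) (by decide +kernel) (by decide +kernel)
      fun i hi => ?_
    rw [show fld mW (6 + i) = 2 ^ (6 + i) by revert i; decide +kernel, Tw i hi,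
      ← M.conj_ω (a1 i) ((ou_eq_zero (M.mem _)).1 (Wb_facts (hw i hi).1).2.1)]
    exact ⟨by simp, Nat.pow_lt_pow_right (a := 2) (n := 11) (by norm_num) (by omega)⟩
  · have r1 := triv _ (mul_mem hg hg) _ (by rw [map_mul, gcR.code_mul, hG']; decide +kernel) (actG.mul actG)
    have r2 := triv _ (pow_mem (mul_mem hy (mul_mem hy (mul_mem hg (mul_mem hy hg)))) 4) _ (by
      simp only [map_pow, map_mul, ← gcR.cpow_code, gcR.code_mul, hG', e1]; decide +kernel)
      ((actY.mul (actY.mul (actG.mul (actY.mul actG)))).pow C 4)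
    have r3 := triv _ (pow_mem (mul_mem (pow_mem hy 4) (mul_mem hg (mul_mem hy hg))) 3) _ (by
      simp only [map_pow, map_mul, ← gcR.cpow_code, gcR.code_mul, hG', e1]; decide +kernel)
      (((actY.pow C 4).mul (actG.mul (actY.mul actG))).pow C 3)
    generalize ε 0 + 2 * ε 1 + 4 * ε 2 + 8 * ε 3 = f at hf r1 r2 r3
    revert f
    decide +kernel

end HM

end Cfsg.Agent.J4
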